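import Cfsg.Statements.S1615
import Cfsg.Agent.H3.FischerS5

set_option autoImplicit false
open Cfsg

namespace Cfsg.Agent.S1615

open H3 H3.TTC in
theorem aux {G : Type*} [Group G] [Finite G] {T : TTC G} (hT : T.Std) (x : T.Pt)
    (h : ¬ Cfsg.oddCore ↥(Subgroup.closure {y : G | y ∈ T.D ∧ y ≠ x.val ∧ Commute x.val y}) ≤
      Subgroup.center ↥(Subgroup.closure {y : G | y ∈ T.D ∧ y ≠ x.val ∧ Commute x.val y})) :
    T.NoTri := by
  set R := Subgroup.closure {y : G | y ∈ T.D ∧ y ≠ x.val ∧ Commute x.val y} with hR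
  have hmem : ∀ u : T.Pt, u ≠ x → cm x u → u.val ∈ R := fun u h1 h2 =>
    Subgroup.subset_closure ⟨u.mem, fun e => h1 (Pt.ext e), h2⟩
  have hRy : ∀ g ∈ R, g • x = x := fun g hg => by
    have : R ≤ MulAction.stabilizer G x := by
      rw [hR, Subgroup.closure_le]
      rintro w ⟨-, -, hw⟩
      exact commute_iff_smul_eq.1 hw.symm
    exact this hg
  have hRs : ∀ g ∈ R, ∀ u : T.Pt, u ≠ x ∧ cm x u → g • u ≠ x ∧ cm x (g • u) := fun g hg u hu =>
    ⟨fun e => hu.1 (MulAction.injective g (e.trans (hRy g hg).symm)), by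
      rw [← hRy g hg, cm_smul]; exact hu.2⟩
  unfold Cfsg.oddCore Cfsg.pPrimeCore at h
  rw [sSup_le_iff] at h
  push Not at h
  obtain ⟨N, ⟨hN, hNo⟩, hNZ⟩ := h
  obtain ⟨n, hn, hnZ⟩ := SetLike.not_le_iff_exists.1 hNZ
  obtain ⟨y, hy, hny⟩ : ∃ y : T.Pt, (y ≠ x ∧ cm x y) ∧ (n : G) • y ≠ y := by
    by_contra hc
    push Not at hc
    refine hnZ (Subgroup.mem_center_iff.2 fun k => Subtype.ext ?_)
    refine (commute_of_mem_closure (U := {(n : G)}) ?_ k.2 (Subgroup.subset_closure rfl)).eq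
    rintro w ⟨h1, h2, h3⟩ _ rfl
    exact (commute_iff_smul_eq.2 (hc ⟨w, h1⟩ ⟨fun e => h2 (congrArg Pt.val e), h3⟩)).symm
  have hodd : ∀ m ∈ N, cm y ((m : G) • y) → (m : G) • y = y := fun m hm hc => by
    set y0 : R := ⟨y.val, hmem y hy.1 hy.2⟩
    have h1 : m * (y0 * m⁻¹ * y0⁻¹) ∈ N := mul_mem hm (hN.conj_mem _ (inv_mem hm) y0)
    have h2 : ((m * (y0 * m⁻¹ * y0⁻¹) : R) : G) = ((m : G) • y).val * y.val := by
      change (m : G) * (y.val * (m : G)⁻¹ * y.val⁻¹) = _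
      rw [y.inv_val, smul_val]; group
    have h3 : Odd (orderOf (((m : G) • y).val * y.val)) := by
      rw [← h2, Subgroup.orderOf_coe]
      have := Subgroup.orderOf_dvd_natCard N h1
      exact (Nat.coprime_two_right.1 hNo).of_dvd_nat this
    have h4 := eq_one_of_odd_of_mul_self (by
      rw [mul_assoc, ← mul_assoc y.val, (show Commute y.val ((m : G) • y).val from hc).eq,
        mul_assoc, y.mul_self, mul_one, Pt.mul_self]) h3
    exact Pt.ext (by rw [eq_inv_of_mul_eq_one_left h4, y.inv_val])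
  have ha := hRs n n.2 y hy
  have hya : ¬ cm y ((n : G) • y) := fun e => hny (hodd n hn e)
  refine hT.noTri_of_W (x := x) (y := y) (a := (n : G) • y) ⟨hy.1.symm, hy.2.symm⟩ hya ?_
  intro w hxw hyw hwy
  by_cases hwx : w = x
  · rw [hwx]; exact ha.2.symm
  by_contra haw
  set a := (n : G) • y with hadef
  set w0 : R := ⟨w.val, hmem w hwx hxw⟩
  set a0 : R := ⟨a.val, hmem a ha.1 ha.2⟩
  have hm : a0 * (w0 * n * w0⁻¹) * a0⁻¹ * (a0 * n⁻¹ * a0⁻¹) * n ∈ N :=
    mul_mem (mul_mem (hN.conj_mem _ (hN.conj_mem _ hn _) _) (hN.conj_mem _ (inv_mem hn) _)) hn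
  have e : ((a0 * (w0 * n * w0⁻¹) * a0⁻¹ * (a0 * n⁻¹ * a0⁻¹) * n : R) : G) • y = w := by
    change (a.val * (w.val * n * w.val⁻¹) * a.val⁻¹ * (a.val * (n : G)⁻¹ * a.val⁻¹) * n) • y = w
    simp only [mul_smul, inv_smul_smul, ← hadef, Pt.inv_val, ← rf_def, rf_self, rf_rf]
    rw [show (n : G)⁻¹ • a = y by rw [hadef, inv_smul_smul], hyw.rf_eq', ← hadef,
      rf_rf_swap (ncm_symm haw)]
  have := hodd _ hm (by rw [e]; exact hyw)
  exact hwy (e.symm.trans this)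

/-- If O(⟨D_x⟩) is not central in ⟨D_x⟩ for some transposition x, the 3-transposition group is the symmetric group of degree 5. -/
theorem result {G : Type*} [Group G] [Finite G] (hsol : ∀ N : Subgroup G, N.Normal → Group.IsSolvable ↥N → N = ⊥) (hperf : ⁅commutator G, commutator G⁆ = commutator G) {D : Set G} (hD : Cfsg.IsThreeTranspositionClass D) (x : G) (hx : x ∈ D) (h : ¬ Cfsg.oddCore ↥(Subgroup.closure {y : G | y ∈ D ∧ y ≠ x ∧ Commute x y}) ≤ Subgroup.center ↥(Subgroup.closure {y : G | y ∈ D ∧ y ≠ x ∧ Commute x y})) : Nonempty (G ≃* Equiv.Perm (Fin 5)) := by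
  have hT : (H3.TTC.ofClass hD).Std := H3.TTC.std_of_no_solvable ⟨x, hx⟩ hsol hperf
  exact hT.equiv_perm_five (aux hT ⟨x, hx⟩ h) (hsol _ inferInstance
    (H3.isSolvable_of_forall_commute fun a ha b _ => (Subgroup.mem_center_iff.1 ha b).symm))

end Cfsg.Agent.S1615
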