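import Cfsg.Statements.S0440
import Cfsg.Agent.H3.Transv
import Cfsg.Agent.H6.PSpAut

set_option autoImplicit false
open Cfsg

namespace Cfsg.Agent.S0440

/-- In the symplectic group in dimension 2n ≥ 2 over the field with two elements, the elements g for which g - 1 has rank one (the symplectic transvections) form a conjugacy class of 3-transpositions generating the group. -/
theorem result (n : ℕ) (hn : 1 ≤ n) : Cfsg.IsThreeTranspositionClass {g : Matrix.symplecticGroup (Fin n) (ZMod 2) | ((g : Matrix (Fin n ⊕ Fin n) (Fin n ⊕ Fin n) (ZMod 2)) - 1).rank = 1} := by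
  open Cfsg.Agent.H6 Matrix in
  have U := spLike (F := ZMod 2) (m := n)
  have h01 : ∀ x : ZMod 2, x ≠ 0 → x = 1 := by decide
  have hρ : ∀ t : Matrix.symplecticGroup (Fin n) (ZMod 2), t.1 = jRho (spJ (ZMod 2) n) t :=
    fun _ => rfl
  simp only [hρ]
  refine H3.tt_class_of_isT U.toIsom U.inj rfl (fun u v h => ?_) (fun u v => ?_)
    (fun a ha ha' => ?_) (fun a b ha hb _ _ => ?_) ⟨Pi.single (Sum.inl ⟨0, hn⟩) 1, by simp, U.alt _⟩
    (fun t => ⟨fun ht => ?_, fun ⟨a, ha⟩ => ha.rank U.det⟩)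
    (H3.closure_eq_top_of_tvSub U.toIsom U.inj U.tvSub_eq_top)
  · rw [h01 _ h, h01 _ (U.toIsom.refl_ne h), one_mul]
  · exact U.symm2 u v
  · obtain ⟨t, ht⟩ := U.exists_tv' a
    exact ⟨t, ha, ha', ht⟩
  · obtain ⟨c, h1, h2⟩ := exists_two_ne (τ := RingEquiv.refl (ZMod 2)) U.det ha hb
    exact ⟨c, U.alt c, h1, h2⟩
  · obtain ⟨a, f, ha, hf, e⟩ := H3.exists_tv_of_rank ht
    have hd : f ⬝ᵥ a = 0 := by
      have h1 : (tv a f).det ≠ 0 := by
        rw [← e, ← hρ]; exact (SymplecticGroup.symplectic_det t.2).ne_zero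
      rw [H3.det_tv'] at h1
      simpa using h01 _ h1
    obtain ⟨c, hc, e'⟩ := U.toIsom.par_pf (t := t) ⟨ha, hf, hd, e⟩
    rw [h01 c hc, one_smul] at e'
    refine ⟨a, ha, U.alt a, fun v => ?_⟩
    rw [e, tv_mulVec, ← e', pf_dot]

end Cfsg.Agent.S0440
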