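import Cfsg.Statements.S1631
import Cfsg.Agent.H3.Transv

set_option autoImplicit false
open scoped MatrixGroups
open Cfsg

namespace Cfsg.Agent.S1631

/-- The unitary transvections of SU(n, 2), n ≥ 4, form a generating conjugacy class of 3-transpositions. -/
theorem result (F : Type) [Field F] [Fintype F] [DecidableEq F] (hF : Fintype.card F = 4) (n : ℕ) (hn : 4 ≤ n) : Cfsg.IsThreeTranspositionClass {g : ↥(Cfsg.SU n F 2) | (((g : Matrix.SpecialLinearGroup (Fin n) F) : Matrix (Fin n) (Fin n) F) - 1).rank = 1} := by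
  open Cfsg.Agent.H6 Matrix in
  obtain ⟨τ, hσ, hτ⟩ := exists_conj_aut (F := F) (q := 2) hF
  have U := suLike (n := n) hσ hτ
  have h3 : ∀ x : F, x ≠ 0 → x * τ x = 1 := fun x hx => by
    have := FiniteField.pow_card_sub_one_eq_one x hx
    rw [hF] at this
    rw [hτ, ← this]; ring
  have h2 : (2 : F) = 0 := by
    have := FiniteField.cast_card_eq_zero F
    rw [hF] at this
    have h : (2 : F) ^ 2 = 0 := by rw [← this]; norm_num
    exact pow_eq_zero_iff two_ne_zero |>.1 h
  obtain ⟨ω, hω⟩ : ∃ ω : F, ω ^ 2 + ω + 1 = 0 := by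
    obtain ⟨x, hx⟩ := exists_ne_of_orderOf_two hσ
    have hx0 : x ≠ 0 := by rintro rfl; simp at hx
    have hx1 : x - 1 ≠ 0 := fun e => by rw [sub_eq_zero.1 e] at hx; simp at hx
    refine ⟨x, mul_left_cancel₀ hx1 ?_⟩
    have := h3 x hx0
    rw [hτ] at this
    linear_combination this
  have hcard : Fintype.card (Fin n) = n := Fintype.card_fin n
  have hgen : tvSub (jRho (suJ F n 2)) = ⊤ := by
    have U' : GUlike τ (jRho (Cfsg.GU n F 2).subtype) :=
      ⟨hσ, Units.val_injective.comp Subtype.val_injective, fun g => hf_of_mem_GU hτ g.2,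
        fun M hM => by
          have hd : M.det ≠ 0 := fun h0 => by
            obtain ⟨v, hv, e⟩ := Matrix.exists_mulVec_eq_zero_iff.2 h0
            obtain ⟨w, hw⟩ := exists_hf_one (τ := τ) hv
            rw [← hM, e, hf_zero_right] at hw
            exact zero_ne_one hw
          exact ⟨⟨GeneralLinearGroup.mkOfDetNeZero M hd, fun u v => by
            rw [hermForm_eq_hf hτ, hermForm_eq_hf hτ]; exact hM u v⟩, rfl⟩⟩
    let j : Cfsg.SU n F 2 →* Cfsg.GU n F 2 := (suJ F n 2).codRestrict _ suJ_mem_GU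
    have hle := uSub_le_map U U' j (fun _ => rfl)
    have hle2 : uSub τ (jRho (suJ F n 2)) ≤ tvSub (jRho (suJ F n 2)) :=
      iSup_le fun a => H3.flagQ_le_tvSub U (by omega) h2 h3 hω a.2.1 a.2.2
    rw [eq_top_iff]
    intro g _
    have hv : hf τ (Pi.single (⟨0, by omega⟩ : Fin n) 1) (Pi.single (⟨0, by omega⟩ : Fin n) 1) = 1 :=
      (onb_std (τ := τ)).self _
    haveI := uSub_normal U'.toSU'.toIsom
    obtain ⟨u, hu, r, ⟨c, hc, hr⟩, e⟩ :=
      Subgroup.mem_sup_of_normal_left.1 (U'.sup_eq_top (by omega) hv (j g))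
    obtain ⟨s, hs, rfl⟩ := hle hu
    have h1 : r = j (s⁻¹ * g) := by rw [map_mul, ← e, map_inv, inv_mul_cancel_left]
    have h4 : (jRho (Cfsg.GU n F 2).subtype r).det = 1 := by
      rw [h1]; exact (s⁻¹ * g).1.2
    rw [hr, urf, H3.det_tv', smul_dotProduct, pf_dot_hf, hv] at h4
    have h5 : c - 1 = 0 := by simpa [sub_eq_zero] using h4
    rw [h5, urf_zero] at hr
    have h6 : s⁻¹ * g = 1 := U.inj (by rw [map_one, ← hr, h1]; rfl)
    rw [← eq_of_inv_mul_eq_one h6]
    exact hle2 hs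
  have hρ : ∀ t : Cfsg.SU n F 2, t.1.1 = jRho (suJ F n 2) t := fun _ => rfl
  simp only [hρ]
  refine H3.tt_class_of_isT U.toIsom U.inj h2 (fun u v h => ?_) (hf_conj hσ)
    (fun a ha ha' => ?_) (fun a b ha hb ha' hab => ?_) (exists_iso hσ (by omega))
    (fun t => ⟨fun ht => ?_, fun ⟨a, ha⟩ => ha.rank U.toIsom.det⟩)
    (H3.closure_eq_top_of_tvSub U.toIsom U.inj hgen)
  · have := h3 _ h
    rwa [← hf_def, hf_conj hσ] at this
  · obtain ⟨t, ht⟩ := U.exists_tv (a := a) ha' (k := 1) (by rw [map_one]; linear_combination h2)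
    exact ⟨t, ha, ha', fun v => by rw [ht, tv_mulVec, one_smul, pf_dot]⟩
  · obtain ⟨x, h1, h4⟩ := exists_two_ne (τ := τ) U.toIsom.det ha hb
    obtain ⟨l, hl⟩ := exists_iso_add hσ (a := a) (v := x) ha' h1
    exact ⟨_, hl, by rwa [sf_add_left, sf_smul_left, ha', mul_zero, add_zero],
      by rwa [sf_add_left, sf_smul_left, hab, mul_zero, add_zero]⟩
  · obtain ⟨a, f, ha, hf0, e⟩ := H3.exists_tv_of_rank ht
    have hd : f ⬝ᵥ a = 0 := by
      have h1 : (tv a f).det = 1 := by rw [← e, ← hρ]; exact t.1.2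
      rw [H3.det_tv'] at h1
      simpa using h1
    obtain ⟨c, hc, e'⟩ := (U.toIsom.par_pf (t := t) ⟨ha, hf0, hd, e⟩).symm
    have e1 : ∀ v, jRho (suJ F n 2) t *ᵥ v = v + (c * hf τ v a) • a := fun v => by
      rw [e, tv_mulVec, e', smul_dotProduct, pf_dot_hf, smul_eq_mul]
    have haa : hf τ a a = 0 := by
      rw [e', smul_dotProduct, pf_dot_hf, smul_eq_mul] at hd
      exact (mul_eq_zero.1 hd).resolve_left hc
    obtain ⟨v, hv⟩ := exists_hf_one (τ := τ) ha
    have hv' : hf τ a v = 1 := by rw [← hf_conj hσ, hv, map_one]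
    have h1 := U.isom t v v
    simp only [e1, hf_add_left, hf_add_right, hf_smul_left, hf_smul_right, hv, hv', haa, mul_one,
      hτ] at h1
    have hc1 : c = 1 := by
      apply mul_left_cancel₀ hc
      linear_combination h1 - c * h2
    exact ⟨a, ha, haa, fun v => by rw [e1, hc1, one_mul, hf_def]⟩

end Cfsg.Agent.S1631
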