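import Cfsg.Statements.S0439
import Cfsg.Agent.H3.ThreeTrans

set_option autoImplicit false
open Cfsg

namespace Cfsg.Agent.S0439

/-- In the symmetric group of degree n ≥ 2, the set of transpositions is a conjugacy class of 3-transpositions which generates the group. -/
theorem result (n : ℕ) (hn : 2 ≤ n) : Cfsg.IsThreeTranspositionClass {σ : Equiv.Perm (Fin n) | σ.IsSwap} := by
  have h01 : (⟨0, by omega⟩ : Fin n) ≠ ⟨1, by omega⟩ := by simp
  refine ⟨⟨fun d hd => hd.orderOf, ?_⟩, ⟨Equiv.swap _ _, ⟨_, _, h01, rfl⟩, ?_⟩,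
    Equiv.Perm.closure_isSwap⟩
  · rintro _ ⟨a, b, hab, rfl⟩ _ ⟨c, d, hcd, rfl⟩
    have cube : ∀ x y z : Fin n, x ≠ y → x ≠ z → y ≠ z →
        (Equiv.swap x y * Equiv.swap x z) ^ 3 = 1 := by
      intro x y z h1 h2 h3
      have := (Equiv.Perm.isThreeCycle_swap_mul_swap_same h1 h2 h3).orderOf
      rw [← this, pow_orderOf_eq_one]
    have sq : ∀ x y : Fin n, (Equiv.swap x y * Equiv.swap x y) ^ 2 = 1 := by
      intro x y; simp
    by_cases hac : a = c
    · subst hac
      by_cases hbd : b = d
      · subst hbd; exact Or.inl (sq _ _)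
      · exact Or.inr (cube _ _ _ hab hcd hbd)
    by_cases had : a = d
    · subst had
      rw [Equiv.swap_comm c a]
      by_cases hbc : b = c
      · subst hbc; exact Or.inl (sq _ _)
      · exact Or.inr (cube _ _ _ hab hac hbc)
    by_cases hbc : b = c
    · subst hbc
      rw [Equiv.swap_comm a b]
      exact Or.inr (cube _ _ _ hab.symm hcd had)
    by_cases hbd : b = d
    · subst hbd
      rw [Equiv.swap_comm a b, Equiv.swap_comm c b]
      exact Or.inr (cube _ _ _ hab.symm hbc hac)
    left
    have : Commute (Equiv.swap a b) (Equiv.swap c d) := by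
      apply Equiv.Perm.Disjoint.commute
      apply Equiv.Perm.disjoint_swap_swap
      simp [*]
    rw [this.mul_pow]
    simp [pow_two]
  · ext σ
    constructor
    · rintro ⟨a, b, hab, rfl⟩
      exact Equiv.Perm.isConj_swap h01 hab
    · intro h
      obtain ⟨g, rfl⟩ := isConj_iff.1 h
      refine ⟨_, _, g.injective.ne h01, ?_⟩
      rw [Equiv.swap_apply_apply]

end Cfsg.Agent.S0439
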