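import Cfsg.Statements.S0213
import Cfsg.Agent.H3.BrauerFowler

set_option autoImplicit false
open Cfsg

namespace Cfsg.Agent.S0213

/-- Thompson Order Formula, two-class case: if every involution of the finite group G is conjugate to exactly one of the non-conjugate involutions x₁, x₂, and nᵢ is the number of pairs (u, v) with u conjugate to x₁, v conjugate to x₂ and xᵢ in the cyclic group generated by uv, then |G| = |C(x₂)| n₁ + |C(x₁)| n₂. -/
theorem result {G : Type*} [Group G] [Finite G] (x₁ x₂ : G) (h₁ : orderOf x₁ = 2) (h₂ : orderOf x₂ = 2) (hnc : ¬ IsConj x₁ x₂) (hall : ∀ t : G, orderOf t = 2 → IsConj x₁ t ∨ IsConj x₂ t) : Nat.card G = Nat.card (Subgroup.centralizer ({x₂} : Set G)) * Nat.card {p : G × G // IsConj x₁ p.1 ∧ IsConj x₂ p.2 ∧ x₁ ∈ Subgroup.zpowers (p.1 * p.2)} + Nat.card (Subgroup.centralizer ({x₁} : Set G)) * Nat.card {p : G × G // IsConj x₁ p.1 ∧ IsConj x₂ p.2 ∧ x₂ ∈ Subgroup.zpowers (p.1 * p.2)} := by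
  classical
  have hne : x₁ ≠ x₂ := fun h => hnc (h ▸ IsConj.refl x₁)
  have h := H3.thompson_order_formula x₁ x₂ h₁ h₂ hnc {x₁, x₂} (by simp [h₁, h₂]) (by
    intro t ht
    rcases hall t ht with h | h
    · refine ⟨x₁, by simp, h.symm, ?_⟩
      intro w hw hc
      rcases Finset.mem_insert.1 hw with rfl | hw
      · rfl
      · rw [Finset.mem_singleton.1 hw] at hc
        exact absurd (h.trans hc) hnc
    · refine ⟨x₂, by simp, h.symm, ?_⟩
      intro w hw hc
      rcases Finset.mem_insert.1 hw with rfl | hw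
      · exact absurd (h.trans hc).symm hnc
      · exact Finset.mem_singleton.1 hw)
  rw [Finset.sum_pair hne] at h
  have hu' : (Nat.card ↥(Subgroup.centralizer ({x₁} : Set G)) : ℚ) ≠ 0 := by
    exact_mod_cast Nat.card_pos.ne'
  have hv' : (Nat.card ↥(Subgroup.centralizer ({x₂} : Set G)) : ℚ) ≠ 0 := by
    exact_mod_cast Nat.card_pos.ne'
  change Nat.card G = _ * H3.thompsonR x₁ x₂ x₁ + _ * H3.thompsonR x₁ x₂ x₂
  have : (Nat.card G : ℚ) = Nat.card ↥(Subgroup.centralizer ({x₂} : Set G)) * H3.thompsonR x₁ x₂ x₁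
      + Nat.card ↥(Subgroup.centralizer ({x₁} : Set G)) * H3.thompsonR x₁ x₂ x₂ := by
    rw [h]; field_simp
  exact_mod_cast this

end Cfsg.Agent.S0213
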