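import Cfsg.Statements.S0073
import Cfsg.Agent.H1.Transfer

set_option autoImplicit false
open Cfsg

namespace Cfsg.Agent.S0073

open Cfsg.Agent.H1

/-- For a finite non-abelian simple group, either the cube of the least prime divisor of the order divides the order, or 12 does. -/
theorem result {G : Type*} [Group G] [Finite G] [IsSimpleGroup G] (hG : ∃ x y : G, x * y ≠ y * x) : (Nat.card G).minFac ^ 3 ∣ Nat.card G ∨ 12 ∣ Nat.card G := by
  have hnt : Nontrivial G := IsSimpleGroup.toNontrivial
  have h1 : Nat.card G ≠ 1 := Finite.one_lt_card.ne'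
  set p := (Nat.card G).minFac with hp
  have hpp : p.Prime := Nat.minFac_prime h1
  have := Fact.mk hpp
  have hnc : ¬ HasNormalPComplement p G := by
    intro h
    rcases IsSimpleGroup.eq_bot_or_eq_top_of_normal (pResidual p G) inferInstance with h0 | h0
    · have h2 := (pResidual_eq_bot_iff.mp h0).isNilpotent
      obtain ⟨x, y, hxy⟩ := hG
      exact hxy (IsSimpleGroup.comm_iff_isSolvable.mpr inferInstance x y)
    · refine hasNormalPComplement_iff_not_dvd.mp h ?_
      rw [h0, Subgroup.card_top]
      exact Nat.minFac_dvd _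
  obtain ⟨q, i, hq, hqp, hqG, hi, hpi, hqi⟩ := exists_prime_of_not_hasNormalPComplement hnc
  have hpq : p < q := lt_of_le_of_ne (Nat.minFac_le_of_dvd hq.two_le hqG) hqp.symm
  by_cases h3 : 3 ≤ i
  · exact Or.inl ((pow_dvd_pow p h3).trans hpi)
  have h2 := hpp.two_le
  have hn : ¬ q ∣ p - 1 := fun hd => by
    have := Nat.le_of_dvd (by omega) hd
    omega
  obtain rfl | rfl : i = 1 ∨ i = 2 := by omega
  · exact absurd (by simpa using hqi) hn
  · have h4 : p ^ 2 - 1 = (p + 1) * (p - 1) := by
      rw [← Nat.sq_sub_sq p 1, one_pow]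
    rw [h4] at hqi
    have h5 := (hq.dvd_mul.mp hqi).resolve_right hn
    have h6 : q = p + 1 := le_antisymm (Nat.le_of_dvd (by omega) h5) hpq
    have h7 : p = 2 := by
      rcases hpp.eq_two_or_odd' with h | h
      · exact h
      · have h8 : Even q := h6 ▸ h.add_one
        have := (hq.even_iff).mp h8
        omega
    right
    rw [h7] at hpi h6
    rw [h6] at hqG
    exact Nat.Coprime.mul_dvd_of_dvd_of_dvd (by norm_num : Nat.Coprime 4 3) hpi hqG

end Cfsg.Agent.S0073
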