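import Cfsg.Statements.S0076
import Cfsg.Agent.H1.Fusion

set_option autoImplicit false
open Cfsg

namespace Cfsg.Agent.S0076

open Cfsg.Agent.H1

/-- Two P-invariant subsets of a Sylow p-subgroup P that are conjugate in G are conjugate under the normalizer of P. -/
theorem result {G : Type*} [Group G] [Finite G] {p : ℕ} [Fact p.Prime] (P : Sylow p G) (X Y : Set G) (hXP : X ⊆ P) (hYP : Y ⊆ P) (hX : ∀ x ∈ P, (fun y => x * y * x⁻¹) '' X = X) (hY : ∀ x ∈ P, (fun y => x * y * x⁻¹) '' Y = Y) (g : G) (hg : (fun y => g * y * g⁻¹) '' X = Y) : ∃ n ∈ Subgroup.normalizer (P : Set G), (fun y => n * y * n⁻¹) '' X = Y := by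
  have h := sylow_isSylowIn_top P
  -- the stabilizer of `Y` under conjugation
  let K : Subgroup G :=
    { carrier := {k | (fun y => k * y * k⁻¹) '' Y = Y}
      one_mem' := by simp
      mul_mem' := by
        intro a b ha hb
        simp only [Set.mem_ofPred_eq] at ha hb ⊢
        conv_rhs => rw [← ha, ← hb, Set.image_image]
        simp [mul_assoc]
      inv_mem' := by
        intro a ha
        simp only [Set.mem_ofPred_eq] at ha ⊢
        conv_lhs => rw [← ha, Set.image_image]
        simp [mul_assoc] }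
  have hK : ∀ k, k ∈ K ↔ (fun y => k * y * k⁻¹) '' Y = Y := fun k => Iff.rfl
  have h1 : (P : Subgroup G) ≤ K := fun x hx => hY x hx
  have h2 : cj g (P : Subgroup G) ≤ K := by
    rw [cj_le_iff]
    intro x hx
    rw [hK]
    conv_lhs => rw [← hg, Set.image_image]
    conv_rhs => rw [← hg, ← hX x hx, Set.image_image]
    simp [mul_assoc]
  obtain ⟨k, hk, hn⟩ := h.exists_mul_mem_normalizer le_top (Subgroup.mem_top g) h1 h2
  refine ⟨k * g, hn, ?_⟩
  conv_rhs => rw [← (hK k).mp hk, ← hg, Set.image_image]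
  simp [mul_assoc]

end Cfsg.Agent.S0076
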