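import Cfsg.Statements.S0078
import Cfsg.Agent.H1.Fusion

set_option autoImplicit false
open Cfsg

namespace Cfsg.Agent.S0078

open Cfsg.Agent.H1

/-- In a p-normal group, a Sylow p-subgroup P meets O^p(G) exactly where it meets O^p(V), for any subgroup V containing the normalizer of the centre of P. -/
theorem result {G : Type*} [Group G] [Finite G] {p : ℕ} [Fact p.Prime] (P : Sylow p G) (hn : ∀ Q : Sylow p G, (P : Subgroup G) ⊓ Subgroup.centralizer (P : Set G) ≤ (Q : Subgroup G) → (Q : Subgroup G) ⊓ Subgroup.centralizer (Q : Set G) = (P : Subgroup G) ⊓ Subgroup.centralizer (P : Set G)) (V : Subgroup G) (hV : Subgroup.normalizer (((P : Subgroup G) ⊓ Subgroup.centralizer (P : Set G) : Subgroup G) : Set G) ≤ V) : (P : Subgroup G) ⊓ Cfsg.pResidual p G = (P : Subgroup G) ⊓ (Cfsg.pResidual p V).map V.subtype := by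
  have h := sylow_isSylowIn_top P
  rw [map_subtype_pResidual, ← pResidualOf_top]
  set Z := (P : Subgroup G) ⊓ Subgroup.centralizer (P : Set G) with hZ
  have hPZ : (P : Subgroup G) ≤ Subgroup.normalizer (Z : Set G) :=
    (Subgroup.le_centralizer_iff.mp inf_le_right).trans (Subgroup.centralizer_le_normalizer _)
  have hW : ∀ g ∈ (⊤ : Subgroup G), cj g Z ≤ P → cj g Z = Z := by
    intro g _ hle
    have h1 := hn (g⁻¹ • P) (by rw [coe_smul_sylow, ← cj_le_iff_le_cj_inv]; exact hle)
    have h2 : cj g⁻¹ Z = Z := by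
      conv_rhs => rw [← h1]
      rw [hZ, cj_inf]
      congr 1
      exact cj_centralizer g⁻¹ (P : Subgroup G)
    conv_lhs => rw [← h2, cj_cj_inv]
  refine h.inf_pResidualOf_eq_of_fusion (hPZ.trans hV) le_top fun x hx g hg hgx => ?_
  obtain ⟨y, hy, he⟩ := h.fusion_elt_of_weaklyClosed inf_le_left inf_le_right hW x hx g hg hgx
  exact ⟨y, hV hy.2, he⟩

end Cfsg.Agent.S0078
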