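import Cfsg.Statements.S0079
import Cfsg.Agent.H1.Transfer

set_option autoImplicit false
open Cfsg

namespace Cfsg.Agent.S0079

open Cfsg.Agent.H1

/-- A nilpotent Hall subgroup has a normal complement exactly when elements of it that are conjugate in the whole group are already conjugate inside it. -/
theorem result {G : Type*} [Group G] [Finite G] (H : Subgroup G) (hH : Group.IsNilpotent H) (hHall : Nat.Coprime (Nat.card H) H.index) : (∃ N : Subgroup G, N.Normal ∧ N.IsComplement' H) ↔ ∀ x ∈ H, ∀ y ∈ H, (∃ g : G, g * x * g⁻¹ = y) → ∃ h ∈ H, h * x * h⁻¹ = y := by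
  constructor
  · rintro ⟨N, hN, hc⟩ x hx y hy ⟨g, rfl⟩
    obtain ⟨⟨n, h⟩, rfl⟩ := hc.2 g
    refine ⟨h, h.2, ?_⟩
    have hbx : (h : G) * x * (h : G)⁻¹ ∈ H := mul_mem (mul_mem h.2 hx) (inv_mem h.2)
    have h1 : ((h : G) * x * (h : G)⁻¹)⁻¹ * ((n : G) * h * x * ((n : G) * h)⁻¹) ∈ N := by
      have := mul_mem (hN.conj_mem _ n.2 ((h : G) * x * (h : G)⁻¹)⁻¹) (inv_mem n.2)
      convert this using 1
      group
    have h2 := Subgroup.disjoint_def.mp hc.disjoint h1 (mul_mem (inv_mem hbx) hy)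
    exact inv_mul_eq_one.mp h2
  · intro h
    exact nilpotent_hall_normal_complement H hH hHall fun x hx g hg => h x hx _ hg ⟨g, rfl⟩

end Cfsg.Agent.S0079
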