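import Cfsg.Statements.S0081
import Cfsg.Agent.H1.Tate

set_option autoImplicit false
open Cfsg

namespace Cfsg.Agent.S0081

open Cfsg.Agent.H1

/-- If a normal subgroup meets a Sylow p-subgroup P inside the Frattini subgroup of P, then it has a normal p-complement. -/
theorem result {G : Type*} [Group G] [Finite G] {p : ℕ} [Fact p.Prime] (P : Sylow p G) (N : Subgroup G) [N.Normal] (h : N ⊓ (P : Subgroup G) ≤ (frattini P).map (P : Subgroup G).subtype) : Cfsg.HasNormalPComplement p N := by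
  have hP := sylow_isSylowIn P (le_sup_right : (P : Subgroup G) ≤ N ⊔ P)
  have hle : pResidualOf p (N ⊔ (P : Subgroup G)) ≤ N := by
    rw [pResidualOf_le_iff]
    intro x hx hxp
    obtain ⟨n, hn, y, hy, rfl⟩ := mem_normal_sup_iff.mp hx
    obtain ⟨k, hk⟩ := isPGroup_iff_mem.mp P.isPGroup' y hy
    rw [← QuotientGroup.eq_one_iff]
    refine eq_one_of_pow_of_coprime (p := p) (k := k) ?_
      (Nat.Coprime.coprime_dvd_left (orderOf_map_dvd (QuotientGroup.mk' N) _) hxp)
    rw [QuotientGroup.mk_mul, (QuotientGroup.eq_one_iff n).mpr hn, one_mul, ← QuotientGroup.mk_pow,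
      hk, QuotientGroup.mk_one]
  refine hasNormalPComplement_of_le (K := N ⊔ P) ?_ le_sup_left
  refine hasNormalPComplement_of_inf_pResidual_le_frattini hP.toSylow ?_
  intro x hx
  have h1 : (x : G) ∈ N ⊓ (P : Subgroup G) :=
    Subgroup.mem_inf.mpr ⟨hle (mem_pResidual_subgroup_iff.mp hx.2), hx.1⟩
  have h2 : (frattini P).map (P : Subgroup G).subtype ≤
      ((frattini hP.toSylow).map (hP.toSylow : Subgroup _).subtype).map
        (N ⊔ (P : Subgroup G)).subtype := by
    rw [H2.map_frattini_le_iff P.isPGroup']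
    obtain ⟨h3, h4⟩ := (H2.map_frattini_le_iff hP.toSylow.isPGroup').mp le_rfl
    refine ⟨?_, fun y hy => ⟨_, h4 ⟨y, hP.le hy⟩ hy, rfl⟩⟩
    conv_lhs => rw [← hP.map_toSylow, ← Subgroup.map_commutator]
    exact Subgroup.map_mono h3
  obtain ⟨y, hy, hyx⟩ := h2 (h h1)
  exact (Subtype.ext hyx : y = x) ▸ hy

end Cfsg.Agent.S0081
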