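import Cfsg.Statements.S0082
import Cfsg.Agent.H1.Transfer
import Mathlib.GroupTheory.SpecificGroups.ZGroup

set_option autoImplicit false
open Cfsg

namespace Cfsg.Agent.S0082

open Cfsg.Agent.H1
open scoped commutatorElement

/-- With a cyclic Sylow p-subgroup, either there is a normal p-complement or the elements of order prime to p generate the whole group. -/
theorem result {G : Type*} [Group G] [Finite G] {p : ℕ} [Fact p.Prime] (P : Sylow p G) (hP : IsCyclic P) : Cfsg.HasNormalPComplement p G ∨ Cfsg.pResidual p G = ⊤ := by
  have h := sylow_isSylowIn_top P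
  have hc : IsMulCommutative (P : Subgroup G) := by
    have := hP
    infer_instance
  have h1 := h.inf_pResidualOf_of_comm hc
  rw [pResidualOf_top, top_inf_eq] at h1
  obtain ⟨B, hBN, -, hB2, hB3⟩ := H2.exists_complement_inf
    (H := Subgroup.normalizer ((P : Subgroup G) : Set G)) (N := (P : Subgroup G)) le_rfl (by
      rw [inf_eq_left.mpr Subgroup.le_normalizer]
      exact (sylow_isSylowIn P Subgroup.le_normalizer).coprime)
  have : IsCyclic (P : Subgroup G) := hP
  rcases P.isPGroup'.commutator_eq_bot_or_commutator_eq_self hBN (by
    rw [hB3]; exact (sylow_isSylowIn P Subgroup.le_normalizer).coprime) with h2 | h2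
  · left
    refine hasNormalPComplement_of_normalizer_le P ?_
    rw [← P.coe_coe, ← hB2]
    exact sup_le (Subgroup.commutator_eq_bot_iff_le_centralizer.mp h2)
      (inf_le_left.trans (Subgroup.le_centralizer_iff_isMulCommutative.mpr hc))
  · right
    rw [← pResidual_sup_sylow P, eq_comm, sup_eq_left, ← inf_eq_left, h1]
    refine le_antisymm (Subgroup.le_normalizer_iff_commutator_le_left.mp le_rfl) ?_
    conv_lhs => rw [← h2, Subgroup.commutator_comm]
    exact Subgroup.commutator_mono le_rfl hBN

end Cfsg.Agent.S0082
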