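import Cfsg.Statements.S0083
import Cfsg.Agent.H1.Transfer

set_option autoImplicit false
open Cfsg

namespace Cfsg.Agent.S0083

open Cfsg.Agent.H1

/-- For an abelian Sylow p-subgroup P, a normal p-complement exists exactly when the normalizer of P is an internal direct product of P with some subgroup. -/
theorem result {G : Type*} [Group G] [Finite G] {p : ℕ} [Fact p.Prime] (P : Sylow p G) (hP : IsMulCommutative P) : Cfsg.HasNormalPComplement p G ↔ ∃ Q : Subgroup G, Q ≤ Subgroup.centralizer (P : Set G) ∧ Q ⊓ (P : Subgroup G) = ⊥ ∧ Q ⊔ (P : Subgroup G) = Subgroup.normalizer (P : Set G) := by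
  have hs := sylow_isSylowIn P (Subgroup.le_normalizer (H := (P : Subgroup G)))
  constructor
  · intro h
    have h1 := hasNormalPComplement_subgroup h (Subgroup.normalizer (P : Set G))
    refine ⟨pResidualOf p (Subgroup.normalizer (P : Set G)), fun g hg => ?_, ?_, hs.pResidualOf_sup⟩
    · exact mem_centralizer_of_hasNormalPComplement h1 P.isPGroup' hs.le hg (pResidualOf_le _ hg)
    · rw [inf_comm]; exact hs.hasNormalPComplement_iff.mp h1
  · rintro ⟨Q, h1, -, h3⟩
    refine hasNormalPComplement_of_normalizer_le P ?_
    rw [← h3]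
    exact sup_le h1 (Subgroup.le_centralizer_iff_isMulCommutative.mpr hP)

end Cfsg.Agent.S0083
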