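import Cfsg.Statements.S0087
import Cfsg.Agent.H1.Transfer

set_option autoImplicit false
open Cfsg

namespace Cfsg.Agent.S0087

open Cfsg.Agent.H1

/-- A Hall subgroup that is central in its normalizer has a normal complement. -/
theorem result {G : Type*} [Group G] [Finite G] (H : Subgroup G) (hHall : Nat.Coprime (Nat.card H) H.index) (h : Subgroup.normalizer (H : Set G) ≤ Subgroup.centralizer (H : Set G)) : ∃ N : Subgroup G, N.Normal ∧ N.IsComplement' H := by
  have hc : H ≤ Subgroup.centralizer (H : Set G) := Subgroup.le_normalizer.trans h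
  have hcomm : IsMulCommutative H := Subgroup.le_centralizer_iff_isMulCommutative.mp hc
  have hnil : Group.IsNilpotent H := by
    open scoped IsMulCommutative in infer_instance
  refine nilpotent_hall_normal_complement H hnil hHall fun x hx g hg => ⟨1, one_mem _, ?_⟩
  set C := Subgroup.centralizer ((Subgroup.zpowers (g * x * g⁻¹) : Subgroup G) : Set G) with hC
  have h1 : H ≤ C := hc.trans (Subgroup.centralizer_le (Subgroup.zpowers_le.mpr hg))
  have h2 : cj g H ≤ C := by
    rw [hC, ← cj_zpowers, ← cj_centralizer]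
    exact cj_mono g (hc.trans (Subgroup.centralizer_le (Subgroup.zpowers_le.mpr hx)))
  obtain ⟨c, hcC, he⟩ := exists_cj_eq_of_nilpotent_hall hnil
    (Group.nilpotent_of_mulEquiv (H.equivMapOfInjective _ (MulAut.conj g).injective)) h1 h2
    (card_cj g H).symm
    (hHall.coprime_dvd_right (Subgroup.relIndex_dvd_index_of_le h1))
  have h3 : c⁻¹ * g ∈ Subgroup.normalizer (H : Set G) := by
    rw [← cj_eq_iff_mem_normalizer, cj_mul]
    exact (congrArg (cj c⁻¹) he.symm).trans (cj_inv_cj c H)
  have h4 := Subgroup.mem_centralizer_iff.mp (h h3) x hx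
  have h5 := mem_centralizer_zpowers_iff.mp hcC
  calc 1 * x * 1⁻¹ = (x * (c⁻¹ * g)) * g⁻¹ * c := by group
    _ = c⁻¹ * (g * x * g⁻¹ * c) := by rw [h4]; group
    _ = _ := by rw [← h5]; group

end Cfsg.Agent.S0087
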