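import Cfsg.Statements.S0089
import Cfsg.Agent.H1.Transfer

set_option autoImplicit false
open Cfsg

namespace Cfsg.Agent.S0089

open Cfsg.Agent.H1

/-- When all Sylow subgroups are abelian, the derived subgroup meets the centre trivially. -/
theorem result {G : Type*} [Group G] [Finite G] (h : ∀ p : ℕ, p.Prime → ∀ P : Sylow p G, IsMulCommutative P) : commutator G ⊓ Subgroup.center G = ⊥ := by
  by_contra hne
  obtain ⟨q, hq, hqd⟩ := Nat.exists_prime_and_dvd (mt Subgroup.card_eq_one.mp hne)
  have := Fact.mk hq
  obtain ⟨P⟩ := (inferInstance : Nonempty (Sylow q G))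
  refine (sylow_inf_isSylowIn P (commutator G ⊓ Subgroup.center G)).eq_bot_iff.mp ?_ hqd
  rw [← inf_assoc]
  exact abelian_hall_inf_commutator_inf_center _ (h q hq P) P.card_coprime_index

end Cfsg.Agent.S0089
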