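import Cfsg.Statements.S0090
import Cfsg.Agent.H1.Transfer

set_option autoImplicit false
open Cfsg

namespace Cfsg.Agent.S0090

open Cfsg.Agent.H1

/-- An abelian normal Hall subgroup A splits as the internal direct product of G' ∩ A and Z(G) ∩ A, and [A, G] = G' ∩ A. -/
theorem result {G : Type*} [Group G] [Finite G] (A : Subgroup G) [A.Normal] (hc : IsMulCommutative A) (hHall : Nat.Coprime (Nat.card A) A.index) : ⁅A, (⊤ : Subgroup G)⁆ = commutator G ⊓ A ∧ (commutator G ⊓ A) ⊓ (Subgroup.center G ⊓ A) = ⊥ ∧ (commutator G ⊓ A) ⊔ (Subgroup.center G ⊓ A) = A := by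
  have h1 : ⁅A, (⊤ : Subgroup G)⁆ = commutator G ⊓ A := by
    rw [← (focal_of_coprime A (by
      rw [Subgroup.commutator_self_eq_bot_iff.mpr hc, Subgroup.relIndex_bot_left]
      exact hHall.symm)).2.2]
    refine le_antisymm (Subgroup.commutator_le.mpr fun x hx g _ => ?_) ?_
    · exact Subgroup.subset_closure ⟨Subgroup.commutator_le_left A ⊤
        (Subgroup.commutator_mem_commutator hx (Subgroup.mem_top g)), x, hx, g, rfl⟩
    · rw [Subgroup.focalSubgroup_def, Subgroup.closure_le]
      rintro _ ⟨-, x, hx, g, rfl⟩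
      exact Subgroup.commutator_mem_commutator hx (Subgroup.mem_top g)
  obtain ⟨h2, h3⟩ := abelian_hall_decomp (le_top (a := A)) (le_normalizer_of_normal _ _) hc
    (by rwa [Subgroup.relIndex_top_right])
  rw [Subgroup.coe_top, Subgroup.centralizer_univ] at h2 h3
  refine ⟨h1, ?_, ?_⟩
  · rw [← h1, eq_bot_iff, ← h2]
    exact le_inf (inf_le_right.trans inf_le_left) inf_le_left
  · rw [← h1, sup_comm, inf_comm, h3]

end Cfsg.Agent.S0090
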