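import Cfsg.Statements.S0091
import Cfsg.Agent.H1.Fusion

set_option autoImplicit false
open Cfsg

namespace Cfsg.Agent.S0091

open Cfsg.Agent.H1

/-- If a nontrivial Sylow p-subgroup controls its own fusion then it is not contained in the derived subgroup. -/
theorem result {G : Type*} [Group G] [Finite G] {p : ℕ} [Fact p.Prime] (P : Sylow p G) (hp : p ∣ Nat.card G) (h : ∀ x ∈ P, ∀ y ∈ P, (∃ g : G, g * x * g⁻¹ = y) → ∃ z ∈ P, z * x * z⁻¹ = y) : ¬ (P : Subgroup G) ≤ commutator G := by
  intro hle
  have h1 : HasNormalPComplement p G :=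
    hasNormalPComplement_of_fusion P fun x hx g hg => h x hx _ hg ⟨g, rfl⟩
  have h2 : commutator G ⊓ (P : Subgroup G) ≤ ⁅(P : Subgroup G), (P : Subgroup G)⁆ := by
    refine sylow_commutator_inf_le P fun x hx g hg => ?_
    obtain ⟨z, hz, he⟩ := h x hx _ hg ⟨g, rfl⟩
    have := Subgroup.commutator_mem_commutator (inv_mem hx) (show z ∈ (P : Subgroup G) from hz)
    rw [← he]
    simpa only [commutatorElement_def, mul_assoc, inv_inv] using this
  exact P.ne_bot_of_dvd_card hp (eq_bot_of_le_commutator_of_isNilpotent P.isPGroup'.isNilpotent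
    le_rfl ((le_inf hle le_rfl).trans h2))

end Cfsg.Agent.S0091
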