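import Cfsg.Statements.S0092
import Cfsg.Agent.H1.Transfer

set_option autoImplicit false
open Cfsg

namespace Cfsg.Agent.S0092

open Cfsg.Agent.H1
open scoped commutatorElement

/-- If the Sylow p-subgroups of O^p(G) are abelian then G splits over O^p(G). -/
theorem result {G : Type*} [Group G] [Finite G] {p : ℕ} [Fact p.Prime] (h : ∀ Q : Sylow p (Cfsg.pResidual p G), IsMulCommutative Q) : ∃ K : Subgroup G, K.IsComplement' (Cfsg.pResidual p G) := by
  set K := pResidual p G with hK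
  obtain ⟨Q, hQ⟩ := exists_isSylowIn (p := p) K
  have hQc : IsMulCommutative Q := by
    have := h hQ.toSylow
    rw [← hQ.map_toSylow]
    infer_instance
  have h1 := hQ.inf_pResidualOf_of_comm hQc
  rw [pResidualOf_pResidual, inf_eq_left.mpr hQ.le] at h1
  set N₀ := K ⊓ Subgroup.normalizer (Q : Set G) with hN₀
  have hQN : Q ≤ N₀ := le_inf hQ.le Subgroup.le_normalizer
  have hQ0 := hQ.of_le hQN inf_le_left
  obtain ⟨h2, -⟩ := abelian_hall_decomp hQN inf_le_right hQc hQ0.coprime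
  obtain ⟨L, hLN, hL1, hL2, hL3⟩ := H2.exists_complement_inf (H := N₀) (N := Q) inf_le_right
    (by rw [inf_eq_left.mpr hQN]; exact hQ0.coprime)
  rw [inf_eq_left.mpr hQN] at hL2
  have hLQ : L ≤ Subgroup.normalizer (Q : Set G) := hLN.trans inf_le_right
  have hLp : ¬ p ∣ Nat.card L := hL3 ▸ hQ0.not_dvd
  have hcop : (Nat.card L).Coprime (Nat.card Q) := hL3 ▸ hQ0.coprime.symm
  set M := Subgroup.normalizer (Q : Set G) ⊓ Subgroup.normalizer (L : Set G) with hM
  -- `M K = G`
  have hMK : ∀ g : G, ∃ k ∈ K, ∃ m ∈ M, g = k * m := by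
    intro g
    obtain ⟨k, hk, hkg⟩ := hQ.frattini (le_normalizer_of_normal ⊤ K) (Subgroup.mem_top g)
    have hn : k * g ∈ Subgroup.normalizer (N₀ : Set G) :=
      normalizer_inf_le _ _ (Subgroup.mem_inf.mpr
        ⟨le_normalizer_of_normal ⊤ K (Subgroup.mem_top _), Subgroup.le_normalizer hkg⟩)
    obtain ⟨c, hc, n, hn', he⟩ := H2.exists_normalizer_mul hLQ hcop
      (Or.inr (by open scoped IsMulCommutative in infer_instance)) (x := k * g)
      (fun a ha => hL2 ▸ conj_mem_of_mem_normalizer' hn (hLN ha))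
    have hc' : c ∈ Subgroup.normalizer (Q : Set G) := by
      have := mul_mem hkg (inv_mem (Subgroup.le_normalizer hn'))
      rwa [he, mul_inv_cancel_right] at this
    refine ⟨k⁻¹ * (c * n * c⁻¹), mul_mem (inv_mem hk)
      ((inferInstance : K.Normal).conj_mem _ (hQ.le hn') c), c, ⟨hc', hc⟩, ?_⟩
    calc g = k⁻¹ * (k * g) := by group
      _ = _ := by rw [he]; group
  -- `M ∩ K = L`
  have hMK2 : M ⊓ K ≤ L := by
    intro x hx
    have hx0 : x ∈ L ⊔ Q := hL2 ▸ Subgroup.mem_inf.mpr ⟨hx.2, hx.1.1⟩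
    obtain ⟨l, hl, q, hq, rfl⟩ := (mem_sup_iff_of_le_normalizer hLQ).mp hx0
    have hqL : q ∈ Subgroup.normalizer (L : Set G) := by
      have := mul_mem (inv_mem (Subgroup.le_normalizer hl)) (Subgroup.mem_inf.mp hx.1).2
      rwa [inv_mul_cancel_left] at this
    have hqc : q ∈ Subgroup.centralizer (N₀ : Set G) := by
      rw [← hL2, ← Subgroup.zpowers_le, Subgroup.le_centralizer_iff]
      refine sup_le (fun a ha => ?_) (fun a ha => ?_)
      · rw [mem_centralizer_zpowers_iff, ← commutatorElement_eq_one_iff_mul_comm,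
          ← Subgroup.mem_bot, ← hL1]
        refine Subgroup.mem_inf.mpr ⟨?_, ?_⟩
        · have := mul_mem ha (conj_mem_of_mem_normalizer hqL (inv_mem ha))
          simpa only [commutatorElement_def, mul_assoc] using this
        · exact mul_mem (conj_mem_of_mem_normalizer (hLQ ha) hq) (inv_mem hq)
      · rw [mem_centralizer_zpowers_iff]
        exact congrArg Subtype.val (hQc.is_comm.comm (⟨a, ha⟩ : Q) ⟨q, hq⟩)
    have : q ∈ Subgroup.centralizer (N₀ : Set G) ⊓ ⁅Q, N₀⁆ := ⟨hqc, h1 ▸ hq⟩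
    rw [h2, Subgroup.mem_bot] at this
    rw [this, mul_one]; exact hl
  obtain ⟨S, hS⟩ := exists_isSylowIn (p := p) M
  refine ⟨S, Subgroup.isComplement'_of_disjoint_and_mul_eq_univ ?_ ?_⟩
  · rw [Subgroup.disjoint_def]
    intro x hxS hxK
    obtain ⟨k, hk⟩ := isPGroup_iff_mem.mp hS.isPGroup x hxS
    exact eq_one_of_pow_of_coprime hk (not_dvd_card_iff_forall_coprime.mp hLp x
      (hMK2 ⟨hS.le hxS, hxK⟩))
  · rw [← Subgroup.mul_normal, ← Subgroup.coe_top, SetLike.coe_set_eq, eq_top_iff]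
    intro g _
    obtain ⟨k, hk, m, hm, rfl⟩ := hMK g
    obtain ⟨a, ha, b, hb, rfl⟩ := hS.exists_mul_pResidualOf hm
    exact mul_mem (Subgroup.mem_sup_right hk) (mul_mem
      (Subgroup.mem_sup_right (pResidualOf_le_pResidual _ ha)) (Subgroup.mem_sup_left hb))

end Cfsg.Agent.S0092
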