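import Cfsg.Statements.S0093
import Cfsg.Agent.H2.Class2

set_option autoImplicit false
open Cfsg

namespace Cfsg.Agent.S0093

open Subgroup Cfsg.Agent.H2
open scoped commutatorElement Pointwise


/-- Every finite p-group has a critical subgroup: a characteristic subgroup H whose Frattini subgroup and whose commutator with the whole group lie in the centre of H, and whose centralizer is contained in H. -/
theorem result {P : Type*} [Group P] [Finite P] {p : ℕ} [Fact p.Prime] (hP : IsPGroup p P) : ∃ H : Subgroup P, H.Characteristic ∧ (frattini H).map H.subtype ≤ Subgroup.centralizer (H : Set P) ∧ ⁅H, (⊤ : Subgroup P)⁆ ≤ H ⊓ Subgroup.centralizer (H : Set P) ∧ Subgroup.centralizer (H : Set P) ≤ H := by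
  obtain ⟨H, -, hH⟩ := Finite.exists_le_maximal
    (p := fun H : Subgroup P => H.Characteristic ∧ (∀ h ∈ H, h ^ p ∈ centralizer (H : Set P)) ∧
      ⁅H, (⊤ : Subgroup P)⁆ ≤ H ⊓ centralizer (H : Set P)) (a := ⊥)
    ⟨inferInstance, by simp, by simp⟩
  obtain ⟨hc, h1, h2⟩ := hH.1
  refine ⟨H, hc, (map_frattini_le_iff (hP.to_subgroup H)).mpr
    ⟨(commutator_mono le_rfl le_top).trans (h2.trans inf_le_right), h1⟩, h2, ?_⟩
  set Z : Subgroup P := H ⊓ centralizer (H : Set P) with hZ
  have hZc : Z.Characteristic := inferInstance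
  let K : Subgroup P :=
    { carrier := {y | y ∈ centralizer (Z : Set P) ∧ y ^ p ∈ Z ∧ ∀ g, ⁅y, g⁆ ∈ Z}
      one_mem' := ⟨one_mem _, by simp, by simp⟩
      mul_mem' := by
        rintro x y ⟨hx1, hx2, hx3⟩ ⟨hy1, hy2, hy3⟩
        refine ⟨mul_mem hx1 hy1, ?_, fun g => ?_⟩
        · rw [← QuotientGroup.eq_one_iff] at hx2 hy2 ⊢
          have : Commute (x : P ⧸ Z) y := by
            rw [← commutatorElement_eq_one_iff_commute]
            exact (QuotientGroup.eq_one_iff _).mpr (hx3 y)
          rw [QuotientGroup.mk_pow] at hx2 hy2 ⊢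
          rw [QuotientGroup.mk_mul, this.mul_pow, hx2, hy2, mul_one]
        · rw [commutatorElement_mul_left_eq_conj_mul]
          exact mul_mem ((inferInstance : Z.Normal).conj_mem _ (hy3 g) x) (hx3 g)
      inv_mem' := by
        rintro x ⟨hx1, hx2, hx3⟩
        refine ⟨inv_mem hx1, by rw [inv_pow]; exact inv_mem hx2, fun g => ?_⟩
        rw [commutatorElement_inv_left, ← commutatorElement_inv]
        exact (inferInstance : Z.Normal).conj_mem' _ (inv_mem (hx3 g)) x }
  have hHK : H ≤ K := fun h hh => ⟨le_centralizer_iff.mp inf_le_right hh,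
    mem_inf.mpr ⟨pow_mem hh _, h1 h hh⟩, fun g => h2 (commutator_mem_commutator hh (mem_top g))⟩
  have hZK : Z ≤ K ⊓ centralizer (K : Set P) :=
    le_inf (inf_le_left.trans hHK) (le_centralizer_iff.mp fun x hx => hx.1)
  have hKc : K.Characteristic := by
    rw [characteristic_iff_le_comap]
    rintro f x ⟨hx1, hx2, hx3⟩
    refine ⟨characteristic_iff_le_comap.mp inferInstance f hx1, ?_, fun g => ?_⟩
    · have := characteristic_iff_le_comap.mp hZc f hx2
      simpa using this
    · obtain ⟨g, rfl⟩ := f.surjective g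
      have := characteristic_iff_le_comap.mp hZc f (hx3 g)
      simpa using this
  have hKH : K ≤ H := hH.2 ⟨hKc, fun h hh => (mem_inf.mp (hZK hh.2.1)).2,
    commutator_le.mpr fun x hx g _ => hZK (hx.2.2 g)⟩ hHK
  by_contra hcon
  obtain ⟨x, hx1, hx2, hx3, hx4⟩ := exists_mem_not_mem_pow_mem_top hP
    (K := centralizer (H : Set P)) (M := Z) (fun h => hcon (h.trans inf_le_left))
  exact hx2 (mem_inf.mpr ⟨hKH ⟨centralizer_le (inf_le_left : Z ≤ H) hx1, hx3, hx4⟩, hx1⟩)

end Cfsg.Agent.S0093
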