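import Cfsg.Statements.S0095
import Cfsg.Agent.H2.Omega

set_option autoImplicit false
open Cfsg

namespace Cfsg.Agent.S0095

open Subgroup Cfsg.Agent.H2
open scoped commutatorElement Pointwise


/-- The order of an extraspecial p-group is an odd power p^(2n+1) of p with n ≥ 1. -/
theorem result {P : Type*} [Group P] [Finite P] {p : ℕ} [Fact p.Prime] (h : Cfsg.IsExtraspecial p P) : ∃ n : ℕ, 1 ≤ n ∧ Nat.card P = p ^ (2 * n + 1) := by
  obtain ⟨⟨hP, h1, h2⟩, h3⟩ := h
  have := hP.isNilpotent
  obtain ⟨A, hAn, hZA, hA⟩ := exists_scn (center P) inferInstance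
  have h4 := relIndex_centralizer_le_relIndex (K := ⊤) h3.le
    (le_centralizer_iff.mp (center_le_centralizer _)) (hP.to_subgroup A) hZA
    ((commutator_mono le_rfl le_top).trans h2.le)
  have h5 := relIndex_centralizer_le_relIndex (K := A) (N₀ := A) (N := ⊤) h3.le
    hA.ge (hP.to_subgroup ⊤) le_top ((commutator_mono le_top le_rfl).trans h2.le)
  rw [hA, relIndex_top_right] at h4
  rw [coe_top, centralizer_univ, relIndex_top_right] at h5
  obtain ⟨n, hn⟩ := hP.index A
  refine ⟨n, ?_, ?_⟩
  · by_contra h6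
    have h7 : n = 0 := by omega
    rw [h7, pow_zero, index_eq_one] at hn
    subst hn
    have h8 : center P = ⊤ := by rw [← centralizer_univ, ← coe_top, hA]
    have h9 := (commutator_eq_bot_iff_center_eq_top P).mpr h8
    rw [← h2, h9, card_bot] at h3
    exact (Fact.out : p.Prime).ne_one h3.symm
  · rw [← A.card_mul_index, ← card_mul_relIndex hZA, le_antisymm h5 h4, hn, h3]
    ring

end Cfsg.Agent.S0095
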