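import Cfsg.Statements.S0097
import Cfsg.Agent.H2.Omega

set_option autoImplicit false
open Cfsg

namespace Cfsg.Agent.S0097

open Subgroup Cfsg.Agent.H2
open scoped commutatorElement Pointwise


/-- For odd p and E extraspecial, the subgroup generated by the elements of order dividing p has exponent dividing p and index at most p. -/
theorem result {E : Type*} [Group E] [Finite E] {p : ℕ} [Fact p.Prime] (hp : p ≠ 2) (h : Cfsg.IsExtraspecial p E) : (Subgroup.closure {x : E | x ^ p = 1}).index ≤ p ∧ ∀ g ∈ Subgroup.closure {x : E | x ^ p = 1}, g ^ p = 1 := by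
  obtain ⟨⟨hP, h1, h2⟩, h3⟩ := h
  have ho := (Fact.out : p.Prime).odd_of_ne_two hp
  have hc := commute_commutator_of_le_center h2.le
  refine ⟨?_, fun g hg => pow_eq_one_of_mem_closure (fun x y hx hy => mul_pow_eq_one_of_odd
    (hc _ _ _) (hc _ _ _) ho hx hy) hg⟩
  let θ : E →* E := MonoidHom.mk' (fun x => x ^ p) fun x y => mul_pow_eq_of_odd (hc _ _ _)
    (hc _ _ _) ho (pow_eq_one_of_card_eq h3 (h2.le (commutator_mem_commutator trivial trivial)))
  have h4 : θ.ker ≤ closure {x : E | x ^ p = 1} := fun x hx => subset_closure hx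
  refine (index_antitone h4).trans ?_
  rw [index_ker, ← h3]
  apply card_le_of_le
  rintro _ ⟨x, rfl⟩
  exact h1 ▸ pow_mem_frattini hP x

end Cfsg.Agent.S0097
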