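import Cfsg.Statements.S0099
import Cfsg.Agent.H2.Extra

set_option autoImplicit false
open Cfsg

namespace Cfsg.Agent.S0099

open Subgroup Cfsg.Agent.H2
open scoped commutatorElement Pointwise


/-- Among three extraspecial 2-groups of equal order, some two are isomorphic. -/
theorem result {E₁ : Type*} {E₂ : Type*} {E₃ : Type*} [Group E₁] [Group E₂] [Group E₃] [Finite E₁] [Finite E₂] [Finite E₃] (h₁ : Cfsg.IsExtraspecial 2 E₁) (h₂ : Cfsg.IsExtraspecial 2 E₂) (h₃ : Cfsg.IsExtraspecial 2 E₃) (h12 : Nat.card E₁ = Nat.card E₂) (h23 : Nat.card E₂ = Nat.card E₃) : Nonempty (E₁ ≃* E₂) ∨ Nonempty (E₂ ≃* E₃) ∨ Nonempty (E₁ ≃* E₃) := by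
  obtain ⟨z₁, k₁, -⟩ := exists_ES_of_isExtraspecial h₁
  obtain ⟨z₂, k₂, -⟩ := exists_ES_of_isExtraspecial h₂
  obtain ⟨z₃, k₃, -⟩ := exists_ES_of_isExtraspecial h₃
  obtain ⟨a, a1, a2⟩ := ES.exists_card_nsq _ E₁ z₁ le_rfl k₁
  obtain ⟨b, b1, b2⟩ := ES.exists_card_nsq _ E₂ z₂ le_rfl k₂
  obtain ⟨c, c1, c2⟩ := ES.exists_card_nsq _ E₃ z₃ le_rfl k₃
  have hab : a = b := by
    have := Nat.pow_right_injective le_rfl (a1.symm.trans (h12.trans b1)); omega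
  have hbc : b = c := by
    have := Nat.pow_right_injective le_rfl (b1.symm.trans (h23.trans c1)); omega
  subst hab hbc
  have : nsq (1 : E₁) = nsq (1 : E₂) ∨ nsq (1 : E₂) = nsq (1 : E₃) ∨
      nsq (1 : E₁) = nsq (1 : E₃) := by omega
  rcases this with h | h | h
  · obtain ⟨e, -⟩ := ES.exists_equiv_of_nsq _ E₁ E₂ _ _ le_rfl k₁ k₂ h12 h
    exact Or.inl ⟨e⟩
  · obtain ⟨e, -⟩ := ES.exists_equiv_of_nsq _ E₂ E₃ _ _ le_rfl k₂ k₃ h23 h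
    exact Or.inr (Or.inl ⟨e⟩)
  · obtain ⟨e, -⟩ := ES.exists_equiv_of_nsq _ E₁ E₃ _ _ le_rfl k₁ k₃ (h12.trans h23) h
    exact Or.inr (Or.inr ⟨e⟩)

end Cfsg.Agent.S0099
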