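import Cfsg.Statements.S0101
import Cfsg.Agent.H1.ThompsonTransfer

set_option autoImplicit false
open Cfsg

namespace Cfsg.Agent.S0101

open Cfsg.Agent.H1
open scoped commutatorElement

/-- In a perfect central extension, the kernel meets each Sylow p-subgroup P inside the Frattini subgroup of P. -/
theorem result {H : Type*} {G : Type*} [Group H] [Group G] [Finite H] (σ : H →* G) (hσ : Function.Surjective σ) (hc : σ.ker ≤ Subgroup.center H) (hH : commutator H = ⊤) {p : ℕ} [Fact p.Prime] (P : Sylow p H) : σ.ker ⊓ (P : Subgroup H) ≤ (frattini P).map (P : Subgroup H).subtype := by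
  refine le_trans ?_ ((H2.map_frattini_le_iff P.isPGroup').mp le_rfl).1
  refine le_trans ?_ (center_inf_commutator_inf_sylow_le P)
  rw [hH, inf_top_eq]
  exact inf_le_inf_right _ hc

end Cfsg.Agent.S0101
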