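import Cfsg.Statements.S0102
import Cfsg.Agent.H1.ThompsonTransfer

set_option autoImplicit false
open Cfsg

namespace Cfsg.Agent.S0102

open Cfsg.Agent.H1
open scoped commutatorElement

/-- A finite perfect group with cyclic Sylow p-subgroups has no perfect central extension whose kernel has order divisible by p. -/
theorem result {G : Type*} {H : Type*} [Group G] [Group H] [Finite G] [Finite H] (hG : commutator G = ⊤) {p : ℕ} [Fact p.Prime] (hcyc : ∀ P : Sylow p G, IsCyclic P) (σ : H →* G) (hσ : Function.Surjective σ) (hz : σ.ker ≤ Subgroup.center H) (hH : commutator H = ⊤) : ¬ p ∣ Nat.card σ.ker := by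
  obtain ⟨P⟩ := (inferInstance : Nonempty (Sylow p H))
  rw [← (sylow_inf_isSylowIn P σ.ker).eq_bot_iff]
  have h1 := center_inf_commutator_inf_sylow_le P
  have h2 : IsCyclic ((P : Subgroup H).map σ) := hcyc (P.mapSurjective hσ)
  have h3 : IsMulCommutative (P : Subgroup H) := by
    refine (σ.subgroupMap (P : Subgroup H)).isMulCommutative_of_isCyclic_of_ker_le_center ?_
    intro x hx
    have h4 : (x : H) ∈ σ.ker := congrArg Subtype.val (MonoidHom.mem_ker.mp hx)
    rw [Subgroup.mem_center_iff]
    exact fun y => Subtype.ext (Subgroup.mem_center_iff.mp (hz h4) y)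
  rw [Subgroup.commutator_self_eq_bot_iff.mpr h3, hH, inf_top_eq] at h1
  rw [eq_bot_iff, inf_comm]
  exact (inf_le_inf_right _ hz).trans h1

end Cfsg.Agent.S0102
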