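import Cfsg.Statements.S0104
import Cfsg.Agent.H1.Fusion

set_option autoImplicit false
open Cfsg

namespace Cfsg.Agent.S0104

open Cfsg.Agent.H1

/-- A subgroup Z of a Sylow p-subgroup P that is normalized by N_G(P) is weakly closed in P exactly when it is normal in every Sylow p-subgroup containing it. -/
theorem result {G : Type*} [Group G] [Finite G] {p : ℕ} [Fact p.Prime] (P : Sylow p G) (Z : Subgroup G) (hZP : Z ≤ (P : Subgroup G)) (hZN : Subgroup.normalizer (P : Set G) ≤ Subgroup.normalizer (Z : Set G)) : Cfsg.IsWeaklyClosed Z P ↔ ∀ R : Sylow p G, Z ≤ (R : Subgroup G) → (R : Subgroup G) ≤ Subgroup.normalizer (Z : Set G) := by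
  have h := sylow_isSylowIn_top P
  have hPZ : (P : Subgroup G) ≤ Subgroup.normalizer (Z : Set G) := Subgroup.le_normalizer.trans hZN
  constructor
  · intro hW R hR
    obtain ⟨g, rfl⟩ := MulAction.exists_smul_eq G P R
    rw [coe_smul_sylow] at hR ⊢
    have h1 : cj g⁻¹ Z = Z := hW.2 g⁻¹ (by
      show cj g⁻¹ Z ≤ _
      rw [cj_le_iff_le_cj_inv, inv_inv]; exact hR)
    have h2 : cj g Z = Z := by conv_lhs => rw [← h1, cj_cj_inv]
    have := cj_mono g hPZ
    rwa [cj_normalizer, h2] at this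
  · intro hR
    refine ⟨hZP, fun g hg => ?_⟩
    change cj g Z ≤ _ at hg
    show cj g Z = Z
    have h1 := hR (g⁻¹ • P) (by rw [coe_smul_sylow, ← cj_le_iff_le_cj_inv]; exact hg)
    rw [coe_smul_sylow] at h1
    obtain ⟨k, hk, hn⟩ := h.exists_mul_mem_normalizer le_top (Subgroup.mem_top g⁻¹) hPZ h1
    have h2 : g⁻¹ ∈ Subgroup.normalizer (Z : Set G) := by
      have := mul_mem (inv_mem hk) (hZN hn)
      simpa using this
    exact cj_eq_iff_mem_normalizer.mpr (by simpa using inv_mem h2)

end Cfsg.Agent.S0104
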