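import Cfsg.Statements.S0106
import Cfsg.Agent.H1.QuatAut
import Cfsg.Agent.H1.Frobenius

set_option autoImplicit false
open Cfsg

namespace Cfsg.Agent.S0106

open Cfsg.Agent.H1
open scoped commutatorElement

theorem uniqInv_of_injective {A B : Type*} [Group A] [Group B] (f : A →* B)
    (hf : Function.Injective f) (h : H3.UniqInv B) : H3.UniqInv A := fun a b ha hb hc =>
  hf (h _ _ (by rwa [orderOf_injective f hf]) (by rwa [orderOf_injective f hf]) (hc.map f))

/-- A finite group with generalized quaternion Sylow 2-subgroups either has a normal 2-complement or has a section isomorphic to SL(2,3). -/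
theorem result {G : Type*} [Group G] [Finite G] (T : Sylow 2 G) (n : ℕ) (hn : 1 ≤ n) (hT : Nonempty ((T : Subgroup G) ≃* QuaternionGroup (2 ^ n))) : Cfsg.HasNormalPComplement 2 G ∨ ∃ (H K : Subgroup G) (hK : (K.subgroupOf H).Normal), Nonempty ((H ⧸ K.subgroupOf H) ≃* Matrix.SpecialLinearGroup (Fin 2) (ZMod 3)) := by
  obtain ⟨e⟩ := hT
  rw [or_iff_not_imp_left]
  intro h
  obtain ⟨D, -, hD, q, hq, hq2, g, -, ⟨k, hk⟩, hgN, hgC⟩ := exists_of_not_hasNormalPComplement
    (mt hasNormalPComplement_top_iff.1 h)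
  obtain ⟨x, -, hx⟩ := (sylow_isSylowIn_top T).exists_cj_le hD le_top
  have hu : H3.UniqInv D := uniqInv_of_injective
    (e.toMonoidHom.comp ((Subgroup.inclusion hx).comp
      (D.equivMapOfInjective _ (MulAut.conj x).injective).toMonoidHom))
    (e.injective.comp ((Subgroup.inclusion_injective hx).comp
      (D.equivMapOfInjective _ (MulAut.conj x).injective).injective)) (uniqInv_quaternion _)
  obtain ⟨K, R, hR, -, he⟩ := ((sec_SL23_of_uniqInv hD hu
    (((hq.odd_of_ne_two hq2).pow (n := k)).of_dvd_nat (orderOf_dvd_of_pow_eq_one hk))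
    hgN hgC).2.trans (H9.Sec.subgroup _)).exists_equiv
  exact ⟨K, R, hR, he⟩

end Cfsg.Agent.S0106
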