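import Cfsg.Statements.S0107
import Cfsg.Agent.H1.ThompsonTransfer
import Mathlib.GroupTheory.SpecificGroups.Dihedral

set_option autoImplicit false
open Cfsg

namespace Cfsg.Agent.S0107

open Cfsg.Agent.H1
open scoped commutatorElement

/-- A finite group with no nontrivial 2-group quotient and dihedral Sylow 2-subgroups of order at least 8 has a single class of involutions. -/
theorem result {G : Type*} [Group G] [Finite G] (T : Sylow 2 G) (n : ℕ) (hn : 2 ≤ n) (hT : Nonempty ((T : Subgroup G) ≃* DihedralGroup (2 ^ n))) (hO : Cfsg.pResidual 2 G = ⊤) (x y : G) (hx : orderOf x = 2) (hy : orderOf y = 2) : ∃ g : G, g * x * g⁻¹ = y := by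
  obtain ⟨e⟩ := hT
  set c : G := (e.symm (DihedralGroup.r 1)).1 with hc
  have hcT : Subgroup.zpowers c ≤ T := Subgroup.zpowers_le.2 (e.symm _).2
  have hoc : orderOf c = 2 ^ n := by
    rw [hc, Subgroup.orderOf_coe, MulEquiv.orderOf_eq, DihedralGroup.orderOf_r_one]
  have hidx : (Subgroup.zpowers c).relIndex T = 2 := by
    have h1 := Subgroup.card_mul_index ((Subgroup.zpowers c).subgroupOf T)
    rw [Nat.card_congr (Subgroup.subgroupOfEquivOfLe hcT).toEquiv, Nat.card_zpowers, hoc,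
      Nat.card_congr e.toEquiv, DihedralGroup.nat_card, mul_comm 2] at h1
    exact Nat.eq_of_mul_eq_mul_left (by positivity) h1
  have key : ∀ x : G, orderOf x = 2 → ∃ g : G, g * x * g⁻¹ ∈ Subgroup.zpowers c := by
    intro x hx
    have hx2 : x ^ 2 = 1 := hx ▸ pow_orderOf_eq_one x
    obtain ⟨g, -, hg⟩ := (sylow_isSylowIn_top T).exists_cj_le
      (isPGroup_zpowers (p := 2) (k := 1) (x := x) (by simpa using hx2)) le_top
    have hgx := hg (conj_mem_cj (g := g) (Subgroup.mem_zpowers x))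
    by_cases h : g * x * g⁻¹ ∈ Subgroup.zpowers c
    · exact ⟨g, h⟩
    rcases thompson_transfer_index_two T.not_dvd_index hidx
      (y := g * x * g⁻¹) (by rw [conj_pow, hx2]; group) hgx h with ⟨M, hM, hM2, hxM⟩ | ⟨k, hk⟩
    · refine absurd (pResidual_le_of_isPGroup_quotient (p := 2) M ?_ (hO ▸ Subgroup.mem_top _)) hxM
      exact IsPGroup.of_card (n := 1) (by rw [← Subgroup.index_eq_card, hM2, pow_one])
    · exact ⟨k * g, by simpa [mul_assoc] using hk⟩
  obtain ⟨g, hg⟩ := key x hx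
  obtain ⟨k, hk⟩ := key y hy
  have aux : ∀ x g : G, orderOf x = 2 → (g * x * g⁻¹) ^ 2 = 1 ∧ g * x * g⁻¹ ≠ 1 := by
    intro x g hx
    refine ⟨by rw [conj_pow, ← hx, pow_orderOf_eq_one]; group, fun h => ?_⟩
    rw [conj_eq_one_iff.1 h, orderOf_one] at hx
    omega
  have := eq_of_sq_eq_one_of_isCyclic (A := Subgroup.zpowers c) (a := ⟨_, hg⟩) (b := ⟨_, hk⟩)
    (Subtype.ext (aux x g hx).1) (Subtype.ext (aux y k hy).1)
    (fun h => (aux x g hx).2 (congrArg Subtype.val h))
    (fun h => (aux y k hy).2 (congrArg Subtype.val h))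
  have h2 : g * x * g⁻¹ = k * y * k⁻¹ := congrArg Subtype.val this
  exact ⟨k⁻¹ * g, by
    calc k⁻¹ * g * x * (k⁻¹ * g)⁻¹ = k⁻¹ * (g * x * g⁻¹) * k := by group
      _ = y := by rw [h2]; group⟩

end Cfsg.Agent.S0107
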