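import Cfsg.Statements.S0109
import Cfsg.Agent.H1.ThompsonNC

set_option autoImplicit false
open Cfsg

namespace Cfsg.Agent.S0109

open Cfsg.Agent.H1
open scoped commutatorElement

/-- The Thompson factorization Theorem for solvable groups states that, with p odd (and abelian Sylow 2-subgroups when p = 3) and no nontrivial normal subgroup of order prime to p, every element of G is a product of an element normalizing J(P) and an element centralizing the elements of order dividing p in the centre of P. -/
theorem result {G : Type*} [Group G] [Finite G] {p : ℕ} [Fact p.Prime] (hp : p ≠ 2) (hs : Group.IsSolvable G) (h3 : p = 3 → ∀ T : Sylow 2 G, IsMulCommutative T) (hF : ∀ N : Subgroup G, N.Normal → Nat.Coprime (Nat.card N) p → N = ⊥) (P : Sylow p G) (g : G) : ∃ a ∈ Subgroup.normalizer (Cfsg.thompsonSubgroupOf p (P : Subgroup G) : Set G), ∃ c ∈ Subgroup.centralizer {x : G | x ∈ (P : Subgroup G) ∧ (∀ y ∈ (P : Subgroup G), x * y = y * x) ∧ x ^ p = 1}, g = a * c := by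
  rw [thompsonSubgroupOf_eq]
  refine thompson_factorization (nStable_of_not_sec hp (not_sec_SL2_of_solvable hp hs h3))
    (L.centralizer_pCore_le (L.isPSolvable_of_isSolvable p)
      (hF _ inferInstance (L.pPrimeCore_coprime p))) (sylow_isSylowIn_top P) ?_ ?_ g
  · exact fun y hy x hx => hx.2.1 y hy
  · exact fun y hy => hy.2.2

end Cfsg.Agent.S0109
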