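import Cfsg.Statements.S0110
import Cfsg.Agent.H2.Class2

set_option autoImplicit false
open Cfsg

namespace Cfsg.Agent.S0110

open Subgroup Cfsg.Agent.H2
open scoped commutatorElement Pointwise


/-- In a p-group G, an extraspecial subgroup E with [G, E] ≤ Z(E) satisfies G = E C_G(E). -/
theorem result {G : Type*} [Group G] [Finite G] {p : ℕ} [Fact p.Prime] (hG : IsPGroup p G) (E : Subgroup G) (hE : Cfsg.IsExtraspecial p E) (h : ⁅(⊤ : Subgroup G), E⁆ ≤ E ⊓ Subgroup.centralizer (E : Set G)) : E ⊔ Subgroup.centralizer (E : Set G) = ⊤ := by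
  have hZ : Nat.card (E ⊓ centralizer (E : Set G) : Subgroup G) = p := by
    rw [← hE.2, ← card_subtype]
    congr 2
    ext x
    constructor
    · intro hx
      exact ⟨⟨x, (mem_inf.mp hx).1⟩, mem_center_iff.mpr fun g =>
        Subtype.ext ((mem_inf.mp hx).2 g g.2), rfl⟩
    · rintro ⟨y, hy, rfl⟩
      exact mem_inf.mpr ⟨y.2, fun g hg => congrArg Subtype.val (mem_center_iff.mp hy ⟨g, hg⟩)⟩
  have hn : E.Normal := commutator_top_left_le_iff.mp (h.trans inf_le_left)
  have h1 := relIndex_centralizer_le_relIndex (K := ⊤) hZ.le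
    (le_centralizer_iff.mp ((le_center_of_card_eq_prime hG hZ).trans (center_le_centralizer _)))
    (hG.to_subgroup E) inf_le_left h
  rw [relIndex_top_right, inf_relIndex_left, ← relIndex_sup_right,
    ← relIndex_mul_index (le_sup_right : centralizer (E : Set G) ≤ E ⊔ centralizer (E : Set G))] at h1
  have h2 := relIndex_ne_zero' (centralizer (E : Set G)) (E ⊔ centralizer (E : Set G))
  have h3 : (E ⊔ centralizer (E : Set G)).index ≠ 0 := index_ne_zero_of_finite
  rw [← index_eq_one]
  by_contra h4
  have : 2 ≤ (E ⊔ centralizer (E : Set G)).index := by omega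
  have h5 := Nat.pos_of_ne_zero h2
  nlinarith

end Cfsg.Agent.S0110
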