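import Cfsg.Statements.S0112
import Cfsg.Agent.H2.MaxClass
import Cfsg.Agent.H2.Omega

set_option autoImplicit false
open Cfsg

namespace Cfsg.Agent.S0112

open Subgroup Cfsg.Agent.H2
open scoped commutatorElement Pointwise


/-- A p-group with a self-centralizing subgroup of order p^2 is of maximal class. -/
theorem result {X : Type*} [Group X] [Finite X] {p : ℕ} [Fact p.Prime] (n : ℕ) (hX : Nat.card X = p ^ n) (A : Subgroup X) (hA : Nat.card A = p ^ 2) (hC : Subgroup.centralizer (A : Set X) = A) : Group.nilpotencyClass X = n - 1 := by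
  have hp : p.Prime := Fact.out
  have hG : IsPGroup p X := IsPGroup.of_card hX
  have hn : 2 ≤ n := by
    have := A.card_subgroup_dvd_card
    rw [hA, hX] at this
    exact (Nat.pow_dvd_pow_iff_le_right hp.one_lt).mp this
  obtain ⟨n, rfl⟩ := Nat.exists_eq_add_of_le' hn
  have : Nontrivial X := by
    rw [← Finite.one_lt_card_iff_nontrivial, hX]; exact Nat.one_lt_pow (by omega) hp.one_lt
  have hZ : center X ≤ A := hC ▸ center_le_centralizer _
  by_cases h : A ≤ center X
  · refine nilpotencyClass_eq_of_card_centralizer_le n X hX 1 ?_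
    rw [← hA, ← hC]
    exact card_le_of_le fun x _ a ha => (mem_center_iff.mp (h ha) x).symm
  · obtain ⟨a, ha, ha'⟩ := SetLike.not_le_iff_exists.mp h
    refine nilpotencyClass_eq_of_card_centralizer_le n X hX a ?_
    obtain ⟨Z, _, hZ1, hZ2⟩ := exists_normal_le_card_eq_pow hG (center X) (k := 1) (by
      simpa using mul_card_le_of_lt (hG.to_subgroup _) (bot_lt_iff_ne_bot.mpr (center_ne_bot' hG)))
    have h1 : Z ⊔ zpowers a = A := by
      refine (eq_or_eq_of_card_eq_mul_prime (p := p) le_sup_left
        (sup_le (hZ1.trans hZ) (zpowers_le.mpr ha)) (by rw [hA, hZ2]; ring)).resolve_left fun h => ?_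
      exact ha' (hZ1 (h.le (mem_sup_right (mem_zpowers a))))
    rw [← hA, ← hC, ← h1, centralizer_sup_zpowers]
    exact card_le_of_le (le_inf (fun x _ z hz => (mem_center_iff.mp (hZ1 hz) x).symm) le_rfl)

end Cfsg.Agent.S0112
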