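import Cfsg.Statements.S0114
import Cfsg.Agent.H2.MaxClass

set_option autoImplicit false
open Cfsg

namespace Cfsg.Agent.S0114

open Subgroup Cfsg.Agent.H2
open scoped commutatorElement Pointwise


/-- The central quotient of a 2-group of maximal class is dihedral. -/
theorem result {X : Type*} [Group X] [Finite X] (n : ℕ) (hn : 3 ≤ n) (hX : Nat.card X = 2 ^ n) (hc : Group.nilpotencyClass X = n - 1) : Nonempty (X ⧸ Subgroup.center X ≃* DihedralGroup (2 ^ (n - 2))) := by
  obtain ⟨k, rfl⟩ := Nat.exists_eq_add_of_le' hn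
  obtain ⟨c, t, h⟩ := exists_maxCl_of_index_commutator hX
    (index_commutator_eq_of_nilpotencyClass hX hc)
  exact h.nonempty_quotient_center_equiv

end Cfsg.Agent.S0114
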