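import Cfsg.Statements.S0115
import Cfsg.Agent.H2.MaxClass

set_option autoImplicit false
open Cfsg

namespace Cfsg.Agent.S0115

open Subgroup Cfsg.Agent.H2
open scoped commutatorElement Pointwise


/-- A 2-group of order 2^n, n ≥ 3, is of maximal class exactly when its commutator quotient is a Klein four-group. -/
theorem result {X : Type*} [Group X] [Finite X] (n : ℕ) (hn : 3 ≤ n) (hX : Nat.card X = 2 ^ n) : Group.nilpotencyClass X = n - 1 ↔ IsKleinFour (X ⧸ commutator X) := by
  obtain ⟨k, rfl⟩ := Nat.exists_eq_add_of_le' hn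
  have hG : IsPGroup 2 X := IsPGroup.of_card hX
  have := hG.isNilpotent
  constructor
  · intro hc
    have h1 : Nat.card (X ⧸ commutator X) = 2 ^ 2 := index_commutator_eq_of_nilpotencyClass hX hc
    refine ⟨h1, (not_isCyclic_iff_exponent_eq_prime Nat.prime_two h1).mp fun h => ?_⟩
    have := Group.IsNilpotent.nilpotencyClass_le_one_iff.mpr
      (isCyclic_of_isCyclic_quotient_commutator h).isMulCommutative
    omega
  · intro h
    obtain ⟨c, t, h⟩ := exists_maxCl_of_index_commutator hX h.card_four
    exact h.nilpotencyClass_eq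

end Cfsg.Agent.S0115
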