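import Cfsg.Statements.S0116
import Cfsg.Agent.H1.Alperin

set_option autoImplicit false
open Cfsg

namespace Cfsg.Agent.S0116

open Cfsg.Agent.H1

/-- The Alperin fusion Theorem states that conjugation between subsets of a Sylow p-subgroup P factors through normalizers of tame intersections P ∩ Q_i with other Sylow p-subgroups, carrying the subset along step by step. -/
theorem result {G : Type*} [Group G] [Finite G] {p : ℕ} [Fact p.Prime] (P : Sylow p G) (A : Set G) (g : G) (hA : A ⊆ (P : Set G)) (hAg : (fun a => g⁻¹ * a * g) '' A ⊆ (P : Set G)) : ∃ (n : ℕ) (Q : Fin n → Sylow p G) (x : Fin n → G), (List.ofFn x).prod = g ∧ (∀ i : Fin n, x i ∈ Subgroup.normalizer ((((P : Subgroup G) ⊓ (Q i : Subgroup G)) : Subgroup G) : Set G) ∧ ¬ p ∣ ((P : Subgroup G) ⊓ Subgroup.normalizer ((((P : Subgroup G) ⊓ (Q i : Subgroup G)) : Subgroup G) : Set G)).relIndex (Subgroup.normalizer ((((P : Subgroup G) ⊓ (Q i : Subgroup G)) : Subgroup G) : Set G))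 ∧ ¬ p ∣ ((Q i : Subgroup G) ⊓ Subgroup.normalizer ((((P : Subgroup G) ⊓ (Q i : Subgroup G)) : Subgroup G) : Set G)).relIndex (Subgroup.normalizer ((((P : Subgroup G) ⊓ (Q i : Subgroup G)) : Subgroup G) : Set G))) ∧ (∀ h : 0 < n, A ⊆ (((P : Subgroup G) ⊓ (Q ⟨0, h⟩ : Subgroup G) : Subgroup G) : Set G)) ∧ ∀ i : Fin n, ∀ h : i.val + 1 < n, (fun a => (((List.ofFn x).take (i.val + 1)).prod)⁻¹ * a * ((List.ofFn x).take (i.val + 1)).prod) '' A ⊆ (((P : Subgroup G) ⊓ (Q ⟨i.val + 1, h⟩ : Subgroup G) : Subgroup G) : Set G) := by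
  have hA' : Subgroup.closure A ≤ (P : Subgroup G) := (Subgroup.closure_le _).mpr hA
  have hg' : cj g⁻¹ (Subgroup.closure A) ≤ (P : Subgroup G) := by
    rw [cj_le_iff_le_cj_inv, Subgroup.closure_le]
    intro a ha
    rw [SetLike.mem_coe, inv_inv, mem_cj]
    exact hAg ⟨a, ha, rfl⟩
  obtain ⟨n, T, x, h1, h2, h3⟩ := (alperin_tame P hA' hg').exists_fin
  choose Q hQ using h2
  refine ⟨n, Q, x, h1, fun i => ?_, fun h a ha => ?_, fun i h => ?_⟩
  · obtain ⟨h2, h3, h4, h5, h6⟩ := hQ i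
    rw [← h2]
    exact ⟨h3, h4.not_dvd, h5.not_dvd⟩
  · have := h3 ⟨0, h⟩
    simp only [List.take_zero, List.prod_nil, inv_one, cj_one] at this
    rw [← (hQ _).1]
    exact this (Subgroup.subset_closure ha)
  · rintro _ ⟨a, ha, rfl⟩
    rw [← (hQ _).1]
    have := h3 ⟨i.val + 1, h⟩ (conj_mem_cj (Subgroup.subset_closure ha))
    rw [inv_inv] at this
    exact this

end Cfsg.Agent.S0116
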