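import Cfsg.Statements.S0121
import Cfsg.Agent.H2.Class2

set_option autoImplicit false
open Cfsg

namespace Cfsg.Agent.S0121

open Subgroup Cfsg.Agent.H2
open scoped commutatorElement Pointwise


/-- A p'-automorphism of a p-group acting trivially on a critical subgroup is trivial. -/
theorem result {G : Type*} [Group G] [Finite G] {p : ℕ} [Fact p.Prime] (hG : IsPGroup p G) (H : Subgroup G) (hH : H.Characteristic) (h1 : (frattini H).map H.subtype ≤ Subgroup.centralizer (H : Set G)) (h2 : ⁅H, (⊤ : Subgroup G)⁆ ≤ H ⊓ Subgroup.centralizer (H : Set G)) (h3 : Subgroup.centralizer (H : Set G) ≤ H) (a : MulAut G) (ha : Nat.Coprime (orderOf a) p) (h : ∀ x ∈ H, a x = x) : a = 1 := by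
  ext g
  have h4 : g⁻¹ * a g ∈ H := by
    apply h3
    intro x hx
    have := h _ ((inferInstance : H.Normal).conj_mem x hx g)
    rw [map_mul, map_mul, map_inv, h x hx] at this
    calc x * (g⁻¹ * a g) = g⁻¹ * (g * x * g⁻¹) * a g := by group
      _ = _ := by rw [← this]; group
  obtain ⟨k, hk⟩ := hG (g⁻¹ * a g)
  exact mulAut_apply_eq_of_coprime (pow_orderOf_eq_one a) (h _ h4) hk (ha.pow_right k)

end Cfsg.Agent.S0121
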