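import Cfsg.Statements.S0122
import Cfsg.Agent.H2.Rank

set_option autoImplicit false
open Cfsg

namespace Cfsg.Agent.S0122

open Subgroup Cfsg.Agent.H2
open scoped commutatorElement Pointwise

universe u

theorem aux {p : ℕ} [hp : Fact p.Prime] (hp2 : p ≠ 2) (n : ℕ) : ∀ (G : Type u) [Group G] [Finite G],
    Nat.card G ≤ n → IsPGroup p G → ∀ E : Subgroup G, IsElementaryAbelian p E →
    Nat.card E = p ^ 4 →
    ∃ A : Subgroup G, A.Normal ∧ IsElementaryAbelian p A ∧ Nat.card A = p ^ 4 := by
  induction n with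
  | zero => intro G _ _ h; exact absurd h (Nat.not_le.mpr Nat.card_pos)
  | succ n ih =>
    intro G _ _ hn hG E₀ hE₀ hE₀4
    have h1p := hp.out.one_lt
    rcases eq_top_or_exists_le_coatom E₀ with rfl | ⟨M, hM, hEM⟩
    · exact ⟨⊤, inferInstance, hE₀, hE₀4⟩
    have hMn := isCoatom_normal hG hM
    obtain ⟨E', hE'n, hE', hE'4⟩ := ih M (by
      have := card_lt_of_lt hM.lt_top
      rw [card_top] at this
      omega) (hG.to_subgroup M) (E₀.subgroupOf M)
      ⟨(haveI := hE₀.1; inferInstance), fun a ha => Subtype.ext (hE₀.2 a ha)⟩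
      (by rw [Nat.card_congr (subgroupOfEquivOfLe hEM).toEquiv, hE₀4])
    set E := E'.map M.subtype with hE
    have hEc : IsMulCommutative E := haveI := hE'.1; inferInstance
    have hEp : ∀ a ∈ E, a ^ p = 1 := by
      rintro _ ⟨a, ha, rfl⟩
      exact congrArg Subtype.val (hE'.2 a ha)
    have hE4 : Nat.card E = p ^ 4 := by rw [hE, card_map_of_injective M.subtype_injective, hE'4]
    have hEM : E ≤ M := map_subtype_le _
    have hME : M ≤ normalizer (E : Set G) := by
      apply le_normalizer_of_conj_mem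
      rintro a ha _ ⟨x, hx, rfl⟩
      exact mem_map_of_mem _ (hE'n.conj_mem x hx ⟨a, ha⟩)
    obtain ⟨A, hAn, hAc, hAp, -, hA⟩ := exists_elementary_normal_omega hG hp2 ⊥ inferInstance
      (by simp)
    by_cases hA4 : p ^ 4 ≤ Nat.card A
    · obtain ⟨L, h1, h2, h3⟩ := exists_normal_le_card_eq_pow hG A hA4
      exact ⟨L, h1, ⟨isMulCommutative_of_le h2 hAc, fun a ha => hAp a (h2 ha)⟩, h3⟩
    set C := centralizer (A : Set G) with hC
    have hCE : C ⊓ E ≤ A := fun x hx => hA x (mem_inf.mp hx).1 (hEp x (mem_inf.mp hx).2)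
    have h1 := card_inf_mul_relIndex C E
    obtain ⟨k, hk⟩ := IsPGroup.iff_card.mp (hG.to_subgroup A)
    have hk3 : k ≤ 3 := by
      rw [hk, Nat.pow_le_pow_iff_right h1p] at hA4; omega
    have h2 := relIndex_centralizer_le_pow_choose (P := ⊤) (hG.to_subgroup ⊤) le_top
      le_normalizer_of_normal hk
    rw [← hC] at h2
    have hA3 : Nat.card A = p ^ 3 := by
      by_contra hcon
      have hk2 : k ≤ 2 := by
        by_contra h
        exact hcon (by rw [hk, show k = 3 by omega])
      have h3 : C.relIndex E ≤ p ^ 1 := (relIndex_le_of_le_right le_top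
        (relIndex_ne_zero' _ _)).trans (h2.trans (Nat.pow_le_pow_right hp.out.pos
          (Nat.choose_le_choose 2 hk2)))
      have h4 := Nat.mul_le_mul ((card_le_of_le hCE).trans (hk.le.trans
        (Nat.pow_le_pow_right hp.out.pos hk2))) h3
      rw [h1, hE4, ← pow_add, Nat.pow_le_pow_iff_right h1p] at h4
      omega
    have h3 : Nat.card (C ⊓ E : Subgroup G) ≤ p ^ 2 := by
      have : C ⊓ E < A := lt_of_le_of_ne hCE fun h => hA4 (by
        rw [← hE4]
        refine card_le_of_le fun x hx => hA x ?_ (hEp x hx)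
        exact fun a ha => setLike_mul_comm (mem_inf.mp (h.ge ha)).2 hx)
      have := mul_card_le_of_lt (hG.to_subgroup A) this
      rw [hA3, pow_succ] at this
      exact Nat.le_of_mul_le_mul_right this hp.out.pos
    have h4 : C.relIndex E ≤ p ^ 2 := relIndex_centralizer_le_sq hG hA3 hEc
    have h5 : p ^ 2 ≤ C.relIndex E := by
      have := Nat.mul_le_mul_right (C.relIndex E) h3
      rw [h1, hE4, show 4 = 2 + 2 from rfl, pow_add] at this
      exact Nat.le_of_mul_le_mul_left this (Nat.pow_pos hp.out.pos)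
    have h6 : p ^ 2 ≤ Nat.card (C ⊓ E : Subgroup G) := by
      have := Nat.mul_le_mul_left (Nat.card (C ⊓ E : Subgroup G)) h4
      rw [h1, hE4, show 4 = 2 + 2 from rfl, pow_add] at this
      exact Nat.le_of_mul_le_mul_right this (Nat.pow_pos hp.out.pos)
    have h7 : (E ⊔ C).Normal := by
      obtain ⟨j, hj⟩ := hG.index (E ⊔ C)
      have e1 := relIndex_mul_index (le_sup_right : C ≤ E ⊔ C)
      rw [relIndex_sup_of_le_normalizer le_normalizer_of_normal, hj] at e1
      rw [relIndex_top_right, ← e1] at h2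
      have e2 := (Nat.mul_le_mul_right _ h5).trans (h2.trans (Nat.pow_le_pow_right hp.out.pos
          (Nat.choose_le_choose 2 hk3)))
      rw [← pow_add, Nat.pow_le_pow_iff_right h1p] at e2
      have : j = 0 ∨ j = 1 := by simp at e2; omega
      rcases this with rfl | rfl
      · rw [index_eq_one.mp hj]; infer_instance
      · exact normal_of_index_eq_prime hG (hj.trans (pow_one p))
    refine ⟨E, normalizer_eq_top_iff.mp (eq_top_iff.mpr fun g _ => conj_smul_eq_iff.mp ?_),
      ⟨hEc, hEp⟩, hE4⟩
    set F := MulAut.conj g • E with hF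
    have hFmem : ∀ x ∈ F, ∃ e ∈ E, x = g * e * g⁻¹ := by
      rintro _ ⟨e, he, rfl⟩; exact ⟨e, he, rfl⟩
    have hF4 : Nat.card F = p ^ 4 := by rw [hF, card_conj_smul, hE4]
    have hFM : F ≤ M := fun x hx => by
      obtain ⟨e, he, rfl⟩ := hFmem x hx
      exact hMn.conj_mem e (hEM he) g
    have hMF : M ≤ normalizer (F : Set G) := by
      apply le_normalizer_of_conj_mem
      intro a ha x hx
      obtain ⟨e, he, rfl⟩ := hFmem x hx
      refine ⟨_, conj_mem_of_le_normalizer hME (hMn.conj_mem' a ha g) he, ?_⟩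
      simp only [MulAut.smul_def, MulDistribMulAction.toMonoidEnd_apply,
        MulDistribMulAction.toMonoidHom_apply, MulAut.conj_apply]
      group
    have hFc : ∀ x ∈ F, ∀ y ∈ F, x * y = y * x := by
      intro x hx y hy
      obtain ⟨e, he, rfl⟩ := hFmem x hx
      obtain ⟨e', he', rfl⟩ := hFmem y hy
      rw [conj_mul, conj_mul, setLike_mul_comm he he']
    have hFEA : F ≤ E ⊔ A := by
      intro x hx
      obtain ⟨e, he, rfl⟩ := hFmem x hx
      obtain ⟨a, ha, c, hc, h⟩ := (mem_sup_of_le_normalizer le_normalizer_of_normal).mp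
        (h7.conj_mem e (mem_sup_left he) g)
      rw [← h]
      refine mul_mem (mem_sup_left ha) (mem_sup_right (hA c hc ?_))
      have e1 : ⁅g * e * g⁻¹, a⁻¹⁆ ∈ E := le_normalizer_iff_commutator_le_right.mp (hFM.trans hME)
        (commutator_mem_commutator hx (inv_mem ha))
      have e2 : ⁅g * e * g⁻¹, a⁻¹⁆ ∈ F := commutator_le_left_of_le_normalizer (hEM.trans hMF)
        (commutator_mem_commutator hx (inv_mem ha))
      rw [eq_inv_mul_of_mul_eq h]
      exact mul_pow_eq_one_of_odd (setLike_mul_comm (inv_mem ha) e1) (hFc _ hx _ e2)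
        (hp.out.odd_of_ne_two hp2) (hEp _ (inv_mem ha))
        (by rw [conj_pow, hEp e he, mul_one, mul_inv_cancel])
    have h8 : Nat.card (E ⊔ A : Subgroup G) = Nat.card E * p := by
      have e1 := card_sup_mul_card_inf (H := E) (K := A) le_normalizer_of_normal
      have e2 : E ⊓ A = C ⊓ E := le_antisymm (le_inf (inf_le_right.trans (le_centralizer A))
        inf_le_left) (le_inf inf_le_right hCE)
      rw [e2, le_antisymm h3 h6, hA3, pow_succ' p 2, ← mul_assoc] at e1
      exact Nat.eq_of_mul_eq_mul_right (Nat.pow_pos hp.out.pos) e1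
    rcases eq_or_eq_of_card_eq_mul_prime (X := E ⊔ F) le_sup_left (sup_le le_sup_left hFEA) h8
      with h | h
    · exact eq_of_le_of_card_ge (le_sup_right.trans h.le) (by rw [hE4, hF4])
    · exfalso
      have e1 := card_sup_mul_card_inf (hEM.trans hMF)
      have e2 : E ⊓ F ≤ C ⊓ E := by
        refine le_inf (le_centralizer_iff.mp (le_sup_right.trans (h.ge.trans (sup_le ?_ ?_))))
          inf_le_left
        · exact fun x hx y hy => setLike_mul_comm (mem_inf.mp hy).1 hx
        · exact fun x hx y hy => hFc y (mem_inf.mp hy).2 x hx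
      have e3 := Nat.mul_le_mul_left (Nat.card (E ⊔ F : Subgroup G)) ((card_le_of_le e2).trans h3)
      rw [e1, h, h8, hE4, hF4, ← pow_succ, ← pow_add, ← pow_add,
        Nat.pow_le_pow_iff_right h1p] at e3
      omega

/-- For odd p, a p-group containing an elementary abelian subgroup of order p^4 has a normal elementary abelian subgroup of order p^4. -/
theorem result {G : Type*} [Group G] [Finite G] {p : ℕ} [Fact p.Prime] (hp : p ≠ 2) (hG : IsPGroup p G) (E : Subgroup G) (hE : Cfsg.IsElementaryAbelian p E) (hE4 : Nat.card E = p ^ 4) : ∃ A : Subgroup G, A.Normal ∧ Cfsg.IsElementaryAbelian p A ∧ Nat.card A = p ^ 4 := by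
  exact aux hp _ G le_rfl hG E hE hE4

end Cfsg.Agent.S0122
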