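import Cfsg.Statements.S0123
import Cfsg.Agent.H2.Class2

set_option autoImplicit false
open Cfsg

namespace Cfsg.Agent.S0123

open Subgroup Cfsg.Agent.H2
open scoped commutatorElement Pointwise


/-- For a p-group of small class relative to p (class ≤ 2 with p odd, or class ≤ 3 with p > 3) whose derived subgroup is generated by elements of order dividing p, the p-th power map is multiplicative. -/
theorem result {R : Type*} [Group R] [Finite R] {p : ℕ} [Fact p.Prime] (hR : IsPGroup p R) (hcl : (p ≠ 2 ∧ ⁅commutator R, (⊤ : Subgroup R)⁆ = ⊥) ∨ (3 < p ∧ ⁅⁅commutator R, (⊤ : Subgroup R)⁆, (⊤ : Subgroup R)⁆ = ⊥)) (hder : commutator R ≤ Subgroup.closure {x : R | x ^ p = 1}) (x y : R) : (x * y) ^ p = x ^ p * y ^ p := by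
  rcases hcl with ⟨hp, h2⟩ | ⟨hp, h3⟩
  · have hc : commutator R ≤ center R := commutator_top_right_eq_bot_iff_le_center.mp h2
    have ho := (Fact.out : p.Prime).odd_of_ne_two hp
    refine mul_pow_eq_of_odd (commute_commutator_of_le_center hc _ _ _)
      (commute_commutator_of_le_center hc _ _ _) ho ?_
    exact pow_eq_one_of_mem_closure (fun x y hx hy => mul_pow_eq_one_of_odd
      (commute_commutator_of_le_center hc _ _ _) (commute_commutator_of_le_center hc _ _ _)
      ho hx hy) (hder (commutator_mem_commutator trivial trivial))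
  · refine mul_pow_eq_of_class_three (H := ⊤) h3 Fact.out hp trivial trivial fun z hz => ?_
    exact pow_eq_one_of_mem_closure (fun x y hx hy => mul_pow_eq_one_of_class_three (H := ⊤) h3
      Fact.out hp trivial trivial hx hy) (hder hz)

end Cfsg.Agent.S0123
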