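import Cfsg.Statements.S0125
import Cfsg.Agent.H2.Omega

set_option autoImplicit false
open Cfsg

namespace Cfsg.Agent.S0125

open Subgroup Cfsg.Agent.H2
open scoped commutatorElement Pointwise


/-- The centralizer of a self-centralizing normal subgroup A of a Sylow p-subgroup is the direct product of A with a normal p'-subgroup. -/
theorem result {G : Type*} [Group G] [Finite G] {p : ℕ} [Fact p.Prime] (R : Sylow p G) (A : Subgroup G) (hAR : A ≤ (R : Subgroup G)) (hAn : (R : Subgroup G) ≤ Subgroup.normalizer (A : Set G)) (hC : (R : Subgroup G) ⊓ Subgroup.centralizer (A : Set G) = A) : ∃ H : Subgroup G, H ≤ Subgroup.centralizer (A : Set G) ∧ Nat.Coprime (Nat.card H) p ∧ Subgroup.centralizer (A : Set G) ≤ Subgroup.normalizer (H : Set G) ∧ H ⊓ A = ⊥ ∧ H ⊔ A = Subgroup.centralizer (A : Set G) := by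
  have hp : p.Prime := Fact.out
  set C : Subgroup G := centralizer (A : Set G) with hCdef
  have hAC : A ≤ C := hC.ge.trans inf_le_right
  have hA : IsPGroup p A := R.isPGroup'.to_le hAR
  have h1 : ¬ p ∣ A.relIndex C := by
    have hCN : C ≤ normalizer (A : Set G) := centralizer_le_normalizer _
    have hRC : (R : Subgroup G) ≤ normalizer (C : Set G) := le_normalizer_centralizer hAn
    intro h
    apply R.not_dvd_index
    have h2 : A.relIndex C = (R : Subgroup G).relIndex ((R : Subgroup G) ⊔ C) := by
      have e1 := card_sup_mul_card_inf hRC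
      have e2 := card_mul_relIndex hAC
      have e3 := card_mul_relIndex (le_sup_left : (R : Subgroup G) ≤ (R : Subgroup G) ⊔ C)
      rw [hC, ← e3, ← e2, mul_assoc] at e1
      have e4 := Nat.eq_of_mul_eq_mul_left Nat.card_pos e1
      rw [mul_comm] at e4
      exact (Nat.eq_of_mul_eq_mul_left Nat.card_pos e4).symm
    exact (h2 ▸ h).trans (relIndex_dvd_index_of_le le_sup_left)
  obtain ⟨k, hk⟩ := IsPGroup.iff_card.mp hA
  obtain ⟨H, hHC, hHA, hH, hHc⟩ := exists_complement_inf (H := C) (N := A)
    (centralizer_le_normalizer _) (by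
      rw [inf_eq_left.mpr hAC, hk]
      exact ((Nat.Prime.coprime_iff_not_dvd hp).mpr h1).pow_left k)
  rw [inf_eq_left.mpr hAC] at hH
  refine ⟨H, hHC, ?_, ?_, hHA, hH⟩
  · rw [hHc]
    exact ((Nat.Prime.coprime_iff_not_dvd hp).mpr h1).symm
  · rw [← hH]
    exact sup_le le_normalizer (le_normalizer_of_le_centralizer (le_centralizer_iff.mp hHC))

end Cfsg.Agent.S0125
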