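import Cfsg.Statements.S0127
import Cfsg.Agent.H2.Omega

set_option autoImplicit false
open Cfsg

namespace Cfsg.Agent.S0127

open Subgroup Cfsg.Agent.H2
open scoped commutatorElement Pointwise


/-- For odd p, in a non-cyclic p-group with a cyclic subgroup of index p, the elements of order dividing p generate an elementary abelian subgroup of order p^2. -/
theorem result {R : Type*} [Group R] [Finite R] {p : ℕ} [Fact p.Prime] (hp : p ≠ 2) (hR : IsPGroup p R) (hnc : ¬ IsCyclic R) (C : Subgroup R) (hC : IsCyclic C) (hCi : C.index = p) : Cfsg.IsElementaryAbelian p (Subgroup.closure {x : R | x ^ p = 1}) ∧ Nat.card (Subgroup.closure {x : R | x ^ p = 1}) = p ^ 2 := by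
  have hpp : p.Prime := Fact.out
  have ho := hpp.odd_of_ne_two hp
  obtain ⟨A, hAn, hA, hAe, hAc⟩ := exists_normal_elementary_sq hp R hR hnc
  have hCn := normal_of_index_eq_prime hR hCi
  have hCa := isCoatom_of_index_eq_prime hCi
  have hom : ∀ B : Subgroup R, (∀ b ∈ B, b ^ p = 1) → Nat.card (C ⊓ B : Subgroup R) ≤ p := by
    intro B hB
    have : IsCyclic (C ⊓ B : Subgroup R) := isCyclic_of_le inf_le_left
    rw [← IsCyclic.exponent_eq_card]
    exact Nat.le_of_dvd hpp.pos (Monoid.exponent_dvd_of_forall_pow_eq_one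
      fun x => Subtype.ext (hB x (mem_inf.mp x.2).2))
  have hrel : ∀ B : Subgroup R, C.relIndex B ≤ p := fun B =>
    hCi ▸ Nat.le_of_dvd (Nat.pos_of_ne_zero index_ne_zero_of_finite)
      (relIndex_dvd_index_of_normal C B)
  have hAC : ¬ A ≤ C := fun h => by
    have := hom A hAe
    rw [inf_eq_right.mpr h, hAc] at this
    have := hpp.one_lt
    nlinarith
  have h1 : A ⊔ C = ⊤ := hCa.2 _ (lt_of_le_of_ne le_sup_right fun h => hAC (h ▸ le_sup_left))
  have h2 : commutator R ≤ C ⊓ A := le_inf (commutator_le_of_isCoatom hR hCa)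
    (Normal.commutator_le_of_self_sup_commutative_eq_top h1 inferInstance)
  have h3 : Nat.card (C ⊓ A : Subgroup R) = p := by
    refine le_antisymm (hom A hAe) ?_
    have h4 := card_inf_mul_relIndex C A
    rw [hAc] at h4
    refine Nat.le_of_mul_le_mul_right ?_ hpp.pos
    rw [← pow_two, ← h4]
    exact Nat.mul_le_mul_left _ (hrel A)
  have hc := commute_commutator_of_le_center (h2.trans (le_center_of_card_eq_prime hR h3))
  have h4 : ∀ g ∈ closure {x : R | x ^ p = 1}, g ^ p = 1 := fun g hg =>
    pow_eq_one_of_mem_closure (fun x y hx hy => mul_pow_eq_one_of_odd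
      (hc _ _ _) (hc _ _ _) ho hx hy) hg
  have h5 : A = closure {x : R | x ^ p = 1} := by
    refine eq_of_le_of_card_ge (fun x hx => subset_closure (hAe x hx)) ?_
    rw [← card_inf_mul_relIndex C, hAc, pow_two]
    exact Nat.mul_le_mul (hom _ h4) (hrel _)
  rw [← h5]
  exact ⟨⟨hA, hAe⟩, hAc⟩

end Cfsg.Agent.S0127
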