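import Cfsg.Statements.S0131
import Cfsg.Agent.H1.Transfer

set_option autoImplicit false
open Cfsg

namespace Cfsg.Agent.S0131

open Cfsg.Agent.H1
open scoped commutatorElement

/-- P/P' has a normal complement in G exactly when the focal subgroup G' ∩ P is as small as possible, namely P'. -/
theorem result {G : Type*} [Group G] [Finite G] {p : ℕ} [Fact p.Prime] (P : Sylow p G) : (∃ N : Subgroup G, N.Normal ∧ N ⊓ (P : Subgroup G) = ⁅(P : Subgroup G), (P : Subgroup G)⁆ ∧ N ⊔ (P : Subgroup G) = ⊤) ↔ commutator G ⊓ (P : Subgroup G) = ⁅(P : Subgroup G), (P : Subgroup G)⁆ := by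
  constructor
  · rintro ⟨N, hN, h1, h2⟩
    refine le_antisymm (h1 ▸ inf_le_inf_right _ ?_)
      (le_inf (Subgroup.commutator_mono le_top le_top) (Subgroup.commutator_le_self _))
    rw [← Subgroup.Normal.quotient_commutative_iff_commutator_le]
    refine ⟨⟨fun a b => ?_⟩⟩
    obtain ⟨a, rfl⟩ := QuotientGroup.mk_surjective a
    obtain ⟨b, rfl⟩ := QuotientGroup.mk_surjective b
    obtain ⟨n, hn, x, hx, rfl⟩ := mem_normal_sup_iff.mp (h2 ▸ Subgroup.mem_top a)
    obtain ⟨m, hm, y, hy, rfl⟩ := mem_normal_sup_iff.mp (h2 ▸ Subgroup.mem_top b)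
    simp only [QuotientGroup.mk_mul, (QuotientGroup.eq_one_iff n).mpr hn,
      (QuotientGroup.eq_one_iff m).mpr hm, one_mul]
    rw [← commutatorElement_eq_one_iff_mul_comm]
    have : ⁅x, y⁆ ∈ N := (h1 ▸ Subgroup.commutator_mem_commutator hx hy : _ ∈ N ⊓ (P : Subgroup G)).1
    exact (map_commutatorElement (QuotientGroup.mk' N) x y).symm.trans
      ((QuotientGroup.eq_one_iff _).mpr this)
  · intro h
    obtain ⟨h1, h2, h3⟩ := focal_of_coprime (P : Subgroup G)
      (P.card_coprime_index.symm.coprime_dvd_right (Subgroup.relIndex_dvd_card _ _))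
    exact ⟨_, inferInstance, h1.trans (h3.trans h), h2⟩

end Cfsg.Agent.S0131
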