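import Cfsg.Statements.S0132
import Cfsg.Agent.H1.Frobenius
import Cfsg.Agent.L.Core

set_option autoImplicit false
open Cfsg

namespace Cfsg.Agent.S0132

open Cfsg.Agent.H1
open scoped commutatorElement

/-- A minimal non-p-nilpotent finite group is a minimal non-nilpotent group with a normal Sylow p-subgroup. -/
theorem result {G : Type*} [Group G] [Finite G] {p : ℕ} [Fact p.Prime] (h1 : ¬ Cfsg.HasNormalPComplement p G) (h2 : ∀ H : Subgroup G, H ≠ ⊤ → Cfsg.HasNormalPComplement p H) : (∀ H : Subgroup G, H ≠ ⊤ → Group.IsNilpotent H) ∧ ¬ Group.IsNilpotent G ∧ ∀ P : Sylow p G, (P : Subgroup G).Normal := by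
  obtain ⟨D, -, hD, q, hq, hqp, g, -, ⟨k, hk⟩, hgN, hgC⟩ := exists_of_not_hasNormalPComplement
    (mt hasNormalPComplement_top_iff.1 h1)
  have := Fact.mk hq
  have hgp : (orderOf g).Coprime p := (((Nat.coprime_primes hq Fact.out).2 hqp).pow_left
    k).coprime_dvd_left (orderOf_dvd_of_pow_eq_one hk)
  have htop : D ⊔ Subgroup.zpowers g = ⊤ := by
    by_contra h
    exact hgC (mem_centralizer_of_hasNormalPComplement (h2 _ h) hD le_sup_left
      (mem_pResidualOf (Subgroup.mem_sup_right (Subgroup.mem_zpowers g)) hgp) hgN)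
  have hDn : D.Normal := Subgroup.normalizer_eq_top_iff.1 (eq_top_iff.2
    (htop ▸ sup_le Subgroup.le_normalizer (Subgroup.zpowers_le.2 hgN)))
  have hquot : IsPGroup q (G ⧸ D) := by
    intro x
    induction x using QuotientGroup.induction_on with | H x => ?_
    obtain ⟨c, hc, s, hs, rfl⟩ := mem_normal_sup_iff.1 (htop ▸ Subgroup.mem_top x : x ∈ D ⊔ _)
    obtain ⟨j, hj⟩ := isPGroup_iff_mem.1 (isPGroup_zpowers hk) s hs
    refine ⟨j, ?_⟩
    rw [QuotientGroup.mk_mul, (QuotientGroup.eq_one_iff c).2 hc, one_mul, ← QuotientGroup.mk_pow,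
      hj, QuotientGroup.mk_one]
  have hP : ∀ R : Subgroup G, IsPGroup p R → R ≤ D := by
    intro R hR x hx
    obtain ⟨i, hi⟩ := isPGroup_iff_mem.1 hR x hx
    obtain ⟨j, hj⟩ := hquot x
    refine (QuotientGroup.eq_one_iff x).1 (eq_one_of_pow_of_coprime hj ?_)
    refine (((Nat.coprime_primes Fact.out hq).2 hqp.symm).pow_left i).coprime_dvd_left
      (orderOf_dvd_of_pow_eq_one ?_)
    rw [← QuotientGroup.mk_pow, hi, QuotientGroup.mk_one]
  refine ⟨fun H hH => ?_, fun h => ?_, fun P => ?_⟩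
  · have hS : IsPGroup q (H ⧸ D.subgroupOf H) := by
      intro x
      induction x using QuotientGroup.induction_on with | H x => ?_
      obtain ⟨j, hj⟩ := hquot (x : G)
      rw [← QuotientGroup.mk_pow, QuotientGroup.eq_one_iff] at hj
      exact ⟨j, by rw [← QuotientGroup.mk_pow, QuotientGroup.eq_one_iff]; exact hj⟩
    have h3 := hS.isNilpotent
    have h4 := (isPGroup_quotient_pResidual (p := p) (G := H)).isNilpotent
    refine Subgroup.isNilpotent_of_ker_le_center
      ((QuotientGroup.mk' (D.subgroupOf H)).prod (QuotientGroup.mk' (pResidual p H))) ?_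
    rw [MonoidHom.ker_prod, QuotientGroup.ker_mk', QuotientGroup.ker_mk']
    intro x hx
    obtain ⟨i, hi⟩ := isPGroup_iff_mem.1 hD _ hx.1
    rw [eq_one_of_pow_of_coprime (p := p) (k := i) (x := x) (Subtype.ext hi)
      (hasNormalPComplement_iff_forall_coprime.1 (h2 H hH) _ hx.2)]
    exact one_mem _
  · obtain ⟨T, hT⟩ := (isPGroup_zpowers hk).exists_le_sylow
    refine hgC (Subgroup.commutator_eq_bot_iff_le_centralizer.1 (L.commutator_eq_bot_of_coprime
      (le_normalizer_of_normal (T : Subgroup G) D) (le_normalizer_of_normal _ _)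
      (IsPGroup.coprime_card_of_ne q p hqp _ _ T.isPGroup' hD)) (hT (Subgroup.mem_zpowers g)))
  · rwa [P.is_maximal' hD (hP _ P.isPGroup') |>.symm]

end Cfsg.Agent.S0132
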