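import Cfsg.Statements.S0218
import Cfsg.Agent.H3.Dihedral

set_option autoImplicit false
open Cfsg

namespace Cfsg.Agent.S0218

/-- The generalized quaternion group of order 2^(n+3) contains exactly one element of order 2. -/
theorem result (n : ℕ) : Nat.card {x : QuaternionGroup (2 ^ (n + 1)) // orderOf x = 2} = 1 := by
  rw [Nat.card_eq_one_iff_unique]
  have : NeZero (2 ^ (n + 1)) := ⟨by positivity⟩
  have hz : orderOf (QuaternionGroup.a ((2 ^ (n + 1) : ℕ) : ZMod (2 * 2 ^ (n + 1))) :
      QuaternionGroup (2 ^ (n + 1))) = 2 := by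
    rw [← QuaternionGroup.xa_sq 0, orderOf_pow' _ two_ne_zero, QuaternionGroup.orderOf_xa]
    norm_num
  have key : ∀ x : QuaternionGroup (2 ^ (n + 1)), orderOf x = 2 →
      x = QuaternionGroup.a ((2 ^ (n + 1) : ℕ) : ZMod (2 * 2 ^ (n + 1))) := by
    rintro (i | i) h
    · have h2 := H3.mul_self_of_orderOf_two h
      have h1 := H3.ne_one_of_orderOf_two h
      rw [QuaternionGroup.a_mul_a, QuaternionGroup.one_def] at h2
      rw [QuaternionGroup.one_def] at h1
      have h2' : i + i = 0 := QuaternionGroup.a.inj h2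
      have h1' : i ≠ 0 := fun h => h1 (by rw [h])
      congr 1
      have hv : i.val < 2 * 2 ^ (n + 1) := ZMod.val_lt i
      have h3 : ((i.val + i.val : ℕ) : ZMod (2 * 2 ^ (n + 1))) = 0 := by
        push_cast; simpa using h2'
      rw [ZMod.natCast_eq_zero_iff] at h3
      have h4 : i.val ≠ 0 := by simpa using h1'
      obtain ⟨c, hc⟩ := h3
      have hc1 : c = 1 := by
        rcases c with _ | _ | c
        · omega
        · rfl
        · nlinarith
      have : i.val = 2 ^ (n + 1) := by rw [hc1] at hc; omega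
      exact (ZMod.natCast_zmod_val i).symm.trans (congrArg Nat.cast this)
    · rw [QuaternionGroup.orderOf_xa] at h
      omega
  exact ⟨⟨fun a b => Subtype.ext ((key _ a.2).trans (key _ b.2).symm)⟩, ⟨⟨_, hz⟩⟩⟩

end Cfsg.Agent.S0218
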