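import Cfsg.Statements.S0201
import Cfsg.Agent.H3.ZStar
import Cfsg.Agent.S0218

set_option autoImplicit false
open Cfsg

namespace Cfsg.Agent.S0201

/-- Brauer–Suzuki Theorem: if a Sylow 2-subgroup of a finite group is generalized quaternion (of order at least 8) and the group has no nontrivial normal subgroup of odd order, then its centre has order 2. -/
theorem result {G : Type*} [Group G] [Finite G] (S : Sylow 2 G) (n : ℕ) (e : (S : Subgroup G) ≃* QuaternionGroup (2 ^ (n + 1))) (hO : ∀ N : Subgroup G, N.Normal → Odd (Nat.card N) → N = ⊥) : Nat.card (Subgroup.center G) = 2 := by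
  have h1 := S0218.result n
  rw [Nat.card_eq_one_iff_unique] at h1
  obtain ⟨hsub, ⟨⟨z0, hz0⟩⟩⟩ := h1
  have huniq : ∀ x : (S : Subgroup G), orderOf (x : G) = 2 → x = e.symm z0 := by
    intro x hx
    have : orderOf (e x) = 2 := by rw [e.orderOf_eq, ← Subgroup.orderOf_coe]; exact hx
    have h2 : (⟨e x, this⟩ : {x // orderOf x = 2}) = ⟨z0, hz0⟩ := Subsingleton.elim _ _
    have h3 : e x = z0 := congrArg Subtype.val h2
    rw [← h3, e.symm_apply_apply]
  obtain ⟨z, hzdef⟩ : ∃ z : G, z = (e.symm z0 : (S : Subgroup G)) := ⟨_, rfl⟩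
  have hz : orderOf z = 2 := by rw [hzdef, Subgroup.orderOf_coe, e.symm.orderOf_eq, hz0]
  have huniq' : ∀ x ∈ (S : Subgroup G), orderOf x = 2 → x = z := fun x hx h2 =>
    hzdef ▸ congrArg Subtype.val (huniq ⟨x, hx⟩ h2)
  obtain ⟨N, hN, hNo, hNz⟩ := H3.zstar_sylow S hz fun g hg =>
    huniq' _ hg ((H3.orderOf_conj g z).trans hz)
  rw [hO N hN hNo] at hNz
  have hzc : z ∈ Subgroup.center G := Subgroup.mem_center_iff.2 fun g => by
    have := Subgroup.mem_bot.1 (hNz g)
    rw [mul_inv_eq_one, mul_inv_eq_iff_eq_mul] at this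
    exact this.symm
  have hnorm : ∀ c ∈ Subgroup.center G, (Subgroup.zpowers c).Normal := fun c hc =>
    ⟨fun a ha g => by
      have := Subgroup.mem_center_iff.1 (Subgroup.zpowers_le_of_mem hc ha) g
      rw [this, mul_inv_cancel_right]; exact ha⟩
  have key : ∀ c ∈ Subgroup.center G, c = 1 ∨ c = z := by
    intro c hc
    obtain ⟨k, m, hm, hkm⟩ := Nat.exists_eq_two_pow_mul_odd (orderOf_pos c).ne'
    have h2 : c ^ 2 ^ k = 1 := by
      have h3 := hO _ (hnorm _ (Subgroup.pow_mem _ hc (2 ^ k))) (by
        rw [Nat.card_zpowers]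
        refine hm.of_dvd_nat (orderOf_dvd_of_pow_eq_one ?_)
        rw [← pow_mul, ← hkm, pow_orderOf_eq_one])
      exact Subgroup.zpowers_eq_bot.1 h3
    obtain ⟨j, -, hj⟩ := (Nat.dvd_prime_pow Nat.prime_two).1 (orderOf_dvd_of_pow_eq_one h2)
    haveI := hnorm c hc
    have hcS : c ∈ (S : Subgroup G) :=
      (H3.isPGroup_zpowers_of_orderOf hj).le_sylow_of_normal S (Subgroup.mem_zpowers c)
    have hcc : ∀ y, y * e ⟨c, hcS⟩ = e ⟨c, hcS⟩ * y := by
      intro y
      obtain ⟨y, rfl⟩ := e.surjective y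
      rw [← map_mul, ← map_mul]
      congr 1
      exact Subtype.ext (Subgroup.mem_center_iff.1 hc y)
    have hsq : e ⟨c, hcS⟩ * e ⟨c, hcS⟩ = 1 := by
      generalize e ⟨c, hcS⟩ = q at hcc
      rcases q with i | i
      · have := hcc (QuaternionGroup.xa 0)
        rw [QuaternionGroup.xa_mul_a, QuaternionGroup.a_mul_xa] at this
        have h4 := QuaternionGroup.xa.inj this
        rw [QuaternionGroup.a_mul_a, QuaternionGroup.one_def]
        congr 1
        linear_combination h4
      · exfalso
        have := hcc (QuaternionGroup.a 1)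
        rw [QuaternionGroup.xa_mul_a, QuaternionGroup.a_mul_xa] at this
        have h4 := QuaternionGroup.xa.inj this
        have h5 : ((2 : ℕ) : ZMod (2 * 2 ^ (n + 1))) = 0 := by
          push_cast; linear_combination -h4
        rw [ZMod.natCast_eq_zero_iff] at h5
        have h6 := Nat.le_of_dvd (by norm_num) h5
        have h7 : 0 < 2 ^ n := by positivity
        rw [pow_succ] at h6
        omega
    have hsq' : c * c = 1 := by
      rw [← map_mul, map_eq_one_iff _ e.injective] at hsq
      exact congrArg Subtype.val hsq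
    by_cases h1 : c = 1
    · exact Or.inl h1
    · exact Or.inr (huniq' c hcS (H3.orderOf_two_of_mul_self hsq' h1))
  have : Subgroup.center G = Subgroup.zpowers z := by
    refine le_antisymm (fun c hc => ?_) (Subgroup.zpowers_le_of_mem hzc)
    rcases key c hc with rfl | rfl
    · exact Subgroup.one_mem _
    · exact Subgroup.mem_zpowers _
  rw [this, Nat.card_zpowers, hz]

end Cfsg.Agent.S0201
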