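import Cfsg.Statements.S0203
import Cfsg.Agent.H3.Klein

set_option autoImplicit false
open Cfsg

namespace Cfsg.Agent.S0203

/-- If a Sylow 2-subgroup P of a finite group G is a Klein four-group, then G has three classes of involutions if and only if P has a normal complement in G. -/
theorem result {G : Type*} [Group G] [Finite G] (P : Sylow 2 G) (hP : IsKleinFour (P : Subgroup G)) : Nat.card {C : ConjClasses G // ∃ t : G, orderOf t = 2 ∧ ConjClasses.mk t = C} = 3 ↔ ∃ N : Subgroup G, N.Normal ∧ Subgroup.IsComplement' N (P : Subgroup G) := by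
  constructor
  · intro h3
    rcases H3.klein_classes P hP with ⟨h, -⟩ | ⟨-, h⟩
    · omega
    · refine ⟨_, inferInstance, MonoidHom.ker_transferSylow_isComplement' P ?_⟩
      intro n hn x hx
      have := h x hx _ ((Subgroup.mem_normalizer_iff.1 hn x).1 hx) (isConj_iff.2 ⟨n, rfl⟩)
      exact eq_mul_inv_iff_mul_eq.1 this
  · rintro ⟨N, hN, hc⟩
    rcases H3.klein_classes P hP with ⟨-, a, ha, b, hb, hab, h⟩ | ⟨h, -⟩
    · exfalso
      obtain ⟨g, rfl⟩ := isConj_iff.1 h
      obtain ⟨⟨n, p⟩, rfl⟩ := (hc.existsUnique g).exists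
      have hcomm : (p : G) * a = a * p :=
        congrArg Subtype.val (hP.isMulCommutative.is_comm.comm p ⟨a, ha⟩)
      simp only at hb hab
      have e : (n : G) * p * a * ((n : G) * p)⁻¹ = n * a * (n : G)⁻¹ := by
        rw [mul_assoc (n : G), hcomm]; group
      rw [e] at hb hab
      have h1 : (n : G) * a * (n : G)⁻¹ * a⁻¹ ∈ N := by
        have := N.mul_mem n.2 (hN.conj_mem _ (N.inv_mem n.2) a)
        simpa [mul_assoc] using this
      have h2 : (n : G) * a * (n : G)⁻¹ * a⁻¹ ∈ (P : Subgroup G) := P.mul_mem hb (P.inv_mem ha)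
      have h3 := (Subgroup.disjoint_def.1 hc.disjoint) h1 h2
      exact hab (mul_inv_eq_one.1 h3).symm
    · exact h

end Cfsg.Agent.S0203
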