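import Cfsg.Statements.S0225
import Cfsg.Agent.H3.ZStar
import Cfsg.Agent.H3.Klein

set_option autoImplicit false
open Cfsg

namespace Cfsg.Agent.S0225

/-- If a finite group G has even order but contains no Klein four-subgroup (2-rank 1), then some involution z of G is central modulo a normal subgroup of odd order: there is a normal subgroup N of odd order containing every commutator z g z⁻¹ g⁻¹. -/
theorem result {G : Type*} [Group G] [Finite G] (heven : Even (Nat.card G)) (hrank : ∀ E : Subgroup G, ¬ IsKleinFour E) : ∃ z : G, orderOf z = 2 ∧ ∃ N : Subgroup G, N.Normal ∧ Odd (Nat.card N) ∧ ∀ g : G, z * g * z⁻¹ * g⁻¹ ∈ N := by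
  obtain ⟨z, hz⟩ := H3.even_card_iff.1 heven
  refine ⟨z, hz, H3.zstar_commute (H3.mul_self_of_orderOf_two hz) fun g hc => ?_⟩
  by_contra hne
  have hw : orderOf (g * z * g⁻¹) = 2 := (H3.orderOf_conj g z).trans hz
  generalize g * z * g⁻¹ = w at *
  have hz2 := H3.mul_self_of_orderOf_two hz
  have hw2 := H3.mul_self_of_orderOf_two hw
  have hzw : orderOf (z * w) = 2 := by
    apply H3.orderOf_two_of_mul_self
    · rw [← pow_two, hc.mul_pow, pow_two, pow_two, hz2, hw2, one_mul]
    · intro h
      rw [mul_eq_one_iff_inv_eq, H3.inv_eq_of_orderOf_two hz] at h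
      exact hne h.symm
  obtain ⟨e⟩ := H3.closure_pair_equiv_dihedral hz hw
  rw [hzw] at e
  apply hrank (Subgroup.closure {z, w})
  constructor
  · rw [Nat.card_congr e.toEquiv]; exact IsKleinFour.card_four
  · rw [Monoid.exponent_eq_of_mulEquiv e]; exact IsKleinFour.exponent_two

end Cfsg.Agent.S0225
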