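import Cfsg.Statements.S0204
import Cfsg.Agent.FT.Main
import Cfsg.Agent.S0225
-- import your own Cfsg.Agent.* helpers here

set_option autoImplicit false
open Cfsg

namespace Cfsg.Agent.S0204

/-- A non-cyclic finite simple group contains a subgroup which is a Klein four-group; this combines the Odd Order Theorem, Burnside's transfer argument for cyclic Sylow 2-subgroups and the Brauer–Suzuki Theorem. -/
theorem result {G : Type*} [Group G] [Finite G] [IsSimpleGroup G] (hG : ¬ IsCyclic G) : ∃ E : Subgroup G, IsKleinFour E := by
  by_contra h
  push Not at h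
  have sol : ¬ Group.IsSolvable G := fun hs => hG (by
    let _ : CommGroup G :=
      { (inferInstance : Group G) with mul_comm := IsSimpleGroup.comm_iff_isSolvable.2 hs }
    exact IsSimpleGroup.isCyclic)
  obtain ⟨z, hz, N, hN, h1, h2⟩ := S0225.result
    (Nat.not_odd_iff_even.1 fun a => sol (FT.odd_order_solvable a)) h
  rcases hN.eq_bot_or_eq_top with rfl | rfl
  · have : z ∈ Subgroup.center G := Subgroup.mem_center_iff.2 fun g => by
      have := Subgroup.mem_bot.1 (h2 g)
      rw [mul_inv_eq_one, mul_inv_eq_iff_eq_mul] at this
      exact this.symm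
    rcases (inferInstance : (Subgroup.center G).Normal).eq_bot_or_eq_top with e | e
    · rw [e, Subgroup.mem_bot] at this
      simp [this] at hz
    · exact sol (Group.isSolvable_of_comm fun a b =>
        (Subgroup.mem_center_iff.1 (e ▸ Subgroup.mem_top b) a))
  · exact sol (FT.odd_order_solvable (by simpa using h1))

end Cfsg.Agent.S0204
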