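import Cfsg.Statements.S0206
import Cfsg.Agent.H3.Dihedral

set_option autoImplicit false
open Cfsg

namespace Cfsg.Agent.S0206

open Cfsg.Agent.H3 in
/-- the natural map from the dihedral group -/
noncomputable def phi {G : Type*} [Group G] (x r : G) :
    DihedralGroup (orderOf r) → G
  | DihedralGroup.r i => r ^ (i.cast : ℤ)
  | DihedralGroup.sr i => x * r ^ (i.cast : ℤ)

theorem zpow_cast_add {G : Type*} [Group G] (r : G) (i j : ZMod (orderOf r)) :
    r ^ ((i + j).cast : ℤ) = r ^ (i.cast : ℤ) * r ^ (j.cast : ℤ) := by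
  rw [← zpow_add, zpow_eq_zpow_iff_modEq, ← ZMod.intCast_eq_intCast_iff]
  simp

theorem zpow_cast_sub {G : Type*} [Group G] (r : G) (i j : ZMod (orderOf r)) :
    r ^ ((j - i).cast : ℤ) = r ^ (-(i.cast : ℤ)) * r ^ (j.cast : ℤ) := by
  rw [← zpow_add, zpow_eq_zpow_iff_modEq, ← ZMod.intCast_eq_intCast_iff]
  simp; ring

theorem cast_inj {G : Type*} [Group G] (r : G) (i j : ZMod (orderOf r))
    (h : r ^ (i.cast : ℤ) = r ^ (j.cast : ℤ)) : i = j := by
  rw [zpow_eq_zpow_iff_modEq, ← ZMod.intCast_eq_intCast_iff] at h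
  simpa using h

/-- Two distinct involutions x, y of a finite group generate a subgroup isomorphic to the dihedral group of order 2·|xy|. -/
theorem result {G : Type*} [Group G] [Finite G] (x y : G) (hx : orderOf x = 2) (hy : orderOf y = 2) (hxy : x ≠ y) : Nonempty (↥(Subgroup.closure ({x, y} : Set G)) ≃* DihedralGroup (orderOf (x * y))) := by
  have hx2 := H3.mul_self_of_orderOf_two hx
  have hy2 := H3.mul_self_of_orderOf_two hy
  have hi := H3.left_inverts hx2 hy2
  have hnot := H3.not_mem_zpowers_mul hx hy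
  set r := x * y with hr
  have hmul : ∀ a b : DihedralGroup (orderOf r), phi x r (a * b) = phi x r a * phi x r b := by
    rintro (i | i) (j | j)
    · simp only [DihedralGroup.r_mul_r, phi, zpow_cast_add]
    · simp only [DihedralGroup.r_mul_sr, phi, zpow_cast_sub]
      rw [← mul_assoc (r ^ _), H3.zpow_mul_of_inverts hi, mul_assoc]
    · simp only [DihedralGroup.sr_mul_r, phi, zpow_cast_add, mul_assoc]
    · simp only [DihedralGroup.sr_mul_sr, phi, zpow_cast_sub]
      rw [mul_assoc, ← mul_assoc (r ^ _) x, H3.zpow_mul_of_inverts hi, ← mul_assoc, ← mul_assoc,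
        hx2, one_mul]
  let f : DihedralGroup (orderOf r) →* G := MonoidHom.mk' (phi x r) hmul
  have hinj : Function.Injective f := by
    rw [injective_iff_map_eq_one]
    rintro (i | i) h
    · change r ^ (i.cast : ℤ) = 1 at h
      have : i = 0 := cast_inj r i 0 (by simpa using h)
      rw [this]; rfl
    · change x * r ^ (i.cast : ℤ) = 1 at h
      exfalso
      apply hnot
      exact ⟨-(i.cast : ℤ), by simp only [zpow_neg]; exact inv_eq_of_mul_eq_one_left h⟩
  have hrange : f.range = Subgroup.closure ({x, y} : Set G) := by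
    ext d
    rw [H3.mem_closure_pair_iff hx2 hy2]
    constructor
    · rintro ⟨(i | i), rfl⟩
      · exact ⟨_, Or.inl rfl⟩
      · exact ⟨_, Or.inr rfl⟩
    · have key : ∀ n : ℤ, r ^ (((n : ZMod (orderOf r)).cast : ℤ)) = r ^ n := by
        intro n
        rw [zpow_eq_zpow_iff_modEq, ← ZMod.intCast_eq_intCast_iff]
        simp
      rintro ⟨n, rfl | rfl⟩
      · exact ⟨DihedralGroup.r n, key n⟩
      · exact ⟨DihedralGroup.sr n, congrArg (x * ·) (key n)⟩
  exact ⟨((MulEquiv.subgroupCongr hrange).symm.trans (MonoidHom.ofInjective hinj).symm)⟩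

end Cfsg.Agent.S0206
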