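import Cfsg.Statements.S0211
import Cfsg.Agent.H3.Dihedral

set_option autoImplicit false
open Cfsg

namespace Cfsg.Agent.S0211

/-- Let x, y be involutions with xy of even order n and z = (xy)^(n/2). Then xz is conjugate to x by an element of the subgroup generated by x, y if and only if 4 divides n. -/
theorem result {G : Type*} [Group G] [Finite G] (x y : G) (hx : orderOf x = 2) (hy : orderOf y = 2) (heven : Even (orderOf (x * y))) : (∃ d ∈ Subgroup.closure ({x, y} : Set G), d * x * d⁻¹ = x * (x * y) ^ (orderOf (x * y) / 2)) ↔ 4 ∣ orderOf (x * y) := by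
  have hx2 := H3.mul_self_of_orderOf_two hx
  have hy2 := H3.mul_self_of_orderOf_two hy
  have hi := H3.left_inverts hx2 hy2
  obtain ⟨k, hk⟩ := heven
  have hk2 : orderOf (x * y) / 2 = k := by omega
  rw [hk2]
  constructor
  · rintro ⟨d, hd, h⟩
    obtain ⟨n, hn⟩ := H3.conj_in_closure_pair hx2 hy2 hd
    rw [hn, mul_right_inj, ← zpow_natCast, zpow_eq_zpow_iff_modEq] at h
    have := h.dvd
    rw [hk] at this
    push_cast at this
    obtain ⟨c, hc⟩ := this
    have h2 : (2 : ℤ) ∣ k := ⟨k * c + n, by linarith⟩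
    omega
  · rintro ⟨m, hm⟩
    refine ⟨(x * y) ^ (-(m : ℤ)), H3.zpow_mem_closure_pair x y _, ?_⟩
    rw [H3.zpow_conj_refl hi, ← zpow_natCast]
    congr 2
    omega

end Cfsg.Agent.S0211
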