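import Cfsg.Statements.S0212
import Cfsg.Agent.H3.BrauerFowler

set_option autoImplicit false
open Cfsg

namespace Cfsg.Agent.S0212

/-- The Brauer–Fowler bound: if G is a finite simple group and t an involution of G whose centralizer has order n, then |G| ≤ (2n^2)!. -/
theorem result {G : Type*} [Group G] [Finite G] [IsSimpleGroup G] (t : G) (ht : orderOf t = 2) : Nat.card G ≤ Nat.factorial (2 * (Nat.card (Subgroup.centralizer ({t} : Set G))) ^ 2) := by
  have hc : 2 ≤ Nat.card (Subgroup.centralizer ({t} : Set G)) := by
    apply Nat.le_of_dvd Nat.card_pos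
    rw [← ht]
    exact Subgroup.orderOf_dvd_natCard _ (Subgroup.mem_centralizer_singleton_iff.2 rfl)
  by_cases hgt : 2 < Nat.card G
  · obtain ⟨H, hH, h | h⟩ := H3.exists_index_le_sq (H3.odd_card_center_of_simple hgt) ht
    · exact absurd h (H3.index_ne_two_of_simple hgt H)
    · refine (Nat.le_of_dvd (Nat.factorial_pos _) (H3.card_dvd_factorial_index hH)).trans ?_
      apply Nat.factorial_le
      omega
  · refine le_trans ?_ (Nat.self_le_factorial _)
    nlinarith

end Cfsg.Agent.S0212
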