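import Cfsg.Statements.S0216
import Cfsg.Agent.H3.Invol

set_option autoImplicit false
open Cfsg

namespace Cfsg.Agent.S0216

/-- For an involution u in a Sylow 2-subgroup P of a finite group G, the following are equivalent: no G-conjugate of u other than u lies in P; every commutator of u with an element of G has odd order. -/
theorem result {G : Type*} [Group G] [Finite G] (P : Sylow 2 G) (u : G) (hu : orderOf u = 2) (huP : u ∈ P) : (∀ g : G, g * u * g⁻¹ ∈ P → g * u * g⁻¹ = u) ↔ (∀ g : G, Odd (orderOf (u * g * u⁻¹ * g⁻¹))) := by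
  have hui := H3.inv_eq_of_orderOf_two hu
  constructor
  · intro hiso g
    have he : u * g * u⁻¹ * g⁻¹ = u * (g * u * g⁻¹) := by rw [hui]; group
    rw [he]
    exact H3.odd_orderOf_mul_of_isolated P hu hiso (IsConj.refl u) (isConj_iff.2 ⟨g, rfl⟩)
  · intro hodd g hg
    have h1 := hodd g
    have he : u * g * u⁻¹ * g⁻¹ = u * (g * u * g⁻¹) := by rw [hui]; group
    rw [he] at h1
    have hmem : u * (g * u * g⁻¹) ∈ (P : Subgroup G) := Subgroup.mul_mem _ huP hg
    have := H3.eq_one_of_odd_of_pgroup P.isPGroup' hmem h1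
    exact (eq_inv_of_mul_eq_one_right this).trans hui

end Cfsg.Agent.S0216
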