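import Cfsg.Statements.S0220
import Cfsg.Agent.H3.Invol

set_option autoImplicit false
open Cfsg

namespace Cfsg.Agent.S0220

/-- If x is an involution of a finite group G and a Sylow 2-subgroup of the centralizer of x is cyclic, then G has a subgroup of index 2; in particular G is not simple unless it has order 2. -/
theorem result {G : Type*} [Group G] [Finite G] (x : G) (hx : orderOf x = 2) (S : Sylow 2 ↥(Subgroup.centralizer ({x} : Set G))) (hS : IsCyclic (S : Subgroup ↥(Subgroup.centralizer ({x} : Set G)))) : ∃ H : Subgroup G, H.index = 2 := by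
  let C := Subgroup.centralizer ({x} : Set G)
  have hC : C = Subgroup.centralizer ({x} : Set G) := rfl
  have hxC : x ∈ C := Subgroup.mem_centralizer_singleton_iff.2 rfl
  set Q : Subgroup G := (S : Subgroup C).map C.subtype with hQ
  have hQp : IsPGroup 2 Q := S.isPGroup'.map _
  have hQc : IsCyclic Q :=
    (Subgroup.equivMapOfInjective (S : Subgroup C) _ C.subtype_injective).isCyclic.1 hS
  have hxQ : x ∈ Q := by
    apply H3.mem_sylow_map_of_mem_normalizer S hxC (H3.isPGroup_zpowers_of_orderOf_two hx)
    apply Subgroup.centralizer_le_normalizer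
    rintro _ ⟨y, -, rfl⟩
    exact Subgroup.mem_centralizer_singleton_iff.1 y.2
  obtain ⟨R, hR⟩ := hQp.exists_le_sylow
  have hQR : Q = R := by
    apply H3.eq_of_maximal_in_normalizer R.isPGroup' hR
    intro y hy hyN
    refine H3.mem_sylow_map_of_mem_normalizer S ?_ (H3.isPGroup_zpowers_of_mem R.isPGroup' hy) hyN
    have h1 : y * x * y⁻¹ ∈ Q := (Subgroup.mem_normalizer_iff.1 hyN x).1 hxQ
    have h2 := H3.involution_unique_of_isCyclic (K := Q) (a := ⟨_, h1⟩) (b := ⟨x, hxQ⟩)
      (by rw [← Subgroup.orderOf_coe]; simp only; rw [H3.orderOf_conj, hx])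
      (by rwa [← Subgroup.orderOf_coe])
    have h3 : y * x * y⁻¹ = x := congrArg Subtype.val h2
    rw [Subgroup.mem_centralizer_singleton_iff]
    exact mul_inv_eq_iff_eq_mul.1 h3
  exact H3.exists_index_two_of_isCyclic (H3.even_card_iff.2 ⟨x, hx⟩) R (hQR ▸ hQc)

end Cfsg.Agent.S0220
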