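import Cfsg.Statements.S0221
import Cfsg.Agent.H3.Four
import Cfsg.Agent.S0111

set_option autoImplicit false
open Cfsg

namespace Cfsg.Agent.S0221

theorem card_eight {G : Type*} [Group G] [Finite G] {U : Subgroup G} (hU : Nat.card U = 4)
    (hU2 : ∀ u ∈ U, u ^ 2 = 1) {y : G} (hy : y ^ 2 = 1) (hyU : y ∉ U)
    (hc : ∀ u ∈ U, u * y = y * u) :
    Nat.card (U ⊔ Subgroup.zpowers y : Subgroup G) = 8 ∧
      ∀ w ∈ U ⊔ Subgroup.zpowers y, w ^ 2 = 1 ∧ ∃ u ∈ U, w = u ∨ w = u * y := by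
  haveI : Fact (Nat.Prime 2) := ⟨Nat.prime_two⟩
  have hn : y ∈ Subgroup.normalizer (U : Set G) :=
    Subgroup.centralizer_le_normalizer _ fun u hu => hc u hu
  refine ⟨by rw [H2.card_sup_zpowers_eq (p := 2) hn hyU (hy ▸ U.one_mem), hU], fun w hw => ?_⟩
  obtain ⟨u, hu, a, ha, rfl⟩ := (H2.mem_sup_of_le_normalizer'
    (Subgroup.zpowers_le_of_mem hn)).1 hw
  rcases H3.eq_one_or_eq_of_mem_zpowers (by rwa [← pow_two]) ha with rfl | rfl
  · exact ⟨by rw [mul_one]; exact hU2 u hu, u, hu, Or.inl (mul_one u)⟩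
  · exact ⟨by rw [(show Commute u a from hc u hu).mul_pow, hU2 u hu, hy, one_mul], u, hu,
      Or.inr rfl⟩

/-- Let G be a finite group with no subgroup of index 2 whose 2-rank is at least 3 (it contains an elementary abelian subgroup of order 8). Then the centralizer of every involution of G also contains an elementary abelian subgroup of order 8. -/
theorem result {G : Type*} [Group G] [Finite G] (hno : ∀ H : Subgroup G, H.index ≠ 2) (hrank : ∃ E : Subgroup G, Nat.card E = 8 ∧ ∀ e ∈ E, e ^ 2 = 1) (x : G) (hx : orderOf x = 2) : ∃ E : Subgroup G, E ≤ Subgroup.centralizer ({x} : Set G) ∧ Nat.card E = 8 ∧ ∀ e ∈ E, e ^ 2 = 1 := by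
  haveI : Fact (Nat.Prime 2) := ⟨Nat.prime_two⟩
  obtain ⟨E, hE, hE2⟩ := hrank
  obtain ⟨P, hP⟩ := (IsPGroup.of_card (p := 2) (n := 3) hE).exists_le_sylow
  obtain ⟨⟨z, hzP⟩, ⟨e, heP⟩, hz, he, hez, hzc, hec⟩ := H3.exists_normal_four P.isPGroup'
    (E := E.subgroupOf P) (by rw [Nat.card_congr (Subgroup.subgroupOfEquivOfLe hP).toEquiv, hE])
    (fun a ha => Subtype.ext (by simpa [pow_two] using hE2 _ ha))
  rw [← Subgroup.orderOf_coe] at hz he
  simp only at hz he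
  have hez' : e ≠ z := fun h => hez (Subtype.ext h)
  have hzc' : ∀ g ∈ (P : Subgroup G), g * z = z * g := fun g hg =>
    congrArg Subtype.val (hzc ⟨g, hg⟩)
  have hec' : ∀ g ∈ (P : Subgroup G), g * e * g⁻¹ = e ∨ g * e * g⁻¹ = e * z := fun g hg =>
    (hec ⟨g, hg⟩).imp (congrArg Subtype.val) (congrArg Subtype.val)
  have hz2 := H3.mul_self_of_orderOf_two hz
  have he2 := H3.mul_self_of_orderOf_two he
  set U := Subgroup.zpowers z ⊔ Subgroup.zpowers e with hU
  have hn : e ∈ Subgroup.normalizer (Subgroup.zpowers z : Set G) :=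
    Subgroup.centralizer_le_normalizer _ fun u hu => by
      rcases H3.eq_one_or_eq_of_mem_zpowers hz2 hu with rfl | rfl
      · simp
      · exact (hzc' e heP).symm
  have hU4 : Nat.card U = 4 := by
    rw [H2.card_sup_zpowers_eq (p := 2) hn (fun h => ?_) (by rw [pow_two, he2]; exact one_mem _),
      Nat.card_zpowers, hz]
    rcases H3.eq_one_or_eq_of_mem_zpowers hz2 h with h | h
    · exact H3.ne_one_of_orderOf_two he h
    · exact hez' h
  have hUe : ∀ u ∈ U, u = 1 ∨ u = z ∨ u = e ∨ u = z * e := by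
    intro u hu
    obtain ⟨a, ha, b, hb, rfl⟩ := (H2.mem_sup_of_le_normalizer'
      (Subgroup.zpowers_le_of_mem hn)).1 hu
    rcases H3.eq_one_or_eq_of_mem_zpowers hz2 ha with rfl | rfl <;>
      rcases H3.eq_one_or_eq_of_mem_zpowers he2 hb with rfl | rfl <;> simp
  set T := Subgroup.centralizer {e} ⊓ (P : Subgroup G) with hT
  have hTU : ∀ y ∈ T, ∀ u ∈ U, u * y = y * u := by
    intro y hy u hu
    have h1 : Commute y z := hzc' y hy.2
    have h2 : Commute y e := Subgroup.mem_centralizer_singleton_iff.1 hy.1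
    rcases hUe u hu with rfl | rfl | rfl | rfl
    · simp
    · exact h1.symm
    · exact h2.symm
    · exact (h1.mul_right h2).symm
  have hUT : U ≤ T := sup_le
    (Subgroup.zpowers_le_of_mem ⟨Subgroup.mem_centralizer_singleton_iff.2 (hzc' e heP).symm, hzP⟩)
    (Subgroup.zpowers_le_of_mem ⟨Subgroup.mem_centralizer_singleton_iff.2 rfl, heP⟩)
  have hU2 : ∀ u ∈ U, u ^ 2 = 1 := by
    intro u hu
    rcases hUe u hu with rfl | rfl | rfl | rfl
    · simp
    · rw [pow_two, hz2]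
    · rw [pow_two, he2]
    · rw [(show Commute z e from (hzc' e heP).symm).mul_pow, pow_two, pow_two, hz2, he2, one_mul]
  have hmul : ∀ a ∈ (P : Subgroup G), ∀ b ∈ (P : Subgroup G), a ∉ T → b ∉ T → a * b ∈ T := by
    intro a ha b hb ha' hb'
    refine ⟨?_, Subgroup.mul_mem _ ha hb⟩
    have h1 := (hec' a ha).resolve_left fun h => ha'
      ⟨Subgroup.mem_centralizer_singleton_iff.2 (mul_inv_eq_iff_eq_mul.1 h), ha⟩
    have h2 := (hec' b hb).resolve_left fun h => hb'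
      ⟨Subgroup.mem_centralizer_singleton_iff.2 (mul_inv_eq_iff_eq_mul.1 h), hb⟩
    refine Subgroup.mem_centralizer_singleton_iff.2 (mul_inv_eq_iff_eq_mul.1 ?_)
    calc a * b * e * (a * b)⁻¹ = a * (b * e * b⁻¹) * a⁻¹ := by group
      _ = (a * e * a⁻¹) * (a * z) * a⁻¹ := by rw [h2]; group
      _ = e := by rw [h1, hzc' a ha, mul_assoc, mul_inv_cancel_right, mul_assoc, hz2, mul_one]
  have hEi : ∀ e ∈ E, e⁻¹ = e := fun e he => inv_eq_of_mul_eq_one_right (by rw [← pow_two, hE2 e he])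
  have hEc : ∀ a ∈ E, ∀ b ∈ E, a * b = b * a := fun a ha b hb => by
    rw [← hEi _ (E.mul_mem ha hb), mul_inv_rev, hEi a ha, hEi b hb]
  obtain ⟨y₀, hy₀T, hy₀U, hy₀⟩ : ∃ y ∈ T, y ∉ U ∧ y ^ 2 = 1 := by
    by_contra hcon
    push Not at hcon
    have h1 : T ⊓ E ≤ U := fun y hy => by
      by_contra h; exact hcon y hy.1 h (hE2 y hy.2)
    have h2 := H3.four_le_card_inf_of_index (H := T) hE fun a ha b hb => hmul a (hP ha) b (hP hb)
    have h3 : T ⊓ E = U := Subgroup.eq_of_le_of_card_ge h1 (hU4 ▸ h2)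
    have heE : e ∈ E := (h3.ge (Subgroup.mem_sup_right (Subgroup.mem_zpowers e))).2
    have h4 : E ≤ U := fun y hy => h1
      ⟨⟨Subgroup.mem_centralizer_singleton_iff.2 (hEc y hy e heE), hP hy⟩, hy⟩
    have := Subgroup.card_le_of_le h4
    omega
  have key : ∀ y ∈ T, y ^ 2 = 1 → ∃ E : Subgroup G, E ≤ Subgroup.centralizer ({y} : Set G) ∧
      Nat.card E = 8 ∧ ∀ e ∈ E, e ^ 2 = 1 := by
    intro y hy hy2
    by_cases hyU : y ∈ U
    · obtain ⟨h1, h2⟩ := card_eight hU4 hU2 hy₀ hy₀U (hTU _ hy₀T)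
      refine ⟨_, fun w hw => Subgroup.mem_centralizer_singleton_iff.2 (hTU w ?_ y hyU).symm, h1,
        fun w hw => (h2 w hw).1⟩
      exact (sup_le hUT (Subgroup.zpowers_le_of_mem hy₀T) : U ⊔ _ ≤ T) hw
    · obtain ⟨h1, h2⟩ := card_eight hU4 hU2 hy2 hyU (hTU _ hy)
      refine ⟨_, sup_le (fun u hu => Subgroup.mem_centralizer_singleton_iff.2 (hTU y hy u hu))
        (Subgroup.zpowers_le_of_mem (Subgroup.mem_centralizer_singleton_iff.2 rfl)), h1,
        fun w hw => (h2 w hw).1⟩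
  obtain ⟨g, hg⟩ : ∃ g, g * x * g⁻¹ ∈ T := by
    obtain ⟨g, hg⟩ := H3.exists_conj_mem_sylow P (k := 1) (x := x) (by simpa using hx)
    by_cases hgT : g * x * g⁻¹ ∈ T
    · exact ⟨g, hgT⟩
    have hi : T.relIndex P = 2 := by
      rw [Subgroup.relIndex, Subgroup.index_eq_two_iff]
      refine ⟨⟨_, hg⟩, fun b => ?_⟩
      simp only [Subgroup.mem_subgroupOf, Subgroup.coe_mul]
      by_cases hb : (b : G) ∈ T
      · exact Or.inr ⟨hb, fun h' => hgT ((Subgroup.mul_mem_cancel_left _ hb).1 h')⟩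
      · exact Or.inl ⟨hmul _ b.2 _ hg hb hgT, hb⟩
    rcases S0111.result P T inf_le_right hi _ ((H3.orderOf_conj g x).trans hx) hg hgT with
      ⟨M, -, hM, -⟩ | ⟨h, hh⟩
    · exact absurd hM (hno M)
    · exact ⟨h * g, by simpa [mul_assoc] using hh⟩
  obtain ⟨F, hF, hF8, hF2⟩ := key _ hg (by
    rw [conj_pow, pow_two, H3.mul_self_of_orderOf_two hx]; simp)
  refine ⟨F.map (MulAut.conj g⁻¹).toMonoidHom, ?_,
    by rw [Subgroup.card_map_of_injective (MulAut.conj g⁻¹).injective, hF8], ?_⟩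
  · rintro _ ⟨w, hw, rfl⟩
    have := Subgroup.mem_centralizer_singleton_iff.1 (hF hw)
    rw [Subgroup.mem_centralizer_singleton_iff]
    change g⁻¹ * w * g⁻¹⁻¹ * x = x * (g⁻¹ * w * g⁻¹⁻¹)
    calc g⁻¹ * w * g⁻¹⁻¹ * x = g⁻¹ * (w * (g * x * g⁻¹)) * g := by group
      _ = _ := by rw [this]; group
  · rintro _ ⟨w, hw, rfl⟩
    rw [← map_pow, hF2 w hw, map_one]

end Cfsg.Agent.S0221
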