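import Cfsg.Statements.S0228
import Cfsg.Agent.H3.Invol

set_option autoImplicit false
open Cfsg

namespace Cfsg.Agent.S0228

/-- A group of order 12 in which no involution is central is isomorphic to the alternating group on four letters. -/
theorem result {G : Type*} [Group G] [Finite G] (hG : Nat.card G = 12) (hz : ∀ z : G, orderOf z = 2 → z ∉ Subgroup.center G) : Nonempty (G ≃* alternatingGroup (Fin 4)) := by
  obtain ⟨a, ha⟩ := exists_prime_orderOf_dvd_card' (G := G) 3 (by rw [hG]; norm_num)
  -- the centralizer of `a` has odd order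
  have hodd : Odd (Nat.card (Subgroup.centralizer ({a} : Set G))) := by
    rw [H3.odd_card_subgroup_iff]
    intro z hza hz2
    apply hz z hz2
    obtain ⟨S, hS⟩ := (H3.isPGroup_zpowers_of_orderOf_two hz2).exists_le_sylow
    have hS4 : Nat.card S = 2 ^ 2 := by
      rw [S.card_eq_multiplicity, hG]
      have : (12 : ℕ).factorization 2 = 2 := by
        rw [show (12 : ℕ) = 2 ^ 2 * 3 by norm_num, Nat.factorization_mul (by norm_num) (by norm_num)]
        rw [Nat.prime_two.factorization_pow]
        simp [Nat.prime_three.factorization]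
      rw [this]
    have hcomm := IsPGroup.isMulCommutative_of_card_eq_prime_sq (G := S) hS4
    have h1 : (S : Subgroup G) ≤ Subgroup.centralizer ({z} : Set G) := by
      intro y hy
      rw [Subgroup.mem_centralizer_singleton_iff]
      exact congrArg Subtype.val (hcomm.is_comm.comm (⟨y, hy⟩ : S) ⟨z, hS (Subgroup.mem_zpowers z)⟩)
    have h2 : a ∈ Subgroup.centralizer ({z} : Set G) := by
      rw [Subgroup.mem_centralizer_singleton_iff] at hza ⊢
      exact hza.symm
    have h3 := Subgroup.card_dvd_of_le h1
    have h4 := Subgroup.orderOf_dvd_natCard _ h2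
    rw [ha] at h4
    have h5 : 12 ∣ Nat.card (Subgroup.centralizer ({z} : Set G)) :=
      Nat.Coprime.mul_dvd_of_dvd_of_dvd (m := 4) (n := 3) (by norm_num) (by rwa [hS4] at h3) h4
    have h6 : Subgroup.centralizer ({z} : Set G) = ⊤ := by
      apply Subgroup.eq_top_of_card_eq
      exact Nat.dvd_antisymm (Subgroup.card_subgroup_dvd_card _) (hG ▸ h5)
    rw [Subgroup.mem_center_iff]
    intro g
    exact Subgroup.mem_centralizer_singleton_iff.1 (h6 ▸ Subgroup.mem_top g)
  set P := Subgroup.zpowers a with hP
  have hP3 : Nat.card P = 3 := by rw [hP, Nat.card_zpowers, ha]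
  have hPi : P.index = 4 := by
    have := P.index_mul_card
    rw [hP3, hG] at this
    omega
  have hcore : P.normalCore = ⊥ := by
    have h1 := Subgroup.card_dvd_of_le P.normalCore_le
    rw [hP3, Nat.dvd_prime Nat.prime_three] at h1
    rcases h1 with h1 | h1
    · exact Subgroup.eq_bot_of_card_eq _ h1
    · exfalso
      have h2 : P.normalCore = P :=
        Subgroup.eq_of_le_of_card_ge P.normalCore_le (by rw [h1, hP3])
      have hN : P.Normal := h2 ▸ P.normalCore_normal
      have h3 := H3.card_class_mul_card_centralizer a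
      have h4 : Nat.card {y : G // IsConj a y} ≤ Nat.card P := by
        refine Nat.card_le_card_of_injective (fun y => ⟨y.1, ?_⟩) ?_
        · obtain ⟨y, hy⟩ := y
          obtain ⟨g, rfl⟩ := isConj_iff.1 hy
          exact hN.conj_mem a (Subgroup.mem_zpowers a) g
        · intro x y h
          exact Subtype.ext (congrArg (Subtype.val : P → G) h)
      rw [hG] at h3
      rw [hP3] at h4
      obtain ⟨k, hk⟩ := hodd
      rw [hk] at h3
      generalize Nat.card {y : G // IsConj a y} = m at h3 h4
      interval_cases m <;> omega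
  rw [Subgroup.normalCore_eq_ker, MonoidHom.ker_eq_bot_iff] at hcore
  have e : (G ⧸ P) ≃ Fin 4 := Finite.equivFinOfCardEq hPi
  let f : G →* Equiv.Perm (Fin 4) :=
    (e.permCongrHom : Equiv.Perm (G ⧸ P) →* Equiv.Perm (Fin 4)).comp (MulAction.toPermHom G (G ⧸ P))
  have hf : Function.Injective f := e.permCongrHom.injective.comp hcore
  have hi : f.range.index = 2 := by
    have h1 := f.range.index_mul_card
    rw [← Nat.card_congr (MonoidHom.ofInjective hf).toEquiv, hG, Nat.card_perm] at h1
    simp only [Nat.card_eq_fintype_card, Fintype.card_fin, Nat.factorial] at h1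
    omega
  exact ⟨(MonoidHom.ofInjective hf).trans
    (MulEquiv.subgroupCongr (Equiv.Perm.eq_alternatingGroup_of_index_eq_two hi))⟩

end Cfsg.Agent.S0228
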