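import Cfsg.Statements.S0229
import Cfsg.Agent.H3.Invol

set_option autoImplicit false
open Cfsg

namespace Cfsg.Agent.S0229

/-- Let t be an involution of a Sylow 2-subgroup S of a finite group G, conjugate in G to no other element of S, and let s be an involution of G not conjugate to t. Then the order of st is twice an odd number. -/
theorem result {G : Type*} [Group G] [Finite G] (S : Sylow 2 G) (t : G) (ht : orderOf t = 2) (htS : t ∈ S) (hiso : ∀ g : G, g * t * g⁻¹ ∈ S → g * t * g⁻¹ = t) (s : G) (hs : orderOf s = 2) (hns : ¬ IsConj s t) : orderOf (s * t) % 4 = 2 := by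
  have ht2 := H3.mul_self_of_orderOf_two ht
  have hs2 := H3.mul_self_of_orderOf_two hs
  have ho : orderOf (s * t) = orderOf (t * s) := by
    rw [← orderOf_inv, mul_inv_rev, H3.inv_eq_of_orderOf_two ht, H3.inv_eq_of_orderOf_two hs]
  rw [ho]
  have heven := H3.even_orderOf_mul_of_not_isConj ht2 hs2 (fun h => hns h.symm)
  obtain ⟨hz, hzt, -⟩ := H3.half_pow_central ht2 hs2 heven
  obtain ⟨k, hk⟩ := heven
  rcases Nat.even_or_odd' k with ⟨m, rfl | rfl⟩
  · exfalso
    have h1 : orderOf (t * s) / 2 = 2 * m := by omega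
    rw [h1] at hz hzt
    have := H3.isolated_eq_of_commute S ht hiso (IsConj.refl t) (H3.isConj_mul_pow_even ht2 hs2 m)
      ((Commute.refl t).mul_right hzt.symm)
    exact H3.ne_one_of_orderOf_two hz (by simpa using this)
  · omega

end Cfsg.Agent.S0229
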