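import Cfsg.Statements.S0230
import Cfsg.Agent.H3.BrauerFowler

set_option autoImplicit false
open Cfsg

namespace Cfsg.Agent.S0230

/-- Let G be a finite group with two non-conjugate involutions, and let t be an involution whose centralizer has maximal order among centralizers of involutions. Then |G| < |C_G(t)|^3. -/
theorem result {G : Type*} [Group G] [Finite G] (s t : G) (hs : orderOf s = 2) (ht : orderOf t = 2) (hnc : ¬ IsConj s t) (hmax : ∀ u : G, orderOf u = 2 → Nat.card (Subgroup.centralizer ({u} : Set G)) ≤ Nat.card (Subgroup.centralizer ({t} : Set G))) : Nat.card G < Nat.card (Subgroup.centralizer ({t} : Set G)) ^ 3 := by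
  classical
  have := Fintype.ofFinite G
  set m := Nat.card (Subgroup.centralizer ({t} : Set G)) with hm
  have hsub : Finset.univ.filter (fun y : G => IsConj s y) ⊆
      (Finset.univ.filter (fun z : G => orderOf z = 2 ∧ Commute z t)).biUnion
        (fun z => Finset.univ.filter (fun y : G => y ∈ Subgroup.centralizer ({z} : Set G))) := by
    intro y hy
    have hy' := (Finset.mem_filter.1 hy).2
    obtain ⟨z, hz, h1, h2⟩ := H3.exists_commuting_involution
      (H3.mul_self_of_orderOf_two (by rw [← H3.orderOf_eq_of_isConj hy', hs] : orderOf y = 2))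
      (H3.mul_self_of_orderOf_two ht) (fun h => hnc (hy'.trans h))
    simp only [Finset.mem_biUnion, Finset.mem_filter, Finset.mem_univ, true_and]
    exact ⟨z, ⟨hz, h2⟩, Subgroup.mem_centralizer_singleton_iff.2 h1.symm.eq⟩
  have h1 := (Finset.card_le_card hsub).trans (Finset.card_biUnion_le_card_mul _ _ m (by
    intro z hz
    have := hmax z (Finset.mem_filter.1 hz).2.1
    rwa [Nat.card_eq_fintype_card, Fintype.card_subtype] at this))
  have h2 : (Finset.univ.filter (fun z : G => orderOf z = 2 ∧ Commute z t)).card < m := by
    rw [hm, Nat.card_eq_fintype_card, Fintype.card_subtype]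
    apply Finset.card_lt_card
    refine ⟨fun z hz => ?_, fun h => ?_⟩
    · simp only [Finset.mem_filter, Finset.mem_univ, true_and] at hz ⊢
      exact Subgroup.mem_centralizer_singleton_iff.2 hz.2.eq
    · have := h (x := 1) (by simp)
      simp at this
  have h3 := H3.card_class_mul_card_centralizer s
  rw [Nat.card_eq_fintype_card, Fintype.card_subtype] at h3
  have h4 := hmax s hs
  have hmpos : 0 < m := Nat.card_pos
  rw [← h3]
  calc _ ≤ (Finset.univ.filter (fun z : G => orderOf z = 2 ∧ Commute z t)).card * m * m :=
        Nat.mul_le_mul h1 h4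
    _ < m * m * m := by gcongr
    _ = m ^ 3 := by ring

end Cfsg.Agent.S0230
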