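import Cfsg.Statements.S0231
import Cfsg.Agent.H3.Invol

set_option autoImplicit false
open scoped Pointwise
open Cfsg

namespace Cfsg.Agent.S0231

/-- Let T be a Sylow 2-subgroup of the finite group G which is not normal and which intersects every other Sylow 2-subgroup trivially. Then G has a single conjugacy class of involutions. -/
theorem result {G : Type*} [Group G] [Finite G] (T : Sylow 2 G) (hnn : ¬ (T : Subgroup G).Normal) (hTI : ∀ g : G, MulAut.conj g • (T : Subgroup G) ≠ T → MulAut.conj g • (T : Subgroup G) ⊓ T = ⊥) (s t : G) (hs : orderOf s = 2) (ht : orderOf t = 2) : IsConj s t := by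
  by_contra hnc
  -- two Sylow subgroups sharing an involution are equal
  have key : ∀ (P Q : Sylow 2 G) (z : G), orderOf z = 2 → z ∈ P → z ∈ Q → P = Q := by
    intro P Q z hz hP hQ
    obtain ⟨g, rfl⟩ := MulAction.exists_smul_eq G T Q
    obtain ⟨h, rfl⟩ := MulAction.exists_smul_eq G T P
    by_contra hne
    have h1 : MulAut.conj (g⁻¹ * h) • (T : Subgroup G) ≠ T := by
      intro h2
      apply hne
      have : (g⁻¹ * h) • T = T := Sylow.ext h2
      rw [mul_smul, inv_smul_eq_iff] at this
      exact this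
    have h2 := hTI _ h1
    have h3 : g⁻¹ * z * g ∈ MulAut.conj (g⁻¹ * h) • (T : Subgroup G) ⊓ T := by
      refine ⟨?_, H3.mem_conj_smul_sylow_iff.1 hQ⟩
      have : g⁻¹ * z * g ∈ (g⁻¹ * h) • T := by
        rw [H3.mem_conj_smul_sylow_iff]
        have := H3.mem_conj_smul_sylow_iff.1 hP
        simpa [mul_assoc] using this
      exact this
    rw [h2, Subgroup.mem_bot] at h3
    apply H3.ne_one_of_orderOf_two hz
    calc z = g * (g⁻¹ * z * g) * g⁻¹ := by group
      _ = 1 := by rw [h3]; group
  obtain ⟨P, hP⟩ := (H3.isPGroup_zpowers_of_orderOf_two hs).exists_le_sylow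
  have hsP : s ∈ P := hP (Subgroup.mem_zpowers s)
  -- a Sylow subgroup different from `P`
  have hQ : ∃ Q : Sylow 2 G, Q ≠ P := by
    by_contra h
    push Not at h
    have : Subsingleton (Sylow 2 G) := ⟨fun a b => (h a).trans (h b).symm⟩
    exact hnn T.normal_of_subsingleton
  obtain ⟨Q, hQ⟩ := hQ
  obtain ⟨g, hg⟩ := H3.exists_conj_mem_sylow_two Q ht
  have ht' : orderOf (g * t * g⁻¹) = 2 := by rw [H3.orderOf_conj, ht]
  have hnc' : ¬ IsConj s (g * t * g⁻¹) := fun h => hnc (h.trans (isConj_iff.2 ⟨g, rfl⟩).symm)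
  obtain ⟨z, hz, hzs, hzt⟩ := H3.exists_commuting_involution (H3.mul_self_of_orderOf_two hs)
    (H3.mul_self_of_orderOf_two ht') hnc'
  have hz2 := H3.mul_self_of_orderOf_two hz
  obtain ⟨R1, hR1⟩ := (H3.isPGroup_closure_pair_of_commute hz2
    (H3.mul_self_of_orderOf_two hs) hzs).exists_le_sylow
  obtain ⟨R2, hR2⟩ := (H3.isPGroup_closure_pair_of_commute hz2
    (H3.mul_self_of_orderOf_two ht') hzt).exists_le_sylow
  have e1 := key P R1 s hs hsP (hR1 (Subgroup.subset_closure (by simp)))
  have e2 := key Q R2 _ ht' hg (hR2 (Subgroup.subset_closure (by simp)))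
  have e3 := key R1 R2 z hz (hR1 (Subgroup.subset_closure (by simp)))
    (hR2 (Subgroup.subset_closure (by simp)))
  exact hQ (e2.trans (e3.symm.trans e1.symm))

end Cfsg.Agent.S0231
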