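import Cfsg.Statements.S0232
import Cfsg.Agent.H3.BrauerFowler

set_option autoImplicit false
open Cfsg

namespace Cfsg.Agent.S0232

theorem aux.{u} (n : ℕ) : ∀ (G : Type u) [Group G] [Finite G], Nat.card G = n → Even (Nat.card G) →
    2 < Nat.card G → ∃ H : Subgroup G, H ≠ ⊤ ∧ Nat.card G < (Nat.card H) ^ 3 := by
  induction n using Nat.strong_induction_on with
  | _ n ih =>
  intro G _ _ hn heven hgt
  have hidx : ∀ H : Subgroup G, H.index = 2 →
      ∃ H : Subgroup G, H ≠ ⊤ ∧ Nat.card G < (Nat.card H) ^ 3 := by
    intro H hH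
    refine ⟨H, by rintro rfl; simp at hH, ?_⟩
    have := H.index_mul_card
    rw [hH] at this
    have h2 : 2 ≤ Nat.card H := by omega
    rw [← this]
    nlinarith [Nat.mul_le_mul h2 h2]
  by_cases hZ : Odd (Nat.card (Subgroup.center G))
  · obtain ⟨t, ht⟩ := H3.even_card_iff.1 heven
    obtain ⟨H, hH, h | h⟩ := H3.exists_index_le_sq hZ ht
    · exact hidx H h
    by_cases hc : Nat.card G < (Nat.card (Subgroup.centralizer ({t} : Set G))) ^ 3
    · exact ⟨_, H3.centralizer_ne_top_of_odd_center hZ ht, hc⟩
    refine ⟨H, hH, ?_⟩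
    have h1 := H.index_mul_card
    set c := Nat.card (Subgroup.centralizer ({t} : Set G))
    by_contra h2
    push Not at hc h2
    have h3 : H.index ^ 3 < (c ^ 2) ^ 3 := Nat.pow_lt_pow_left h (by norm_num)
    have h4 : (c ^ 3) ^ 2 ≤ (Nat.card G) ^ 2 := Nat.pow_le_pow_left hc 2
    have h5 : (Nat.card G) ^ 3 = H.index ^ 3 * (Nat.card H) ^ 3 := by rw [← h1]; ring
    have h6 : H.index ^ 3 * (Nat.card H) ^ 3 < (Nat.card G) ^ 2 * Nat.card G := by
      apply Nat.mul_lt_mul_of_lt_of_le _ h2 (by omega)
      calc _ < (c ^ 2) ^ 3 := h3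
        _ = (c ^ 3) ^ 2 := by ring
        _ ≤ _ := h4
    rw [← h5] at h6
    exact absurd h6 (by rw [← pow_succ]; exact lt_irrefl _)
  · obtain ⟨z, hz, h2⟩ := (H3.even_card_subgroup_iff _).1 (Nat.not_odd_iff_even.1 hZ)
    have hN : (Subgroup.zpowers z).Normal := by
      constructor
      rintro _ ⟨k, rfl⟩ g
      have := Subgroup.mem_center_iff.1 (Subgroup.zpow_mem _ hz k) g
      simp only
      rw [this]
      simp
    have hZc : Nat.card (Subgroup.zpowers z) = 2 := by rw [Nat.card_zpowers, h2]
    have hq := Subgroup.card_eq_card_quotient_mul_card_subgroup (Subgroup.zpowers z)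
    rw [hZc] at hq
    by_cases he : Even (Nat.card (G ⧸ Subgroup.zpowers z))
    · by_cases hg : 2 < Nat.card (G ⧸ Subgroup.zpowers z)
      · obtain ⟨K, hK, hlt⟩ := ih _ (by omega) (G ⧸ Subgroup.zpowers z) rfl he hg
        refine ⟨K.comap (QuotientGroup.mk' _), ?_, ?_⟩
        · intro h
          apply hK
          rw [← Subgroup.index_eq_one, ← Subgroup.index_comap_of_surjective _
            (QuotientGroup.mk'_surjective (Subgroup.zpowers z)), h, Subgroup.index_top]
        · have h1 := (K.comap (QuotientGroup.mk' (Subgroup.zpowers z))).index_mul_card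
          have h3 := K.index_mul_card
          rw [Subgroup.index_comap_of_surjective _ (QuotientGroup.mk'_surjective _), hq, ← h3,
            mul_assoc] at h1
          have h4 := Nat.eq_of_mul_eq_mul_left
            (Nat.pos_of_ne_zero Subgroup.index_ne_zero_of_finite) h1
          rw [h4, hq]
          nlinarith
      · apply hidx (Subgroup.zpowers z)
        obtain ⟨k, hk⟩ := he
        change Nat.card (G ⧸ Subgroup.zpowers z) = 2
        omega
    · obtain ⟨P, hP⟩ := (H3.isPGroup_zpowers_of_orderOf_two h2).exists_le_sylow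
      have hPc : Nat.card P = 2 := by
        obtain ⟨k, hk⟩ := P.isPGroup'.exists_card_eq
        have h3 := Subgroup.card_dvd_of_le hP
        have h4 := (P : Subgroup G).card_subgroup_dvd_card
        rw [hZc, hk] at h3
        rw [hk, hq] at h4
        rcases k with _ | _ | k
        · simp at h3
        · simpa using hk
        · exfalso
          apply he
          rw [pow_succ] at h4
          exact even_iff_two_dvd.2 ((dvd_pow_self 2 (by omega)).trans
            (Nat.dvd_of_mul_dvd_mul_right (by norm_num) h4))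
      obtain ⟨H, hH⟩ := H3.exists_index_two_of_isCyclic heven P (isCyclic_of_prime_card hPc)
      exact hidx H hH

/-- A finite group G of even order greater than 2 has a proper subgroup H with |G| < |H|^3. -/
theorem result {G : Type*} [Group G] [Finite G] (heven : Even (Nat.card G)) (hgt : 2 < Nat.card G) : ∃ H : Subgroup G, H ≠ ⊤ ∧ Nat.card G < (Nat.card H) ^ 3 := by
  exact aux _ G rfl heven hgt

end Cfsg.Agent.S0232
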