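import Cfsg.Statements.S0234
import Cfsg.Agent.H3.BrauerFowler

set_option autoImplicit false
open Cfsg

namespace Cfsg.Agent.S0234

/-- In a finite simple group G of even order greater than 2, the number n of involutions satisfies 3n < |G|. -/
theorem result {G : Type*} [Group G] [Finite G] [IsSimpleGroup G] (heven : Even (Nat.card G)) (hgt : 2 < Nat.card G) : 3 * Nat.card {t : G // orderOf t = 2} < Nat.card G := by
  have hno := H3.index_ne_two_of_simple hgt
  obtain ⟨H, hH, h | h⟩ := H3.brauer_fowler_index heven (H3.odd_card_center_of_simple hgt)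
  · exact absurd h (hno H)
  by_contra hcon
  push Not at hcon
  set n := Nat.card {t : G // orderOf t = 2} with hn
  have hj : H.index ≤ 5 := by
    have h2 : Nat.card G * (Nat.card G + n) ≤ (3 * n) * (3 * n + n) :=
      Nat.mul_le_mul hcon (Nat.add_le_add_right hcon n)
    have h3 : 2 * n ^ 2 * H.index < 2 * n ^ 2 * 6 := by nlinarith
    have := Nat.lt_of_mul_lt_mul_left h3
    omega
  -- embed `G` into `S₅`
  have h1 : H.normalCore = ⊥ := by
    rcases H.normalCore_normal.eq_bot_or_eq_top with h | h
    · exact h
    · exact absurd (top_le_iff.1 (h ▸ H.normalCore_le)) hH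
  rw [Subgroup.normalCore_eq_ker, MonoidHom.ker_eq_bot_iff] at h1
  obtain ⟨ι⟩ : Nonempty ((G ⧸ H) ↪ Fin 5) := by
    have := Fintype.ofFinite (G ⧸ H)
    apply Function.Embedding.nonempty_of_card_le
    rw [← Nat.card_eq_fintype_card, Fintype.card_fin]
    exact hj
  let f : G →* Equiv.Perm (Fin 5) :=
    (Equiv.Perm.viaEmbeddingHom ι).comp (MulAction.toPermHom G (G ⧸ H))
  have hf : Function.Injective f := (Equiv.Perm.viaEmbeddingHom_injective ι).comp h1
  have hsign : ∀ g, Equiv.Perm.sign (f g) = 1 := by
    rcases (MonoidHom.normal_ker (Equiv.Perm.sign.comp f)).eq_bot_or_eq_top with h | h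
    · rw [MonoidHom.ker_eq_bot_iff] at h
      have := Nat.card_le_card_of_injective _ h
      simp only [Nat.card_eq_fintype_card, Fintype.card_units_int] at this
      omega
    · intro g
      exact (h ▸ Subgroup.mem_top g : g ∈ (Equiv.Perm.sign.comp f).ker)
  have hn15 : n ≤ 15 := by
    have : Nat.card {σ : Equiv.Perm (Fin 5) // σ * σ = 1 ∧ σ ≠ 1 ∧ Equiv.Perm.sign σ = 1} = 15 := by
      rw [Nat.card_eq_fintype_card]
      decide +kernel
    rw [← this]
    refine Nat.card_le_card_of_injective (fun t => ⟨f t.1, ?_, ?_, hsign _⟩) ?_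
    · rw [← map_mul, H3.mul_self_of_orderOf_two t.2, map_one]
    · rw [Ne, ← map_one f, hf.eq_iff]
      exact H3.ne_one_of_orderOf_two t.2
    · intro a b hab
      exact Subtype.ext (hf (congrArg Subtype.val hab))
  have hdvd : Nat.card G ∣ 60 := by
    have := Subgroup.card_dvd_of_injective (f.codRestrict (alternatingGroup (Fin 5)) hsign)
      (fun a b hab => hf (congrArg Subtype.val hab))
    rw [nat_card_alternatingGroup] at this
    simpa [Nat.factorial] using this
  have key : ∀ p k : ℕ, p.Prime → p ^ k ∣ Nat.card G → p ^ k ≠ Nat.card G →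
      Nat.card G ∣ (Nat.card G / p ^ k).factorial := by
    intro p k hp hd hne
    have := Fact.mk hp
    obtain ⟨K, hK⟩ := Sylow.exists_subgroup_card_pow_prime p hd
    have h2 := H3.card_dvd_factorial_index (H := K) (by rintro rfl; exact hne (by simpa using hK.symm))
    have h3 : K.index = Nat.card G / p ^ k := by
      rw [← K.index_mul_card, hK, Nat.mul_div_cancel _ (pow_pos hp.pos k)]
    rwa [h3] at h2
  have key2 : ¬ 4 ∣ Nat.card G → False := by
    intro h4
    obtain ⟨P⟩ := (inferInstance : Nonempty (Sylow 2 G))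
    have hPc : Nat.card P = 2 := by
      obtain ⟨k, hk⟩ := P.isPGroup'.exists_card_eq
      have h3 := P.dvd_card_of_dvd_card (even_iff_two_dvd.1 heven)
      have h5 := (P : Subgroup G).card_subgroup_dvd_card
      rw [hk] at h3 h5
      rcases k with _ | _ | k
      · simp at h3
      · simpa using hk
      · exact absurd ((pow_dvd_pow 2 (by omega : 2 ≤ k + 1 + 1)).trans h5) h4
    obtain ⟨H, hH⟩ := H3.exists_index_two_of_isCyclic heven P (isCyclic_of_prime_card hPc)
    exact hno H hH
  have k1 := key 2 1 Nat.prime_two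
  have k2 := key 2 2 Nat.prime_two
  have k3 := key 5 1 Nat.prime_five
  have hle : Nat.card G ≤ 45 := by omega
  generalize Nat.card G = m at *
  interval_cases m <;> simp_all [Nat.factorial]

end Cfsg.Agent.S0234
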