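import Cfsg.Statements.S0239
import Cfsg.Agent.H3.Dihedral

set_option autoImplicit false
open Cfsg

namespace Cfsg.Agent.S0239

/-- If some nontrivial element x of a finite group G is conjugate to x⁻¹, then |G| is even. -/
theorem result {G : Type*} [Group G] [Finite G] (x : G) (hx : x ≠ 1) (hreal : IsConj x x⁻¹) : Even (Nat.card G) := by
  by_contra h
  have hodd := Nat.not_even_iff_odd.1 h
  obtain ⟨g, hg⟩ := isConj_iff.1 hreal
  have key : ∀ n : ℕ, g ^ (2 * n + 1) * x * (g ^ (2 * n + 1))⁻¹ = x⁻¹ := by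
    intro n
    induction n with
    | zero => simpa using hg
    | succ n ih =>
      have : g ^ (2 * (n + 1) + 1) * x * (g ^ (2 * (n + 1) + 1))⁻¹ =
          g * (g * (g ^ (2 * n + 1) * x * (g ^ (2 * n + 1))⁻¹) * g⁻¹) * g⁻¹ := by group
      rw [this, ih, show g * x⁻¹ * g⁻¹ = (g * x * g⁻¹)⁻¹ by group, hg, inv_inv, hg]
  obtain ⟨k, hk⟩ := hodd
  have h1 := key k
  rw [← hk, pow_card_eq_one'] at h1
  simp only [one_mul, inv_one, mul_one] at h1
  have h2 : orderOf x = 2 := H3.orderOf_two_of_mul_self (by nth_rewrite 1 [h1]; simp) hx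
  exact h (H3.even_card_iff.2 ⟨x, h2⟩)

end Cfsg.Agent.S0239
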