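import Cfsg.Statements.S0240
import Cfsg.Agent.H3.Invol

set_option autoImplicit false
open Cfsg

namespace Cfsg.Agent.S0240

/-- Let G be a finite group with n involutions and H a subgroup with |H|·(n+1) > |G|. Then some nontrivial h ∈ H is strongly real in G: an involution t of G satisfies t h t⁻¹ = h⁻¹. -/
theorem result {G : Type*} [Group G] [Finite G] (H : Subgroup G) (hH : Nat.card G < Nat.card H * (Nat.card {t : G // orderOf t = 2} + 1)) : ∃ h : G, h ∈ H ∧ h ≠ 1 ∧ ∃ t : G, orderOf t = 2 ∧ t * h * t⁻¹ = h⁻¹ := by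
  have h1 : Nat.card (G ⧸ H) < Nat.card (Option {t : G // orderOf t = 2}) := by
    rw [Finite.card_option]
    rw [Subgroup.card_eq_card_quotient_mul_card_subgroup H, mul_comm] at hH
    exact Nat.lt_of_mul_lt_mul_left hH
  let f : Option {t : G // orderOf t = 2} → G := fun o => o.elim 1 Subtype.val
  have hf : Function.Injective f := by
    rintro (_ | a) (_ | b) h
    · rfl
    · exact absurd h.symm (H3.ne_one_of_orderOf_two b.2)
    · exact absurd h (H3.ne_one_of_orderOf_two a.2)
    · rw [Subtype.ext h]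
  have h2 : ¬ Function.Injective (fun o => (f o : G ⧸ H)) := fun h =>
    absurd (Nat.card_le_card_of_injective _ h) (not_le.2 h1)
  rw [Function.not_injective_iff] at h2
  obtain ⟨a, b, hab, hne⟩ := h2
  rw [QuotientGroup.eq] at hab
  have hne' : (f a)⁻¹ * f b ≠ 1 := fun h => hne (hf (inv_mul_eq_one.1 h))
  refine ⟨_, hab, hne', ?_⟩
  rcases a with _ | a <;> rcases b with _ | b
  · exact absurd rfl hne
  · refine ⟨b, b.2, ?_⟩
    simp [f, H3.inv_eq_of_orderOf_two b.2, H3.mul_self_of_orderOf_two b.2]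
  · refine ⟨a, a.2, ?_⟩
    simp [f, H3.inv_eq_of_orderOf_two a.2, H3.mul_self_of_orderOf_two a.2]
  · refine ⟨a, a.2, ?_⟩
    simp only [f, Option.elim_some]
    rw [H3.inv_eq_of_orderOf_two a.2]
    have := H3.left_inverts (H3.mul_self_of_orderOf_two a.2) (H3.mul_self_of_orderOf_two b.2)
    rwa [H3.inv_eq_of_orderOf_two a.2] at this

end Cfsg.Agent.S0240
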