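import Cfsg.Statements.S0241
import Cfsg.Agent.H3.Invol

set_option autoImplicit false
open Cfsg

namespace Cfsg.Agent.S0241

/-- If x ≠ 1 is conjugate to x⁻¹ in a finite group G and |C_G(x)| is odd, then some involution t satisfies t x t⁻¹ = x⁻¹. -/
theorem result {G : Type*} [Group G] [Finite G] (x : G) (hx : x ≠ 1) (hreal : IsConj x x⁻¹) (hodd : Odd (Nat.card (Subgroup.centralizer ({x} : Set G)))) : ∃ t : G, orderOf t = 2 ∧ t * x * t⁻¹ = x⁻¹ := by
  obtain ⟨g, hg⟩ := isConj_iff.1 hreal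
  have hg' : g * x⁻¹ * g⁻¹ = x := by
    rw [show g * x⁻¹ * g⁻¹ = (g * x * g⁻¹)⁻¹ by group, hg, inv_inv]
  have hg2 : g * g ∈ Subgroup.centralizer ({x} : Set G) := by
    rw [Subgroup.mem_centralizer_singleton_iff]
    calc g * g * x = g * (g * x * g⁻¹) * g⁻¹ * (g * g) := by group
      _ = _ := by rw [hg, hg']
  obtain ⟨k, hk⟩ := hodd
  have h1 : (g * g) ^ (2 * k + 1) = 1 := by
    have := pow_card_eq_one' (x := (⟨_, hg2⟩ : Subgroup.centralizer ({x} : Set G)))
    rw [hk] at this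
    exact congrArg Subtype.val this
  have h2 : g ^ (2 * k + 1) * x * (g ^ (2 * k + 1))⁻¹ = x⁻¹ := by
    have hc : (g * g) ^ k * x⁻¹ = x⁻¹ * (g * g) ^ k := by
      have := Subgroup.mem_centralizer_singleton_iff.1 (Subgroup.pow_mem _ hg2 k)
      exact (Commute.inv_right this).eq
    calc g ^ (2 * k + 1) * x * (g ^ (2 * k + 1))⁻¹
        = (g * g) ^ k * (g * x * g⁻¹) * ((g * g) ^ k)⁻¹ := by rw [← pow_two, ← pow_mul]; group
      _ = _ := by rw [hg, hc]; group
  refine ⟨g ^ (2 * k + 1), H3.orderOf_two_of_mul_self ?_ ?_, h2⟩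
  · rw [← h1, ← pow_two, ← pow_two, ← pow_mul, ← pow_mul, mul_comm]
  · intro h
    rw [h] at h2
    have h3 : orderOf x = 2 := H3.orderOf_two_of_mul_self (by
      simp only [one_mul, inv_one, mul_one] at h2
      nth_rewrite 1 [h2]; simp) hx
    exact (H3.odd_card_subgroup_iff _).1 ⟨k, hk⟩ x
      (Subgroup.mem_centralizer_singleton_iff.2 rfl) h3

end Cfsg.Agent.S0241
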