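import Cfsg.Statements.S0442
import Cfsg.Agent.H3.Invol

set_option autoImplicit false
open Cfsg

namespace Cfsg.Agent.S0442

/-- A standard trick for producing elements of an involution centraliser: for an involution a and an element g, let b be the conjugate g⁻¹ * a * g. If a * b has odd order 2m + 1 then g * (a * b) ^ m commutes with a; if a * b has even order 2m then (a * b) ^ m and (a * (g * a * g⁻¹)) ^ m commute with a. -/
theorem result {G : Type*} [Group G] (a g : G) (ha : orderOf a = 2) : (∀ m : ℕ, orderOf (a * (g⁻¹ * a * g)) = 2 * m + 1 → Commute (g * (a * (g⁻¹ * a * g)) ^ m) a) ∧ (∀ m : ℕ, orderOf (a * (g⁻¹ * a * g)) = 2 * m → Commute ((a * (g⁻¹ * a * g)) ^ m) a ∧ Commute ((a * (g * a * g⁻¹)) ^ m) a) := by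
  have ha2 := H3.mul_self_of_orderOf_two ha
  have hb2 : ∀ h : G, (h * a * h⁻¹) * (h * a * h⁻¹) = 1 := by
    intro h
    calc _ = h * (a * a) * h⁻¹ := by group
      _ = 1 := by rw [ha2]; group
  have hb := hb2 g⁻¹
  rw [inv_inv] at hb
  have hi := H3.left_inverts ha2 hb
  refine ⟨fun m hm => ?_, fun m hm => ⟨?_, ?_⟩⟩
  · have h1 := H3.zpow_conj_refl hi (m : ℤ)
    have h2 := pow_orderOf_eq_one (a * (g⁻¹ * a * g))
    have h3 : a * (a * (g⁻¹ * a * g)) = g⁻¹ * a * g := by rw [← mul_assoc, ha2, one_mul]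
    rw [hm] at h2
    generalize a * (g⁻¹ * a * g) = r at *
    have h4 : r ^ (-2 * (m : ℤ)) = r := by
      rw [← zpow_natCast] at h2
      have : (-2 * (m : ℤ)) = 1 - ((2 * m + 1 : ℕ) : ℤ) := by push_cast; ring
      rw [this, zpow_sub, h2]; simp
    rw [h4, h3, zpow_natCast] at h1
    calc g * r ^ m * a = g * (r ^ m * a * (r ^ m)⁻¹) * r ^ m := by group
      _ = a * (g * r ^ m) := by rw [h1]; group
  · exact H3.half_pow_commute hi m (by rw [← hm, pow_orderOf_eq_one])
  · apply H3.half_pow_commute (H3.left_inverts ha2 (hb2 g)) m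
    have h1 : a * (g * a * g⁻¹) = g * (a * (g⁻¹ * a * g))⁻¹ * g⁻¹ := by
      rw [← hi, ← mul_assoc a a, ha2, H3.inv_eq_of_orderOf_two ha]; group
    rw [h1, conj_pow, inv_pow, ← hm, pow_orderOf_eq_one]; simp

end Cfsg.Agent.S0442
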