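import Cfsg.Statements.S0443
import Cfsg.Agent.H3.Invol

set_option autoImplicit false
open Cfsg

namespace Cfsg.Agent.S0443

/-- Two definitions of a 2-central involution agree: an element t of order 2 of a finite group lies in the centre of some Sylow 2-subgroup if and only if its centraliser contains some Sylow 2-subgroup. -/
theorem result {G : Type*} [Group G] [Finite G] (t : G) (ht : orderOf t = 2) : Cfsg.IsTwoCentralInvolution t ↔ ∃ P : Sylow 2 G, (P : Subgroup G) ≤ Subgroup.centralizer ({t} : Set G) := by
  constructor
  · rintro ⟨-, P, -, h⟩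
    exact ⟨P, fun x hx => Subgroup.mem_centralizer_singleton_iff.2 (h x hx)⟩
  · rintro ⟨P, hP⟩
    refine ⟨ht, P, ?_, fun x hx => Subgroup.mem_centralizer_singleton_iff.1 (hP hx)⟩
    have h1 : IsPGroup 2 ((P : Subgroup G) ⊔ Subgroup.zpowers t : Subgroup G) := by
      apply H3.isPGroup_sup_of_le_normalizer P.isPGroup' (H3.isPGroup_zpowers_of_orderOf_two ht)
      rw [Subgroup.zpowers_le]
      apply Subgroup.centralizer_le_normalizer
      intro x hx
      exact Subgroup.mem_centralizer_singleton_iff.1 (hP hx)
    have h2 := P.is_maximal' h1 le_sup_left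
    change t ∈ (P : Subgroup G)
    rw [← h2]
    exact Subgroup.mem_sup_right (Subgroup.mem_zpowers t)

end Cfsg.Agent.S0443
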