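import Cfsg.Statements.S0444
import Cfsg.Agent.H3.ThreeTrans

set_option autoImplicit false
open Cfsg

namespace Cfsg.Agent.S0444

/-- Two members of a set of 3-transpositions which do not commute generate a subgroup isomorphic to the symmetric group on three letters. -/
theorem result {G : Type*} [Group G] {E : Set G} (hE : Cfsg.IsThreeTranspositionSet E) {d e : G} (hd : d ∈ E) (he : e ∈ E) (h : ¬ Commute d e) : Nonempty (Subgroup.closure ({d, e} : Set G) ≃* Equiv.Perm (Fin 3)) := by
  obtain ⟨f⟩ := H3.closure_pair_equiv_dihedral (hE.1 d hd) (hE.1 e he)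
  rw [H3.tt_orderOf_three hE hd he h] at f
  have h1 : orderOf (Equiv.swap (0 : Fin 3) 1) = 2 :=
    H3.orderOf_two_of_mul_self (by decide) (by decide)
  have h2 : orderOf (Equiv.swap (1 : Fin 3) 2) = 2 :=
    H3.orderOf_two_of_mul_self (by decide) (by decide)
  obtain ⟨g⟩ := H3.closure_pair_equiv_dihedral h1 h2
  have : Fact (Nat.Prime 3) := ⟨Nat.prime_three⟩
  have h3 : orderOf (Equiv.swap (0 : Fin 3) 1 * Equiv.swap (1 : Fin 3) 2) = 3 :=
    orderOf_eq_prime (by decide) (by decide)
  rw [h3] at g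
  have h4 : Subgroup.closure ({Equiv.swap (0 : Fin 3) 1, Equiv.swap (1 : Fin 3) 2} :
      Set (Equiv.Perm (Fin 3))) = ⊤ := by
    apply Subgroup.eq_top_of_card_eq
    rw [Nat.card_congr g.toEquiv, DihedralGroup.nat_card, Nat.card_perm]
    simp [Nat.factorial]
  exact ⟨f.trans (g.symm.trans ((MulEquiv.subgroupCongr h4).trans Subgroup.topEquiv))⟩

end Cfsg.Agent.S0444
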