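import Cfsg.Statements.S0445
import Cfsg.Agent.H4.Hom

set_option autoImplicit false
open Cfsg

namespace Cfsg.Agent.S0445

open Cfsg.Agent.H4

set_option maxRecDepth 100000

/-- The coded field with two elements. -/
def K : FC (ZMod 2) 2 1 f2Ops := f2FC (ZMod 2)

theorem vt : (K.slcg 5).VT (f2Ops.okGL 2 1 5) := fun c hc => by
  refine K.exists_sl hc ?_
  have h := (K.okGL_spec hc).2.2
  have h1 := congrArg Matrix.det h
  rw [Matrix.det_mul, Matrix.det_one] at h1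
  revert h1
  generalize (K.matOf 5 c.1).det = a
  generalize (K.matOf 5 c.2).det = b
  revert a b
  decide

/-- A chain for the centraliser. -/
def L : List (CG.Level (ℕ × ℕ)) :=
  [(2, [(0x1623855, 0x1a72053)],
     [(0, 0), (0, 0), (1, 1), (2, 2), (3, 3), (4, 4), (5, 5), (0, 5), (2, 6), (3, 7), (5, 8), (0, 8), (1, 7), (1, 7), (0, 5)]),
   (4, [(0x1441059, 0x144105d)],
     [(0, 0), (0, 0), (1, 1), (2, 2), (3, 3), (4, 4), (0, 4), (0, 4), (0, 4), (4, 5), (0, 5), (4, 6), (4, 5)]),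
   (8, [(0x8c7051, 0x1883059)],
     [(0, 0), (0, 0), (1, 1), (3, 2), (1, 2), (3, 3), (0, 3), (3, 4), (0, 4), (3, 4), (0, 0)]),
   (16, [(0x10c1041, 0x10c1041), (0x10c1051, 0x10c1051), (0x10c5051, 0x10c5051)],
     [(0, 0), (1, 1), (2, 2), (1, 2), (2, 3), (2, 3), (2, 2)])]

/-- A Schreier tree for the class. -/
def prog : List (ℕ × ℕ) := [(0, 0), (0, 0), (1, 1), (0, 1), (0, 1), (0, 1), (0, 1), (1, 2), (1, 2), (0, 2), (0, 2), (0, 2), (0, 2), (1, 3), (0, 3), (1, 4), (0, 4), (0, 3), (0, 3), (1, 4), (0, 4), (0, 4), (1, 5), (0, 4), (0, 4), (0, 4), (1, 5), (0, 5), (0, 5), (1, 5), (0, 5), (0, 5), (0, 5), (1, 5), (0, 5), (1, 6), (0, 6), (1, 6), (0, 6), (1, 7), (0, 7), (1, 8), (0, 8), (1, 8), (0, 8), (0, 8), (0, 8), (1, 8), (0, 8), (0, 8), (1, 9), (0, 9), (0, 9), (1, 10), (0, 10), (1, 10), (0, 10), (1, 11), (0, 11), (0, 11), (0, 10), (1, 11), (0, 11), (0, 11), (0, 11), (0, 11), (0, 11), (1, 12), (0, 12), (0, 12), (1, 13), (0, 13),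 (1, 13), (0, 13), (1, 13), (0, 13), (0, 13), (0, 13), (1, 14), (0, 14), (1, 15), (0, 15), (0, 14), (0, 14), (1, 15), (0, 14), (0, 14), (1, 15), (0, 15), (0, 15), (1, 16), (0, 16), (1, 16), (1, 16), (0, 16), (1, 17), (0, 17), (1, 17), (0, 17), (0, 17), (1, 18), (0, 17), (0, 17), (0, 15), (0, 15), (1, 16), (0, 16), (0, 16), (0, 16), (1, 17), (0, 17), (0, 17), (1, 17), (0, 17), (0, 17), (1, 18), (0, 18), (1, 18), (0, 18), (1, 19), (0, 19), (0, 19), (1, 20), (0, 20), (1, 21), (1, 21), (0, 20), (1, 20), (0, 20), (1, 21), (0, 21), (1, 22), (0, 22), (0, 22), (1, 23), (0, 23), (1, 24), (0, 24), (1, 24), (1, 24), (0, 24), (0, 24), (1, 25), (0, 25), (0, 24), (0, 24), (1, 25), (1, 25), (0, 25), (0, 25), (1, 26), (0, 26), (0, 26), (1, 26), (0, 26), (1, 26), (0, 26), (0, 26), (1, 27), (0, 27), (0, 27), (1, 28), (0, 28), (1, 29), (0, 29), (1, 29), (0, 29), (0, 29), (0, 28), (1, 28), (0, 28), (1, 29), (0, 29), (0, 29), (1, 30), (0, 28),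 (0, 28), (1, 28), (0, 28), (1, 29), (0, 29), (0, 29), (0, 29), (0, 29), (0, 29), (0, 29), (1, 28), (0, 28), (0, 28), (0, 28), (1, 29), (0, 29), (0, 29), (1, 30), (0, 30), (0, 30), (0, 30), (1, 30), (0, 30), (0, 30), (0, 30), (0, 30), (0, 30), (0, 30), (1, 31), (0, 31), (1, 32), (1, 31), (0, 31), (1, 32), (0, 32), (1, 32), (0, 32), (0, 32), (1, 33), (0, 33), (1, 34), (0, 34), (0, 34), (0, 34), (0, 34), (0, 34), (1, 34), (1, 34), (1, 34), (0, 34), (0, 34), (1, 34), (0, 34), (0, 34), (0, 34), (1, 35), (0, 35), (0, 35), (0, 35), (1, 36), (0, 35), (1, 35), (0, 35), (0, 35), (0, 35), (0, 35), (0, 35), (0, 35), (0, 35), (1, 36), (0, 35), (1, 36), (1, 34), (0, 34), (0, 34), (1, 35), (0, 35), (0, 35), (1, 36), (0, 36), (1, 37), (0, 37), (1, 38), (1, 38), (0, 38), (1, 39), (0, 39), (0, 39), (0, 39), (1, 39), (1, 39), (0, 39), (1, 39), (1, 39), (0, 39), (1, 40), (0, 40), (1, 40), (0, 40), (1, 40), (0, 40), (0, 40), (0, 40), (1, 40),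 (0, 40), (1, 41), (0, 41), (1, 41), (0, 41), (0, 41), (1, 42), (0, 42), (0, 42), (0, 42), (1, 43), (0, 43), (1, 42), (1, 42), (0, 41), (1, 41), (0, 41), (0, 41), (1, 42), (0, 42), (0, 41), (0, 41), (0, 41), (1, 42), (0, 41), (1, 42), (0, 42), (1, 43), (0, 41), (1, 41), (0, 41), (0, 41), (0, 39), (0, 39), (1, 39), (0, 39), (0, 38), (1, 39), (0, 39), (1, 40), (0, 40), (0, 39), (0, 39), (1, 40), (0, 40), (0, 38), (1, 38), (1, 38), (0, 38), (0, 38), (0, 38), (0, 38), (0, 38), (1, 38), (0, 38), (1, 38), (1, 38), (0, 37), (1, 38), (1, 38), (0, 38), (1, 39), (1, 39), (0, 39), (0, 39), (1, 38), (0, 35), (1, 36), (0, 36), (1, 37), (0, 36), (0, 35), (1, 36), (0, 35), (0, 35), (1, 36), (0, 35), (1, 35), (0, 35), (0, 35), (1, 35), (0, 35), (1, 36), (0, 36), (1, 35), (1, 35), (0, 35), (0, 35), (0, 35), (0, 35), (0, 35), (0, 34), (0, 33), (0, 33), (0, 32), (0, 31), (1, 32), (0, 32), (1, 33), (1, 30), (0, 28), (0, 28), (1, 28), (0, 28),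 (1, 29), (0, 29), (0, 28), (0, 27), (1, 26), (0, 26), (0, 26), (1, 27), (0, 27), (0, 26), (1, 26), (0, 26), (0, 26), (0, 26), (0, 26), (0, 25), (1, 24), (0, 24), (0, 22), (0, 22), (0, 22), (0, 22), (1, 22), (0, 22), (0, 22), (1, 23), (1, 23), (0, 22), (0, 16), (1, 17), (0, 16), (0, 16), (0, 16), (0, 16), (1, 16), (1, 15), (0, 15), (0, 15), (0, 15), (1, 14), (0, 14), (1, 12), (1, 11), (0, 11), (0, 11), (0, 11), (0, 10), (1, 10), (1, 9), (0, 9), (0, 7), (1, 7), (1, 7), (0, 6), (0, 6), (0, 6), (1, 6), (0, 6), (1, 7), (0, 6), (0, 6), (1, 7), (0, 6), (0, 6), (0, 6), (0, 6), (0, 6), (0, 6), (0, 6), (0, 6), (1, 7), (0, 6), (0, 6), (0, 6), (0, 5), (0, 5), (0, 5), (0, 4), (0, 4), (0, 2)]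

/-- In the special linear group of dimension 5 over the field with two elements, the centraliser of a transvection has order 21504 = 2 ^ 7 · 168 (it is an extension of an extraspecial group of order 2 ^ 7 by the simple group of order 168). -/
theorem result (s : Matrix.SpecialLinearGroup (Fin 5) (ZMod 2)) (hs : (s : Matrix (Fin 5) (Fin 5) (ZMod 2)) = Matrix.transvection 0 1 1) : Nat.card (Subgroup.centralizer ({s} : Set (Matrix.SpecialLinearGroup (Fin 5) (ZMod 2)))) = 21504 := by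
  have hd : (K.slcg 5).Rep s (0x1041043, 0x1041043) := by
    obtain ⟨g, hg⟩ := vt (0x1041043, 0x1041043) (by decide +kernel)
    have : g = s := Subtype.ext ((FC.RepM.eq_matOf hg.1).trans (by
      rw [hs]
      ext i j
      fin_cases i <;> fin_cases j <;>
        simp [FC.matOf, Matrix.transvection, Matrix.single, Matrix.one_apply] <;> decide +kernel))
    exact this ▸ hg
  have hk : (K.slcg 5).Keyed := K.cg_keyed 5 _ _
  have hc := card_SL_of 5 (ZMod 2) (q := 2) (N := 9999360) (ZMod.card 2) (by decide)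
  have h1 := hk.card_centralizer_le hd (gens := [(0x182082, 0x820830), (0x1041043, 0x1041043)]) (vt.valid (by decide +kernel)) prog
    [1, 2, 4, 8, 16] 32 (show nodupL (((f2Ops.cg 2 1 5).classL (0x1041043, 0x1041043) [(0x182082, 0x820830), (0x1041043, 0x1041043)] prog).map
      ((f2Ops.cg 2 1 5).hashB [1, 2, 4, 8, 16] 32)) = true by decide +kernel)
  have h2 : ((K.slcg 5).classL (0x1041043, 0x1041043) [(0x182082, 0x820830), (0x1041043, 0x1041043)] prog).length = 465 :=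
    show ((f2Ops.cg 2 1 5).classL (0x1041043, 0x1041043) [(0x182082, 0x820830), (0x1041043, 0x1041043)] prog).length = 465 by decide +kernel
  have h3 := CG.le_card_of_check (hk.sub _) (vt.centralizer hd) (N := f2Ops.cg 2 1 5) rfl (L := L)
    (n := 21504) (show (f2Ops.cg 2 1 5).topCheck (fun c => band (f2Ops.okGL 2 1 5 c)
      ((f2Ops.cg 2 1 5).comm (0x1041043, 0x1041043) c)) L 21504 = true by decide +kernel)
  have h4 := h3.trans (Subgroup.card_le_card_group _)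
  rw [h2, hc] at h1
  omega

end Cfsg.Agent.S0445
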