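import Cfsg.Statements.S0446
import Cfsg.Agent.H3.Invol

set_option autoImplicit false
open Cfsg

namespace Cfsg.Agent.S0446

/-- Every finite group of even order contains a 2-central involution, i.e. an element of order 2 in the centre of some Sylow 2-subgroup. -/
theorem result {G : Type*} [Group G] [Finite G] (h : Even (Nat.card G)) : ∃ t : G, Cfsg.IsTwoCentralInvolution t := by
  obtain ⟨P⟩ := (inferInstance : Nonempty (Sylow 2 G))
  obtain ⟨z, hz, h2, hc⟩ := H3.exists_central_involution P.isPGroup'
    (P.ne_bot_of_dvd_card (even_iff_two_dvd.1 h))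
  exact ⟨z, h2, P, hz, hc⟩

end Cfsg.Agent.S0446
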