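import Cfsg.Statements.S0450
import Cfsg.Agent.H1.He8

set_option autoImplicit false
open Cfsg

namespace Cfsg.Agent.S0450

/-- Held's trichotomy: let s be a transvection in SL(5, 2) (which equals PSL(5, 2)). A finite simple group with an involution whose centraliser is isomorphic to the centraliser of s is isomorphic to SL(5, 2), or has order 244823040, or has order 4030387200. -/
theorem result {G : Type*} [Group G] [Finite G] [IsSimpleGroup G] (s : Matrix.SpecialLinearGroup (Fin 5) (ZMod 2)) (hs : (s : Matrix (Fin 5) (Fin 5) (ZMod 2)) = Matrix.transvection 0 1 1) (j : G) (hj : orderOf j = 2) (e : Subgroup.centralizer ({j} : Set G) ≃* Subgroup.centralizer ({s} : Set (Matrix.SpecialLinearGroup (Fin 5) (ZMod 2)))) : Nonempty (G ≃* Matrix.SpecialLinearGroup (Fin 5) (ZMod 2)) ∨ Cfsg.IsM24 G ∨ Cfsg.IsHe G := by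
  exact (H1.He.held hs hj e).tri

end Cfsg.Agent.S0450
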