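import Cfsg.Statements.S0455
import Cfsg.Agent.H6.J2C

set_option autoImplicit false
open Cfsg

namespace Cfsg.Agent.S0455

/-- Janko's second and third groups: let G be finite simple with a 2-central involution t whose centraliser C contains a normal extraspecial subgroup E of order 32 with C/E isomorphic to the alternating group of degree 5. Then G has order 604800 or 50232960. -/
theorem result {G : Type*} [Group G] [Finite G] [IsSimpleGroup G] (t : G) (ht : Cfsg.IsTwoCentralInvolution t) (E : Subgroup (Subgroup.centralizer ({t} : Set G))) [E.Normal] (hE : Nat.card E = 32) (hX : Cfsg.IsExtraspecial 2 E) (e : (Subgroup.centralizer ({t} : Set G)) ⧸ E ≃* alternatingGroup (Fin 5)) : Cfsg.IsJ2 G ∨ Cfsg.IsJ3 G := by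
  obtain ⟨ι, B, rfl, h⟩ := H6.J3.exists_base ht.1 E hE hX e
  refine (B.main (fun u hu => ?_) h).imp (⟨inferInstance, ·⟩) (⟨inferInstance, ·⟩)
  obtain ⟨P, -, hP⟩ := ht.2
  obtain ⟨g, -, hg⟩ := (H1.sylow_isSylowIn_top P).exists_cj_le (Q := Subgroup.zpowers u)
    (IsPGroup.of_card (n := 1) (by rw [Nat.card_zpowers, hu]; rfl)) le_top
  obtain ⟨m, hm⟩ := B.cent _ (hP _ (hg (H1.conj_mem_cj (Subgroup.mem_zpowers u))))
  exact ⟨m, hm ▸ (isConj_iff.2 ⟨g, rfl⟩).symm⟩

end Cfsg.Agent.S0455
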