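import Cfsg.Statements.S0458
import Cfsg.Agent.H5.J3C

set_option autoImplicit false
open Cfsg

namespace Cfsg.Agent.S0458

/-- Janko's third group exists as a transitive permutation group of degree 6156 with point stabiliser of order 8160: a simple group of order 50232960. -/
theorem result : ∃ H : Subgroup (Equiv.Perm (Fin 6156)), Cfsg.IsJ3 H ∧ MulAction.IsPretransitive H (Fin 6156) ∧ Nat.card (MulAction.stabilizer H (0 : Fin 6156)) = 8160 := by
  haveI : Fintype (GaloisField 2 2) := Fintype.ofFinite _
  have hF : Fintype.card (GaloisField 2 2) = 4 := by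
    rw [← Nat.card_eq_fintype_card, GaloisField.card 2 2 (by norm_num)]; norm_num
  obtain ⟨ω, hω⟩ := H5.exists_omega _ hF
  obtain ⟨hc, hs⟩ := H5.J3.main hω hF
  have hJ := H5.J3.card_J3 hω hF
  let K := (H5.J3.KK hω).map (QuotientGroup.mk' (Subgroup.center _))
  have hZ : Subgroup.center _ ≤ H5.J3.KK hω := by
    rw [hc, H5.J3.ZZ, Subgroup.zpowers_le]; exact H5.J3.zeta_mem hω
  have hi : K.index = 6155 + 1 := by
    rw [Subgroup.index_map_eq _ (QuotientGroup.mk'_surjective _) (by simpa using hZ)]
    have := (H5.J3.KK hω).card_mul_index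
    rw [H5.J3.card_KK, H5.J3.card_G hω] at this
    omega
  obtain ⟨H, e, ht, hst⟩ := H5.exists_perm_rep K 6155 hi (fun h => by simp [h] at hi)
  refine ⟨H, ⟨e.symm.isSimpleGroup, (Nat.card_congr e.toEquiv).symm.trans hJ⟩, ht, ?_⟩
  rw [hst, Subgroup.card_map_of_injective e.injective]
  have := K.card_mul_index
  rw [hi, hJ] at this
  omega

end Cfsg.Agent.S0458
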