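import Cfsg.Statements.S0459
import Cfsg.Agent.H5.RuG
-- import your own Cfsg.Agent.* helpers here

set_option autoImplicit false
open Cfsg

namespace Cfsg.Agent.S0459

theorem aux {Q : Type*} [Group Q] (K T : Subgroup Q) (hT : T ≤ K) (hTs : IsSimpleGroup T)
    (hTc : Nat.card T = 17971200) {P : Type*} [Group P] (e : Q ≃* P) (S : Subgroup P)
    (h : S = K.map e.toMonoidHom) : ∃ T' : Subgroup S, Cfsg.IsTits T' := by
  have hle : T.map e.toMonoidHom ≤ S := h ▸ Subgroup.map_mono hT
  let e' := (T.equivMapOfInjective e.toMonoidHom e.injective).trans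
    (Subgroup.subgroupOfEquivOfLe hle).symm
  exact ⟨_, e'.symm.isSimpleGroup, (Nat.card_congr e'.toEquiv).symm.trans hTc⟩

/-- The Rudvalis group exists as a transitive permutation group of degree 4060: simple of order 145926144000, with point stabiliser of order 35942400 containing a simple subgroup of order 17971200 (the order of the Tits group). -/
theorem result : ∃ H : Subgroup (Equiv.Perm (Fin 4060)), Cfsg.IsRu H ∧ MulAction.IsPretransitive H (Fin 4060) ∧ Nat.card (MulAction.stabilizer H (0 : Fin 4060)) = 35942400 ∧ ∃ T : Subgroup (MulAction.stabilizer H (0 : Fin 4060)), Cfsg.IsTits T := by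
  obtain ⟨hs, hc⟩ := H5.Ru.simple_G0
  obtain ⟨K, T, hT, hK, hTs, hTc⟩ := H5.Ru.sub_a H5.Ru.h10
  have hi : K.index = 4059 + 1 := by
    have := K.card_mul_index
    rw [hK, hc] at this
    omega
  obtain ⟨H, e, ht, hst⟩ := H5.exists_perm_rep K 4059 hi (fun h => by simp [h] at hi)
  refine ⟨H, ⟨e.symm.isSimpleGroup, (Nat.card_congr e.toEquiv).symm.trans hc⟩, ht, ?_,
    aux K T hT hTs hTc e _ hst⟩
  rw [hst, Subgroup.card_map_of_injective e.injective, hK]

end Cfsg.Agent.S0459
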