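import Cfsg.Statements.S0460
import Cfsg.Agent.H5.OnG
-- import your own Cfsg.Agent.* helpers here

set_option autoImplicit false
open Cfsg

namespace Cfsg.Agent.S0460

/-- The O'Nan group exists as a transitive permutation group of degree 122760: simple of order 460815505920, point stabiliser of order 3753792, and containing simple subgroups of orders 175560 and 7920. -/
theorem result : ∃ H : Subgroup (Equiv.Perm (Fin 122760)), Cfsg.IsON H ∧ MulAction.IsPretransitive H (Fin 122760) ∧ Nat.card (MulAction.stabilizer H (0 : Fin 122760)) = 3753792 ∧ (∃ K : Subgroup H, Cfsg.IsJ1 K) ∧ (∃ K : Subgroup H, Cfsg.IsM11 K) := by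
  have hs := (H5.On.simple H5.On.h30 H5.On.ht3).2
  have hc := H5.On.card_Q H5.On.h30 H5.On.ht3
  obtain ⟨⟨K, hK⟩, ⟨J, hJ, hJc⟩, M, hM, hMc⟩ := H5.On.subs H5.On.h30 H5.On.ht3
  have hi : K.index = 122759 + 1 := by
    have := K.card_mul_index
    rw [hK, hc] at this
    omega
  obtain ⟨H, e, ht, hst⟩ := H5.exists_perm_rep K 122759 hi (fun h => by simp [h] at hi)
  refine ⟨H, ⟨e.symm.isSimpleGroup, (Nat.card_congr e.toEquiv).symm.trans hc⟩, ht, ?_,
    ⟨J.map e.toMonoidHom, (J.equivMapOfInjective _ e.injective).symm.isSimpleGroup, ?_⟩,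
    M.map e.toMonoidHom, (M.equivMapOfInjective _ e.injective).symm.isSimpleGroup, ?_⟩
  · rw [hst, Subgroup.card_map_of_injective e.injective, hK]
  · rw [Subgroup.card_map_of_injective e.injective, hJc]
  · rw [Subgroup.card_map_of_injective e.injective, hMc]

end Cfsg.Agent.S0460
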