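import Cfsg.Statements.S0462
import Cfsg.Agent.H4.HeS

set_option autoImplicit false
open Cfsg

namespace Cfsg.Agent.S0462

theorem aux {G : Type} [Group G] [Finite G] {G' K N : Subgroup G} (hK : K ≤ G') (hN : N ≤ K)
    (hs : IsSimpleGroup G') (h1 : Nat.card G' = 4030387200) (h2 : Nat.card K = 1958400)
    (h3 : Nat.card N = 979200) (h4 : Nonempty (N ≃* H4.Sp4)) : ∃ H : Subgroup (Equiv.Perm (Fin 2058)), Cfsg.IsHe H ∧ MulAction.IsPretransitive H (Fin 2058) ∧ ∃ (F : Type) (_ : Field F) (_ : Fintype F), Fintype.card F = 4 ∧ ∃ N : Subgroup (MulAction.stabilizer H (0 : Fin 2058)), N.index = 2 ∧ Nonempty (N ≃* Matrix.symplecticGroup (Fin 2) F) := by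
  obtain ⟨H, ⟨e⟩, h5, ⟨e2⟩⟩ := H4.perm_rep' hK hs 2058 (by norm_num) (by rw [h1, h2])
  obtain ⟨N', hN, ⟨e3⟩⟩ := H4.exists_sub_of_equiv hN e2 (n := 2) (by rw [h2, h3])
  obtain ⟨e4⟩ := h4
  exact ⟨H, H4.simple_card_of_equiv e ⟨hs, h1⟩, h5, H4.K4, inferInstance,
    H4.instFintypeK4, H4.card_K4, N', hN, ⟨e3.symm.trans e4⟩⟩

/-- The Held group exists as a transitive permutation group of degree 2058: simple of order 4030387200, with point stabiliser containing, with index 2, a copy of the 4-dimensional symplectic group over the field with four elements. -/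
theorem result : ∃ H : Subgroup (Equiv.Perm (Fin 2058)), Cfsg.IsHe H ∧ MulAction.IsPretransitive H (Fin 2058) ∧ ∃ (F : Type) (_ : Field F) (_ : Fintype F), Fintype.card F = 4 ∧ ∃ N : Subgroup (MulAction.stabilizer H (0 : Fin 2058)), N.index = 2 ∧ Nonempty (N ≃* Matrix.symplecticGroup (Fin 2) F) :=
  aux ((H4.le_map_id _).trans le_sup_left) H4.He.cH0le H4.He.simpleG H4.He.cardG H4.He.cardH
    H4.He.cardN0 H4.He.isoN0

end Cfsg.Agent.S0462
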