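import Cfsg.Statements.S0463
import Cfsg.Agent.H5.HnG
-- import your own Cfsg.Agent.* helpers here

set_option autoImplicit false
open Cfsg

namespace Cfsg.Agent.S0463

/-- The Harada–Norton group exists as a transitive permutation group of degree 1140000: simple of order 273030912000000 with point stabiliser isomorphic to the alternating group of degree 12. -/
theorem result : ∃ H : Subgroup (Equiv.Perm (Fin 1140000)), Cfsg.IsHN H ∧ MulAction.IsPretransitive H (Fin 1140000) ∧ Nonempty (MulAction.stabilizer H (0 : Fin 1140000) ≃* alternatingGroup (Fin 12)) := by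
  have hs := H5.Hn.simple H5.Hn.h10 H5.Hn.ht1
  have hc := H5.Hn.card_G H5.Hn.h10 H5.Hn.ht1
  have hK := H5.Hn.card_H H5.Hn.h10
  obtain ⟨f⟩ := (H5.Hn.graph (H5.Hn.hb H5.Hn.h10)).2
  generalize H5.Hn.m1.gn H5.Hn.hg 2 = K at hK f
  have hi : K.index = 1139999 + 1 := by
    have := K.card_mul_index
    rw [hK, hc] at this
    omega
  obtain ⟨H, e, ht, hst⟩ := H5.exists_perm_rep K 1139999 hi (fun h => by simp [h] at hi)
  exact ⟨H, ⟨e.symm.isSimpleGroup, (Nat.card_congr e.toEquiv).symm.trans hc⟩, ht,
    ⟨(MulEquiv.subgroupCongr hst).trans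
      ((K.equivMapOfInjective _ e.injective).symm.trans f.symm)⟩⟩

end Cfsg.Agent.S0463
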