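import Cfsg.Statements.S0471
import Cfsg.Agent.H4.F22S

set_option autoImplicit false
open Cfsg

namespace Cfsg.Agent.S0471

theorem aux {G : Type} [Group G] [Finite G] {G' H : Subgroup G}
    (hs : IsSimpleGroup G') (h1 : Nat.card G' = 64561751654400)
    (h2 : IsNonsplitDoubleCover H (H4.SU6 ⧸ Subgroup.center H4.SU6))
    (h3 : ∃ S : Set G', IsThreeTranspositionClass S ∧ Nat.card S = 3510 ∧
      ∀ e ∈ S, Nonempty (H ≃* Subgroup.centralizer {e})) : ∃ (G : Type) (_ : Group G) (_ : Finite G), Cfsg.IsFi22 G ∧ ∃ D : Set G, Cfsg.IsThreeTranspositionClass D ∧ Nat.card D = 3510 ∧ ∀ d ∈ D, ∃ (F : Type) (_ : Field F) (_ : Fintype F), Fintype.card F = 4 ∧ Cfsg.IsNonsplitDoubleCover (Subgroup.centralizer ({d} : Set G)) (Cfsg.PSU 6 F 2) := by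
  obtain ⟨S, a, b, c⟩ := h3
  refine ⟨G', inferInstance, inferInstance, ⟨hs, h1⟩, S, a, b, fun d hd => ?_⟩
  obtain ⟨e⟩ := c d hd
  exact ⟨H4.K4, inferInstance, H4.instFintypeK4, H4.card_K4, H4.nonsplit_congr e (MulEquiv.refl _) h2⟩

/-- The Fischer group of order 64561751654400 exists as a 3-transposition group: a simple group of that order generated by a conjugacy class of 3510 3-transpositions, the centraliser of each being a non-split double cover of PSU(6, 2). -/
theorem result : ∃ (G : Type) (_ : Group G) (_ : Finite G), Cfsg.IsFi22 G ∧ ∃ D : Set G, Cfsg.IsThreeTranspositionClass D ∧ Nat.card D = 3510 ∧ ∀ d ∈ D, ∃ (F : Type) (_ : Field F) (_ : Fintype F), Fintype.card F = 4 ∧ Cfsg.IsNonsplitDoubleCover (Subgroup.centralizer ({d} : Set G)) (Cfsg.PSU 6 F 2) :=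
  aux H4.F22.simpleG H4.F22.cardG H4.F22.covU H4.F22.transp

end Cfsg.Agent.S0471
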