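import Cfsg.Statements.S0474
import Cfsg.Agent.Mo.Main
import Cfsg.Agent.Mo.LcF
import Cfsg.Agent.Mo.Fi
-- import your own Cfsg.Agent.* helpers here

set_option autoImplicit false
open Cfsg

namespace Cfsg.Agent.S0474

/-- Some simple group of order 4154781481226426191177580544000000 contains simple subgroups of the orders of the Thompson group, the Harada–Norton group and the Fischer group of order 4089470473293004800. -/
theorem result : ∃ (G : Type) (_ : Group G) (_ : Finite G), Cfsg.IsB G ∧ (∃ K : Subgroup G, Cfsg.IsTh K) ∧ (∃ K : Subgroup G, Cfsg.IsHN K) ∧ (∃ K : Subgroup G, Cfsg.IsFi23 K) := by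
  haveI := Mo.hyp_main.finiteK
  exact ⟨_, inferInstance, inferInstance, Mo.hyp_main.cover.2.1, Mo.th_B Mo.dat_ok, Mo.hn_B Mo.dat_ok,
    Mo.fi23_B Mo.dat_ok⟩

end Cfsg.Agent.S0474
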