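import Cfsg.Statements.S0479
import Cfsg.Agent.H5.OnG
-- import your own Cfsg.Agent.* helpers here

set_option autoImplicit false
open Cfsg

namespace Cfsg.Agent.S0479

/-- A triple cover of the O'Nan group as 45 × 45 matrices over the field with seven elements: SL(45, 7) has a subgroup whose centre has order 3 and whose quotient by its centre is simple of order 460815505920. -/
theorem result : ∃ H : Subgroup (Matrix.SpecialLinearGroup (Fin 45) (ZMod 7)), Nat.card (Subgroup.center H) = 3 ∧ Cfsg.IsON (H ⧸ Subgroup.center H) := by
  exact ⟨H5.On.G0, H5.On.card_Z H5.On.h30 H5.On.ht3, (H5.On.simple H5.On.h30 H5.On.ht3).2,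
    H5.On.card_Q H5.On.h30 H5.On.ht3⟩

end Cfsg.Agent.S0479
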