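import Cfsg.Statements.S0481
import Cfsg.Agent.H3.Invol

set_option autoImplicit false
open Cfsg

namespace Cfsg.Agent.S0481

/-- Large extraspecial subgroups: let z be an involution of a finite group G whose centraliser C contains a normal 2-subgroup Q with centre of order 2 and all squares central, such that every element of G centralising Q lies in Q. Then C contains a Sylow 2-subgroup of G, and any involution of G whose centraliser contains a Sylow 2-subgroup of G is conjugate to z. -/
theorem result {G : Type*} [Group G] [Finite G] (z : G) (hz : orderOf z = 2) (Q : Subgroup G) (hQC : Q ≤ Subgroup.centralizer ({z} : Set G)) (hQn : ∀ g ∈ Subgroup.centralizer ({z} : Set G), ∀ q ∈ Q, g * q * g⁻¹ ∈ Q) (hQ2 : IsPGroup 2 Q) (hZ : Nat.card (Subgroup.center Q) = 2) (hsq : ∀ x : Q, x ^ 2 ∈ Subgroup.center Q) (hlarge : Subgroup.centralizer (Q : Set G) ≤ Q) : (∃ P : Sylow 2 G, (P : Subgroup G) ≤ Subgroup.centralizer ({z} : Set G)) ∧ ∀ u : G, orderOf u = 2 → (∃ P : Sylow 2 G, (P : Subgroup G) ≤ Subgroup.centralizer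 ({u} : Set G)) → IsConj z u := by
  have hzC : z ∈ Subgroup.centralizer (Q : Set G) := fun q hq =>
    Subgroup.mem_centralizer_singleton_iff.1 (hQC hq)
  have key : ∀ w : G, orderOf w = 2 → w ∈ Subgroup.centralizer (Q : Set G) → w = z := by
    intro w hw hwC
    have : Fact (Nat.Prime 2) := ⟨Nat.prime_two⟩
    have hcyc : IsCyclic (Subgroup.center Q) := isCyclic_of_prime_card hZ
    have mem : ∀ v (hv : v ∈ Subgroup.centralizer (Q : Set G)),
        (⟨v, hlarge hv⟩ : Q) ∈ Subgroup.center Q := by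
      intro v hv
      rw [Subgroup.mem_center_iff]
      intro q
      exact Subtype.ext (hv q q.2)
    have := H3.involution_unique_of_isCyclic (K := Subgroup.center Q) (a := ⟨_, mem w hwC⟩)
      (b := ⟨_, mem z hzC⟩) (by rwa [← Subgroup.orderOf_coe, ← Subgroup.orderOf_coe])
      (by rwa [← Subgroup.orderOf_coe, ← Subgroup.orderOf_coe])
    exact congrArg Subtype.val (congrArg Subtype.val this)
  obtain ⟨P, hP⟩ := hQ2.exists_le_sylow
  have hPne : (P : Subgroup G) ≠ ⊥ := fun h =>
    H3.ne_one_of_orderOf_two hz (by have := hP (hlarge hzC); rwa [h] at this)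
  obtain ⟨w, -, hw, hc⟩ := H3.exists_central_involution P.isPGroup' hPne
  have hwz := key w hw (fun q hq => hc q (hP hq))
  subst hwz
  refine ⟨⟨P, fun x hx => Subgroup.mem_centralizer_singleton_iff.2 (hc x hx)⟩, ?_⟩
  rintro u hu ⟨R, hR⟩
  obtain ⟨g, rfl⟩ := MulAction.exists_smul_eq G P R
  have := key (g⁻¹ * u * g⁻¹⁻¹) (by rw [H3.orderOf_conj, hu]) (by
    intro q hq
    have h1 : g * q * g⁻¹ ∈ g • P := by
      rw [H3.mem_conj_smul_sylow_iff]
      have : q ∈ P := hP hq
      simpa [mul_assoc] using this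
    have h2 := Subgroup.mem_centralizer_singleton_iff.1 (hR h1)
    calc q * (g⁻¹ * u * g⁻¹⁻¹) = g⁻¹ * (g * q * g⁻¹ * u) * g := by group
      _ = _ := by rw [h2]; group)
  exact (isConj_iff.2 ⟨g⁻¹, this⟩).symm

end Cfsg.Agent.S0481
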