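import Cfsg.Statements.S1551
import Cfsg.Agent.H4.Sextet
import Cfsg.Agent.H4.Conj

set_option autoImplicit false
open scoped Pointwise
open Cfsg

set_option maxRecDepth 100000

namespace Cfsg.Agent.S1551

open Cfsg.Agent.H4

/-- Elements of the sextet group with their action on the six tetrads. -/
def pairs : List (ℕ × ℕ) :=
  [(0x629d58c0349892d218f628c0fbae48, 0x1a344), (0x8c8470a888341744ceafb81acb146e, 0x1d111), (0x546c2b68643e64b2e507454748457, 0x222e8), (0x24ab758f4955e46a19088cca9dc41, 0x22358), (0xb130a4c7223966ad9a77a8a888ae0, 0x13b08), (0xbe7634a3481548591aca9dc91dc02, 0x14748), (0x114ca18b090ed53a1737a62d70ae1, 0x23a88), (0xd90a91c6d49613abe8662e2470ae0, 0x2b888), (0x140ea9acad7bacc426923546488037, 0x2c688), (0x10cb3d1d0615a95490facc7688837, 0x25688)]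

/-- The induced permutation `q` is realised. -/
def mem (q : ℕ) : Bool := band (isPerm 6 3 q) (anyL pairs fun c => band (Nat.beq c.2 q)
  (band (memSx t0 c.1) (allLt 6 fun i =>
    Nat.beq (push 24 5 c.1 (getL 0 sxL i)) (getL 0 sxL (img 3 q i)))))

theorem card_induced : 720 ≤ Nat.card (induced (MulAction.stabilizer M24 sx0) sx0) := by
  refine le_trans ?_ (le_card_induced _ sx0 6 3 (fun i => gE.ofMask (getL 0 sxL i)) (by norm_num)
    (by norm_num) (fun i hi => mem_sx0.mpr ⟨i, hi, rfl⟩) (fun x hx => mem_sx0.mp hx)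
    (by decide +kernel) mem ?_ 4
    [(0, [0x1a344, 0x1d111]), (1, [0x222e8, 0x22358]), (2, [0x13b08, 0x14748]), (3, [0x23a88, 0x2b888]), (4, [0x2c688, 0x25688])])
  · decide +kernel
  · intro q hq
    simp only [mem, band_eq, Bool.and_eq_true, anyL_iff, allLt_iff, Nat.beq_eq] at hq
    obtain ⟨h1, c, -, -, h2, h3⟩ := hq
    obtain ⟨g, hg, h4⟩ := sound_memSx t0 c.1 h2
    exact ⟨h1, g, hg, fun i hi => by rw [← h3 i hi]; exact Enc.Rep.smul_ofMask h4 _⟩

theorem stab_inv (S : Finset (Finset GolayPt)) :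
    ∀ g ∈ MulAction.stabilizer M24 S, ∀ t ∈ S, g • t ∈ S := fun g hg t ht => by
  rw [← MulAction.mem_stabilizer_iff.mp hg]
  exact Finset.smul_mem_smul_finset ht

theorem card_perm {S : Finset (Finset GolayPt)} (hS : S ∈ sextets) :
    Nat.card (Equiv.Perm S) = 720 := by
  rw [Nat.card_perm, Nat.card_eq_fintype_card, Fintype.card_coe, hS.1]; rfl

theorem card_ker0 : Nat.card (famHom _ sx0 (stab_inv sx0)).ker = 192 := by
  have h1 := card_eq_ker_mul_induced _ sx0 (stab_inv sx0)
  have h2 : Nat.card (induced (MulAction.stabilizer M24 sx0) sx0) = 720 :=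
    le_antisymm (card_perm sx0_mem ▸ Subgroup.card_le_card_group _) card_induced
  rw [card_stab_sx0, h2] at h1
  omega

theorem card_ker {S : Finset (Finset GolayPt)} (hS : S ∈ sextets) :
    Nat.card (famHom _ S (stab_inv S)).ker = 192 := by
  obtain ⟨g, hg⟩ := trans_sextet hS
  rw [← card_ker0]
  refine Nat.card_congr ((equivOfConj g (mem_stabilizer_conj hg)).toEquiv.subtypeEquiv fun x => ?_)
  rw [mem_famHom_ker, mem_famHom_ker]
  show _ ↔ ∀ t ∈ sx0, (g * x * g⁻¹) • t = t
  constructor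
  · intro h t ht
    rw [mul_smul, mul_smul, h _ (by rwa [Finset.inv_smul_mem_iff, hg]), smul_inv_smul]
  · intro h t ht
    have := h (g • t) (hg ▸ Finset.smul_mem_smul_finset ht)
    rwa [mul_smul, mul_smul, inv_smul_smul, smul_left_cancel_iff] at this

/-- A verified chain for the normal subgroup of order 64. -/
def LN : List (CG.Level ℕ) :=
  [(0, [0x158ca3a2304b9ab651f29d4a41dc01, 0x5aaf9a0b0a0dab6255239a2470457],
     [(0, 0), (1, 1), (1, 1)]),
   (3, [0xbda6aaacb048da8951ec31e2470820, 0xbc269ac9d65448c5be8831c6d28820],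
     [(0, 0), (1, 1), (1, 1)]),
   (4, [0xb926faa22da3a0b6255231cb618820, 0xbc0ea332364b892451ebaccad18820],
     [(0, 0), (1, 1), (1, 1)])]

/-- Generators of the sextet group. -/
def gK : List ℕ := [0xa5a633ac0d70488944aca9af01254f, 0xac561651a3141ca4dc0f44885b1e66, 0xbb0e9ac612a590e2a9e39988b68820, 0xcc856a9071c8d44ba2fb419558ae0, 0xbbd66658aa3b92d856649223418440, 0xa6d384a343394b41eac690af1dc40, 0x134e9ac8b67c60b4514c999c4186e0, 0xbb5135bdd63160aa1ea964a2418820, 0xbda68abcad93a0a4b17439a2418440]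

theorem exists_N0 : ∃ N : Subgroup (MulAction.stabilizer M24 sx0),
    N.Normal ∧ Nat.card N = 64 ∧ ∀ x ∈ N, x * x = 1 := by
  have h1 : allL (CG.gensOf LN) (memSx t0) = true := by decide +kernel
  have hv := valid_of_sound (sound_memSx t0) h1
  have hle : mcg.gen (CG.gensOf LN) ≤ MulAction.stabilizer M24 sx0 :=
    gen_le_of_sound (sound_memSx t0) h1
  have hss : mcg.ssCheck LN = true := by decide +kernel
  have hK : mcg.gen gK = MulAction.stabilizer M24 sx0 :=
    gen_eq_of_card (sound_memSx t0) (by decide +kernel) 5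
      [(0, [0xa5a633ac0d70488944aca9af01254f, 0xac561651a3141ca4dc0f44885b1e66]),
   (3, [0xbb0e9ac612a590e2a9e39988b68820, 0xcc856a9071c8d44ba2fb419558ae0]),
   (4, [0xbbd66658aa3b92d856649223418440, 0xa6d384a343394b41eac690af1dc40]),
   (7, [0x134e9ac8b67c60b4514c999c4186e0, 0xbb5135bdd63160aa1ea964a2418820]),
   (1, [0xbda68abcad93a0a4b17439a2418440])] _ card_stab_sx0 (by decide +kernel)
  refine ⟨(mcg.gen (CG.gensOf LN)).subgroupOf _, ?_, ?_, ?_⟩
  · apply Subgroup.normal_subgroupOf_of_le_normalizer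
    rw [← hK]
    have h2 : allL gK (fun s => allL (CG.gensOf LN) fun t =>
        mcg.sift (mcg.transOf LN) (mcg.mul s (mcg.mul t (mcg.inv s)))) = true := by decide +kernel
    exact mcg.gen_le_normalizer _ _ fun s hs t ht g hg =>
      mcg.mem_of_sift hv hg (allL_iff.mp (allL_iff.mp h2 s hs) t ht)
  · rw [Nat.card_congr (Subgroup.subgroupOfEquivOfLe hle).toEquiv]
    apply le_antisymm
    · exact le_trans (mcg.card_gen_le mcg_uniq mcg.fin_order hv hss).2 (by decide +kernel)
    · exact le_trans (by decide +kernel) (le_card_gen hv 4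
        [(0, [0x158ca3a2304b9ab651f29d4a41dc01, 0x5aaf9a0b0a0dab6255239a2470457, 0xbda6aaacb048da8951ec31e2470820, 0xbc269ac9d65448c5be8831c6d28820, 0xb926faa22da3a0b6255231cb618820, 0xbc0ea332364b892451ebaccad18820]),
   (3, [0xbda6aaacb048da8951ec31e2470820, 0xbc269ac9d65448c5be8831c6d28820, 0xb926faa22da3a0b6255231cb618820, 0xbc0ea332364b892451ebaccad18820]),
   (4, [0xb926faa22da3a0b6255231cb618820, 0xbc0ea332364b892451ebaccad18820])])
  · intro x hx
    exact Subtype.ext (mcg.sq_eq_one hv hss (by decide +kernel) _ hx)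

/-- Structure of a sextet stabiliser: it induces every permutation of the six tetrads, the subgroup fixing each tetrad setwise has order 192, and there is a normal subgroup of order 64 consisting of elements squaring to the identity. -/
theorem result (S : Finset (Finset Cfsg.GolayPt)) (hS : S ∈ Cfsg.sextets) : (∀ e : Equiv.Perm ↥S, ∃ g ∈ MulAction.stabilizer Cfsg.M24 S, ∀ t : ↥S, (g : Equiv.Perm Cfsg.GolayPt) • (t : Finset Cfsg.GolayPt) = ((e t : ↥S) : Finset Cfsg.GolayPt)) ∧ Nat.card {g : ↥(MulAction.stabilizer Cfsg.M24 S) // ∀ t ∈ S, ((g : Cfsg.M24) : Equiv.Perm Cfsg.GolayPt) • t = t} = 192 ∧ ∃ N : Subgroup ↥(MulAction.stabilizer Cfsg.M24 S), N.Normal ∧ Nat.card N = 64 ∧ ∀ x ∈ N, x * x = 1 := by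
  refine ⟨?_, ?_, ?_⟩
  · have h1 := card_eq_ker_mul_induced _ S (stab_inv S)
    rw [card_stab_sextet hS, card_ker hS] at h1
    have h2 : induced (MulAction.stabilizer M24 S) S = ⊤ :=
      Subgroup.eq_top_of_card_eq _ (by rw [card_perm hS]; omega)
    intro e
    exact h2.ge (Subgroup.mem_top e)
  · rw [← card_ker hS]
    exact Nat.card_congr (Equiv.subtypeEquivRight fun x => (mem_famHom_ker _ S (stab_inv S) x).symm)
  · obtain ⟨g, hg⟩ := trans_sextet hS
    obtain ⟨N, h1, h2, h3⟩ := exists_N0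
    let e := equivOfConj g (mem_stabilizer_conj hg)
    refine ⟨N.comap e.toMonoidHom, h1.comap _, ?_, fun x hx => e.injective ?_⟩
    · rw [← h2]
      exact Nat.card_congr (e.toEquiv.subtypeEquiv fun x => Iff.rfl)
    · rw [map_mul, map_one]; exact h3 _ hx

end Cfsg.Agent.S1551
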