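import Cfsg.Statements.S1553
import Cfsg.Agent.H4.Octad

set_option autoImplicit false
open scoped Pointwise
open Cfsg

set_option maxRecDepth 100000

namespace Cfsg.Agent.S1553

open Cfsg.Agent.H4


/-- The stabiliser of an octad in the group of the length-24 code induces on the octad exactly its alternating group. -/
theorem result (o : Finset Cfsg.GolayPt) (ho : o ∈ Cfsg.octads) : {e : Equiv.Perm ↥o | ∃ g : Equiv.Perm Cfsg.GolayPt, g ∈ Cfsg.M24 ∧ ∃ h : (∀ x, g x ∈ o ↔ x ∈ o), g.subtypePerm h = e} = (alternatingGroup ↥o : Set (Equiv.Perm ↥o)) := by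
  ext e
  constructor
  · rintro ⟨g, hg, h, rfl⟩
    refine range_le_alt ho ⟨⟨g, hg, ?_⟩, rfl⟩
    ext x
    rw [← Finset.inv_smul_mem_iff, ← h]
    simp
  · intro he
    obtain ⟨p, hp⟩ : ∃ p, p ∉ o := by
      by_contra h
      push Not at h
      have := ho.2
      rw [Finset.eq_univ_of_forall h, Finset.card_univ, card_golayPt] at this
      omega
    obtain ⟨f, hf⟩ := exists_equiv_alt ho hp
    obtain ⟨g, hg⟩ := f.surjective ⟨e, he⟩
    exact ⟨g, g.2.1.1, stab_apply_mem_iff o g g.2.1, (hf g).symm.trans (congrArg Subtype.val hg)⟩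

end Cfsg.Agent.S1553
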