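import Cfsg.Statements.S1554
import Cfsg.Agent.H4.Octad

set_option autoImplicit false
open scoped Pointwise
open Cfsg

set_option maxRecDepth 100000

namespace Cfsg.Agent.S1554

open Cfsg.Agent.H4


/-- An octad stabiliser is a split extension: the joint stabiliser of the octad and a point outside it is a complement to the pointwise stabiliser of the octad, and is isomorphic to the alternating group of degree 8. -/
theorem result (o : Finset Cfsg.GolayPt) (ho : o ∈ Cfsg.octads) (p : Cfsg.GolayPt) (hp : p ∉ o) : (Cfsg.M24 ⊓ fixingSubgroup (Equiv.Perm Cfsg.GolayPt) (o : Set Cfsg.GolayPt)) ⊓ (Cfsg.M24 ⊓ MulAction.stabilizer (Equiv.Perm Cfsg.GolayPt) o ⊓ MulAction.stabilizer (Equiv.Perm Cfsg.GolayPt) p) = ⊥ ∧ (Cfsg.M24 ⊓ fixingSubgroup (Equiv.Perm Cfsg.GolayPt) (o : Set Cfsg.GolayPt)) ⊔ (Cfsg.M24 ⊓ MulAction.stabilizer (Equiv.Perm Cfsg.GolayPt) o ⊓ MulAction.stabilizer (Equiv.Perm Cfsg.GolayPt) p) = (Cfsg.M24 ⊓ MulAction.stabilizer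 (Equiv.Perm Cfsg.GolayPt) o) ∧ Nonempty (↥(Cfsg.M24 ⊓ MulAction.stabilizer (Equiv.Perm Cfsg.GolayPt) o ⊓ MulAction.stabilizer (Equiv.Perm Cfsg.GolayPt) p) ≃* alternatingGroup (Fin 8)) := by
  refine ⟨?_, ?_, ?_⟩
  · rw [eq_bot_iff]
    rintro g ⟨⟨hg, h1⟩, -, h2⟩
    exact eq_one_of_fix_octad ho hp hg ((mem_fixingSubgroup_iff _).mp h1) h2
  · have key : ∀ g : Equiv.Perm GolayPt, (∀ x ∈ o, g x = x) → g • o = o := fun g h =>
      Finset.eq_of_subset_of_card_le (fun x hx => by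
        obtain ⟨y, hy, rfl⟩ := Finset.mem_smul_finset.mp hx
        rwa [Equiv.Perm.smul_def, h y hy]) (Finset.card_smul_finset _ _).ge
    apply le_antisymm
    · exact sup_le (fun g hg => ⟨hg.1, key g ((mem_fixingSubgroup_iff _).mp hg.2)⟩) inf_le_left
    · intro g hg
      obtain ⟨k, hk, h1, h2⟩ := exists_fix_octad ho hp
        (mt (stab_apply_mem_iff o g hg p).mp hp)
      rw [← inv_mul_cancel_left k g]
      exact Subgroup.mul_mem_sup (inv_mem ⟨hk, (mem_fixingSubgroup_iff _).mpr h1⟩)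
        ⟨mul_mem ⟨hk, key k h1⟩ hg, h2⟩
  · obtain ⟨f, -⟩ := exists_equiv_alt ho hp
    exact ⟨f.trans (Finset.equivFinOfCardEq ho.2).altCongrHom⟩

end Cfsg.Agent.S1554
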