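import Cfsg.Statements.S1555
import Cfsg.Agent.H4.Flags

set_option autoImplicit false
open scoped Pointwise
open Cfsg

set_option maxRecDepth 100000

namespace Cfsg.Agent.S1555

open Cfsg.Agent.H4

theorem count (s : ℕ) (hs : s < 2 ^ 24) :
    {o' : Finset GolayPt | o' ∈ octads ∧ gE.ofMask o0 ∩ o' = gE.ofMask s}.ncard =
    countLt 4096 fun x => band (Nat.beq (pc24 (cw x)) 8) (Nat.beq (Nat.land o0 (cw x)) s) :=
  ncard_code (fun m => band (Nat.beq (pc24 m) 8) (Nat.beq (Nat.land o0 m) s))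
    (fun _ h => h.1.1) fun m hm h => by
      rw [Set.mem_ofPred_eq, ← gE.ofMask_land, gE.ofMask_inj (Nat.and_lt_two_pow _ hm) hs]
      simp [ofMask_mem_octads hm, h]

theorem key {o s : Finset GolayPt} {g : Equiv.Perm GolayPt} (hg : g ∈ M24) :
    {o' : Finset GolayPt | o' ∈ octads ∧ o ∩ o' = s}.ncard =
      {o' : Finset GolayPt | o' ∈ octads ∧ g • o ∩ o' = g • s}.ncard :=
  ncard_eq_of_smul g _ _ fun x => by
    simp only [Set.mem_ofPred_eq, smul_mem_octads_iff hg, ← Finset.smul_finset_inter,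
      smul_left_cancel_iff]

/-- Bottom row of the Leech triangle: an octad is met in a prescribed pair of its points by exactly 16 octads and in a prescribed 4-subset by exactly 4 octads. -/
theorem result (o : Finset Cfsg.GolayPt) (ho : o ∈ Cfsg.octads) (s : Finset Cfsg.GolayPt) (hs : s ⊆ o) : (s.card = 2 → {o' : Finset Cfsg.GolayPt | o' ∈ Cfsg.octads ∧ o ∩ o' = s}.ncard = 16) ∧ (s.card = 4 → {o' : Finset Cfsg.GolayPt | o' ∈ Cfsg.octads ∧ o ∩ o' = s}.ncard = 4) := by
  constructor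
  · intro h
    obtain ⟨a, b, hab, rfl⟩ := Finset.card_eq_two.mp h
    obtain ⟨g, hg, h0, h1, h2⟩ := flag_o_in_in ho (hs (by simp : a ∈ _)) (hs (by simp : b ∈ _)) hab
    have h3 : g • ({a, b} : Finset GolayPt) = gE.ofMask 0x800001 := by
      simp [ofMask_s2, Finset.smul_finset_insert, h1, h2]
    rw [key hg, h0, h3, count _ (by norm_num)]
    decide +kernel
  · intro h
    obtain ⟨a, b, c, d, hab, hac, hbc, had, hbd, hcd, rfl⟩ := card_eq_four' h
    obtain ⟨g, hg, h0, h1, h2, h3, h4⟩ := flag_o_in4 ho (hs (by simp : a ∈ _)) (hs (by simp : b ∈ _))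
      (hs (by simp : c ∈ _)) (hs (by simp : d ∈ _)) hab hac hbc had hbd hcd
    have h3 : g • ({a, b, c, d} : Finset GolayPt) = gE.ofMask 0x800007 := by
      simp [ofMask_s4, Finset.smul_finset_insert, h1, h2, h3, h4]
    rw [key hg, h0, h3, count _ (by norm_num)]
    decide +kernel

end Cfsg.Agent.S1555
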