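import Cfsg.Statements.S1558
import Cfsg.Agent.H4.Trio
import Cfsg.Agent.H4.Iso

set_option autoImplicit false
open scoped Pointwise
open Cfsg

set_option maxRecDepth 100000

namespace Cfsg.Agent.S1558

open Cfsg.Agent.H4

/-- The octads of the standard trio. -/
def trL : List ℕ := [o0, o1, o2]

theorem mem_tr0 {x : Finset GolayPt} : x ∈ tr0 ↔ ∃ i, i < 3 ∧ gE.ofMask (getL 0 trL i) = x := by
  have h : (gE.ofMask o0 ∪ gE.ofMask o1)ᶜ = gE.ofMask o2 := by
    rw [← ofMask_third]; exact congrArg _ (by decide +kernel)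
  simp only [tr0, trioS, h, Finset.mem_insert, Finset.mem_singleton]
  constructor
  · rintro (rfl | rfl | rfl)
    exacts [⟨0, by norm_num, rfl⟩, ⟨1, by norm_num, rfl⟩, ⟨2, by norm_num, rfl⟩]
  · rintro ⟨i, hi, rfl⟩
    interval_cases i
    exacts [Or.inl rfl, Or.inr (Or.inl rfl), Or.inr (Or.inr rfl)]

/-- Elements of the trio group with their action on the three octads. -/
def pairs : List (ℕ × ℕ) :=
  [(0x8b4e934eef50692412d55b0b0189c0, 0x18), (0x494400b1168aa6e192b47acd73b650, 0x9)]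

/-- The induced permutation `q` is realised. -/
def mem (q : ℕ) : Bool := band (isPerm 3 2 q) (anyL pairs fun c => band (Nat.beq c.2 q)
  (band (memTr o0 o1 c.1) (allLt 3 fun i =>
    Nat.beq (push 24 5 c.1 (getL 0 trL i)) (getL 0 trL (img 2 q i)))))

theorem card_induced : 6 ≤ Nat.card (induced (MulAction.stabilizer M24 tr0) tr0) := by
  refine le_trans ?_ (le_card_induced _ tr0 3 2 (fun i => gE.ofMask (getL 0 trL i)) (by norm_num)
    (by norm_num) (fun i hi => mem_tr0.mpr ⟨i, hi, rfl⟩) (fun x hx => mem_tr0.mp hx)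
    (by decide +kernel) mem ?_ 3
    [(0, [0x9]),
   (1, [0x18])])
  · decide +kernel
  · intro q hq
    simp only [mem, band_eq, Bool.and_eq_true, anyL_iff, allLt_iff, Nat.beq_eq] at hq
    obtain ⟨h1, c, -, -, h2, h3⟩ := hq
    obtain ⟨g, hg, h4⟩ := sound_memTr o0 o1 c.1 h2
    exact ⟨h1, g, hg, fun i hi => by rw [← h3 i hi]; exact Enc.Rep.smul_ofMask h4 _⟩

theorem card_perm {S : Finset (Finset GolayPt)} (hS : S ∈ trios) :
    Nat.card (Equiv.Perm S) = 6 := by
  rw [Nat.card_perm, Nat.card_eq_fintype_card, Fintype.card_coe, hS.1]; rfl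

theorem induced_conj {G X : Type*} [Group G] [MulAction G X] [DecidableEq X] (g : G) (S : Finset X)
    (h : induced (MulAction.stabilizer G (g • S)) (g • S) = ⊤) :
    induced (MulAction.stabilizer G S) S = ⊤ := by
  rw [eq_top_iff]
  intro e _
  let f : S ≃ (g • S : Finset X) :=
    (MulAction.toPerm g).subtypeEquiv fun x => (Finset.smul_mem_smul_finset_iff g).symm
  obtain ⟨k, hk, h1⟩ := h.ge (Subgroup.mem_top (f.permCongr e))
  refine ⟨g⁻¹ * k * g, (mem_stabilizer_conj (g := g) rfl _).mpr (by simpa [mul_assoc] using hk),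
    fun t => ?_⟩
  have h2 := h1 (f t)
  rw [Equiv.permCongr_apply, Equiv.symm_apply_apply] at h2
  rw [mul_smul, mul_smul, inv_smul_eq_iff]
  exact h2

/-- The target group. -/
noncomputable def K : CG (GL (Fin 3) (ZMod 2) × Equiv.Perm (Fin 3)) ((ℕ × ℕ) × ℕ) :=
  ((f2FC (ZMod 2)).glcg 3).prodK (scg 3 2 (by norm_num))

/-- A chain for the diagonal group. -/
def LD : List (CG.Level (ℕ × (ℕ × ℕ) × ℕ)) :=
  [(0, [(0xa00458c26773d371995243581592b6, ((0x6b, 0x1ac), 0x6))],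
     [(0, 0), (1, 0), (2, 1), (4, 2), (0, 2), (2, 3), (3, 4), (0, 4), (1, 5), (3, 6), (4, 7), (0, 7), (1, 8), (4, 9), (0, 9), (0, 8), (1, 9), (1, 9), (2, 10), (1, 10), (0, 9), (3, 9), (4, 10)]),
   (4, [(0x728e9412f56857234d8fa585019620, ((0x1e2, 0x8f), 0x18))],
     [(0, 0), (0, 0), (2, 1), (3, 2), (0, 2), (1, 3), (2, 4), (3, 5), (2, 5), (1, 5), (0, 5), (1, 6), (1, 6), (3, 7), (0, 7)]),
   (6, [(0x2d66cb4af0a08cf5a50a69e2470c20, ((0x1e9, 0xf1), 0x24))],
     [(0, 0), (0, 0), (1, 0), (2, 1), (0, 1), (1, 1), (0, 1)]),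
   (1, [(0x759736402aa8d347c90d398a4bc440, ((0x167, 0xae), 0x24))],
     [(0, 0), (0, 0), (1, 1), (1, 1), (1, 1), (0, 1)]),
   (2, [(0x14d9579dc9b0e545a91069ae489420, ((0xf9, 0x1a9), 0x24))],
     [(0, 0), (0, 0)])]

/-- Pairs whose second components generate the target. -/
def lD : List (ℕ × (ℕ × ℕ) × ℕ) :=
  [(0x508608ccf6741612d2af230d793509, ((0x15f, 0xef), 0x9)),
   (0x482e38cd4f1428e0d89562d0531db2, ((0x10a, 0x10a), 0x9)),
   (0x5c12a306c03d5d268ae51c5e823293, ((0x159, 0x159), 0x12)),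
   (0xa45c0099ea2b1221c9076c2d79d564, ((0x151, 0x151), 0x6)),
   (0xa0c25729e6058f78c9096c1829d48b, ((0x111, 0x111), 0x6)),
   (0x899b283ef54066a4ad94b100710dc5, ((0x111, 0x111), 0x18))]

/-- A chain for the target. -/
def LK : List (CG.Level ((ℕ × ℕ) × ℕ)) :=
  [(8, [((0x15f, 0xef), 0x9)],
     [(0, 0), (0, 0), (1, 1), (2, 2), (3, 3), (3, 1)]),
   (4, [((0x10a, 0x10a), 0x9)],
     [(0, 0), (1, 0), (2, 1), (2, 1), (0, 1)]),
   (2, [((0x159, 0x159), 0x12), ((0x151, 0x151), 0x6)],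
     [(0, 0), (1, 1), (1, 1)]),
   (1, [((0x111, 0x111), 0x6)],
     [(0, 0), (1, 0)]),
   (3, [((0x111, 0x111), 0x18)],
     [(0, 0)])]

/-- A verified chain for the normal subgroup of order 64. -/
def LN : List (CG.Level ℕ) :=
  [(0, [0x8d6cb22ae6604efa49096c01310dc5, 0x4c8cb20ad58a147a55231e350b877, 0x1d17662846214f3ac9096c1cfbc401],
     [(0, 0), (1, 1), (2, 2), (1, 2), (2, 3), (2, 3), (2, 2)]),
   (4, [0xbb1f3a4232ab916218ed4a8ab18820, 0xb926faa22da3a0b6255231cb618820, 0xbd6cb22627638cfa224a834b318820],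
     [(0, 0), (1, 1), (2, 2), (1, 2), (2, 3), (2, 3), (2, 2)])]

theorem card_K : Nat.card (GL (Fin 3) (ZMod 2) × Equiv.Perm (Fin 3)) = 1008 := by
  rw [Nat.card_prod, card_GL_zmod, card_perm_fin]; decide

theorem exists_N0 : ∃ (N : Subgroup (MulAction.stabilizer M24 tr0)) (_ : N.Normal),
    Nat.card N = 64 ∧ (∀ x ∈ N, x * x = 1) ∧
      Nonempty (MulAction.stabilizer M24 tr0 ⧸ N ≃* GL (Fin 3) (ZMod 2) × Equiv.Perm (Fin 3)) := by
  have vt : K.VT _ := ((f2FC (ZMod 2)).glcg_vt 3).prodK (scg_vt 3 2 (by norm_num))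
  obtain ⟨φ, h1, h2⟩ := mcg.exists_surj K mcg_uniq
    (((f2FC (ZMod 2)).cg_uniq 3 _ _).prodK (scg_uniq 3 2 _)) LD (mcg_valid (by decide +kernel))
    (vt.valid (by decide +kernel)) (by decide +kernel) (MulAction.stabilizer M24 tr0)
    (gen_eq_of_card (sound_memTr o0 o1) (by decide +kernel) 3
      [(0, [0xa00458c26773d371995243581592b6, 0x728e9412f56857234d8fa585019620, 0x2d66cb4af0a08cf5a50a69e2470c20, 0x759736402aa8d347c90d398a4bc440, 0x14d9579dc9b0e545a91069ae489420]),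
   (4, [0x728e9412f56857234d8fa585019620, 0x2d66cb4af0a08cf5a50a69e2470c20, 0x759736402aa8d347c90d398a4bc440, 0x14d9579dc9b0e545a91069ae489420]),
   (6, [0x2d66cb4af0a08cf5a50a69e2470c20, 0x759736402aa8d347c90d398a4bc440, 0x14d9579dc9b0e545a91069ae489420]),
   (1, [0x759736402aa8d347c90d398a4bc440, 0x14d9579dc9b0e545a91069ae489420]),
   (2, [0x14d9579dc9b0e545a91069ae489420])] _ card_stab_tr0 (by decide +kernel))
    (by rw [card_stab_tr0]; decide +kernel) lD (mcg_valid (by decide +kernel)) (by decide +kernel)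
    ((((f2FC (ZMod 2)).cg_keyed 3 _ _).prodK (scg_keyed 3 2 _)).gen_eq_top (L := LK)
      (vt.valid (by decide +kernel)) (by decide +kernel) (by rw [card_K]; decide +kernel))
  have h3 := card_ker_mul_of_surjective φ h1
  rw [card_K, card_stab_tr0] at h3
  have h4 : allL (CG.gensOf LN) (memTr o0 o1) = true := by decide +kernel
  have hv := valid_of_sound (sound_memTr o0 o1) h4
  have hle : mcg.gen (CG.gensOf LN) ≤ φ.ker.map (Subgroup.subtype _) := by
    refine CG.gen_le_of_in mcg_uniq fun c hc => ?_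
    obtain ⟨g, hg, h5⟩ := (sound_memTr o0 o1).gens h4 c hc
    have h6 : allL (CG.gensOf LN) (fun c => (mcg.prod K).sift ((mcg.prod K).transOf LD)
      (c, K.one)) = true := by decide +kernel
    exact ⟨g, ⟨⟨g, hg⟩, h2 ⟨g, hg⟩ 1 (c, K.one) h5 K.rep_one (allL_iff.mp h6 c hc), rfl⟩, h5⟩
  have heq := Subgroup.eq_of_le_of_card_ge hle (by
    rw [Subgroup.card_map_of_injective Subtype.val_injective]
    refine le_trans (by omega : _ ≤ 64) (le_trans (by decide +kernel) (le_card_gen hv 1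
      [(0, [0x8d6cb22ae6604efa49096c01310dc5, 0x4c8cb20ad58a147a55231e350b877, 0x1d17662846214f3ac9096c1cfbc401, 0xbb1f3a4232ab916218ed4a8ab18820, 0xb926faa22da3a0b6255231cb618820, 0xbd6cb22627638cfa224a834b318820]),
   (4, [0xbb1f3a4232ab916218ed4a8ab18820, 0xb926faa22da3a0b6255231cb618820, 0xbd6cb22627638cfa224a834b318820])])))
  refine ⟨φ.ker, inferInstance, by omega, fun x hx => Subtype.ext ?_, exists_normal_quot φ h1⟩
  exact mcg.sq_eq_one hv (by decide +kernel) (by decide +kernel) _ (heq ▸ ⟨x, hx, rfl⟩)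


/-- Structure of a trio stabiliser: every permutation of the three octads is induced, and there is a normal subgroup of order 64 of elements squaring to the identity whose quotient is isomorphic to the product of GL(3, 2) with the symmetric group of degree 3. -/
theorem result (T : Finset (Finset Cfsg.GolayPt)) (hT : T ∈ Cfsg.trios) : (∀ e : Equiv.Perm ↥T, ∃ g ∈ MulAction.stabilizer Cfsg.M24 T, ∀ o : ↥T, (g : Equiv.Perm Cfsg.GolayPt) • (o : Finset Cfsg.GolayPt) = ((e o : ↥T) : Finset Cfsg.GolayPt)) ∧ ∃ (N : Subgroup ↥(MulAction.stabilizer Cfsg.M24 T)) (_ : N.Normal), Nat.card N = 64 ∧ (∀ x ∈ N, x * x = 1) ∧ Nonempty (↥(MulAction.stabilizer Cfsg.M24 T) ⧸ N ≃* GL (Fin 3) (ZMod 2) × Equiv.Perm (Fin 3)) := by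
  obtain ⟨g, hg⟩ := trans_trio hT
  refine ⟨fun e => (induced_conj g T ?_).ge (Subgroup.mem_top e), ?_⟩
  · rw [hg]
    exact Subgroup.eq_top_of_le_card _ (by rw [card_perm tr0_mem]; exact card_induced)
  · obtain ⟨N, h1, h2, h3, ⟨h4⟩⟩ := exists_N0
    let e := equivOfConj g (mem_stabilizer_conj hg)
    refine ⟨N.comap e.toMonoidHom, h1.comap _, ?_, fun x hx => e.injective ?_,
      ⟨(QuotientGroup.congr _ N e ?_).trans h4⟩⟩
    · rw [← h2]
      exact Nat.card_congr (e.toEquiv.subtypeEquiv fun x => Iff.rfl)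
    · rw [map_mul, map_one]; exact h3 _ hx
    · exact Subgroup.map_comap_eq_self_of_surjective e.surjective N

end Cfsg.Agent.S1558
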