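import Cfsg.Statements.S1560
import Cfsg.Agent.H4.M24Tools

set_option autoImplicit false
open scoped Pointwise
open Cfsg

set_option maxRecDepth 100000

namespace Cfsg.Agent.S1560

open Cfsg.Agent.H4

theorem count (k : ℕ) : {d' : Finset GolayPt | d' ∈ dodecads ∧ (gE.ofMask d0 ∩ d').card = k}.ncard =
    countLt 4096 fun x => band (Nat.beq (pc24 (cw x)) 12) (Nat.beq (pc24 (Nat.land d0 (cw x))) k) :=
  ncard_code (fun m => band (Nat.beq (pc24 m) 12) (Nat.beq (pc24 (Nat.land d0 m)) k))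
    (fun _ h => h.1.1) fun m hm h => by simp [ofMask_mem_dodecads hm, h, card_inter_ofMask _ hm]

/-- Intersection numbers of dodecads: a dodecad meets every other dodecad in 0, 4, 6 or 8 points, meeting 495 of them in 4 points, 1584 in 6 points and 495 in 8 points. -/
theorem result (d : Finset Cfsg.GolayPt) (hd : d ∈ Cfsg.dodecads) : (∀ d' ∈ Cfsg.dodecads, d' ≠ d → (d ∩ d').card = 0 ∨ (d ∩ d').card = 4 ∨ (d ∩ d').card = 6 ∨ (d ∩ d').card = 8) ∧ {d' : Finset Cfsg.GolayPt | d' ∈ Cfsg.dodecads ∧ (d ∩ d').card = 4}.ncard = 495 ∧ {d' : Finset Cfsg.GolayPt | d' ∈ Cfsg.dodecads ∧ (d ∩ d').card = 6}.ncard = 1584 ∧ {d' : Finset Cfsg.GolayPt | d' ∈ Cfsg.dodecads ∧ (d ∩ d').card = 8}.ncard = 495 := by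
  obtain ⟨g, hg, hgd⟩ := trans_dodecad hd
  have key : ∀ k, {d' : Finset GolayPt | d' ∈ dodecads ∧ (d ∩ d').card = k}.ncard =
      {d' : Finset GolayPt | d' ∈ dodecads ∧ (gE.ofMask d0 ∩ d').card = k}.ncard := fun k =>
    ncard_eq_of_smul g _ _ fun x => by
      simp only [Set.mem_ofPred_eq, smul_mem_dodecads_iff hg, ← hgd, card_inter_smul]
  refine ⟨fun d' hd' hne => ?_, ?_, ?_, ?_⟩
  · have h1 := card_symmDiff_add d d'
    have h2 := card_of_mem_code (symmDiff_mem_code hd.1 hd'.1)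
    have h3 : ¬ (symmDiff d d').card < 8 := fun h => hne (eq_of_card_symmDiff_lt hd.1 hd'.1 h).symm
    rw [hd.2, hd'.2] at h1
    omega
  all_goals rw [key, count]; decide +kernel

end Cfsg.Agent.S1560
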