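import Cfsg.Statements.S1567
import Cfsg.Agent.H5.LeeD
-- import your own Cfsg.Agent.* helpers here

set_option autoImplicit false
open Cfsg

namespace Cfsg.Agent.S1567

/-- The rank-24 lattice is the additive subgroup generated by its 196560 minimal vectors. -/
theorem result : AddSubgroup.closure {x : Cfsg.GolayPt → ℤ | x ∈ Cfsg.leechLattice ∧ Cfsg.sqNorm x = 32} = Cfsg.leechLattice := by
  refine le_antisymm ((AddSubgroup.closure_le _).2 fun x hx => hx.1) fun x hx => ?_
  refine H5.Lee.basis_ind (P := fun x => (x : H5.Lee.V) ∈ AddSubgroup.closure {x : Cfsg.GolayPt → ℤ | x ∈ Cfsg.leechLattice ∧ Cfsg.sqNorm x = 32}) (zero_mem _)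
    (fun k hk => AddSubgroup.subset_closure ⟨(H5.Lee.bb k).2, H5.Lee.norm_bb hk⟩)
    (fun x y hx hy => add_mem hx hy) (fun x hx => neg_mem hx) ⟨x, hx⟩

end Cfsg.Agent.S1567
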