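import Cfsg.Statements.S1568
import Cfsg.Agent.H5.LeeB
-- import your own Cfsg.Agent.* helpers here

set_option autoImplicit false
open Cfsg

namespace Cfsg.Agent.S1568

/-- Shape census of the lattice vectors of sum of squares 48 (customary norm 6): the four families (2^12, 0^12), (±3^3, ±1^21), (±4, ±2^8, 0^15) and (±5, ±1^23) have 5275648, 8290304, 3108864 and 98304 members. -/
theorem result : {x : Cfsg.GolayPt → ℤ | x ∈ Cfsg.leechLattice ∧ Cfsg.sqNorm x = 48 ∧ ∀ i, x i = 0 ∨ x i = 2 ∨ x i = -2}.ncard = 5275648 ∧ {x : Cfsg.GolayPt → ℤ | x ∈ Cfsg.leechLattice ∧ Cfsg.sqNorm x = 48 ∧ ∃ i j k, i ≠ j ∧ j ≠ k ∧ i ≠ k ∧ |x i| = 3 ∧ |x j| = 3 ∧ |x k| = 3}.ncard = 8290304 ∧ {x : Cfsg.GolayPt → ℤ | x ∈ Cfsg.leechLattice ∧ Cfsg.sqNorm x = 48 ∧ ∃ i, |x i| = 4}.ncard = 3108864 ∧ {x : Cfsg.GolayPt → ℤ | x ∈ Cfsg.leechLattice ∧ Cfsg.sqNorm x = 48 ∧ ∃ i, |x i| = 5}.ncard = 98304 := by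
  have h1 := H5.Lee.ncard_eq_gfc (fun t => !(t == 0 || t == 2 || t == -2)) 48 (by norm_num) (fun k => k == 0)
  have h2 := H5.Lee.ncard_eq_gfc (fun t => t == 3 || t == -3) 48 (by norm_num) (fun k => decide (2 < k))
  have h3 := H5.Lee.ncard_eq_gfc (fun t => t == 4 || t == -4) 48 (by norm_num) (fun k => decide (0 < k))
  have h4 := H5.Lee.ncard_eq_gfc (fun t => t == 5 || t == -5) 48 (by norm_num) (fun k => decide (0 < k))
  refine ⟨Eq.trans ?_ (h1.trans (by decide +kernel)), Eq.trans ?_ (h2.trans (by decide +kernel)),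
    Eq.trans ?_ (h3.trans (by decide +kernel)), Eq.trans ?_ (h4.trans (by decide +kernel))⟩
  all_goals
    congr 1; ext x
    simp only [Set.mem_ofPred_eq, Nat.cast_ofNat, beq_iff_eq, Finset.card_eq_zero,
      Finset.filter_eq_empty_iff, Finset.mem_univ, forall_const, Bool.not_eq_true',
      decide_eq_true_eq, Finset.card_pos, Finset.filter_nonempty_iff, true_and, Bool.or_eq_true,
      Finset.two_lt_card_iff, Finset.mem_filter, abs_eq (by norm_num : (0 : ℤ) ≤ 3),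
      abs_eq (by norm_num : (0 : ℤ) ≤ 4), abs_eq (by norm_num : (0 : ℤ) ≤ 5),
      Bool.not_eq_false, or_assoc, and_congr_right_iff]
  intro _ _
  constructor
  · rintro ⟨i, j, k, a, b, c, d, e, f⟩
    exact ⟨i, j, k, d, e, f, a, c, b⟩
  · rintro ⟨i, j, k, d, e, f, a, c, b⟩
    exact ⟨i, j, k, a, b, c, d, e, f⟩

end Cfsg.Agent.S1568
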