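import Cfsg.Statements.S1580
import Cfsg.Agent.H5.LeeJ
-- import your own Cfsg.Agent.* helpers here

set_option autoImplicit false
open Cfsg

namespace Cfsg.Agent.S1580

open H5.Lee

/-- The McLaughlin configuration: for u of customary norm 6 and v minimal with u − v minimal, there are 275 further such summands x of customary inner product 2 with v, permuted transitively by the stabiliser of u and v. -/
theorem result (u v : ↥Cfsg.leechLattice) (hu : Cfsg.sqNorm (u : Cfsg.GolayPt → ℤ) = 48) (hv : Cfsg.sqNorm (v : Cfsg.GolayPt → ℤ) = 32 ∧ Cfsg.sqNorm ((u - v) : Cfsg.GolayPt → ℤ) = 32) : {x : ↥Cfsg.leechLattice | Cfsg.sqNorm (x : Cfsg.GolayPt → ℤ) = 32 ∧ Cfsg.sqNorm ((u - x) : Cfsg.GolayPt → ℤ) = 32 ∧ Cfsg.dotInt (v : Cfsg.GolayPt → ℤ) (x : Cfsg.GolayPt → ℤ) = 16}.ncard = 275 ∧ ∀ x ∈ {x : ↥Cfsg.leechLattice | Cfsg.sqNorm (x : Cfsg.GolayPt → ℤ) = 32 ∧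 Cfsg.sqNorm ((u - x) : Cfsg.GolayPt → ℤ) = 32 ∧ Cfsg.dotInt (v : Cfsg.GolayPt → ℤ) (x : Cfsg.GolayPt → ℤ) = 16}, ∀ x' ∈ {x : ↥Cfsg.leechLattice | Cfsg.sqNorm (x : Cfsg.GolayPt → ℤ) = 32 ∧ Cfsg.sqNorm ((u - x) : Cfsg.GolayPt → ℤ) = 32 ∧ Cfsg.dotInt (v : Cfsg.GolayPt → ℤ) (x : Cfsg.GolayPt → ℤ) = 16}, ∃ g : ↥Cfsg.Co0, g • u = u ∧ g • v = v ∧ g • x = x' := by
  have hv' := (mem_SD_iff hu).1 hv
  simp only [← and_assoc, mem_SD_iff hu, Set.mem_ofPred_eq]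
  constructor
  · obtain ⟨g, rfl, rfl⟩ := trans_uv hu hv'
    exact (cntU g fun a _ => a = 16).trans (by decide +kernel)
  · intro x hx x' hx'
    obtain ⟨g, rfl, rfl, rfl⟩ := trans_uvz hu hv' hx.1 hx.2
    obtain ⟨g', e1, e2, rfl⟩ := trans_uvz hu hv' hx'.1 hx'.2
    exact ⟨g' * g⁻¹, ⟨by rw [mul_smul, inv_smul_smul, e1], by rw [mul_smul, inv_smul_smul, e2]⟩,
      by rw [mul_smul, inv_smul_smul]⟩

end Cfsg.Agent.S1580
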