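import Cfsg.Statements.S1582
import Cfsg.Agent.H9.PRepU4

set_option autoImplicit false
open Cfsg

namespace Cfsg.Agent.S1582

open H5.Lee H9.PR

/-- The point stabiliser in the rank-3 action of the McLaughlin group on 275 points is isomorphic to PSU(4, 3). -/
theorem result (u v x : ↥Cfsg.leechLattice) (hu : Cfsg.sqNorm (u : Cfsg.GolayPt → ℤ) = 48) (hv : Cfsg.sqNorm (v : Cfsg.GolayPt → ℤ) = 32 ∧ Cfsg.sqNorm ((u - v) : Cfsg.GolayPt → ℤ) = 32) (hx : x ∈ {x : ↥Cfsg.leechLattice | Cfsg.sqNorm (x : Cfsg.GolayPt → ℤ) = 32 ∧ Cfsg.sqNorm ((u - x) : Cfsg.GolayPt → ℤ) = 32 ∧ Cfsg.dotInt (v : Cfsg.GolayPt → ℤ) (x : Cfsg.GolayPt → ℤ) = 16}) (F : Type) [Field F] [Fintype F] (hF : Fintype.card F = 9) : Nonempty (↥(MulAction.stabilizer ↥Cfsg.Co0 u ⊓ MulAction.stabilizer ↥Cfsg.Co0 v ⊓ MulAction.stabilizer ↥Cfsg.Co0 x) ≃* Cfsg.PSU 4 F 3) := by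
  obtain ⟨g, rfl, rfl, rfl⟩ := trans_uvz (u := u) (v := v) (x := x) hu ((mem_SD_iff hu).mp hv)
    ((mem_SD_iff hu).mp ⟨hx.1, hx.2.1⟩) hx.2.2
  obtain ⟨e1⟩ := equiv_of_conj (H := KU) (K := St (g • u0) ⊓ St (g • v0) ⊓ St (g • z1)) g
    fun x => and_congr (and_congr (conj_mem_stab g x _) (conj_mem_stab g x _)) (conj_mem_stab g x _)
  obtain ⟨e2⟩ := U4.iso hF KU
    (fun g h => ⟨⟨h _ (by simp), h _ (by simp)⟩, h _ (by simp)⟩) card_U4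
  exact ⟨e1.trans e2⟩

end Cfsg.Agent.S1582
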