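import Cfsg.Statements.S1583
import Cfsg.Agent.H5.LeeK
-- import your own Cfsg.Agent.* helpers here

set_option autoImplicit false
open Cfsg

namespace Cfsg.Agent.S1583

open H5.Lee

/-- The Higman–Sims configuration: for two vectors of customary norm 6 with inner product −4, exactly 100 minimal vectors have customary inner products 3 and −3 with them, and the joint stabiliser permutes these transitively. -/
theorem result (v w : ↥Cfsg.leechLattice) (hv : Cfsg.sqNorm (v : Cfsg.GolayPt → ℤ) = 48) (hw : Cfsg.sqNorm (w : Cfsg.GolayPt → ℤ) = 48) (hvw : Cfsg.dotInt (v : Cfsg.GolayPt → ℤ) (w : Cfsg.GolayPt → ℤ) = -32) : {x : ↥Cfsg.leechLattice | Cfsg.sqNorm (x : Cfsg.GolayPt → ℤ) = 32 ∧ Cfsg.dotInt (v : Cfsg.GolayPt → ℤ) (x : Cfsg.GolayPt → ℤ) = 24 ∧ Cfsg.dotInt (w : Cfsg.GolayPt → ℤ) (x : Cfsg.GolayPt → ℤ) = -24}.ncard = 100 ∧ ∀ x ∈ {x : ↥Cfsg.leechLattice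 | Cfsg.sqNorm (x : Cfsg.GolayPt → ℤ) = 32 ∧ Cfsg.dotInt (v : Cfsg.GolayPt → ℤ) (x : Cfsg.GolayPt → ℤ) = 24 ∧ Cfsg.dotInt (w : Cfsg.GolayPt → ℤ) (x : Cfsg.GolayPt → ℤ) = -24}, ∀ x' ∈ {x : ↥Cfsg.leechLattice | Cfsg.sqNorm (x : Cfsg.GolayPt → ℤ) = 32 ∧ Cfsg.dotInt (v : Cfsg.GolayPt → ℤ) (x : Cfsg.GolayPt → ℤ) = 24 ∧ Cfsg.dotInt (w : Cfsg.GolayPt → ℤ) (x : Cfsg.GolayPt → ℤ) = -24}, ∃ g : ↥Cfsg.Co0, g • v = v ∧ g • w = w ∧ g • x = x' := by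
  simp only [Set.mem_ofPred_eq, hs_iff]
  constructor
  · obtain ⟨g, rfl, e⟩ := hs_base hv hw hvw
    rw [← e]
    exact (cntA g fun _ b => b = -(24 + -24)).trans (by decide +kernel)
  · intro x hx x' hx'
    obtain ⟨g, a1, a2, rfl⟩ := trans_uxv hv (hs_mem hv hw hvw) hx.1 hx.2
    obtain ⟨g', b1, b2, rfl⟩ := trans_uxv hv (hs_mem hv hw hvw) hx'.1 hx'.2
    have h : (g' * g⁻¹) • v = v := by rw [mul_smul, ← a1, inv_smul_smul, b1, a1]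
    exact ⟨g' * g⁻¹, h, fix_w h (by rw [mul_smul, ← a2, inv_smul_smul, b2, a2]),
      by rw [mul_smul, inv_smul_smul]⟩

end Cfsg.Agent.S1583
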