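import Cfsg.Statements.S1584
import Cfsg.Agent.H5.LeeK
-- import your own Cfsg.Agent.* helpers here

set_option autoImplicit false
open Cfsg

namespace Cfsg.Agent.S1584

open H5.Lee

/-- The Higman–Sims group acts with rank 3 and subdegrees 1, 22, 77 on its 100 points, the orbits of a point stabiliser being distinguished by customary inner product 1 with the fixed point. -/
theorem result (v w x : ↥Cfsg.leechLattice) (hv : Cfsg.sqNorm (v : Cfsg.GolayPt → ℤ) = 48) (hw : Cfsg.sqNorm (w : Cfsg.GolayPt → ℤ) = 48) (hvw : Cfsg.dotInt (v : Cfsg.GolayPt → ℤ) (w : Cfsg.GolayPt → ℤ) = -32) (hx : x ∈ {x : ↥Cfsg.leechLattice | Cfsg.sqNorm (x : Cfsg.GolayPt → ℤ) = 32 ∧ Cfsg.dotInt (v : Cfsg.GolayPt → ℤ) (x : Cfsg.GolayPt → ℤ) = 24 ∧ Cfsg.dotInt (w : Cfsg.GolayPt → ℤ) (x : Cfsg.GolayPt → ℤ) = -24}) : {y : ↥Cfsg.leechLattice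 | y ∈ {x : ↥Cfsg.leechLattice | Cfsg.sqNorm (x : Cfsg.GolayPt → ℤ) = 32 ∧ Cfsg.dotInt (v : Cfsg.GolayPt → ℤ) (x : Cfsg.GolayPt → ℤ) = 24 ∧ Cfsg.dotInt (w : Cfsg.GolayPt → ℤ) (x : Cfsg.GolayPt → ℤ) = -24} ∧ Cfsg.dotInt (x : Cfsg.GolayPt → ℤ) (y : Cfsg.GolayPt → ℤ) = 8}.ncard = 22 ∧ {y : ↥Cfsg.leechLattice | y ∈ {x : ↥Cfsg.leechLattice | Cfsg.sqNorm (x : Cfsg.GolayPt → ℤ) = 32 ∧ Cfsg.dotInt (v : Cfsg.GolayPt → ℤ) (x : Cfsg.GolayPt → ℤ) = 24 ∧ Cfsg.dotInt (w : Cfsg.GolayPt → ℤ) (x : Cfsg.GolayPt → ℤ) = -24} ∧ y ≠ x ∧ Cfsg.dotInt (x : Cfsg.GolayPt → ℤ) (y : Cfsg.GolayPt → ℤ) ≠ 8}.ncard = 77 ∧ ∀ y ∈ {x : ↥Cfsg.leechLattice | Cfsg.sqNorm (x : Cfsg.GolayPt → ℤ) = 32 ∧ Cfsg.dotInt (v : Cfsg.GolayPt → ℤ) (x : Cfsg.GolayPt → ℤ) = 24 ∧ Cfsg.dotInt (w : Cfsg.GolayPt → ℤ) (x : Cfsg.GolayPt → ℤ) = -24}, ∀ y' ∈ {x :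 ↥Cfsg.leechLattice | Cfsg.sqNorm (x : Cfsg.GolayPt → ℤ) = 32 ∧ Cfsg.dotInt (v : Cfsg.GolayPt → ℤ) (x : Cfsg.GolayPt → ℤ) = 24 ∧ Cfsg.dotInt (w : Cfsg.GolayPt → ℤ) (x : Cfsg.GolayPt → ℤ) = -24}, y ≠ x → y' ≠ x → (Cfsg.dotInt (x : Cfsg.GolayPt → ℤ) (y : Cfsg.GolayPt → ℤ) = 8 ↔ Cfsg.dotInt (x : Cfsg.GolayPt → ℤ) (y' : Cfsg.GolayPt → ℤ) = 8) → ∃ g : ↥Cfsg.Co0, g • v = v ∧ g • w = w ∧ g • x = x ∧ g • y = y' := by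
  simp only [Set.mem_ofPred_eq, hs_iff] at hx ⊢
  obtain ⟨g, rfl, e, rfl⟩ := trans_uxv hv (hs_mem hv hw hvw) hx.1 hx.2
  rw [← e]
  refine ⟨?_, ?_, fun y hy y' hy' n n' h => ?_⟩
  · simp only [and_assoc]
    exact (cntA g fun a b => b = -(24 + -24) ∧ a = 8).trans (by decide +kernel)
  · refine Eq.trans ?_ ((cntA g fun a b => b = -(24 + -24) ∧ a ≠ 32 ∧ a ≠ 8).trans (by decide +kernel))
    congr 1; ext y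
    simp only [Set.mem_ofPred_eq, and_assoc]
    exact and_congr_right fun h => by rw [Ne, eq_iff_dot hx.1.1 h.1]
  · rw [Ne, eq_iff_dot hx.1.1 hy.1.1] at n
    rw [Ne, eq_iff_dot hx.1.1 hy'.1.1] at n'
    obtain ⟨y, rfl⟩ := MulAction.surjective g y
    obtain ⟨y', rfl⟩ := MulAction.surjective g y'
    simp only [smul_mem_SD, dot_smul] at hy hy' n n' h
    have h1 := dots100 hy.1 hy.2
    have h2 := dots100 hy'.1 hy'.2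
    obtain ⟨t, hh, rfl⟩ := orbA.2.same3 hBA hV0 hX1 sepA hy.1 hy'.1
      (show dotInt (v0 : V) _ = dotInt (v0 : V) _ by omega) (hy.2.trans hy'.2.symm)
    exact ⟨g * t * g⁻¹, conj_smul' hh.1.1, fix_w (conj_smul' hh.1.1) (e ▸ conj_smul' hh.2),
      conj_smul' hh.1.2, conj_smul' rfl⟩

end Cfsg.Agent.S1584
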