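import Cfsg.Statements.S1589
import Cfsg.Agent.H9.MIdx2
import Cfsg.Agent.S1565

set_option autoImplicit false
open scoped Pointwise
open Cfsg

namespace Cfsg.Agent.S1589

open Cfsg.Agent.H4 Cfsg.Agent.H9.MI MulAction

set_option maxRecDepth 100000

/-- Subgroups of the group of the length-24 code of index 759, 276 and 1771 are exactly the octad, duad and sextet stabilisers, and no subgroup has index 253. -/
theorem result : (∀ H : Subgroup ↥Cfsg.M24, H.index = 759 → ∃ o ∈ Cfsg.octads, H = MulAction.stabilizer Cfsg.M24 o) ∧ (∀ H : Subgroup ↥Cfsg.M24, H.index = 276 → ∃ s : Finset Cfsg.GolayPt, s.card = 2 ∧ H = MulAction.stabilizer Cfsg.M24 s) ∧ (∀ H : Subgroup ↥Cfsg.M24, H.index = 1771 → ∃ S ∈ Cfsg.sextets, H = MulAction.stabilizer Cfsg.M24 S) ∧ ∀ H : Subgroup ↥Cfsg.M24, H.index ≠ 253 := by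
  refine ⟨fun H h => ?_, fun H h => ?_, fun H h => ?_, fun H h => ?_⟩
  · have h1 := card_of_index (b := 322560) h (by norm_num) card_M24
    obtain ⟨g, hg⟩ := exists_conj_T (m := 759) h1 (by norm_num) (by norm_num)
    exact ⟨_, smul_mem_octads g⁻¹.2 o0_mem,
      eq_stab_of_conj (idx759 hg ((card_conj_smul' g H).trans h1))⟩
  · have h1 := card_of_index (b := 887040) h (by norm_num) card_M24
    obtain ⟨y, hy⟩ := mcg_vt gy (by decide +kernel)
    have h2 : orderOf y = 11 := kcg_complete.ord_eq (fuel := 11) rfl hy (by norm_num)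
      (by decide +kernel)
    obtain ⟨g, hg⟩ := exists_conj_mem (p := 11) (by norm_num) H (by rw [h]; norm_num) (x := y)
      (k := 1) (by rw [pow_one, ← h2, pow_orderOf_eq_one])
    refine ⟨_, ?_, eq_stab_of_conj (idx276 (H := MulAut.conj g⁻¹ • H) (fun c hc => ⟨y, by
      rwa [mem_conj_smul, inv_inv], List.mem_singleton.mp hc ▸ hy⟩)
      ((card_conj_smul' _ H).trans h1))⟩
    rw [Finset.card_smul_finset, gE.card_ofMask]
    decide +kernel
  · have h1 := card_of_index (b := 138240) h (by norm_num) card_M24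
    obtain ⟨g, hg⟩ := exists_conj_T (m := 1771) h1 (by norm_num) (by norm_num)
    exact ⟨_, smul_mem_sextets g⁻¹.2 sx0_mem,
      eq_stab_of_conj (idx1771 hg ((card_conj_smul' g H).trans h1))⟩
  · have h1 := card_of_index (b := 967680) h (by norm_num) card_M24
    obtain ⟨g, hg⟩ := exists_conj_T (m := 253) h1 (by norm_num) (by norm_num)
    exact idx253 (S1565.result _ o0_mem) hg ((card_conj_smul' g H).trans h1)

end Cfsg.Agent.S1589
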