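import Cfsg.Statements.S1590
import Cfsg.Agent.H4.Ternary

set_option autoImplicit false
open Cfsg

set_option maxRecDepth 100000

namespace Cfsg.Agent.S1590

open Cfsg.Agent.H4


/-- The length-12 ternary code has 729 words with weight distribution 0^1 6^264 9^440 12^24. -/
theorem result : Nat.card ↥Cfsg.ternaryGolayCode = 729 ∧ (∀ x ∈ Cfsg.ternaryGolayCode, x ≠ 0 → (Cfsg.ternarySupport x).card = 6 ∨ (Cfsg.ternarySupport x).card = 9 ∨ (Cfsg.ternarySupport x).card = 12) ∧ {x : Cfsg.ArrayPt → ZMod 3 | x ∈ Cfsg.ternaryGolayCode ∧ (Cfsg.ternarySupport x).card = 6}.ncard = 264 ∧ {x : Cfsg.ArrayPt → ZMod 3 | x ∈ Cfsg.ternaryGolayCode ∧ (Cfsg.ternarySupport x).card = 9}.ncard = 440 ∧ {x : Cfsg.ArrayPt → ZMod 3 | x ∈ Cfsg.ternaryGolayCode ∧ (Cfsg.ternarySupport x).card = 12}.ncard = 24 := by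
  refine ⟨by rw [ternary_eq, K3.card_code aE tOK K3_surj]; rfl, fun x hx h => ?_,
    by rw [ncard_ternary]; decide +kernel, by rw [ncard_ternary]; decide +kernel,
    by rw [ncard_ternary]; decide +kernel⟩
  rw [ternary_eq] at hx
  obtain ⟨m, hm, rfl⟩ := K3.exists_cwd aE tOK K3_surj hx
  have h1 : allLt 729 (fun m => memL [0, 6, 9, 12] (pc 12 (Ops.supp 2 12 (tw m)))) = true := by
    decide +kernel
  have h2 := memL_iff.mp (allLt_iff.mp h1 m hm)
  rw [← aE.card_ofMask, tw, ← ternarySupport_vec (K3.cwd_lt tOK m)] at h2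
  simp only [List.mem_cons, List.not_mem_nil, or_false] at h2
  refine h2.resolve_left fun h3 => h (funext fun a => ?_)
  by_contra h4
  have : a ∈ ternarySupport (K3.vec aE ((primeOps 3).cwd 3 2 12 6 tB m)) :=
    Finset.mem_filter.mpr ⟨Finset.mem_univ _, h4⟩
  rw [Finset.card_eq_zero.mp h3] at this
  exact absurd this (Finset.notMem_empty _)

end Cfsg.Agent.S1590
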