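import Cfsg.Statements.S1591
import Cfsg.Agent.H4.Ternary

set_option autoImplicit false
open Cfsg

set_option maxRecDepth 100000

namespace Cfsg.Agent.S1591

open Cfsg.Agent.H4


/-- Any two words of the length-12 ternary code have dot product zero. -/
theorem result (x y : Cfsg.ArrayPt → ZMod 3) (hx : x ∈ Cfsg.ternaryGolayCode) (hy : y ∈ Cfsg.ternaryGolayCode) : ∑ p, x p * y p = 0 := by
  rw [ternary_eq] at hx hy
  have h : ∀ i j : Fin 6, ∑ p, K3.row aE tB i p * K3.row aE tB j p = 0 := by decide +kernel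
  rw [K3.eq_sum_of_mem aE tOK hx, K3.eq_sum_of_mem aE tOK hy]
  simp only [Finset.sum_apply, Pi.smul_apply, smul_eq_mul, Finset.sum_mul_sum]
  rw [Finset.sum_comm]
  refine Finset.sum_eq_zero fun i _ => ?_
  rw [Finset.sum_comm]
  refine Finset.sum_eq_zero fun j _ => ?_
  simp only [mul_mul_mul_comm _ (K3.row aE tB i _), ← Finset.mul_sum, h, mul_zero]

end Cfsg.Agent.S1591
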