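import Cfsg.Statements.S1592
import Cfsg.Agent.H4.Ternary

set_option autoImplicit false
open Cfsg

set_option maxRecDepth 100000

namespace Cfsg.Agent.S1592

open Cfsg.Agent.H4


/-- The supports of the weight-6 words of the length-12 ternary code form a Steiner system S(5, 6, 12) with 132 blocks. -/
theorem result : Cfsg.IsSteinerSystem 5 6 {h : Finset Cfsg.ArrayPt | ∃ x ∈ Cfsg.ternaryGolayCode, Cfsg.ternarySupport x = h ∧ h.card = 6} ∧ {h : Finset Cfsg.ArrayPt | ∃ x ∈ Cfsg.ternaryGolayCode, Cfsg.ternarySupport x = h ∧ h.card = 6}.ncard = 132 := by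
  refine ⟨⟨fun b hb => hb.choose_spec.2.2, fun s hs => ?_⟩, ?_⟩
  · have h1 := aE.forall_sub 5 (fun m => anyL tH fun a => band (Nat.beq (Nat.land m a) m)
      (allL tH fun b => bimp (Nat.beq (Nat.land m b) m) (Nat.beq b a))) (by decide +kernel) s hs
    obtain ⟨a, ha, h2⟩ := anyL_iff.mp h1
    rw [band_eq, Bool.and_eq_true, Nat.beq_eq] at h2
    refine ⟨aE.ofMask a, ⟨(ofMask_mem_tHex (tH_lt a ha)).mpr ha,
      aE.ofMask_toMask s ▸ aE.ofMask_subset_of_land h2.1⟩, fun b hb => ?_⟩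
    have h3 := (bimp_iff _ _).mp (allL_iff.mp h2.2 _ (mem_tHex.mp hb.1)) (Nat.beq_eq.mpr
      ((aE.ofMask_subset_iff (aE.toMask_lt s)).mp (by simpa using hb.2)))
    rw [← Nat.eq_of_beq_eq_true h3, aE.ofMask_toMask]
  · rw [aE.ncard_sub 6 (memL tH) (fun b hb => hb.choose_spec.2.2) fun m hm _ =>
      (ofMask_mem_tHex hm).trans memL_iff.symm]
    decide +kernel

end Cfsg.Agent.S1592
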