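import Cfsg.Statements.S1594
import Cfsg.Agent.H4.Ternary

set_option autoImplicit false
open Cfsg

set_option maxRecDepth 100000

namespace Cfsg.Agent.S1594

open Cfsg.Agent.H4
open scoped Pointwise

instance finite_code : Finite ternaryGolayCode := inferInstance

theorem card_aut_le : Nat.card (setSystemAut tHex) ≤ 95040 := by
  refine (card_le_descFactorial _ (k := 5) ⟨fun i => aE.pt i, by decide⟩ fun g hg h => ?_).trans
    (by rw [aE.card_eq]; decide)
  refine aE.eq_one_of_bt (test := memL tH) (S := 31) (steps := [(5, [0x3f]), (6, []), (7, [0xde, 0xed, 0xf3]), (8, [0x15b, 0x16e, 0x175, 0x19d]), (9, [0x24f, 0x276, 0x279, 0x29b]), (10, [0x45d, 0x467, 0x47a, 0x497]), (11, [0x857, 0x86b, 0x87c, 0x88f])])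
    (fun m hm => ?_) (fun a ha => ?_) (by decide +kernel)
  · rw [memL_iff] at hm ⊢
    rw [← mem_tHex, ← MulAction.mem_stabilizer_iff.mp hg]
    exact Set.smul_mem_smul_set ((ofMask_mem_tHex (tH_lt m hm)).mpr hm)
  · obtain ⟨i, rfl⟩ := (by decide +kernel : ∀ a ∈ aE.ofMask 31, ∃ i : Fin 5, aE.pt i = a) a ha
    exact h i

theorem monPerm_le : monPerm ternaryGolayCode ≤ setSystemAut tHex := by
  rintro σ ⟨c, hc⟩
  rw [MulAction.mem_stabilizer_iff]
  apply Set.eq_of_subset_of_ncard_le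
  · rintro _ ⟨_, ⟨x, hx, rfl, h⟩, rfl⟩
    exact ⟨_, hc x hx, filter_monomialMap σ c x, (Finset.card_smul_finset _ _).trans h⟩
  · rw [Set.ncard_smul_set]
  · exact Set.toFinite _

theorem le_card : 95040 ≤ Nat.card (monPerm ternaryGolayCode) := by
  have : Finite (K3.code aE 6 tB) := inferInstance
  have h := Enc.chainLB_le 5
    [(0, [0x3a596218b470, 0x72b18a540396]),
   (1, [0x1629b8347a50, 0x569a1b782340]),
   (2, [0x2365b478a910, 0x8a562b379410]),
   (3, [0x46b8a3957210, 0x597a8364b210]),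
   (4, [0x8b57a4693210, 0x64b597a83210])] _ _ (K3.sound_monPerm aE tOK
    [(0x3a596218b470, 0x666aa9), (0x72b18a540396, 0x596569), (0x1629b8347a50, 0x5aa5a5), (0x569a1b782340, 0x69a995), (0x2365b478a910, 0xa99959), (0x8a562b379410, 0x956995), (0x46b8a3957210, 0xaaaaa5), (0x597a8364b210, 0xaaaaa5), (0x8b57a4693210, 0x555569), (0x64b597a83210, 0xaaaaa5)])
  simp only [ternary_eq]
  exact le_trans (by decide +kernel) h

theorem monPerm_eq : monPerm ternaryGolayCode = setSystemAut tHex :=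
  Subgroup.eq_of_le_of_card_ge monPerm_le (card_aut_le.trans le_card)


/-- The monomial automorphism group of the length-12 ternary code has order 190080 and its permutation parts are exactly the automorphisms of its hexad system. -/
theorem result : Nat.card {f : Equiv.Perm Cfsg.ArrayPt × (Cfsg.ArrayPt → (ZMod 3)ˣ) // (∀ x ∈ Cfsg.ternaryGolayCode, Cfsg.monomialMap f.1 f.2 x ∈ Cfsg.ternaryGolayCode)} = 190080 ∧ {σ : Equiv.Perm Cfsg.ArrayPt | ∃ c : Cfsg.ArrayPt → (ZMod 3)ˣ, (∀ x ∈ Cfsg.ternaryGolayCode, Cfsg.monomialMap σ c x ∈ Cfsg.ternaryGolayCode)} = (Cfsg.setSystemAut {h : Finset Cfsg.ArrayPt | ∃ x ∈ Cfsg.ternaryGolayCode, Cfsg.ternarySupport x = h ∧ h.card = 6} : Set (Equiv.Perm Cfsg.ArrayPt)) := by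
  refine ⟨?_, congrArg SetLike.coe monPerm_eq⟩
  have h1 := card_aut_le
  have h2 := le_card
  rw [← monPerm_eq] at h1
  rw [card_monomial, card_scalars _ fun c hc i j => by
    rcases ternary_signs c hc with h | h <;> rw [h, h], le_antisymm h1 h2, Nat.card_units,
    Nat.card_zmod]

end Cfsg.Agent.S1594
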