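import Cfsg.Statements.S1595


set_option autoImplicit false
open Cfsg

set_option maxRecDepth 100000

namespace Cfsg.Agent.S1595



open Finset

variable {α : Type*} [Fintype α] [DecidableEq α] {B : Set (Finset α)}

open Classical in
/-- The blocks that contain `s` and avoid `u`. -/
noncomputable def blk (B : Set (Finset α)) (s u : Finset α) : Finset (Finset α) :=
  univ.filter fun c => c ∈ B ∧ s ⊆ c ∧ Disjoint u c

theorem mem_blk {s u c : Finset α} : c ∈ blk B s u ↔ c ∈ B ∧ s ⊆ c ∧ Disjoint u c := by simp [blk]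

theorem step (hα : Fintype.card α = 12) (hB : IsSteinerSystem 5 6 B) (i m : ℕ)
    (h : ∀ s : Finset α, s.card = i + 1 → (blk B s ∅).card = m) (s : Finset α) (hs : s.card = i) :
    (12 - i) * m = (blk B s ∅).card * (6 - i) := by
  have h1 := card_mul_eq_card_mul (s := sᶜ) (t := blk B s ∅) (fun x c => x ∈ c) (m := m)
    (n := 6 - i) (fun x hx => by
      rw [← h (insert x s) (by rw [card_insert_of_notMem (mem_compl.mp hx), hs])]
      congr 1
      ext c
      simp only [mem_bipartiteAbove, mem_blk, insert_subset_iff]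
      tauto) (fun c hc => by
      rw [mem_blk] at hc
      rw [← hB.1 c hc.1, ← hs, ← card_sdiff_of_subset hc.2.1]
      congr 1
      ext x
      simp only [mem_bipartiteBelow, mem_compl, mem_sdiff, and_comm])
  rwa [card_compl, hα, hs] at h1

/-- The numbers of blocks through a subset of a block. -/
def lam : ℕ → ℤ
  | 0 => 132 | 1 => 66 | 2 => 30 | 3 => 12 | 4 => 4 | _ => 1

/-- The intersection triangle. -/
def tri (j : ℕ) : ℕ → ℤ := Nat.rec lam (fun _ ih i => ih i - ih (i + 1)) j

theorem card_blk_empty (hα : Fintype.card α = 12) (hB : IsSteinerSystem 5 6 B) {b : Finset α}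
    (hb : b ∈ B) (s : Finset α) (hs : s ⊆ b) : ((blk B s ∅).card : ℤ) = lam s.card := by
  have h5 : ∀ s : Finset α, s.card = 5 → (blk B s ∅).card = 1 := fun s hs => by
    obtain ⟨c, h1, h2⟩ := hB.2 s hs
    exact card_eq_one.mpr ⟨c, eq_singleton_iff_unique_mem.mpr
      ⟨mem_blk.mpr ⟨h1.1, h1.2, disjoint_empty_left _⟩,
        fun d hd => h2 d ⟨(mem_blk.mp hd).1, (mem_blk.mp hd).2.1⟩⟩⟩
  have h4 : ∀ s : Finset α, s.card = 4 → (blk B s ∅).card = 4 := fun s hs => by
    have := step hα hB 4 1 h5 s hs; omega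
  have h3 : ∀ s : Finset α, s.card = 3 → (blk B s ∅).card = 12 := fun s hs => by
    have := step hα hB 3 4 h4 s hs; omega
  have h2 : ∀ s : Finset α, s.card = 2 → (blk B s ∅).card = 30 := fun s hs => by
    have := step hα hB 2 12 h3 s hs; omega
  have h1 : ∀ s : Finset α, s.card = 1 → (blk B s ∅).card = 66 := fun s hs => by
    have := step hα hB 1 30 h2 s hs; omega
  have h0 : ∀ s : Finset α, s.card = 0 → (blk B s ∅).card = 132 := fun s hs => by
    have := step hα hB 0 66 h1 s hs; omega
  have h7 := card_le_card hs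
  rw [hB.1 b hb] at h7
  generalize hk : s.card = k at h7
  interval_cases k
  · rw [h0 s hk]; rfl
  · rw [h1 s hk]; rfl
  · rw [h2 s hk]; rfl
  · rw [h3 s hk]; rfl
  · rw [h4 s hk]; rfl
  · rw [h5 s hk]; rfl
  · obtain rfl : s = b := eq_of_subset_of_card_le hs (by rw [hB.1 b hb, hk])
    rw [card_eq_one.mpr ⟨s, eq_singleton_iff_unique_mem.mpr
      ⟨mem_blk.mpr ⟨hb, subset_rfl, disjoint_empty_left _⟩, fun d hd =>
        (eq_of_subset_of_card_le (mem_blk.mp hd).2.1 (by rw [hB.1 d (mem_blk.mp hd).1, hk])).symm⟩⟩]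
    rfl

theorem card_blk (hα : Fintype.card α = 12) (hB : IsSteinerSystem 5 6 B) {b : Finset α}
    (hb : b ∈ B) (u : Finset α) (hu : u ⊆ b) (s : Finset α) (hs : s ⊆ b) (h : Disjoint s u) :
    ((blk B s u).card : ℤ) = tri u.card s.card := by
  induction u using Finset.induction_on generalizing s with
  | empty => exact card_blk_empty hα hB hb s hs
  | insert x u hx ih =>
    rw [insert_subset_iff] at hu
    rw [disjoint_insert_right] at h
    have h1 := card_filter_add_card_filter_not (s := blk B s u) fun c => x ∈ c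
    have h2 : (blk B s u).filter (fun c => x ∈ c) = blk B (insert x s) u := by
      ext c; simp only [mem_filter, mem_blk, insert_subset_iff]; tauto
    have h3 : (blk B s u).filter (fun c => ¬ x ∈ c) = blk B s (insert x u) := by
      ext c; simp only [mem_filter, mem_blk, disjoint_insert_left]; tauto
    have h4 := ih hu.2 s hs h.2
    have h5 := ih hu.2 (insert x s) (insert_subset hu.1 hs) (disjoint_insert_left.mpr ⟨hx, h.2⟩)
    rw [card_insert_of_notMem h.1] at h5
    rw [h2, h3] at h1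
    rw [card_insert_of_notMem hx]
    show _ = tri u.card s.card - tri u.card (s.card + 1)
    omega

theorem ncard_eq (hα : Fintype.card α = 12) (hB : IsSteinerSystem 5 6 B) {b : Finset α}
    (hb : b ∈ B) (s : Finset α) (hs : s ⊆ b) :
    ({c | c ∈ B ∧ b ∩ c = s}.ncard : ℤ) = tri (6 - s.card) s.card := by
  rw [← hB.1 b hb, ← card_sdiff_of_subset hs, ← card_blk hα hB hb _ sdiff_subset s hs
    disjoint_sdiff, ← Set.ncard_coe_finset]
  congr 2
  ext c
  simp only [Set.mem_ofPred_eq, mem_coe, mem_blk]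
  refine and_congr_right fun _ => ⟨?_, fun h => ?_⟩
  · rintro rfl
    exact ⟨inter_subset_right, disjoint_left.mpr fun x h1 h2 => by simp [h2] at h1⟩
  · ext x
    have := fun h1 => disjoint_left.mp h.2 (h1 : x ∈ _)
    simp only [mem_inter, mem_sdiff] at this ⊢
    exact ⟨fun h1 => by tauto, fun h1 => ⟨hs h1, h.1 h1⟩⟩


/-- Leech triangle of S(5, 6, 12): blocks meet in 0, 2, 3 or 4 points, and a block is met exactly in a given 2-, 3- or 4-subset by 3, 2, 3 blocks respectively. -/
theorem result {α : Type*} [Fintype α] [DecidableEq α] (hα : Fintype.card α = 12) {B : Set (Finset α)} (hB : Cfsg.IsSteinerSystem 5 6 B) (b : Finset α) (hb : b ∈ B) : (∀ c ∈ B, c ≠ b → (b ∩ c).card = 0 ∨ (b ∩ c).card = 2 ∨ (b ∩ c).card = 3 ∨ (b ∩ c).card = 4) ∧ ∀ s ⊆ b, (s.card = 2 → {c : Finset α | c ∈ B ∧ b ∩ c = s}.ncard = 3) ∧ (s.card = 3 → {c : Finset α | c ∈ B ∧ b ∩ c = s}.ncard = 2) ∧ (s.card = 4 → {c : Finset α | c ∈ B ∧ b ∩ c = s}.ncard = 3) := by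
  refine ⟨fun c hc hne => ?_, fun s hs => ⟨fun h => ?_, fun h => ?_, fun h => ?_⟩⟩
  · have h1 := ncard_eq hα hB hb (b ∩ c) inter_subset_left
    have h2 : 0 < {d | d ∈ B ∧ b ∩ d = b ∩ c}.ncard :=
      (Set.ncard_pos (Set.toFinite _)).mpr ⟨c, hc, rfl⟩
    have h3 : (b ∩ c).card < 6 := by
      rw [← hB.1 c hc]
      refine card_lt_card ⟨inter_subset_right, fun h => hne ?_⟩
      exact eq_of_subset_of_card_le (h.trans inter_subset_left) (by rw [hB.1 c hc, hB.1 b hb])
    generalize (b ∩ c).card = k at h1 h3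
    interval_cases k
    · simp
    · rw [show tri (6 - 1) 1 = 0 by decide] at h1; omega
    · simp
    · simp
    · simp
    · rw [show tri (6 - 5) 5 = 0 by decide] at h1; omega
  all_goals have h1 := ncard_eq hα hB hb s hs
  · rw [h, show tri (6 - 2) 2 = 3 by decide] at h1; omega
  · rw [h, show tri (6 - 3) 3 = 2 by decide] at h1; omega
  · rw [h, show tri (6 - 4) 4 = 3 by decide] at h1; omega

end Cfsg.Agent.S1595
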