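import Cfsg.Statements.S1596
import Cfsg.Agent.H4.Quartet

set_option autoImplicit false
open scoped Pointwise
open Cfsg

set_option maxRecDepth 100000

namespace Cfsg.Agent.S1596

open Cfsg.Agent.H4

theorem std (u : Finset GolayPt) (hu : u.card = 3) (htu : Disjoint (gE.ofMask 7) u)
    (hh : gE.ofMask 7 ∪ u ∈ hexadsOn (gE.ofMask d0)) :
    ∃! Q : Finset (Finset GolayPt), Q ∈ quartets (gE.ofMask d0) ∧ gE.ofMask 7 ∈ Q ∧ u ∈ Q := by
  obtain ⟨b, hb, rfl⟩ := exists_mem_parL hu hh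
  have h1 : allL parL (fun b => band (Nat.blt b 16777216) (anyL q4 fun q =>
    band (band (qOK q) (band (memL q 7) (memL q b))) (allL q4 fun q' =>
      band (qOK q') (bimp (memL q' b) (eqL q' q))))) = true := by decide +kernel
  have h2 := allL_iff.mp h1 b hb
  simp only [band_eq, Bool.and_eq_true, anyL_iff, allL_iff, Nat.blt_eq, memL_iff, bimp_iff] at h2
  obtain ⟨h3, q, -, ⟨h4, h5, h6⟩, h7⟩ := h2
  refine ⟨fam q, ⟨fam_mem_quartets h4, ofMask_mem_fam h5, ofMask_mem_fam h6⟩, ?_⟩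
  rintro Q ⟨h8, h9, h10⟩
  obtain ⟨q', hq', rfl⟩ := quartet_cases h8 h9
  rw [ofMask_mem_fam_iff (lt_of_qOK (h7 q' hq').1) h3] at h10
  rw [eq_of_eqL ((h7 q' hq').2 h10)]


/-- A quartet of a dodecad is determined by any two of its triples: two disjoint triples uniting to a hexad extend to exactly one quartet. -/
theorem result (d : Finset Cfsg.GolayPt) (hd : d ∈ Cfsg.dodecads) (t u : Finset Cfsg.GolayPt) (ht : t.card = 3) (hu : u.card = 3) (htu : Disjoint t u) (hh : t ∪ u ∈ Cfsg.hexadsOn d) : ∃! Q : Finset (Finset Cfsg.GolayPt), Q ∈ Cfsg.quartets d ∧ t ∈ Q ∧ u ∈ Q := by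
  have h1 : t ⊆ d := by
    obtain ⟨-, o, -, h⟩ := hh
    exact Finset.subset_union_left.trans (h ▸ Finset.inter_subset_right)
  obtain ⟨g, h2, h3⟩ := flag_d_triple hd ht h1
  obtain ⟨Q, ⟨h4, h5, h6⟩, h7⟩ := std (g • u) (by rw [Finset.card_smul_finset, hu])
    (h3 ▸ (disjoint_smul_iff (g : Equiv.Perm GolayPt) t u).mpr htu)
    (by rw [← h2, ← h3, ← Finset.smul_finset_union]; exact smul_mem_hexadsOn g.2 hh)
  refine ⟨g⁻¹ • Q, ⟨?_, ?_, ?_⟩, ?_⟩
  · have := smul_mem_quartets (g⁻¹).2 h4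
    rwa [← h2, show ((g⁻¹ : M24) : Equiv.Perm GolayPt) • g • d = d from inv_smul_smul g d] at this
  · rwa [Finset.mem_inv_smul_finset_iff, h3]
  · rwa [Finset.mem_inv_smul_finset_iff]
  · rintro Q' ⟨h8, h9, h10⟩
    rw [eq_inv_smul_iff]
    exact h7 _ ⟨h2 ▸ smul_mem_quartets g.2 h8, h3 ▸ Finset.smul_mem_smul_finset h9,
      Finset.smul_mem_smul_finset h10⟩

end Cfsg.Agent.S1596
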