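import Cfsg.Statements.S1597
import Cfsg.Agent.H4.Quartet

set_option autoImplicit false
open scoped Pointwise
open Cfsg

set_option maxRecDepth 100000

namespace Cfsg.Agent.S1597

open Cfsg.Agent.H4


/-- A dodecad has 220 quartets and its stabiliser is transitive on them. -/
theorem result (d : Finset Cfsg.GolayPt) (hd : d ∈ Cfsg.dodecads) : (Cfsg.quartets d).ncard = 220 ∧ ∀ Q ∈ Cfsg.quartets d, ∀ Q' ∈ Cfsg.quartets d, ∃ g : Equiv.Perm Cfsg.GolayPt, g ∈ Cfsg.M24 ∧ g • d = d ∧ g • Q = Q' := by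
  constructor
  · obtain ⟨g, hg, h⟩ := trans_dodecad hd
    rw [← ncard_quartets_d0, ← h]
    exact ncard_eq_of_smul g _ _ fun Q => (smul_mem_quartets_iff hg).symm
  · intro Q hQ Q' hQ'
    obtain ⟨g, h1, h2⟩ := trans_quartet hd hQ
    obtain ⟨g', h3, h4⟩ := trans_quartet hd hQ'
    refine ⟨(g'⁻¹ * g : M24), (g'⁻¹ * g).2, ?_, ?_⟩
    · show (g'⁻¹ * g) • d = d
      rw [mul_smul, h1, ← h3, inv_smul_smul]
    · show (g'⁻¹ * g) • Q = Q'
      rw [mul_smul, h2, ← h4, inv_smul_smul]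

end Cfsg.Agent.S1597
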