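import Cfsg.Statements.S1598
import Cfsg.Agent.H4.Quartet

set_option autoImplicit false
open scoped Pointwise
open Cfsg

set_option maxRecDepth 100000

namespace Cfsg.Agent.S1598

open Cfsg.Agent.H4

/-- A chain for the diagonal group. -/
def L : List (CG.Level (ℕ × ℕ × ℕ)) :=
  [(0, [(0x5d674722292da407aa063b6e11106c, (0x18, 0x24))],
     [(0, 0), (1, 0), (3, 1), (0, 1), (0, 1), (1, 2), (1, 2), (0, 2), (2, 3), (0, 3), (3, 4)]),
   (3, [(0xbaeae9c1522d18db4464399e848820, (0x62, 0x62))],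
     [(0, 0), (1, 0), (2, 1), (0, 1), (2, 2), (0, 2), (1, 2), (2, 1)]),
   (6, [(0x2ceb4b36295ba4c79e06522e418440, (0x28, 0x28)), (0x2be955ca26b39a49a9093c2ec18440, (0x82, 0x82))],
     [(0, 0), (1, 1), (1, 1)])]

/-- A chain for the target. -/
def L' : List (CG.Level (ℕ × ℕ × ℕ)) :=
  [(4, [(0x7d8b498940badac74528386a3248d0, (0x4a, 0x4a))],
     [(0, 0), (1, 0), (2, 1), (0, 1), (1, 2), (1, 2), (0, 0)]),
   (1, [(0x5ce8f29952adc6171c8c8c2c013509, (0x51, 0x61)), (0xb96af9c232a2da171d2851ac010d84, (0x42, 0x42))],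
     [(0, 0), (1, 1), (0, 1), (1, 2), (0, 2)])]

theorem card_GL : Nat.card (GL (Fin 2) (ZMod 3)) = 48 := by rw [card_GL_zmod]; decide

theorem exists_surj : ∃ φ : QG →* GL (Fin 2) (ZMod 3), Function.Surjective φ := by
  let K := primeFC (ZMod 3) 3 2 (by norm_num) (by norm_num)
  obtain ⟨φ, h, -⟩ := CG.exists_surj_top (kcg_uniq.sub QG) (K.cg_uniq 2 _ _) (kcg_keyed.sub QG)
    (vt_of_sound (sound_memQ q0)) (K.glcg_vt 2) (N := kcg) (N' := (primeOps 3).cg 3 2 2) rfl rfl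
    (L := L) card_QG.le (by decide +kernel) (l := CG.gensOf L') (by decide +kernel)
    (CG.gensOf_sndL L' ▸ CG.gen_eq_top_of_check (K.cg_keyed 2 _ _) (K.glcg_vt 2)
      (K.cg_triv 2 _ _) card_GL.le (by decide +kernel))
  exact ⟨φ, h⟩

theorem tr : ∀ a ∈ gE.ofMask d0, ∃ g ∈ QG, g • a = gE.pt 0 :=
  Enc.orbM_sound' (sound_memQ q0) (gens := [0x73e755a548a5c44b1c018b4ac1ca06, 0xaae76bc2322d12279d0d519c10106c]) (r := 6) (by decide +kernel)


/-- A quartet stabiliser inside the dodecad stabiliser has order 432, a normal subgroup of order 9 with quotient GL(2, 3), and is transitive on the dodecad. -/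
theorem result (d : Finset Cfsg.GolayPt) (hd : d ∈ Cfsg.dodecads) (Q : Finset (Finset Cfsg.GolayPt)) (hQ : Q ∈ Cfsg.quartets d) : Nat.card ↥(MulAction.stabilizer Cfsg.M24 d ⊓ MulAction.stabilizer Cfsg.M24 Q) = 432 ∧ (∃ (N : Subgroup ↥(MulAction.stabilizer Cfsg.M24 d ⊓ MulAction.stabilizer Cfsg.M24 Q)) (_ : N.Normal), Nat.card N = 9 ∧ Nonempty (↥(MulAction.stabilizer Cfsg.M24 d ⊓ MulAction.stabilizer Cfsg.M24 Q) ⧸ N ≃* GL (Fin 2) (ZMod 3))) ∧ ∀ p ∈ d, ∀ q ∈ d, ∃ g ∈ (MulAction.stabilizer Cfsg.M24 d ⊓ MulAction.stabilizer Cfsg.M24 Q), ((g : ↥Cfsg.M24) : Equiv.Perm Cfsg.GolayPt) p = q := by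
  obtain ⟨g, h0, hg⟩ := trans_quartet hd hQ
  have he := conj_inf (mem_stabilizer_conj h0) (mem_stabilizer_conj hg)
  let e := equivOfConj g he
  have h1 := (card_eq_of_conj g he).trans card_QG
  obtain ⟨φ, hφ⟩ := exists_surj
  have h2 : Function.Surjective (φ.comp e.toMonoidHom) := hφ.comp e.surjective
  have h3 := card_ker_mul_of_surjective _ h2
  rw [card_GL, h1] at h3
  refine ⟨h1, ⟨_, inferInstance, by omega, exists_normal_quot _ h2⟩, fun p hp q hq => ?_⟩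
  obtain ⟨k, hk, h4⟩ := tr (g • p) (h0 ▸ Finset.smul_mem_smul_finset hp)
  obtain ⟨k', hk', h5⟩ := tr (g • q) (h0 ▸ Finset.smul_mem_smul_finset hq)
  refine ⟨g⁻¹ * (k'⁻¹ * k) * g, (he _).mpr (by simpa [mul_assoc] using mul_mem (inv_mem hk') hk), ?_⟩
  show (g⁻¹ * (k'⁻¹ * k) * g) • p = q
  rw [mul_smul, mul_smul, mul_smul, h4, ← h5, inv_smul_smul, inv_smul_smul]

end Cfsg.Agent.S1598
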