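import Cfsg.Statements.S1599
import Cfsg.Agent.H4.Quartet

set_option autoImplicit false
open scoped Pointwise
open Cfsg

set_option maxRecDepth 100000

namespace Cfsg.Agent.S1599

open Cfsg.Agent.H4

theorem sound2 (q : List ℕ) : gE.Sound (QG ⊓ MulAction.stabilizer M24 (fam q))
    fun p => band (memQ q0 p) (allL (pushL p q) (memL q)) := by
  intro p hp
  simp only [band_eq, Bool.and_eq_true] at hp
  obtain ⟨g, hg, h⟩ := sound_memQ q0 p hp.1
  exact ⟨g, Subgroup.mem_inf.mpr ⟨hg, smul_fam_eq h hp.2⟩, h⟩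

theorem bound1 : (MulAction.orbit QG (fam [0x244, 0x1018, 0x10102, 0x42001])).ncard ≤ 12 := by
  have h := ncard_orbit_mul_le QG (fam [0x244, 0x1018, 0x10102, 0x42001]) 36
    (le_trans (by decide +kernel) (Enc.chainLB_le 3
      [(0, [0x2d9f4988e05dcccac612505c41a1a9, 0xbae6fac232a1504b292d399cc18801]),
   (6, [0x2ceb4b36295ba4c79e06522e418440, 0x2be955ca26b39a49a9093c2ec18440])] _ _ (sound2 [0x244, 0x1018, 0x10102, 0x42001])))
  rw [card_QG] at h
  omega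

theorem bound2 : (MulAction.orbit QG (fam [0x105, 0x2202, 0x11010, 0x40048])).ncard ≤ 27 := by
  have h := ncard_orbit_mul_le QG (fam [0x105, 0x2202, 0x11010, 0x40048]) 16
    (le_trans (by decide +kernel) (Enc.chainLB_le 2
      [(0, [0x7ae96bb62874cc2aaa503a4a00906c, 0xb516fb80e1754c99aa50888ad43064]),
   (3, [0x5daae7b0e39d132ba9a8890a680820])] _ _ (sound2 [0x105, 0x2202, 0x11010, 0x40048])))
  rw [card_QG] at h
  omega

theorem bound3 : (MulAction.orbit QG (fam [0xe, 0x241, 0x2110, 0x51000])).ncard ≤ 72 := by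
  have h := ncard_orbit_mul_le QG (fam [0xe, 0x241, 0x2110, 0x51000]) 6
    (le_trans (by decide +kernel) (Enc.chainLB_le 2
      [(0, [0xa2ef57b54874c2429c028a6c364246]),
   (4, [0xbae957b6289ba44b1cd0524ac18820])] _ _ (sound2 [0xe, 0x241, 0x2110, 0x51000])))
  rw [card_QG] at h
  omega

theorem bound4 : (MulAction.orbit QG (fam [0x111, 0x2240, 0x11004, 0x4000a])).ncard ≤ 108 := by
  have h := ncard_orbit_mul_le QG (fam [0x111, 0x2240, 0x11004, 0x4000a]) 4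
    (le_trans (by decide +kernel) (Enc.chainLB_le 1
      [(1, [0x996aebc2325d1237a9a839ac460440, 0xb96af9c232a2da171d2851ac010d84])] _ _ (sound2 [0x111, 0x2240, 0x11004, 0x4000a])))
  rw [card_QG] at h
  omega

theorem std : ∃ X₁ ∈ quartets (gE.ofMask d0), ∃ X₂ ∈ quartets (gE.ofMask d0),
    ∃ X₃ ∈ quartets (gE.ofMask d0), ∃ X₄ ∈ quartets (gE.ofMask d0),
    (MulAction.orbit QG X₁).ncard = 12 ∧ (MulAction.orbit QG X₂).ncard = 27 ∧
    (MulAction.orbit QG X₃).ncard = 72 ∧ (MulAction.orbit QG X₄).ncard = 108 ∧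
    quartets (gE.ofMask d0) = {fam q0} ∪ MulAction.orbit QG X₁ ∪ MulAction.orbit QG X₂ ∪
      MulAction.orbit QG X₃ ∪ MulAction.orbit QG X₄ := by
  have h0 : MulAction.orbit QG (fam q0) = {fam q0} := by
    ext X
    exact ⟨fun ⟨g, h⟩ => h ▸ g.2.2, fun h => h ▸ MulAction.mem_orbit_self _⟩
  have heq : quartets (gE.ofMask d0) = {fam q0} ∪ MulAction.orbit QG (fam [0x244, 0x1018, 0x10102, 0x42001]) ∪
      MulAction.orbit QG (fam [0x105, 0x2202, 0x11010, 0x40048]) ∪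
      MulAction.orbit QG (fam [0xe, 0x241, 0x2110, 0x51000]) ∪
      MulAction.orbit QG (fam [0x111, 0x2240, 0x11004, 0x4000a]) := by
    rw [quartets_eq_orbits, ← h0]
    ext X
    simp only [qReps, List.mem_cons, List.not_mem_nil, or_false, Set.mem_ofPred_eq,
      exists_eq_or_imp, exists_eq_left, Set.mem_union, or_assoc]
  have h1 := ncard_quartets_d0
  rw [heq] at h1
  have h2 := h1.symm.le.trans ((Set.ncard_union_le _ _).trans (Nat.add_le_add_right
    ((Set.ncard_union_le _ _).trans (Nat.add_le_add_right ((Set.ncard_union_le _ _).trans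
      (Nat.add_le_add_right (Set.ncard_union_le _ _) _)) _)) _))
  rw [Set.ncard_singleton] at h2
  have b1 := bound1
  have b2 := bound2
  have b3 := bound3
  have b4 := bound4
  exact ⟨_, qReps_mem _ (by simp [qReps]), _, qReps_mem _ (by simp [qReps]), _,
    qReps_mem _ (by simp [qReps]), _, qReps_mem _ (by simp [qReps]),
    by omega, by omega, by omega, by omega, heq⟩


/-- A quartet stabiliser has five orbits on the quartets of its dodecad, of sizes 1, 12, 27, 72, 108. -/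
theorem result (d : Finset Cfsg.GolayPt) (hd : d ∈ Cfsg.dodecads) (Q : Finset (Finset Cfsg.GolayPt)) (hQ : Q ∈ Cfsg.quartets d) : ∃ X₁ ∈ Cfsg.quartets d, ∃ X₂ ∈ Cfsg.quartets d, ∃ X₃ ∈ Cfsg.quartets d, ∃ X₄ ∈ Cfsg.quartets d, (MulAction.orbit ↥(MulAction.stabilizer Cfsg.M24 d ⊓ MulAction.stabilizer Cfsg.M24 Q) X₁).ncard = 12 ∧ (MulAction.orbit ↥(MulAction.stabilizer Cfsg.M24 d ⊓ MulAction.stabilizer Cfsg.M24 Q) X₂).ncard = 27 ∧ (MulAction.orbit ↥(MulAction.stabilizer Cfsg.M24 d ⊓ MulAction.stabilizer Cfsg.M24 Q) X₃).ncard = 72 ∧ (MulAction.orbit ↥(MulAction.stabilizer Cfsg.M24 d ⊓ MulAction.stabilizer Cfsg.M24 Q) X₄).ncard = 108 ∧ Cfsg.quartets d = {Q} ∪ MulAction.orbit ↥(MulAction.stabilizer Cfsg.M24 d ⊓ MulAction.stabilizer Cfsg.M24 Q) X₁ ∪ MulAction.orbit ↥(MulAction.stabilizer Cfsg.M24 d ⊓ MulAction.stabilizer Cfsg.M24 Q) X₂ ∪ MulAction.orbit ↥(MulAction.stabilizer Cfsg.M24 d ⊓ MulAction.stabilizer Cfsg.M24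 Q) X₃ ∪ MulAction.orbit ↥(MulAction.stabilizer Cfsg.M24 d ⊓ MulAction.stabilizer Cfsg.M24 Q) X₄ := by
  obtain ⟨g, h0, hg⟩ := trans_quartet hd hQ
  obtain rfl : Q = g⁻¹ • fam q0 := by rw [← hg, inv_smul_smul]
  obtain rfl : d = g⁻¹ • gE.ofMask d0 := by rw [← h0, inv_smul_smul]
  obtain ⟨X₁, m1, X₂, m2, X₃, m3, X₄, m4, h1, h2, h3, h4, h5⟩ := std
  have e := orbit_conj g⁻¹ (conj_inf (mem_stabilizer_conj (g := g⁻¹) (x := gE.ofMask d0) rfl)
    (mem_stabilizer_conj (g := g⁻¹) (x := fam q0) rfl)) (X := Finset (Finset GolayPt))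
  refine ⟨g⁻¹ • X₁, smul_mem_quartets (g⁻¹).2 m1, g⁻¹ • X₂, smul_mem_quartets (g⁻¹).2 m2,
    g⁻¹ • X₃, smul_mem_quartets (g⁻¹).2 m3, g⁻¹ • X₄, smul_mem_quartets (g⁻¹).2 m4,
    by rw [e, Set.ncard_smul_set, h1], by rw [e, Set.ncard_smul_set, h2],
    by rw [e, Set.ncard_smul_set, h3], by rw [e, Set.ncard_smul_set, h4], ?_⟩
  rw [e, e, e, e, ← Set.smul_set_singleton, ← Set.smul_set_union, ← Set.smul_set_union,
    ← Set.smul_set_union, ← Set.smul_set_union, ← h5]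
  exact smul_set_eq_of_iff _ _ _ fun x => smul_mem_quartets_iff (g⁻¹).2

end Cfsg.Agent.S1599
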