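import Cfsg.Statements.S1600
import Cfsg.Agent.H4.M12

set_option autoImplicit false
open scoped Pointwise
open Cfsg

set_option maxRecDepth 100000

namespace Cfsg.Agent.S1600

open Cfsg.Agent.H4

theorem tr : ∀ a ∈ gE.ofMask 0xfacca0, ∃ g ∈ cfg [2, 1, 0] [d0], g a = gE.pt 23 :=
  cfg_trans _ _ [0x2bcf15a6acba9a49b872a42c640820, 0x75177531e68d909a94709b4e490820] 6 _ _ (by decide +kernel)

theorem mem_iff (g : M24) : g ∈ MulAction.stabilizer M24 (gE.ofMask d0) ⊓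
    MulAction.stabilizer M24 (gE.pt 0) ⊓ MulAction.stabilizer M24 (gE.pt 1) ⊓
    MulAction.stabilizer M24 (gE.pt 2) ↔ (g : Equiv.Perm GolayPt) ∈ cfg [2, 1, 0] [d0] := by
  simp only [Subgroup.mem_inf, mem_cfg, List.forall_mem_cons, mem_stab_pt, mem_stab_set]
  simp only [SetLike.coe_mem, List.not_mem_nil, IsEmpty.forall_iff, implies_true, and_true, true_and]
  tauto


/-- The pointwise stabiliser of three points of a dodecad inside the dodecad stabiliser (order 72) is transitive on the complementary dodecad. -/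
theorem result (d : Finset Cfsg.GolayPt) (hd : d ∈ Cfsg.dodecads) (p q r : Cfsg.GolayPt) (hp : p ∈ d) (hq : q ∈ d) (hr : r ∈ d) (hpq : p ≠ q) (hpr : p ≠ r) (hqr : q ≠ r) : Nat.card ↥(MulAction.stabilizer Cfsg.M24 d ⊓ MulAction.stabilizer Cfsg.M24 p ⊓ MulAction.stabilizer Cfsg.M24 q ⊓ MulAction.stabilizer Cfsg.M24 r) = 72 ∧ ∀ x ∉ d, ∀ y ∉ d, ∃ g ∈ (MulAction.stabilizer Cfsg.M24 d ⊓ MulAction.stabilizer Cfsg.M24 p ⊓ MulAction.stabilizer Cfsg.M24 q ⊓ MulAction.stabilizer Cfsg.M24 r), ((g : ↥Cfsg.M24) : Equiv.Perm Cfsg.GolayPt) x = y := by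
  obtain ⟨g, hg, h0, h1, h2, h3⟩ := flag_d_in3 hd hp hq hr hpq hpr hqr
  have e := conj_inf (conj_inf (conj_inf (mem_stabilizer_conj (g := (⟨g, hg⟩ : M24)) (x := d) h0)
    (mem_stabilizer_conj (g := (⟨g, hg⟩ : M24)) (x := p) h1))
    (mem_stabilizer_conj (g := (⟨g, hg⟩ : M24)) (x := q) h2))
    (mem_stabilizer_conj (g := (⟨g, hg⟩ : M24)) (x := r) h3)
  refine ⟨(card_eq_of_conj _ e).trans ((card_eq_card_cfg mem_iff).trans card_d_in3), ?_⟩
  have key : ∀ x ∉ d, ∃ k ∈ cfg [2, 1, 0] [d0], k (g x) = gE.pt 23 := fun x hx =>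
    tr _ (mem_ofMask_of_not (s := d0) (l := []) (by rwa [← h0, apply_mem_smul_iff]) (by simp)
      (by decide +kernel))
  intro x hx y hy
  obtain ⟨k, hk, h4⟩ := key x hx
  obtain ⟨k', hk', h5⟩ := key y hy
  refine ⟨⟨g⁻¹ * (k'⁻¹ * k) * g, conj_mem_M24 hg (mul_mem (inv_mem hk'.1) hk.1)⟩, ?_,
    conj_apply_eq (by simp [h4, ← h5])⟩
  rw [e, mem_iff]
  simpa [mul_assoc] using mul_mem (inv_mem hk') hk

end Cfsg.Agent.S1600
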