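import Cfsg.Statements.S1602
import Cfsg.Agent.H4.M12

set_option autoImplicit false
open scoped Pointwise
open Cfsg

set_option maxRecDepth 100000

namespace Cfsg.Agent.S1602

open Cfsg.Agent.H4

theorem ofMask_eq : gE.ofMask 0x800020 = {gE.pt 23, gE.pt 5} := by decide +kernel

/-- The standard pair stabiliser. -/
abbrev H : Subgroup M24 := M11s ⊓ MulAction.stabilizer M24 (gE.ofMask 0x800020)

theorem mem_iff (g : M24) : g ∈ H ↔ (g : Equiv.Perm GolayPt) ∈ cfg [0] [0x800020, d0] := by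
  rw [Subgroup.mem_inf, mem_M11s, cfg_cons' 0x800020, Subgroup.mem_inf]; rfl

theorem card_le : Nat.card H ≤ 120 := by
  rw [card_eq_card_cfg mem_iff]
  have h1 := card_le_of_orbit_subset (cfg [0] [0x800020, d0]) (gE.pt 23) (gE.ofMask 0x800020)
    (Finset.finite_toSet _) fun g hg =>
      apply_mem_of_cfg hg (s := 0x800020) (by simp) (by decide +kernel)
  have h2 : cfg [23, 0] [0x800020, d0] ≤ cfg [5, 23, 0] [d0] := fun g hg => by
    have h3 : g (gE.pt 5) ∈ gE.ofMask (2 ^ 5) :=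
      apply_mem_of_cfg hg (s := 0x800020) (by simp) (by decide +kernel)
    rw [gE.ofMask_two_pow (by norm_num), Finset.mem_singleton] at h3
    exact ⟨hg.1, List.forall_mem_cons.mpr ⟨h3, hg.2.1⟩, (List.forall_mem_cons.mp hg.2.2).2⟩
  have h3 := Subgroup.card_le_of_le h2
  rw [← cfg_cons, Set.ncard_coe_finset, gE.card_ofMask,
    show pc 24 0x800020 = 2 by decide +kernel] at h1
  rw [card_d_in_out_out] at h3
  omega

/-- A chain for the diagonal group. -/
def L : List (CG.Level (ℕ × ℕ)) :=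
  [(7, [(0x2ceb4b36295ba4c79e06522e418440, 0x2708)],
     [(0, 0), (1, 0), (0, 0), (1, 1), (1, 1), (1, 1), (2, 2), (1, 2), (1, 2)]),
   (1, [(0x2bdd350ec28d184aad103a6ed904c0, 0x853)],
     [(0, 0), (0, 0), (1, 1), (0, 1), (1, 2)]),
   (2, [(0xbc66ea8ec97d18d52e08388a491820, 0x654)],
     [(0, 0)])]

/-- A chain for the target. -/
def L' : List (CG.Level (ℕ × ℕ)) :=
  [(0, [(0xbbe8789169759b29a846a84ac1c100, 0x40ca)],
     [(0, 0), (0, 0), (1, 1), (1, 0)]),
   (1, [(0x29e7173568a286c7d521b42f2208c0, 0x1518)],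
     [(0, 0), (0, 0), (2, 1)]),
   (2, [(0xbccf4735668d88c7d429508b21c100, 0x3508)],
     [(0, 0), (0, 0)]),
   (3, [(0x2d954749e88cc8c5d450386ed1a4c0, 0x3888)],
     [(0, 0)])]

theorem std : Nonempty (H ≃* Equiv.Perm (Fin 5)) :=
  CG.nonempty_equiv_top (kcg_uniq.sub H) (scg_uniq 5 3 (by norm_num)) (kcg_keyed.sub H)
    (scg_keyed _ _ _) (vt_of_sound (sound_of_le_cfg fun g => (mem_iff g).mpr)) (scg_vt _ _ _)
    (N := kcg) (N' := scg 5 3 (by norm_num)) rfl rfl L L' card_le (card_perm_fin 5)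
    (by decide +kernel)


/-- In the 12-point action of the smallest Mathieu group the setwise stabiliser of a pair is isomorphic to the symmetric group of degree 5. -/
theorem result (d : Finset Cfsg.GolayPt) (hd : d ∈ Cfsg.dodecads) (p q q' : Cfsg.GolayPt) (hp : p ∈ d) (hq : q ∉ d) (hq' : q' ∉ d) (hqq' : q ≠ q') : Nonempty (↥(MulAction.stabilizer Cfsg.M24 d ⊓ MulAction.stabilizer Cfsg.M24 p ⊓ MulAction.stabilizer Cfsg.M24 ({q, q'} : Finset Cfsg.GolayPt)) ≃* Equiv.Perm (Fin 5)) := by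
  obtain ⟨g, hg, h0, h1, h2, h3⟩ := flag_d_in_out_out hd hp hq hq' hqq'
  obtain ⟨e⟩ := std
  refine ⟨(equivOfConj _ (conj_inf (conj_inf (mem_stabilizer_conj (g := (⟨g, hg⟩ : M24)) (x := d) h0)
    (mem_stabilizer_conj (g := (⟨g, hg⟩ : M24)) (x := p) h1))
    (mem_stabilizer_conj (g := (⟨g, hg⟩ : M24)) (x := ({q, q'} : Finset GolayPt)) ?_))).trans e⟩
  rw [ofMask_eq, Finset.smul_finset_insert, Finset.smul_finset_singleton, ← h2, ← h3]
  rfl

end Cfsg.Agent.S1602
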