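import Cfsg.Statements.S1603
import Cfsg.Agent.H4.M12

set_option autoImplicit false
open scoped Pointwise
open Cfsg

set_option maxRecDepth 100000

namespace Cfsg.Agent.S1603

open Cfsg.Agent.H4

/-- A chain for the group. -/
def LG : List (CG.Level ℕ) :=
  [(5, [0x2ba2b38ed29d42953c82b9a88641a0],
     [(0, 0), (0, 0), (1, 1), (2, 2), (4, 3), (0, 3), (4, 4), (0, 4), (1, 5), (0, 5), (2, 5)]),
   (1, [0x73e87ac269ba9b25d8c28b0a141060],
     [(0, 0), (0, 0), (1, 1), (3, 2), (0, 2), (1, 3), (1, 3), (2, 4), (0, 2), (3, 3)]),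
   (2, [0x52dcfa8e289d1223d8ccbc8b069020],
     [(0, 0), (0, 0), (1, 1), (2, 2), (0, 2), (0, 2), (2, 3), (0, 3), (1, 4)]),
   (4, [0xb5dd4799509d4895c5833c8ad40820, 0x5ddd59a4e87d186b4483534b280820],
     [(0, 0), (1, 1), (1, 1), (0, 1), (1, 2)])]

/-- The standard involution. -/
def x0 : ℕ := 0xbbeaa74a2db4e015d082298e91a180

/-- Its conjugates. -/
def cl : List ℕ := (kcg.sub M11s).classL x0 [0xb2cea291e9a5c528ba089b6a660460, 0xa16b77926c89d06559b25c1c110d20]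
  [(0, 0), (1, 1), (0, 1), (1, 2), (0, 2), (1, 3), (0, 3), (1, 4), (0, 4), (1, 5), (0, 5), (1, 6), (0, 6), (1, 7), (0, 7), (1, 8), (0, 8), (1, 9), (0, 9), (1, 10), (0, 10), (0, 10), (0, 10), (1, 11), (0, 11), (1, 12), (0, 12), (0, 12), (1, 13), (0, 13), (1, 14), (0, 14), (1, 15), (0, 15), (1, 16), (0, 16), (0, 16), (1, 17), (0, 17), (0, 17), (1, 18), (0, 18), (1, 19), (1, 19), (0, 19), (1, 20), (0, 20), (1, 21), (0, 21), (1, 22), (0, 22), (1, 23), (0, 23), (1, 24), (1, 24), (1, 24), (0, 24), (1, 25), (0, 25), (1, 26), (0, 26), (0, 26), (1, 27), (0, 27), (1, 28), (0, 28), (1, 29), (0, 29), (1, 30), (0, 29), (1, 30), (0, 30), (1, 31), (0, 31), (1, 32), (1, 32), (1, 32), (0, 32), (1, 33), (0, 32), (1, 33), (0, 33), (0, 33), (0, 33), (1, 34), (0, 34), (1, 35), (0, 35), (0, 35), (1, 36), (0, 36), (0, 36), (1, 37), (0, 36), (1, 37), (1, 37), (0, 37), (0, 37), (1, 38), (1, 38), (0, 38), (1, 39), (0, 39),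 (1, 40), (1, 40), (0, 40), (1, 40), (1, 40), (0, 39), (1, 40), (0, 40), (1, 41), (0, 41), (0, 39), (1, 39), (0, 39), (0, 39), (0, 39), (1, 40), (1, 39), (1, 39), (0, 39), (0, 39), (0, 39), (0, 39), (1, 40), (0, 39), (1, 40), (0, 40), (1, 41), (1, 41), (1, 39), (0, 39), (0, 39), (0, 38), (1, 37), (0, 34), (0, 32), (0, 30), (0, 29), (1, 28), (1, 28), (0, 27), (1, 24), (0, 24), (0, 24), (1, 25), (0, 23), (1, 24), (1, 24), (0, 23), (0, 21), (0, 20), (1, 21), (0, 21), (0, 21), (0, 21), (1, 22), (0, 21), (0, 21), (0, 18), (1, 18), (0, 14), (0, 2)]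

/-- A chain for the diagonal group. -/
def L : List (CG.Level (ℕ × ℕ × ℕ)) :=
  [(1, [(0x5aaf3b1a29a3c8dab98228ce192200, (0x86, 0x8a))],
     [(0, 0), (0, 0), (1, 1), (2, 2), (0, 2), (1, 3), (0, 2)]),
   (2, [(0x5aaaf74a24a4d2cbd9a238cb032020, (0x81, 0x81)), (0x89eaf999622b90cbda0450e8d92420, (0x51, 0x61))],
     [(0, 0), (1, 1), (1, 1), (0, 1), (1, 2)])]

/-- A chain for the target. -/
def L' : List (CG.Level (ℕ × ℕ × ℕ)) :=
  [(4, [(0x5aaf3b1a29a3c8dab98228ce192200, (0x86, 0x8a))],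
     [(0, 0), (0, 0), (1, 1), (0, 1), (1, 2), (2, 3), (0, 3)]),
   (1, [(0xbbea799970b39a189444a49481a580, (0x62, 0x62)), (0x5aaa598ee9a388c89c4db49e834020, (0x61, 0x51))],
     [(0, 0), (1, 1), (1, 1), (0, 1), (1, 2)])]

theorem std (x : M11s) (hx : orderOf x = 2) :
    Nonempty (Subgroup.centralizer ({x} : Set M11s) ≃* GL (Fin 2) (ZMod 3)) := by
  have vt := vt_of_sound sound_M11s
  obtain ⟨y, hy⟩ := vt x0 (by decide +kernel)
  have hv : (kcg.sub M11s).Valid [0xb2cea291e9a5c528ba089b6a660460, 0xa16b77926c89d06559b25c1c110d20] := vt.valid (by decide +kernel)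
  have h1 : (kcg.sub M11s).gen (CG.gensOf LG) = ⊤ :=
    CG.gen_eq_top_of_check (kcg_keyed.sub _) vt (N := kcg) rfl card_M11s.le (by decide +kernel)
  obtain ⟨c, h2, h3⟩ := (kcg.sub M11s).forall_gen (CG.fin_order _) (L := LG)
    (vt.valid (by decide +kernel)) (by decide +kernel)
    (fun c => bimp (Nat.beq (comp 24 5 c c) (idc 24 5)) (bor (Nat.beq c (idc 24 5)) (memL cl c)))
    (CG.rep_one _) (by decide +kernel) x (h1 ▸ Subgroup.mem_top x)
  rw [one_mul] at h2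
  have h4 : x * x = 1 := by rw [← sq, ← hx, pow_orderOf_eq_one]
  have h5 := (bimp_iff _ _).mp h3 (kcg_complete.sub M11s _ _ _ _ h2 h2 h4)
  rw [bor_eq, Bool.or_eq_true, memL_iff] at h5
  rcases h5 with h5 | h5
  · rw [(kcg.sub M11s).eq_one h2 h5, orderOf_one] at hx
    omega
  obtain ⟨z, h6, h7⟩ := (kcg.sub M11s).classL_spec hy hv _ c h5
  obtain rfl := kcg_uniq.sub M11s _ _ _ h7 h2
  obtain ⟨e⟩ := centralizer_equiv_of_isConj h6.symm
  have h8 := (kcg_keyed.sub M11s).card_centralizer_le hy hv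
    [(0, 0), (1, 1), (0, 1), (1, 2), (0, 2), (1, 3), (0, 3), (1, 4), (0, 4), (1, 5), (0, 5), (1, 6), (0, 6), (1, 7), (0, 7), (1, 8), (0, 8), (1, 9), (0, 9), (1, 10), (0, 10), (0, 10), (0, 10), (1, 11), (0, 11), (1, 12), (0, 12), (0, 12), (1, 13), (0, 13), (1, 14), (0, 14), (1, 15), (0, 15), (1, 16), (0, 16), (0, 16), (1, 17), (0, 17), (0, 17), (1, 18), (0, 18), (1, 19), (1, 19), (0, 19), (1, 20), (0, 20), (1, 21), (0, 21), (1, 22), (0, 22), (1, 23), (0, 23), (1, 24), (1, 24), (1, 24), (0, 24), (1, 25), (0, 25), (1, 26), (0, 26), (0, 26), (1, 27), (0, 27), (1, 28), (0, 28), (1, 29), (0, 29), (1, 30), (0, 29), (1, 30), (0, 30), (1, 31), (0, 31), (1, 32), (1, 32), (1, 32), (0, 32), (1, 33), (0, 32), (1, 33), (0, 33), (0, 33), (0, 33), (1, 34), (0, 34), (1, 35), (0, 35), (0, 35), (1, 36), (0, 36), (0, 36), (1, 37), (0, 36), (1, 37), (1, 37), (0, 37), (0, 37), (1, 38), (1, 38), (0, 38), (1, 39), (0,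 39), (1, 40), (1, 40), (0, 40), (1, 40), (1, 40), (0, 39), (1, 40), (0, 40), (1, 41), (0, 41), (0, 39), (1, 39), (0, 39), (0, 39), (0, 39), (1, 40), (1, 39), (1, 39), (0, 39), (0, 39), (0, 39), (0, 39), (1, 40), (0, 39), (1, 40), (0, 40), (1, 41), (1, 41), (1, 39), (0, 39), (0, 39), (0, 38), (1, 37), (0, 34), (0, 32), (0, 30), (0, 29), (1, 28), (1, 28), (0, 27), (1, 24), (0, 24), (0, 24), (1, 25), (0, 23), (1, 24), (1, 24), (0, 23), (0, 21), (0, 20), (1, 21), (0, 21), (0, 21), (0, 21), (1, 22), (0, 21), (0, 21), (0, 18), (1, 18), (0, 14), (0, 2)]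
    [5, 1, 2, 4] 24 (by decide +kernel)
  rw [card_M11s, show List.length _ = 165 by decide +kernel] at h8
  let K := primeFC (ZMod 3) 3 2 (by norm_num) (by norm_num)
  obtain ⟨e'⟩ := CG.nonempty_equiv_top ((kcg_uniq.sub M11s).sub _) (K.cg_uniq 2 _ _)
    ((kcg_keyed.sub M11s).sub _) (K.cg_keyed 2 _ _) (vt.centralizer hy) (K.glcg_vt 2)
    (N := kcg) (N' := (primeOps 3).cg 3 2 2) rfl rfl L L' (n := 48) (by omega)
    (by rw [card_GL_zmod]; decide) (by decide +kernel)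
  exact ⟨e.trans e'⟩


/-- Involution centralisers in the smallest Mathieu group are isomorphic to GL(2, 3). -/
theorem result (d : Finset Cfsg.GolayPt) (hd : d ∈ Cfsg.dodecads) (p : Cfsg.GolayPt) (hp : p ∈ d) (x : ↥(MulAction.stabilizer Cfsg.M24 d ⊓ MulAction.stabilizer Cfsg.M24 p)) (hx : orderOf x = 2) : Nonempty (↥(Subgroup.centralizer ({x} : Set ↥(MulAction.stabilizer Cfsg.M24 d ⊓ MulAction.stabilizer Cfsg.M24 p))) ≃* GL (Fin 2) (ZMod 3)) := by
  obtain ⟨g, hg, h0, h1⟩ := flag_d_in hd hp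
  let e := equivOfConj _ (conj_inf (mem_stabilizer_conj (g := (⟨g, hg⟩ : M24)) (x := d) h0)
    (mem_stabilizer_conj (g := (⟨g, hg⟩ : M24)) (x := p) h1))
  obtain ⟨e'⟩ := std (e x) (by rw [MulEquiv.orderOf_eq, hx])
  exact ⟨(centralizerCongr e x).trans e'⟩

end Cfsg.Agent.S1603
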