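import Cfsg.Statements.S1606
import Cfsg.Agent.H9.MIdx2

set_option autoImplicit false
open scoped Pointwise
open Cfsg

namespace Cfsg.Agent.S1606

open Cfsg.Agent.H4 Cfsg.Agent.H9.MI MulAction

set_option maxRecDepth 100000

/-- A chain for the stabiliser of two points and a pair. -/
def LS : List (CG.Level ℕ) :=
  [(1, [0xbd48ab30a64b8e893e8b8363318440],
     [(0, 0)]),
   (3, [0xba8762aeaf6cd289120c744f430820],
     [(0, 0), (0, 0), (1, 1), (2, 2), (3, 3), (0, 3), (1, 4), (0, 4), (1, 5), (0, 5), (1, 6), (2, 7), (3, 8), (0, 8), (1, 9), (2, 10), (3, 11), (2, 11), (3, 12)]),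
   (4, [0xbb2ad350abb464f5408999dc818820, 0xb92924d4b65c5b33a1867a9d018820],
     [(0, 0), (1, 1), (0, 1), (1, 2), (2, 3), (0, 3), (1, 4), (2, 5), (1, 5), (0, 5), (1, 6), (2, 7), (1, 7), (2, 7), (0, 6)]),
   (5, [0xbc12ba18ad946c79b11553dc418820],
     [(0, 0), (0, 0)])]

/-- A chain for the normaliser of a subgroup of order five. -/
def LW : List (CG.Level ℕ) :=
  [(3, [0xbb5f2a3ab05cec38b105524c438440],
     [(0, 0), (0, 0), (1, 1), (0, 1), (1, 2), (0, 2), (1, 2), (0, 2), (1, 2)]),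
   (4, [0xbcc8cb2a265b8f47c9096c0b518820],
     [(0, 0)])]

/-- An element of order five. -/
def cz : ℕ := 0xbc887b0de8ad18e8ccc56c12b50820

/-- An element of order eleven. -/
def cy : ℕ := 0xb84ec328492516f70e568c275434a0

theorem specW : kcg.Valid (CG.gensOf LW) ∧ Nat.card (kcg.gen (CG.gensOf LW)) = 20 :=
  have := CG.ordCheck_spec kcg_keyed kcg_uniq mcg_vt (N := kcg) rfl (L := LW) (n := 20)
    (by decide +kernel)
  ⟨this.1, this.2.2.2⟩

theorem rep_pow {G : Type*} [Group G] {C : Type} {M : CG G C} {g : G} {c : C} (h : M.Rep g c)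
    (k : ℕ) : M.Rep (g ^ k) (iter (M.mul c) k M.one) := by
  induction k with
  | zero => rw [pow_zero]; exact M.rep_one
  | succ k ih => rw [pow_succ', iter_succ]; exact M.rep_mul h ih

theorem nz_le {z : M24} (hz : kcg.Rep z cz) (ho : orderOf z = 5) :
    nz (cf [0, 23] []) z ≤ kcg.gen (CG.gensOf LW) := fun g hg => by
  obtain ⟨hv, hss, -, hc⟩ := CG.ordCheck_spec kcg_keyed kcg_uniq mcg_vt (N := kcg) rfl (L := LS)
    (n := 1920) (by decide +kernel)
  have h1 : kcg.gen (CG.gensOf LS) = cf [0, 23] [0x800007] :=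
    eq_of_le_card (CG.gen_le_of_in kcg_uniq (in_cf (by decide +kernel))) hc
      (card_cf_le' [(1, 6)] card_cfg4 (by decide +kernel))
  have hfix : ∀ a, a ∈ gE.ofMask 0x800007 ↔ z • a = a := fun a => by
    have h2 : gE.ix (z • a) = img 5 cz (gE.ix a) := hz a
    rw [gE.mem_ofMask_tb, ← gE.ix_injective.eq_iff, h2]
    have := gE.ix_lt a
    generalize gE.ix a = i at this
    revert i
    decide +kernel
  have h2 : g ∈ cf [0, 23] [0x800007] := by
    rw [cf_cons']
    refine ⟨hg.1, smul_eq_of_iff fun a ha => (hfix _).mpr ?_⟩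
    have h3 := (Subgroup.mem_normalizer_iff''.mp hg.2 z).mp (Subgroup.mem_zpowers z)
    have h4 : g⁻¹ * z * g ∈ stabilizer M24 a :=
      (Subgroup.zpowers_le.mpr ((hfix a).mp ha) : Subgroup.zpowers z ≤ stabilizer M24 a) h3
    rwa [mem_stabilizer_iff, mul_smul, mul_smul, inv_smul_eq_iff] at h4
  obtain ⟨c, h3, h4⟩ := CG.forall_gen' hv hss (N := kcg) rfl
    (fun c => bimp (anyLt 5 fun k => kcg.eqc (kcg.conj c cz) (iter (kcg.mul cz) k kcg.one))
      (kcg.sift (kcg.transOf LW) c)) (by decide +kernel) g (h1 ▸ h2)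
  refine kcg.mem_of_sift specW.1 h3 ((bimp_iff _ _).mp h4 ?_)
  have h5 := (Subgroup.mem_normalizer_iff.mp hg.2 z).mp (Subgroup.mem_zpowers z)
  obtain ⟨k, hk, h6⟩ := Finset.mem_image.mp (mem_zpowers_iff_mem_range_orderOf.mp h5)
  rw [ho, Finset.mem_range] at hk
  exact anyLt_iff.mpr ⟨k, hk, (kcg_complete.eqc_iff (kcg.rep_conj h3 hz) (rep_pow hz k)).mpr h6.symm⟩

theorem no7920 {H : Subgroup M24} (hH : H ≤ cf [0, 23] []) : Nat.card H ≠ 7920 := fun hN => by
  obtain ⟨y, hy1, hy⟩ := in_cf (l := [0, 23]) (ms := []) (gens := [cy]) (by decide +kernel) cy (by simp)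
  obtain ⟨z, hz1, hz⟩ := in_cf (l := [0, 23]) (ms := []) (gens := [cz]) (by decide +kernel) cz (by simp)
  have h1 : orderOf y = 11 := kcg_complete.ord_eq (fuel := 11) rfl hy (by norm_num)
    (by decide +kernel)
  have h2 : orderOf z = 5 := kcg_complete.ord_eq (fuel := 11) rfl hz (by norm_num)
    (by decide +kernel)
  obtain ⟨g, hg, h3⟩ := exists_conj_le' (p := 11) (by norm_num) hH (X := Subgroup.zpowers y)
    (Subgroup.zpowers_le.mpr hy1) hN (m := 56) card_M22' (by norm_num) (k := 1)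
    (by rw [Nat.card_zpowers, h1]; rfl)
  have h4 := conj_smul_le hH hg
  have h5 := (card_conj_smul' g H).trans hN
  generalize MulAut.conj g • H = K at h3 h4 h5
  have h6 := h3 (Subgroup.mem_zpowers y)
  have h7 := List.mem_singleton.mp (nz_mem hy1 (by norm_num) h1 card_M22'
    ((nz_dvd le_top y).trans (nz11 h1).dvd) [55] (by decide +kernel))
  have h8 := List.mem_singleton.mp (nz_mem h6 (by norm_num) h1 h5
    ((nz_dvd le_top y).trans (nz11 h1).dvd) [55] (by decide +kernel))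
  have h9 : z ∈ K := ((eq_of_le_card (nz_mono h4 y) h8 h7.le).ge (mem_nz hz1 (k := 5)
    (kcg.eq_of_eqc (kcg.rep_conj hz hy) (rep_pow hy 5) (by decide +kernel)))).1
  have h10 := (nz_mono h4 z).trans (nz_le hz h2)
  have h11 := List.mem_singleton.mp (nz_mem h9 (by norm_num) h2 h5
    ((Subgroup.card_dvd_of_le h10).trans specW.2.dvd) [20] (by decide +kernel))
  obtain ⟨w, hw⟩ := mcg_vt 0xbb88a69d657c873ad126b411160440 (by decide +kernel)
  have h12 : w ∈ K := ((eq_of_le_card h10 h11 specW.2.le).ge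
    (kcg.mem_of_sift specW.1 hw (by decide +kernel))).1
  have h13 : orderOf (y * w) = 7 := kcg_complete.ord_eq (fuel := 11) rfl (kcg.rep_mul hy hw)
    (by norm_num) (by decide +kernel)
  have h14 := Subgroup.orderOf_dvd_natCard _ (K.mul_mem h6 h12)
  rw [h13, h5] at h14
  omega

theorem no2112 {H : Subgroup M24} : Nat.card H ≠ 2112 := fun hN => by
  obtain ⟨u, hu, ho⟩ := exists_orderOf H (p := 11) (by norm_num) (by rw [hN]; norm_num)
  exact List.not_mem_nil (nz_mem hu (by norm_num) ho hN ((nz_dvd le_top u).trans (nz11 ho).dvd) []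
    (by decide +kernel))

/-- The stabiliser of two points in the group of the length-24 code has no subgroups of index 56 or 210. -/
theorem result (p q : Cfsg.GolayPt) (hpq : p ≠ q) (H : Subgroup ↥(MulAction.stabilizer Cfsg.M24 p ⊓ MulAction.stabilizer Cfsg.M24 q)) : H.index ≠ 56 ∧ H.index ≠ 210 := by
  obtain ⟨g, h1, h2, h3⟩ := trans2 hpq
  have h4 : (⟨g, h1⟩ : M24) • p = gE.pt 23 := h2
  have h5 : (⟨g, h1⟩ : M24) • q = gE.pt 0 := h3
  have h6 : Nat.card ↥(stabilizer M24 p ⊓ stabilizer M24 q) = 443520 := by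
    rw [← card_M22']
    refine card_eq_of_conj (⟨g, h1⟩ : M24) fun k => ?_
    rw [cf_cons, cf_pt, Subgroup.mem_inf, Subgroup.mem_inf, mem_stabilizer_conj h4,
      mem_stabilizer_conj h5]
  have h7 : MulAut.conj (⟨g, h1⟩ : M24) • H.map (Subgroup.subtype _) ≤ cf [0, 23] [] := by
    rw [cf_cons, cf_pt, ← h4, ← h5]
    exact le_inf (conj_smul_le_stab ((Subgroup.map_subtype_le H).trans inf_le_left))
      (conj_smul_le_stab ((Subgroup.map_subtype_le H).trans inf_le_right))
  exact ⟨fun h => no7920 h7 (by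
      rw [card_conj_smul', Subgroup.card_subtype]; exact card_of_index h (by norm_num) h6),
    fun h => no2112 (H := H.map (Subgroup.subtype _)) (by
      rw [Subgroup.card_subtype]; exact card_of_index h (by norm_num) h6)⟩

end Cfsg.Agent.S1606
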