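import Cfsg.Statements.S1609
import Cfsg.Agent.H9.MIdx2

set_option autoImplicit false
open scoped Pointwise
open Cfsg

namespace Cfsg.Agent.S1609

open Cfsg.Agent.H4 Cfsg.Agent.H9.MI MulAction

set_option maxRecDepth 100000

theorem aux {x : GolayPt} {H : Subgroup (stabilizer M24 x)} {g : M24} (hg : g • x = gE.pt 23) {m : ℕ}
    (h : MulAut.conj g • H.map (stabilizer M24 x).subtype = cf [23] [m]) :
    H = (stabilizer M24 (g⁻¹ • gE.ofMask m)).subgroupOf (stabilizer M24 x) := by
  ext k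
  rw [Subgroup.mem_subgroupOf, mem_stabilizer_conj (smul_inv_smul g _),
    ← Subgroup.mem_map_iff_mem (f := (stabilizer M24 x).subtype) Subtype.val_injective,
    mem_iff_of_conj h, cf_cons', cf_pt, Subgroup.mem_inf, ← mem_stabilizer_conj hg]
  exact and_iff_right k.2

/-- Subgroups of index 253 in the Mathieu group of degree 23 are exactly the duad stabilisers and the heptad stabilisers. -/
theorem result (x : Cfsg.GolayPt) (H : Subgroup ↥(MulAction.stabilizer Cfsg.M24 x)) (hH : H.index = 253) : (∃ s : Finset Cfsg.GolayPt, s.card = 2 ∧ x ∉ s ∧ H = (MulAction.stabilizer Cfsg.M24 s).subgroupOf (MulAction.stabilizer Cfsg.M24 x)) ∨ ∃ o ∈ Cfsg.octads, x ∈ o ∧ H = (MulAction.stabilizer Cfsg.M24 o).subgroupOf (MulAction.stabilizer Cfsg.M24 x) := by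
  obtain ⟨g₁, h1, h2⟩ := trans1 x
  have h3 : (⟨g₁, h1⟩ : M24) • x = gE.pt 23 := h2
  have h4 : Nat.card (stabilizer M24 x) = 10200960 := by
    rw [card_eq_of_conj _ (mem_stabilizer_conj h3), ← cf_pt, card_M23']
  have h5 : Nat.card (H.map (stabilizer M24 x).subtype) = 40320 := by
    rw [Subgroup.card_subtype]
    exact card_of_index hH (by norm_num) h4
  have h6 := conj_smul_le_stab (g := (⟨g₁, h1⟩ : M24)) (Subgroup.map_subtype_le H)
  rw [h3, ← cf_pt] at h6
  obtain ⟨g₂, h7, h8⟩ := exists_conj_T' (m := 253) h6 ((card_conj_smul' _ _).trans h5)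
    (by norm_num) (by norm_num)
  have h9 := conj_smul_le h6 h7
  rw [← mul_smul, ← map_mul] at h8 h9
  have h10 : (g₂ * ⟨g₁, h1⟩ : M24) • x = gE.pt 23 := by
    rw [mul_smul, h3]; exact (mem_cf.mp h7).1 23 (by simp)
  generalize g₂ * ⟨g₁, h1⟩ = g at h8 h9 h10
  have h11 := (card_conj_smul' g _).trans h5
  rcases coreA h9 h8 h11 (Or.inl rfl) with h | h
  · refine Or.inl ⟨_, ?_, ?_, aux h10 (eq_of_le_card h h11 card_D)⟩
    · rw [Finset.card_smul_finset, gE.card_ofMask]
      decide +kernel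
    · rw [Finset.mem_inv_smul_finset_iff, h10, pt_mem_ofMask_tb _ (by norm_num)]
      decide +kernel
  · refine Or.inr ⟨_, smul_mem_octads g⁻¹.2 o0_mem, ?_, aux h10 (eq_of_le_card h h11 card_E)⟩
    rw [← Subgroup.smul_def, Finset.mem_inv_smul_finset_iff, h10, pt_mem_ofMask_tb _ (by norm_num)]
    decide +kernel

end Cfsg.Agent.S1609
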