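import Cfsg.Statements.S1610
import Cfsg.Agent.H4.Hexacode

set_option autoImplicit false
open Cfsg

set_option maxRecDepth 100000

namespace Cfsg.Agent.S1610

open Cfsg.Agent.H4


/-- The hexacode has 64 words, minimum weight 4, and weight distribution 0^1 4^45 6^18. -/
theorem result (F : Type*) [Field F] [Fintype F] [DecidableEq F] (hF : Fintype.card F = 4) (ω : F) (hω : ω ^ 2 + ω + 1 = 0) : Nat.card ↥(Cfsg.hexacode F ω) = 64 ∧ (∀ x ∈ Cfsg.hexacode F ω, x ≠ 0 → (Finset.univ.filter fun i => x i ≠ 0).card = 4 ∨ (Finset.univ.filter fun i => x i ≠ 0).card = 6) ∧ {x : Fin 6 → F | x ∈ Cfsg.hexacode F ω ∧ (Finset.univ.filter fun i => x i ≠ 0).card = 4}.ncard = 45 ∧ {x : Fin 6 → F | x ∈ Cfsg.hexacode F ω ∧ (Finset.univ.filter fun i => x i ≠ 0).card = 6}.ncard = 18 := by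
  obtain ⟨K, h⟩ := exists_hexacode_eq F hF ω hω
  have hs := K.surj hF
  have key : ∀ k, {x : Fin 6 → F | x ∈ K.code hE 3 hB ∧
      (Finset.univ.filter fun i => x i ≠ 0).card = k}.ncard =
      countLt (4 ^ 3) fun m => Nat.beq (pc 6 (Ops.supp 2 6 (f4Ops.cwd 4 2 6 3 hB m))) k := fun k =>
    K.ncard_code hE hOK hs (fun v => Nat.beq (pc 6 (Ops.supp 2 6 v)) k) (fun _ h => h.1)
      fun v hv h => by
        rw [Set.mem_ofPred_eq, K.filter_vec hE hv, hE.card_ofMask, Nat.beq_eq]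
        simp [h]
  rw [h]
  refine ⟨K.card_code hE hOK hs, fun x hx h0 => ?_, by rw [key]; decide +kernel,
    by rw [key]; decide +kernel⟩
  obtain ⟨m, hm, rfl⟩ := K.exists_cwd hE hOK hs hx
  have h1 : allLt 64 (fun m => memL [0, 4, 6] (pc 6 (Ops.supp 2 6 (f4Ops.cwd 4 2 6 3 hB m)))) =
    true := by decide +kernel
  have h2 := memL_iff.mp (allLt_iff.mp h1 m hm)
  rw [← hE.card_ofMask, ← K.filter_vec hE (K.cwd_lt hOK m)] at h2
  simp only [List.mem_cons, List.not_mem_nil, or_false] at h2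
  refine h2.resolve_left fun h3 => h0 (funext fun a => ?_)
  by_contra h4
  exact absurd (Finset.card_eq_zero.mp h3 ▸ Finset.mem_filter.mpr ⟨Finset.mem_univ a, h4⟩)
    (Finset.notMem_empty _)

end Cfsg.Agent.S1610
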