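import Cfsg.Statements.S1611
import Cfsg.Agent.H4.Hexacode

set_option autoImplicit false
open Cfsg

set_option maxRecDepth 100000

namespace Cfsg.Agent.S1611

open Cfsg.Agent.H4


/-- The monomial automorphism group of the hexacode has order 1080: its diagonal part is the scalars and its permutation parts form the alternating group of degree 6. -/
theorem result (F : Type*) [Field F] [Fintype F] [DecidableEq F] (hF : Fintype.card F = 4) (ω : F) (hω : ω ^ 2 + ω + 1 = 0) : Nat.card {f : Equiv.Perm (Fin 6) × (Fin 6 → Fˣ) // (∀ x ∈ Cfsg.hexacode F ω, Cfsg.monomialMap f.1 f.2 x ∈ Cfsg.hexacode F ω)} = 1080 ∧ (∀ c : Fin 6 → Fˣ, (∀ x ∈ Cfsg.hexacode F ω, Cfsg.monomialMap 1 c x ∈ Cfsg.hexacode F ω) → ∀ i j, c i = c j) ∧ {σ : Equiv.Perm (Fin 6) | ∃ c : Fin 6 → Fˣ, (∀ x ∈ Cfsg.hexacode F ω, Cfsg.monomialMap σ c x ∈ Cfsg.hexacode F ω)} = (alternatingGroup (Fin 6) : Set (Equiv.Perm (Fin 6))) := by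
  obtain ⟨K, h⟩ := exists_hexacode_eq F hF ω hω
  have hs := K.surj hF
  rw [h]
  have h1 : ∀ c : Fin 6 → Fˣ, (∀ x ∈ K.code hE 3 hB, monomialMap 1 c x ∈ K.code hE 3 hB) →
      ∀ i j, c i = c j := by
    intro c hc i j
    obtain ⟨m, hm, h1, h2⟩ := K.exists_units hE hs c
    have h3 : allLt 729 (fun m => bimp (f4Ops.monOK 2 6 3 hB hI 3 (idc 6 3) (dig 3 2 6 1 m))
      (allLt 6 fun i => Nat.beq (img 2 (dig 3 2 6 1 m) i) (img 2 (dig 3 2 6 1 m) 0))) = true := by
      decide +kernel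
    have h4 := allLt_iff.mp ((bimp_iff _ _).mp (allLt_iff.mp h3 m hm)
      ((K.monOK_iff hE hOK Enc.rep_one h1 h2).mp hc))
    exact Units.ext ((h2 i).trans ((congrArg K.val ((Nat.eq_of_beq_eq_true (h4 i i.2)).trans
      (Nat.eq_of_beq_eq_true (h4 j j.2)).symm)).trans (h2 j).symm))
  have h2 : 360 ≤ Nat.card ↥(monPerm (K.code hE 3 hB) ⊓ alternatingGroup (Fin 6)) := by
    refine le_trans (by decide +kernel) (Enc.chainLB_le (E := hE) 4
      [(0, [0xc543, 0x23a88]),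
   (1, [0x13a60]),
   (2, [0x254c8, 0x1c548]),
   (3, [0x23a88])] _ (fun p => band (isEven 6 3 p) (band (isPerm 6 3 p) (anyL
      [(0xc543, 0x6bd), (0x23a88, 0xaad), (0x13a60, 0x5e5), (0x254c8, 0x555), (0x1c548, 0xaad), (0x23a88, 0xaad)] fun c : ℕ × ℕ =>
      band (Nat.beq c.1 p) (band (allLt 6 fun i =>
        band (Nat.blt 0 (img 2 c.2 i)) (Nat.blt (img 2 c.2 i) 4)) (f4Ops.monOK 2 6 3 hB hI 3 p c.2)))))
      fun p hp => ?_)
    beta_reduce at hp
    rw [band_eq, Bool.and_eq_true] at hp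
    obtain ⟨g, hg, h3⟩ := K.sound_monPerm hE hOK _ p hp.2
    exact ⟨g, ⟨hg, mem_alternatingGroup_of_isEven h3 hp.1⟩, h3⟩
  have h3 : alternatingGroup (Fin 6) ≤ monPerm (K.code hE 3 hB) :=
    (Subgroup.eq_of_le_of_card_ge inf_le_right (by rw [card_alt_fin 6 (by norm_num)]; exact h2)).ge.trans
      inf_le_left
  have h4 : monPerm (K.code hE 3 hB) = alternatingGroup (Fin 6) := by
    refine le_antisymm (fun τ hτ => by_contra fun h5 => ?_) h3
    obtain ⟨σ, hσ⟩ := hE.exists_rep (p := 0x2c681) (by decide +kernel)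
    obtain ⟨c, hc⟩ : σ ∈ monPerm (K.code hE 3 hB) := by
      rw [← mul_inv_cancel_left τ σ]
      refine mul_mem hτ (h3 ?_)
      rw [Equiv.Perm.mem_alternatingGroup] at h5 ⊢
      rw [map_mul, Equiv.Perm.sign_inv, (Int.units_eq_one_or _).resolve_left h5, sign_eq_invs hσ]
      decide +kernel
    obtain ⟨m, hm, h6, h7⟩ := K.exists_units hE hs c
    have h8 : allLt 729 (fun m => bnot (f4Ops.monOK 2 6 3 hB hI 3 0x2c681 (dig 3 2 6 1 m))) =
      true := by decide +kernel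
    have h9 := allLt_iff.mp h8 m hm
    rw [(K.monOK_iff hE hOK hσ h6 h7).mp hc] at h9
    exact Bool.noConfusion h9
  refine ⟨?_, h1, congrArg SetLike.coe h4⟩
  rw [card_monomial, card_scalars _ h1, h4, card_alt_fin 6 (by norm_num), Nat.card_units,
    Nat.card_eq_fintype_card, hF]
  rfl

end Cfsg.Agent.S1611
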