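import Cfsg.Statements.S1612
import Cfsg.Agent.H3.FischerPrim
import Cfsg.Agent.H1.Basic

set_option autoImplicit false
open Cfsg

namespace Cfsg.Agent.S1612

theorem isPGroup_closure {G : Type*} [Group G] {E : Set G} (h2 : ∀ a ∈ E, a * a = 1)
    (hc : ∀ a ∈ E, ∀ b ∈ E, Commute a b) : IsPGroup 2 (Subgroup.closure E) := by
  rintro ⟨x, hx⟩
  refine ⟨1, Subtype.ext ?_⟩
  change x ^ 2 ^ 1 = 1
  rw [pow_one]
  induction hx using Subgroup.closure_induction with
  | mem x hx => rw [pow_two, h2 x hx]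
  | one => simp
  | mul x y hx hy h1 h2 => rw [(H3.commute_of_mem_closure hc hx hy).mul_pow, h1, h2, one_mul]
  | inv x _ h => rw [inv_pow, h, inv_one]

theorem commute_of_mem {G : Type*} [Group G] {D : Set G} (hD : IsThreeTranspositionSet D)
    {S : Subgroup G} (hS : IsPGroup 2 S) {a b : G} (ha : a ∈ D) (hb : b ∈ D) (ha' : a ∈ S)
    (hb' : b ∈ S) : Commute a b := by
  by_contra h
  obtain ⟨k, hk⟩ := hS ⟨a * b, mul_mem ha' hb'⟩
  have hk' : (a * b) ^ 2 ^ k = 1 := congrArg Subtype.val hk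
  have := orderOf_dvd_of_pow_eq_one hk'
  rw [H3.tt_orderOf_three hD ha hb h] at this
  exact absurd (Nat.prime_three.dvd_of_dvd_pow this) (by norm_num)

/-- In a 3-transposition group (no solvable normal subgroup, perfect derived group), the normaliser of a commuting set of transpositions of maximum size contains a Sylow 2-subgroup and is doubly transitive on the set. -/
theorem result {G : Type*} [Group G] [Finite G] (hsol : ∀ N : Subgroup G, N.Normal → Group.IsSolvable ↥N → N = ⊥) (hperf : ⁅commutator G, commutator G⁆ = commutator G) {D : Set G} (hD : Cfsg.IsThreeTranspositionClass D) {E : Set G} (hE : E ⊆ D) (hc : ∀ a ∈ E, ∀ b ∈ E, Commute a b) (hmax : ∀ E' : Set G, E' ⊆ D → (∀ a ∈ E', ∀ b ∈ E', Commute a b) → E'.ncard ≤ E.ncard) : (∃ P : Sylow 2 G, (P : Subgroup G) ≤ Subgroup.normalizer E) ∧ ∀ a ∈ E, ∀ b ∈ E, ∀ c ∈ E, ∀ d ∈ E, a ≠ b → c ≠ d → ∃ g ∈ Subgroup.normalizer E, g * a * g⁻¹ = c ∧ g * b * g⁻¹ = d :=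 by
  haveI : Fact (Nat.Prime 2) := ⟨Nat.prime_two⟩
  have hconj := (H3.TTC.ofClass hD).conj_mem
  change ∀ g, ∀ d ∈ D, g * d * g⁻¹ ∈ D at hconj
  have hE2 := isPGroup_closure (fun a ha => H3.tt_mul_self hD.1 (hE ha)) hc
  have key : ∀ S : Subgroup G, IsPGroup 2 S → Subgroup.closure E ≤ S → E = D ∩ S := by
    intro S hS hle
    refine Set.eq_of_subset_of_ncard_le
      (fun x hx => ⟨hE hx, hle (Subgroup.subset_closure hx)⟩) (hmax _ Set.inter_subset_left ?_)
    exact fun a ha b hb => commute_of_mem hD.1 hS ha.1 hb.1 ha.2 hb.2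
  have hnorm : ∀ g : G, (∀ x ∈ E, g * x * g⁻¹ ∈ E) → g ∈ Subgroup.normalizer E :=
    fun g hg => Subgroup.mem_normalizer_fintype hg
  refine ⟨?_, fun a ha b hb c hc' d hd hab hcd => ?_⟩
  · obtain ⟨P, hP⟩ := hE2.exists_le_sylow
    refine ⟨P, fun g hg => hnorm g fun x hx => ?_⟩
    rw [key P P.isPGroup' hP] at hx ⊢
    exact ⟨hconj g x hx.1, mul_mem (mul_mem hg hx.2) (inv_mem hg)⟩
  have h : (H3.TTC.ofClass hD).Std := H3.TTC.std_of_no_solvable ⟨a, hE ha⟩ hsol hperf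
  obtain ⟨g, hg1, hg2⟩ := h.exists_smul_pair_cm (a := ⟨a, hE ha⟩) (b := ⟨b, hE hb⟩)
    (c := ⟨c, hE hc'⟩) (d := ⟨d, hE hd⟩)
    ⟨fun e => hab (congrArg H3.TTC.Pt.val e).symm, hc a ha b hb⟩
    ⟨fun e => hcd (congrArg H3.TTC.Pt.val e).symm, hc c hc' d hd⟩
  have hg1' : g * a * g⁻¹ = c := congrArg H3.TTC.Pt.val hg1
  have hg2' : g * b * g⁻¹ = d := congrArg H3.TTC.Pt.val hg2
  have hle : ∀ u ∈ E, ∀ v ∈ E, Subgroup.closure E ≤ Subgroup.centralizer {u, v} := by
    intro u hu v hv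
    rw [Subgroup.closure_le]
    rintro x hx y (rfl | rfl)
    · exact (hc _ hu _ hx).eq
    · exact (hc _ hv _ hx).eq
  obtain ⟨S, hS1, hS⟩ := H1.exists_isSylowIn_ge hE2 (hle c hc' d hd)
  obtain ⟨k, hk, hkle⟩ := hS.exists_cj_le (H1.isPGroup_cj g hE2) (by
    intro x hx
    have := hle a ha b hb (H1.mem_cj.1 hx)
    rintro y (rfl | rfl)
    · have := this a (Or.inl rfl)
      rw [← hg1']
      calc g * a * g⁻¹ * x = g * (a * (g⁻¹ * x * g)) * g⁻¹ := by group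
        _ = _ := by rw [this]; group
    · have := this b (Or.inr rfl)
      rw [← hg2']
      calc g * b * g⁻¹ * x = g * (b * (g⁻¹ * x * g)) * g⁻¹ := by group
        _ = _ := by rw [this]; group)
  refine ⟨k * g, hnorm _ fun x hx => ?_, ?_, ?_⟩
  · rw [key S hS.isPGroup hS1]
    refine ⟨hconj _ x (hE hx), hkle (H1.mem_cj.2 (H1.mem_cj.2 ?_))⟩
    simpa [mul_assoc] using Subgroup.subset_closure hx
  · rw [show k * g * a * (k * g)⁻¹ = k * (g * a * g⁻¹) * k⁻¹ by group, hg1',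
      ← hk c (Or.inl rfl)]; group
  · rw [show k * g * b * (k * g)⁻¹ = k * (g * b * g⁻¹) * k⁻¹ by group, hg2',
      ← hk d (Or.inr rfl)]; group

end Cfsg.Agent.S1612
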