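import Cfsg.Statements.S1614
import Cfsg.Agent.H3.FischerSolv
import Cfsg.Agent.S1615
import Cfsg.Agent.L.Comp

set_option autoImplicit false
open Cfsg

namespace Cfsg.Agent.S1614

/-- If the commuting transpositions of one transposition generate a solvable group, a Fischer 3-transposition group is S5, S6, PSU(4, 2) or PSU(5, 2). -/
theorem result {G : Type*} [Group G] [Finite G] (hsol : ∀ N : Subgroup G, N.Normal → Group.IsSolvable ↥N → N = ⊥) (hperf : ⁅commutator G, commutator G⁆ = commutator G) {D : Set G} (hD : Cfsg.IsThreeTranspositionClass D) (x : G) (hx : x ∈ D) (hs : Group.IsSolvable ↥(Subgroup.closure {y : G | y ∈ D ∧ y ≠ x ∧ Commute x y})) : Nonempty (G ≃* Equiv.Perm (Fin 5)) ∨ Nonempty (G ≃* Equiv.Perm (Fin 6)) ∨ ∃ (F : Type) (_ : Field F) (_ : Fintype F), Fintype.card F = 4 ∧ (Nonempty (G ≃* Cfsg.PSU 4 F 2) ∨ Nonempty (G ≃* Cfsg.PSU 5 F 2)) := by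
  have hT : (H3.TTC.ofClass hD).Std := H3.TTC.std_of_no_solvable ⟨x, hx⟩ hsol hperf
  have hZ : Subgroup.center G = ⊥ := hsol _ inferInstance
    (H3.isSolvable_of_forall_commute fun a ha b _ => (Subgroup.mem_center_iff.1 ha b).symm)
  by_cases h1 : Cfsg.oddCore ↥(Subgroup.closure {y : G | y ∈ D ∧ y ≠ x ∧ Commute x y}) ≤
    Subgroup.center ↥(Subgroup.closure {y : G | y ∈ D ∧ y ≠ x ∧ Commute x y})
  swap
  · exact Or.inl (S1615.result hsol hperf hD x hx h1)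
  by_cases h2 : Cfsg.pCore 2 ↥(Subgroup.closure {y : G | y ∈ D ∧ y ≠ x ∧ Commute x y}) ≤
    Subgroup.center ↥(Subgroup.closure {y : G | y ∈ D ∧ y ≠ x ∧ Commute x y})
  · exfalso
    haveI : Fact (Nat.Prime 2) := ⟨Nat.prime_two⟩
    have h3 := (L.fitting_le_pCore_sup_pPrimeCore 2).trans (sup_le h2 h1)
    have h4 := (Subgroup.centralizer_eq_top_iff_subset.2 h3).ge.trans
      (L.centralizer_fitting_le.trans h3)
    obtain ⟨y, hy1, hy2⟩ := hT.exists_cm ⟨x, hx⟩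
    obtain ⟨w, hw1, hw2⟩ := hT.exists_cm_ncm hy1
    have h5 := congrArg Subtype.val (Subgroup.mem_center_iff.1 (h4 (Subgroup.mem_top
      ⟨w.val, Subgroup.subset_closure ⟨w.mem, fun e => hw2 (by
        rw [H3.TTC.cm, e]; exact hy2.symm), hw1⟩⟩))
      ⟨y.val, Subgroup.subset_closure ⟨y.mem, fun e => hy1 (H3.TTC.Pt.ext e), hy2⟩⟩)
    exact hw2 h5
  right
  rcases hT.uemb_of_big (H3.TTC.big_of_pCore (T := H3.TTC.ofClass hD) ⟨x, hx⟩ h2) with
    ⟨n, ψ, E⟩ | ⟨n, ψ, hn, E⟩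
  · left
    have h3 := E.two_le hT
    obtain rfl : n = 2 := by
      by_contra hn
      exact E.not_isSolvable_sp (by omega) ⟨x, hx⟩ hs
    obtain ⟨e⟩ := E.equiv_sp hT hZ
    obtain ⟨e'⟩ := H3.sp4_equiv_perm_six
    exact ⟨e.trans e'⟩
  · refine Or.inr ⟨H3.F4, inferInstance, inferInstance, H3.F4.card_eq, ?_⟩
    have key := E.equiv_psu H3.F4.card_eq H3.F4.orderOf_τ H3.F4.τ_eq hn hT hZ
    obtain rfl | rfl : n = 4 ∨ n = 5 := by
      by_contra hn
      exact E.not_isSolvable_su (by omega) ⟨x, hx⟩ hs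
    exacts [Or.inl key, Or.inr key]

end Cfsg.Agent.S1614
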