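import Cfsg.Statements.S1617
import Cfsg.Agent.H3.PTransP
import Cfsg.Agent.FT.Main

set_option autoImplicit false
open Cfsg

namespace Cfsg.Agent.S1617

/-- A generating conjugacy class of involutions on which the group (with trivial solvable radical) acts with rank 3 is a class of 3-transpositions. -/
theorem result {G : Type*} [Group G] [Finite G] (hsol : ∀ N : Subgroup G, N.Normal → Group.IsSolvable ↥N → N = ⊥) {D : Set G} (hinv : ∀ d ∈ D, orderOf d = 2) (hconj : ∃ d ∈ D, D = conjugatesOf d) (hgen : Subgroup.closure D = ⊤) (hrank : ∀ x ∈ D, ∃ y ∈ D, ∃ z ∈ D, {w : G | ∃ g : G, Commute g x ∧ g * y * g⁻¹ = w} ≠ {w : G | ∃ g : G, Commute g x ∧ g * x * g⁻¹ = w} ∧ {w : G | ∃ g : G, Commute g x ∧ g * z * g⁻¹ = w} ≠ {w : G | ∃ g : G, Commute g x ∧ g * x * g⁻¹ = w} ∧ {w : G | ∃ g : G, Commute g x ∧ g * y * g⁻¹ = w} ≠ {w : G | ∃ g : G, Commute g x ∧ g * z * g⁻¹ = w} ∧ D = {w : G | ∃ g : G, Commute g x ∧ g * x * g⁻¹ = w} ∪ {w : G | ∃ g : G, Commute g x ∧ g * y * g⁻¹ =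 w} ∪ {w : G | ∃ g : G, Commute g x ∧ g * z * g⁻¹ = w}) : Cfsg.IsThreeTranspositionClass D := by
  haveI : Fact (Nat.Prime 2) := ⟨Nat.prime_two⟩
  refine ⟨⟨hinv, ?_⟩, hconj, hgen⟩
  obtain ⟨x, hx, rfl⟩ := hconj
  have hsq : ∀ d ∈ conjugatesOf x, d * d = 1 := fun d hd => H3.mul_self_of_orderOf_two (hinv d hd)
  have hcj : ∀ g : G, ∀ d ∈ conjugatesOf x, g * d * g⁻¹ ∈ conjugatesOf x :=
    fun g d hd => IsConj.trans hd (isConj_iff.2 ⟨g, rfl⟩)
  have hx1 : x ≠ 1 := H3.ne_one_of_orderOf_two (hinv x hx)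
  have h2 : ∀ N : Subgroup G, N.Normal → IsPGroup 2 N → N = ⊥ := by
    intro N hN hP
    haveI := hP.isNilpotent
    exact hsol N hN inferInstance
  obtain ⟨w₀, hw₀, hxw₀, hne₀⟩ : ∃ w ∈ conjugatesOf x, Commute x w ∧ w ≠ x := by
    by_contra hn
    push Not at hn
    obtain ⟨N, hN, hodd, hNx⟩ := H3.zstar_commute (hsq x hx)
      (fun g hc => hn _ (hcj g x hx) hc)
    have hb := hsol N hN (FT.odd_order_solvable hodd)
    have hc : x ∈ Subgroup.center G := by
      rw [Subgroup.mem_center_iff]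
      intro g
      have := hNx g
      rw [hb, Subgroup.mem_bot, mul_inv_eq_one, mul_inv_eq_iff_eq_mul] at this
      exact this.symm
    rw [hsol (Subgroup.center G) inferInstance (Group.isSolvable_of_comm fun a b =>
      Subtype.ext (Subgroup.mem_center_iff.1 b.2 a)), Subgroup.mem_bot] at hc
    exact hx1 hc
  obtain ⟨m, hm⟩ : ∃ m, ∀ w ∈ conjugatesOf x, Commute x w ∨ orderOf (x * w) = m := by
    obtain ⟨y, hy, z, hz, -, -, -, hD⟩ := hrank x hx
    have key : ∀ y w : G, (∃ g : G, Commute g x ∧ g * y * g⁻¹ = w) →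
        orderOf (x * w) = orderOf (x * y) ∧ (Commute x y ↔ Commute x w) := by
      rintro y w ⟨g, hg, rfl⟩
      have e := H3.commute_iff_conj_eq.1 hg
      constructor
      · rw [← H3.orderOf_conj g (x * y), ← conj_mul, e]
      · rw [← Commute.conj_iff (a := x) (b := y) g, e]
    have hmem : ∀ w ∈ conjugatesOf x, w = x ∨ (∃ g : G, Commute g x ∧ g * y * g⁻¹ = w) ∨
        (∃ g : G, Commute g x ∧ g * z * g⁻¹ = w) := by
      intro w hw
      rw [hD] at hw
      rcases hw with (⟨g, hg, rfl⟩ | hw) | hw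
      · exact Or.inl (H3.commute_iff_conj_eq.1 hg)
      · exact Or.inr (Or.inl hw)
      · exact Or.inr (Or.inr hw)
    rcases hmem w₀ hw₀ with h0 | h0 | h0
    · exact absurd h0 hne₀
    · refine ⟨orderOf (x * z), fun w hw => ?_⟩
      rcases hmem w hw with h1 | h1 | h1
      · exact Or.inl (h1 ▸ Commute.refl _)
      · exact Or.inl ((key y w h1).2.1 ((key y w₀ h0).2.2 hxw₀))
      · exact Or.inr (key z w h1).1
    · refine ⟨orderOf (x * y), fun w hw => ?_⟩
      rcases hmem w hw with h1 | h1 | h1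
      · exact Or.inl (h1 ▸ Commute.refl _)
      · exact Or.inr (key y w h1).1
      · exact Or.inl ((key z w h1).2.1 ((key z w₀ h0).2.2 hxw₀))
  have hm' : ∀ a ∈ conjugatesOf x, ∀ b ∈ conjugatesOf x, Commute a b ∨ orderOf (a * b) = m := by
    intro a ha b hb
    obtain ⟨g, rfl⟩ := isConj_iff.1 ha
    rcases hm _ (hcj g⁻¹ b hb) with h | h
    · left
      have := h.conj g
      rwa [show g * (g⁻¹ * b * g⁻¹⁻¹) * g⁻¹ = b by group] at this
    · right
      rw [← h, ← H3.orderOf_conj g (x * _)]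
      congr 1; group
  intro a ha b hb
  by_cases hab : Commute a b
  · left
    rw [pow_two]
    exact H3.mul_sq_of_commute (hsq a ha) (hsq b hb) hab
  right
  have hom := (hm' a ha b hb).resolve_left hab
  have hpow : ∀ k, a * (a * b) ^ k ∈ conjugatesOf x := fun k =>
    (H3.isConj_mul_pow (hsq a ha) (hsq b hb) k).elim (fun h => IsConj.trans ha h)
      (fun h => IsConj.trans hb h)
  have hpow' : ∀ k, ((a * b) ^ k) ^ 2 = 1 ∨ orderOf ((a * b) ^ k) = m := by
    intro k
    have e : a * (a * (a * b) ^ k) = (a * b) ^ k := by rw [← mul_assoc, hsq a ha, one_mul]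
    rcases hm' a ha _ (hpow k) with h | h
    · left
      rw [← e, pow_two]
      exact H3.mul_sq_of_commute (hsq a ha) (hsq _ (hpow k)) h
    · right; rwa [e] at h
  have hmpos : 0 < m := hom ▸ orderOf_pos _
  rcases Nat.even_or_odd m with hev | hodd
  · exfalso
    have h4 : m ∣ 2 ^ 2 := by
      rcases hpow' 2 with h | h
      · rw [← hom]; exact orderOf_dvd_of_pow_eq_one (by rw [← h, ← pow_mul]; rfl)
      · exfalso
        obtain ⟨k, hk⟩ := hev
        have : m ∣ k := by
          rw [← h]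
          apply orderOf_dvd_of_pow_eq_one
          rw [← pow_mul, two_mul, ← hk, ← hom, pow_orderOf_eq_one]
        have := Nat.le_of_dvd (by omega) this
        omega
    have hP := H3.baer_suzuki_set (p := 2) hcj (fun c hc d hd => by
      rcases hm' c hc d hd with h | h
      · exact H3.isPGroup_closure_pair_of_commute (hsq c hc) (hsq d hd) h
      · exact H3.isPGroup_closure_pair_of_pow (hsq c hc) (hsq d hd) (k := 2)
          (orderOf_dvd_iff_pow_eq_one.1 (h ▸ h4)))
    have := h2 _ (H3.normal_closure_of_conj_mem hcj) hP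
    have hxm : x ∈ Subgroup.closure (conjugatesOf x) := Subgroup.subset_closure hx
    rw [this, Subgroup.mem_bot] at hxm
    exact hx1 hxm
  · have hm1 : m ≠ 1 := by
      intro h1
      rw [h1, orderOf_eq_one_iff] at hom
      exact hab (H3.commute_of_mul_sq (hsq a ha) (hsq b hb) (by rw [hom, one_mul]))
    obtain ⟨p, hp, k, hk⟩ := Nat.exists_prime_and_dvd hm1
    have hp2 : p ≠ 2 := by
      rintro rfl
      exact (Nat.not_even_iff_odd.2 hodd) ⟨k, by omega⟩
    have hk0 : k ≠ 0 := by rintro rfl; omega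
    have hop : orderOf ((a * b) ^ k) = p := by
      rw [orderOf_pow' _ hk0, hom, hk, Nat.gcd_mul_left_left, Nat.mul_div_cancel _ (Nat.pos_of_ne_zero hk0)]
    have hmp : m = p := by
      rcases hpow' k with h | h
      · exact absurd ((Nat.prime_dvd_prime_iff_eq hp Nat.prime_two).1
          (hop ▸ orderOf_dvd_of_pow_eq_one h)) hp2
      · rw [← h, hop]
    by_cases h3 : p = 3
    · rw [← h3, ← hmp, ← hom, pow_orderOf_eq_one]
    · exfalso
      have hPT : H3.PT p (conjugatesOf x) :=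
        ⟨hsq, hcj, fun c hc d hd => (hm' c hc d hd).imp id fun h => by
          rw [← hmp, ← h, pow_orderOf_eq_one]⟩
      obtain ⟨N, hN, hP, hmem⟩ := hPT.exists_normal_two hp hp2 h3
        (fun c hc d hd => IsConj.trans (IsConj.symm hc) hd) hgen hx hw₀ hxw₀
      rw [h2 N hN hP, Subgroup.mem_bot] at hmem
      apply hne₀
      rw [eq_inv_of_mul_eq_one_right hmem, inv_eq_of_mul_eq_one_right (hsq x hx)]

end Cfsg.Agent.S1617
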