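import Cfsg.Statements.S1618
import Cfsg.Agent.H3.FischerOdd

set_option autoImplicit false
open Cfsg

namespace Cfsg.Agent.S1618

/-- A group generated by a class of involutions whose pairwise products (of distinct members) have p-power order for a fixed odd prime p has nilpotent derived subgroup. -/
theorem result {G : Type*} [Group G] [Finite G] (p : ℕ) (hp : p.Prime) (hodd : p ≠ 2) {D : Set G} (hinv : ∀ d ∈ D, orderOf d = 2) (hconj : ∃ d ∈ D, D = conjugatesOf d) (hgen : Subgroup.closure D = ⊤) (hprod : ∀ x ∈ D, ∀ y ∈ D, x ≠ y → ∃ k : ℕ, orderOf (x * y) = p ^ k) : Group.IsNilpotent ↥(commutator G) := by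
  haveI := Fact.mk hp
  obtain ⟨x, hx, rfl⟩ := hconj
  obtain ⟨P, -, hP, hle, -⟩ := H3.exists_pgroup_of_prods hp hodd
    (H3.mul_self_of_orderOf_two (hinv x hx)) hgen fun g => by
      by_cases h : x = g * x * g⁻¹
      · exact ⟨0, by rw [← h, H3.mul_self_of_orderOf_two (hinv x hx), one_pow]⟩
      · obtain ⟨k, hk⟩ := hprod x hx _ (isConj_iff.2 ⟨g, rfl⟩) h
        exact ⟨k, by rw [← hk, pow_orderOf_eq_one]⟩
  exact (hP.to_le hle).isNilpotent

end Cfsg.Agent.S1618
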