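import Cfsg.Statements.S1619
import Cfsg.Agent.H5.J2F
-- import your own Cfsg.Agent.* helpers here

set_option autoImplicit false
open Quaternion
open Cfsg

namespace Cfsg.Agent.S1619

/-- The icosian reflection group has order 1209600 with centre {±1}; the Hall–Janko group has order 604800 = 2^7·3^3·5^2·7. -/
theorem result : Nat.card ↥Cfsg.Spor.twoJ2 = 1209600 ∧ Nat.card ↥(Subgroup.center ↥Cfsg.Spor.twoJ2) = 2 ∧ (∃ z ∈ Subgroup.center ↥Cfsg.Spor.twoJ2, ∀ x : ↥Cfsg.Spor.icoLeech, (((z : Equiv.Perm ↥Cfsg.Spor.icoLeech) x : ↥Cfsg.Spor.icoLeech) : Fin 3 → ℍ[ℝ]) = -(x : Fin 3 → ℍ[ℝ])) ∧ Nat.card Cfsg.Spor.J2 = 604800 := by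
  refine ⟨H5.J2.card_G, H5.J2.card_Z, ⟨H5.J2.z, H5.J2.z_mem, fun x => ?_⟩, H5.J2.card_J2⟩
  rw [H5.J2.act_of_scalar (Or.inr rfl) (by rw [H5.J2.φ_z, neg_smul, one_smul]), neg_smul, one_smul]

end Cfsg.Agent.S1619
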