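import Cfsg.Statements.S1622
import Cfsg.Agent.H5.J2D
-- import your own Cfsg.Agent.* helpers here

set_option autoImplicit false
open Quaternion
open Cfsg

namespace Cfsg.Agent.S1622

/-- The reflection group is transitive on its 315 reflections by conjugation. -/
theorem result (f f' : Equiv.Perm ↥Cfsg.Spor.icoLeech) (hf : Cfsg.Spor.IsIcoReflection f) (hf' : Cfsg.Spor.IsIcoReflection f') : ∃ g ∈ Cfsg.Spor.twoJ2, g * f * g⁻¹ = f' := by
  obtain ⟨i, rfl⟩ := H5.J2.isRefl_iff.1 hf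
  obtain ⟨j, rfl⟩ := H5.J2.isRefl_iff.1 hf'
  obtain ⟨g, hg, e⟩ := H5.J2.F_conj i
  obtain ⟨h, hh, e'⟩ := H5.J2.F_conj j
  rw [H5.J2.closure_Fg] at hg hh
  exact ⟨h * g⁻¹, mul_mem hh (inv_mem hg), by rw [← e, ← e']; group⟩

end Cfsg.Agent.S1622
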