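import Cfsg.Statements.S1626
import Cfsg.Agent.H5.J3C

set_option autoImplicit false
open scoped MatrixGroups
open Matrix
open Cfsg

namespace Cfsg.Agent.S1626

/-- Orbits of the triple cover of the third Janko group on lines of its 9-space over the field with 4 elements: the line through the first basis vector has exactly 23256 images, and the isotropic lines (nonzero v with Σ v_z³ = 0) form a single orbit. -/
theorem result (F : Type) [Field F] [Fintype F] (hF : Fintype.card F = 4) (ω : F) (hω : ω ^ 2 + ω + 1 = 0) : {L : Submodule F (Cfsg.Spor.F9 → F) | ∃ g ∈ Cfsg.Spor.threeJ3 F ω, L = F ∙ ((g : Matrix Cfsg.Spor.F9 Cfsg.Spor.F9 F) *ᵥ (Pi.single (0 : Cfsg.Spor.F9) (1 : F) : Cfsg.Spor.F9 → F))}.ncard = 23256 ∧ ∀ v w : Cfsg.Spor.F9 → F, v ≠ 0 → w ≠ 0 → ∑ z, (v z) ^ 3 = 0 → ∑ z, (w z) ^ 3 = 0 → ∃ g ∈ Cfsg.Spor.threeJ3 F ω, ∃ c : F, c ≠ 0 ∧ (g : Matrix Cfsg.Spor.F9 Cfsg.Spor.F9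 F) *ᵥ v = c • w := by
  haveI := H5.charP_of_card_four hF
  constructor
  · have h := H5.ncard_lines (F := F) (H5.J3.S1 ω) (fun h0 => by
      obtain ⟨g, hg⟩ := H5.J3.reach1 hω h0
      refine H5.J3.act_ne_zero hω g ?_ hg
      rw [H5.J3.vec_one]; simp) (H5.J3.S1_smul hω hF)
    rw [H5.J3.ncard_S1 hω, hF] at h
    have e : {L : Submodule F (Cfsg.Spor.F9 → F) | ∃ g ∈ Cfsg.Spor.threeJ3 F ω, L = F ∙ ((g : Matrix Cfsg.Spor.F9 Cfsg.Spor.F9 F) *ᵥ (Pi.single (0 : Cfsg.Spor.F9) (1 : F) : Cfsg.Spor.F9 → F))} = (fun x => F ∙ x) '' H5.J3.S1 ω := by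
      ext L
      constructor
      · rintro ⟨g, hg, rfl⟩
        refine ⟨_, H5.J3.S1_inv hω ⟨g, hg⟩ _ ⟨1, ⟨by norm_num, H5.J3.cflags.1⟩, rfl⟩, ?_⟩
        rw [H5.J3.vec_one]; rfl
      · rintro ⟨x, hx, rfl⟩
        obtain ⟨g, rfl⟩ := H5.J3.reach1 hω hx
        refine ⟨g, g.2, ?_⟩
        rw [H5.J3.vec_one]; rfl
    rw [e]; omega
  · intro v w hv hw h1 h2
    obtain ⟨g, hg⟩ := H5.J3.iso_reach hω hF hv h1
    obtain ⟨k, hk⟩ := H5.J3.iso_reach hω hF hw h2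
    refine ⟨_, (k⁻¹ * g).2, 1, one_ne_zero, ?_⟩
    rw [one_smul]
    exact (H5.J3.act_mul hω k⁻¹ g v).trans (by rw [hg, H5.J3.act_inv hω hk])

end Cfsg.Agent.S1626
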