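import Cfsg.Statements.S1633
import Cfsg.Agent.H9.PRepU3

set_option autoImplicit false
open Cfsg

namespace Cfsg.Agent.S1633

open H5.Lee H9.PR

/-- The Higman–Sims group acts transitively on 352 vectors, a set closed under x ↦ −w − x, with vector stabiliser isomorphic to PSU(3, 5). -/
theorem result (v w : ↥Cfsg.leechLattice) (hv : Cfsg.sqNorm (v : Cfsg.GolayPt → ℤ) = 48) (hw : Cfsg.sqNorm (w : Cfsg.GolayPt → ℤ) = 48) (hvw : Cfsg.dotInt (v : Cfsg.GolayPt → ℤ) (w : Cfsg.GolayPt → ℤ) = -32) (F : Type) [Field F] [Fintype F] (hF : Fintype.card F = 25) : {x : ↥Cfsg.leechLattice | Cfsg.sqNorm (x : Cfsg.GolayPt → ℤ) = 32 ∧ Cfsg.dotInt (v : Cfsg.GolayPt → ℤ) (x : Cfsg.GolayPt → ℤ) = 16 ∧ Cfsg.dotInt (w : Cfsg.GolayPt → ℤ) (x : Cfsg.GolayPt → ℤ) = -24}.ncard = 352 ∧ (∀ x ∈ {x : ↥Cfsg.leechLattice | Cfsg.sqNorm (x : Cfsg.GolayPt → ℤ) = 32 ∧ Cfsg.dotInt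 (v : Cfsg.GolayPt → ℤ) (x : Cfsg.GolayPt → ℤ) = 16 ∧ Cfsg.dotInt (w : Cfsg.GolayPt → ℤ) (x : Cfsg.GolayPt → ℤ) = -24}, -w - x ∈ {x : ↥Cfsg.leechLattice | Cfsg.sqNorm (x : Cfsg.GolayPt → ℤ) = 32 ∧ Cfsg.dotInt (v : Cfsg.GolayPt → ℤ) (x : Cfsg.GolayPt → ℤ) = 16 ∧ Cfsg.dotInt (w : Cfsg.GolayPt → ℤ) (x : Cfsg.GolayPt → ℤ) = -24}) ∧ (∀ x ∈ {x : ↥Cfsg.leechLattice | Cfsg.sqNorm (x : Cfsg.GolayPt → ℤ) = 32 ∧ Cfsg.dotInt (v : Cfsg.GolayPt → ℤ) (x : Cfsg.GolayPt → ℤ) = 16 ∧ Cfsg.dotInt (w : Cfsg.GolayPt → ℤ) (x : Cfsg.GolayPt → ℤ) = -24}, ∀ x' ∈ {x : ↥Cfsg.leechLattice | Cfsg.sqNorm (x : Cfsg.GolayPt → ℤ) = 32 ∧ Cfsg.dotInt (v : Cfsg.GolayPt → ℤ) (x : Cfsg.GolayPt → ℤ) = 16 ∧ Cfsg.dotInt (w : Cfsg.GolayPt → ℤ) (x : Cfsg.GolayPt → ℤ) = -24}, ∃ g : ↥Cfsg.Co0, g • v = v ∧ g • w = w ∧ g • x = x') ∧ ∀ x ∈ {x : ↥Cfsg.leechLattice | Cfsg.sqNorm (x : Cfsg.GolayPt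 → ℤ) = 32 ∧ Cfsg.dotInt (v : Cfsg.GolayPt → ℤ) (x : Cfsg.GolayPt → ℤ) = 16 ∧ Cfsg.dotInt (w : Cfsg.GolayPt → ℤ) (x : Cfsg.GolayPt → ℤ) = -24}, Nonempty (↥(MulAction.stabilizer ↥Cfsg.Co0 v ⊓ MulAction.stabilizer ↥Cfsg.Co0 w ⊓ MulAction.stabilizer ↥Cfsg.Co0 x) ≃* Cfsg.PSU 3 F 5) := by
  have key : ∀ x : Λ, (sqNorm (x : V) = 32 ∧ dotInt (v : V) (x : V) = 16 ∧
      dotInt (w : V) (x : V) = -24) ↔
      -x ∈ SD v (-16) ∧ dotInt ((-(v + w) : Λ) : V) ((-x : Λ) : V) = -8 := fun x => by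
    rw [← show -(-16 + 24 : ℤ) = -8 by norm_num, ← hs_iff, AddSubgroup.coe_neg, norm_neg,
      dot_neg_right, dot_neg_right]
    omega
  obtain ⟨g, h1, h2⟩ := hs_base hv hw hvw
  have base : ∀ x : Λ, (sqNorm (x : V) = 32 ∧ dotInt (v : V) (x : V) = 16 ∧
      dotInt (w : V) (x : V) = -24) → ∃ k : Co0, k • u0 = v ∧ k • x1 = -(v + w) ∧ k • y3 = -x :=
    fun x hx => by
      obtain ⟨y, hy⟩ := MulAction.surjective g (-x)
      have h3 := (key x).mp hx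
      rw [← h2, ← h1, ← hy] at h3
      obtain ⟨k, a, b, c⟩ := sameHS y3_mem.1 (smul_mem_SD.mp h3.1)
        (y3_mem.2.trans ((dot_smul g _ _).symm.trans h3.2).symm)
      exact ⟨g * k, by rw [mul_smul, a, h1], by rw [mul_smul, b, h2], by rw [mul_smul, c]; exact hy⟩
  refine ⟨?_, fun x hx => ?_, fun x hx x' hx' => ?_, fun x hx => ?_⟩
  · rw [← (cntB g fun _ b => b = -8).trans (show _ = 352 by decide +kernel), h1, h2]
    exact Set.ncard_congr (fun x _ => -x) (fun x hx => (key x).mp hx)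
      (fun _ _ _ _ h => neg_injective h) fun y hy => ⟨-y, (key _).mpr (by rwa [neg_neg]), neg_neg y⟩
  · obtain ⟨a, b, c⟩ := hx
    simp only [Set.mem_ofPred_eq, AddSubgroup.coe_sub, AddSubgroup.coe_neg, norm_sub, norm_neg,
      dot_sub_right, dot_neg_right, dot_neg_left, dot_self, a, b, c, hw, hvw]
    norm_num
  · obtain ⟨k, a, b, c⟩ := base x hx
    obtain ⟨k', a', b', c'⟩ := base x' hx'
    have h : (k' * k⁻¹) • v = v := by rw [mul_smul, ← a, inv_smul_smul, a', a]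
    refine ⟨k' * k⁻¹, h, fix_w h (by rw [mul_smul, ← b, inv_smul_smul, b', b]), neg_injective ?_⟩
    rw [← smul_neg', mul_smul, ← c, inv_smul_smul, c']
  · obtain ⟨k, a, b, c⟩ := base x hx
    obtain ⟨e1⟩ := equiv_of_conj (H := St u0 ⊓ St x1 ⊓ St y3) (K := St v ⊓ St w ⊓ St x) k fun y => by
      refine (and_congr (and_congr (conj_mem_stab k y _) (conj_mem_stab k y _))
        (conj_mem_stab k y _)).trans ?_
      rw [a, b, c]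
      generalize k * y * k⁻¹ = z
      refine and_congr (and_congr_right fun h => ⟨fix_w h, fun h' => ?_⟩) ?_
      · change z • _ = _
        rw [smul_neg', smul_add', h, h']
      · change z • _ = _ ↔ z • _ = _
        rw [smul_neg', neg_inj]
    obtain ⟨e2⟩ := U3.iso hF (St u0 ⊓ St x1 ⊓ St y3)
      (fun g h => ⟨⟨h _ (by simp), h _ (by simp)⟩, h _ (by simp)⟩) card_U3
    exact ⟨e1.trans e2⟩

end Cfsg.Agent.S1633
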