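import Cfsg.Statements.S1634
import Cfsg.Agent.H5.LeeK
-- import your own Cfsg.Agent.* helpers here

set_option autoImplicit false
open Cfsg

namespace Cfsg.Agent.S1634

open H5.Lee MulAction

theorem iff1 {v w x : Λ} : (sqNorm (x : V) = 32 ∧ dotInt (v : V) (x : V) = 0 ∧
    dotInt (w : V) (x : V) = 16) ↔ x ∈ SD (-(v + w)) (-16) ∧ dotInt ((-v : Λ) : V) (x : V) = 0 := by
  simp only [SD, L2, Set.mem_ofPred_eq, AddSubgroup.coe_neg, AddSubgroup.coe_add, dot_neg_left,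
    dot_add_left]
  omega

theorem fix2 {g : Co0} {v w : Λ} : (g • v = v ∧ g • w = w) ↔ g • (-(v + w)) = -(v + w) ∧ g • (-v) = -v := by
  rw [smul_neg', smul_neg', smul_add', neg_inj, neg_inj]
  exact ⟨fun h => ⟨by rw [h.1, h.2], h.1⟩, fun h => ⟨h.2, by simpa [h.2] using h.1⟩⟩

theorem orb (g : Co0) {K : Subgroup Co0}
    (hK : ∀ h, h ∈ K ↔ (h • g • u0 = g • u0 ∧ h • g • v0 = g • v0) ∧ h • g • x1 = g • x1) {y : Λ} {d : ℤ}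
    (hy : y ∈ SD (g • u0) (-16) ∧ dotInt ((g • v0 : Λ) : V) (y : V) = 0 ∧
      dotInt ((g • x1 : Λ) : V) (y : V) = d) : orbit K y = {y | y ∈ SD (g • u0) (-16) ∧
      dotInt ((g • v0 : Λ) : V) (y : V) = 0 ∧ dotInt ((g • x1 : Λ) : V) (y : V) = d} := by
  refine orbit_eq (fun h hh => ?_) fun z hz => ?_
  · obtain ⟨⟨h1, h2⟩, h3⟩ := (hK h).1 hh
    exact ⟨(smul_mem_SD' h1).2 hy.1, by rw [dot_smul_fix h2, hy.2.1], by rw [dot_smul_fix h3, hy.2.2]⟩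
  obtain ⟨y, rfl⟩ := MulAction.surjective g y
  obtain ⟨z, rfl⟩ := MulAction.surjective g z
  simp only [Set.mem_ofPred_eq, smul_mem_SD, dot_smul] at hy hz
  obtain ⟨t, hh, rfl⟩ := orbB.same3 hBB hV0 hX1 sepB hy.1 hz.1 (hy.2.1.trans hz.2.1.symm)
    (hy.2.2.trans hz.2.2.symm)
  exact ⟨g * t * g⁻¹, (hK _).2 ⟨⟨conj_smul' hh.1.1, conj_smul' hh.1.2⟩, conj_smul' hh.2⟩, conj_smul' rfl⟩

/-- The McLaughlin group acts on 2025 points (minimal vectors orthogonal to v with customary inner product 2 with w) transitively with rank 4 and subdegrees 1, 330, 462, 1232. -/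
theorem result (v w : ↥Cfsg.leechLattice) (hv : Cfsg.sqNorm (v : Cfsg.GolayPt → ℤ) = 32) (hw : Cfsg.sqNorm (w : Cfsg.GolayPt → ℤ) = 32) (hvw : Cfsg.dotInt (v : Cfsg.GolayPt → ℤ) (w : Cfsg.GolayPt → ℤ) = -8) : {x : ↥Cfsg.leechLattice | Cfsg.sqNorm (x : Cfsg.GolayPt → ℤ) = 32 ∧ Cfsg.dotInt (v : Cfsg.GolayPt → ℤ) (x : Cfsg.GolayPt → ℤ) = 0 ∧ Cfsg.dotInt (w : Cfsg.GolayPt → ℤ) (x : Cfsg.GolayPt → ℤ) = 16}.ncard = 2025 ∧ (∀ x ∈ {x : ↥Cfsg.leechLattice | Cfsg.sqNorm (x : Cfsg.GolayPt → ℤ) = 32 ∧ Cfsg.dotInt (v : Cfsg.GolayPt → ℤ) (x : Cfsg.GolayPt → ℤ) = 0 ∧ Cfsg.dotInt (w : Cfsg.GolayPt → ℤ) (x : Cfsg.GolayPt → ℤ) = 16}, ∀ x' ∈ {x : ↥Cfsg.leechLattice | Cfsg.sqNorm (x : Cfsg.GolayPt → ℤ) = 32 ∧ Cfsg.dotInt (v : Cfsg.GolayPt → ℤ) (x : Cfsg.GolayPt → ℤ) = 0 ∧ Cfsg.dotInt (w : Cfsg.GolayPt → ℤ) (x : Cfsg.GolayPt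 → ℤ) = 16}, ∃ g : ↥Cfsg.Co0, g • v = v ∧ g • w = w ∧ g • x = x') ∧ ∀ x ∈ {x : ↥Cfsg.leechLattice | Cfsg.sqNorm (x : Cfsg.GolayPt → ℤ) = 32 ∧ Cfsg.dotInt (v : Cfsg.GolayPt → ℤ) (x : Cfsg.GolayPt → ℤ) = 0 ∧ Cfsg.dotInt (w : Cfsg.GolayPt → ℤ) (x : Cfsg.GolayPt → ℤ) = 16}, ∃ y₁ ∈ {x : ↥Cfsg.leechLattice | Cfsg.sqNorm (x : Cfsg.GolayPt → ℤ) = 32 ∧ Cfsg.dotInt (v : Cfsg.GolayPt → ℤ) (x : Cfsg.GolayPt → ℤ) = 0 ∧ Cfsg.dotInt (w : Cfsg.GolayPt → ℤ) (x : Cfsg.GolayPt → ℤ) = 16}, ∃ y₂ ∈ {x : ↥Cfsg.leechLattice | Cfsg.sqNorm (x : Cfsg.GolayPt → ℤ) = 32 ∧ Cfsg.dotInt (v : Cfsg.GolayPt → ℤ) (x : Cfsg.GolayPt → ℤ) = 0 ∧ Cfsg.dotInt (w : Cfsg.GolayPt → ℤ) (x : Cfsg.GolayPt → ℤ) = 16}, ∃ y₃ ∈ {x : ↥Cfsg.leechLattice | Cfsg.sqNorm (x : Cfsg.GolayPt → ℤ) = 32 ∧ Cfsg.dotInt (v : Cfsg.GolayPt → ℤ) (x : Cfsg.GolayPt → ℤ) =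 0 ∧ Cfsg.dotInt (w : Cfsg.GolayPt → ℤ) (x : Cfsg.GolayPt → ℤ) = 16}, (MulAction.orbit ↥(MulAction.stabilizer ↥Cfsg.Co0 v ⊓ MulAction.stabilizer ↥Cfsg.Co0 w ⊓ MulAction.stabilizer ↥Cfsg.Co0 x) y₁).ncard = 330 ∧ (MulAction.orbit ↥(MulAction.stabilizer ↥Cfsg.Co0 v ⊓ MulAction.stabilizer ↥Cfsg.Co0 w ⊓ MulAction.stabilizer ↥Cfsg.Co0 x) y₂).ncard = 462 ∧ (MulAction.orbit ↥(MulAction.stabilizer ↥Cfsg.Co0 v ⊓ MulAction.stabilizer ↥Cfsg.Co0 w ⊓ MulAction.stabilizer ↥Cfsg.Co0 x) y₃).ncard = 1232 := by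
  have hu : -(v + w) ∈ L3 := by
    change _ = _
    rw [AddSubgroup.coe_neg, AddSubgroup.coe_add, norm_neg, norm_add, hv, hw, hvw]; rfl
  have hv' : -v ∈ SD (-(v + w)) 24 := ⟨(norm_neg _).trans hv, by
    rw [AddSubgroup.coe_neg, AddSubgroup.coe_neg, AddSubgroup.coe_add, dot_neg_left, dot_neg_right,
      dot_add_left, dot_self, dot_comm, hv, hvw]; rfl⟩
  simp only [Set.mem_ofPred_eq, iff1]
  refine ⟨?_, fun x hx x' hx' => ?_, fun x hx => ?_⟩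
  · obtain ⟨g, e1, e2⟩ := trans_uv hu hv'
    rw [← e1, ← e2]
    exact (cntB g fun a _ => a = 0).trans (by decide +kernel)
  · obtain ⟨g, a1, a2, rfl⟩ := trans_uvx hu hv' hx.1 hx.2
    obtain ⟨g', b1, b2, rfl⟩ := trans_uvx hu hv' hx'.1 hx'.2
    have := fix2.2 ⟨show (g' * g⁻¹) • _ = _ by rw [mul_smul, ← a1, inv_smul_smul, b1, a1],
      show (g' * g⁻¹) • _ = _ by rw [mul_smul, ← a2, inv_smul_smul, b2, a2]⟩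
    exact ⟨g' * g⁻¹, this.1, this.2, by rw [mul_smul, inv_smul_smul]⟩
  · obtain ⟨g, e1, e2, rfl⟩ := trans_uvx hu hv' hx.1 hx.2
    have hK : ∀ h, h ∈ St v ⊓ St w ⊓ St (g • x1) ↔
        (h • g • u0 = g • u0 ∧ h • g • v0 = g • v0) ∧ h • g • x1 = g • x1 := fun h => by
      rw [e1, e2, ← fix2]; rfl
    have c1 := (cntB g fun a b => a = 0 ∧ b = 0).trans (show _ = 330 by decide +kernel)
    have c2 := (cntB g fun a b => a = 0 ∧ b = 16).trans (show _ = 462 by decide +kernel)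
    have c3 := (cntB g fun a b => a = 0 ∧ b = 8).trans (show _ = 1232 by decide +kernel)
    obtain ⟨y1, h1⟩ := exists_of_ncard c1
    obtain ⟨y2, h2⟩ := exists_of_ncard c2
    obtain ⟨y3, h3⟩ := exists_of_ncard c3
    rw [← e1, ← e2]
    refine ⟨y1, ⟨h1.1, h1.2.1⟩, y2, ⟨h2.1, h2.2.1⟩, y3, ⟨h3.1, h3.2.1⟩, ?_⟩
    rw [orb g hK h1, orb g hK h2, orb g hK h3]
    exact ⟨c1, c2, c3⟩

end Cfsg.Agent.S1634
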