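import Cfsg.Statements.S1635
import Cfsg.Agent.H4.Coset

set_option autoImplicit false
open Cfsg

set_option maxRecDepth 100000

namespace Cfsg.Agent.S1635

open Cfsg.Agent.H4


/-- Coset leaders of the length-24 code: a coset contains a unique word of weight ≤ 3, or else exactly six words of weight 4 and none lighter. -/
theorem result (w : Cfsg.GolayPt → ZMod 2) : ({v : Cfsg.GolayPt → ZMod 2 | hammingNorm v ≤ 4 ∧ w - v ∈ Cfsg.golayCode}.ncard = 1 ∧ ∃ v : Cfsg.GolayPt → ZMod 2, hammingNorm v ≤ 3 ∧ w - v ∈ Cfsg.golayCode) ∨ ({v : Cfsg.GolayPt → ZMod 2 | hammingNorm v ≤ 4 ∧ w - v ∈ Cfsg.golayCode}.ncard = 6 ∧ ∀ v : Cfsg.GolayPt → ZMod 2, w - v ∈ Cfsg.golayCode → hammingNorm v ≤ 4 → hammingNorm v = 4) := by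
  obtain ⟨t, ht, h⟩ := exists_leader (support₂ w)
  have h1 : word (gE.toMask t) ∈ {v : GolayPt → ZMod 2 | hammingNorm v ≤ 4 ∧ w - v ∈ golayCode} := by
    rw [Set.mem_ofPred_eq, hammingNorm_eq_card_support, sub_mem_golayCode_iff, support_word,
      gE.ofMask_toMask]
    exact ⟨ht, h⟩
  rcases Nat.lt_or_ge t.card 4 with h2 | h2
  · refine Or.inl ⟨Set.ncard_eq_one.mpr ⟨word (gE.toMask t), ?_⟩, word (gE.toMask t), ?_, h1.2⟩
    · refine Set.eq_singleton_iff_unique_mem.mpr ⟨h1, fun v hv => support₂_injective ?_⟩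
      rw [support_word, gE.ofMask_toMask]
      have h3 := hv.1
      rw [hammingNorm_eq_card_support] at h3
      exact eq_of_symmDiff_mem (symmDiff_mem_trans h ((sub_mem_golayCode_iff _ _).mp hv.2))
        (by omega)
    · rw [hammingNorm_eq_card_support, support_word, gE.ofMask_toMask]; omega
  · have h3 : ∀ v : GolayPt → ZMod 2, w - v ∈ golayCode → hammingNorm v ≤ 4 → hammingNorm v = 4 := by
      intro v hv h4
      rw [hammingNorm_eq_card_support] at h4 ⊢
      by_contra h5
      have := eq_of_symmDiff_mem (symmDiff_mem_trans h ((sub_mem_golayCode_iff _ _).mp hv))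
        (by omega)
      rw [this] at h5
      omega
    refine Or.inr ⟨?_, h3⟩
    rw [← card_sextetOf (le_antisymm ht h2), ← Set.ncard_coe_finset,
      ← Set.ncard_image_of_injective _ support₂_injective]
    congr 1
    ext u
    rw [Finset.mem_coe, mem_sextetOf]
    constructor
    · rintro ⟨v, hv, rfl⟩
      exact ⟨h3 v hv.2 hv.1, symmDiff_mem_trans h ((sub_mem_golayCode_iff _ _).mp hv.2)⟩
    · rintro ⟨h4, h5⟩
      refine ⟨word (gE.toMask u), ?_, by rw [support_word, gE.ofMask_toMask]⟩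
      rw [Set.mem_ofPred_eq, hammingNorm_eq_card_support, sub_mem_golayCode_iff, support_word,
        gE.ofMask_toMask]
      rw [← syn_toMask_eq_iff] at h h5 ⊢
      exact ⟨h4.le, h.trans h5.symm⟩

end Cfsg.Agent.S1635
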