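import Cfsg.Statements.S1637
import Cfsg.Agent.H4.Coset

set_option autoImplicit false
open Cfsg

set_option maxRecDepth 100000

namespace Cfsg.Agent.S1637

open Cfsg.Agent.H4


/-- The punctured length-23 code is a perfect 3-error-correcting code: each word of length 23 is within distance 3 of exactly one codeword. -/
theorem result (u : ZMod 23 → ZMod 2) : ∃! c : ZMod 23 → ZMod 2, c ∈ {u : ZMod 23 → ZMod 2 | ∃ w ∈ Cfsg.golayCode, ∀ x : ZMod 23, u x = w (some x)} ∧ hammingDist u c ≤ 3 := by
  rw [punctured_eq]
  obtain ⟨s, hs, rfl⟩ : ∃ s : Finset GolayPt, s.card % 2 = 1 ∧ punct s = u := by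
    let s : Finset GolayPt := (support₂ u).map ⟨some, Option.some_injective _⟩
    have h1 : punct s = u := by
      funext x
      simp only [punct, s, Finset.mem_map, Function.Embedding.coeFn_mk, Option.some.injEq,
        exists_eq_right, mem_support₂]
      generalize u x = y
      revert y
      decide
    have h2 : none ∉ s := by simp [s]
    rcases Nat.mod_two_eq_zero_or_one s.card with h | h
    · refine ⟨insert none s, by rw [Finset.card_insert_of_notMem h2]; omega, ?_⟩
      rw [← h1]
      funext x
      simp [punct]
    · exact ⟨s, h, h1⟩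
  obtain ⟨t, ht, h⟩ := exists_leader s
  have h1 := card_symmDiff_add s t
  have h2 := card_of_mem_code h
  have h3 : hammingDist (punct s) (punct (symmDiff s t)) ≤ 3 := by
    rw [hammingDist_punct, symmDiff_symmDiff_cancel_left]
    have := Finset.card_erase_le (s := t) (a := none)
    omega
  refine ⟨punct (symmDiff s t), ⟨⟨_, h, rfl⟩, h3⟩, ?_⟩
  rintro _ ⟨⟨c, hc, rfl⟩, h4⟩
  have h5 := hammingDist_triangle (punct c) (punct s) (punct (symmDiff s t))
  rw [hammingDist_comm (punct c) (punct s)] at h5
  rw [eq_of_hammingDist_lt hc h (by omega)]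

end Cfsg.Agent.S1637
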