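import Cfsg.Statements.S1641
import Cfsg.Agent.H5.LeeK
-- import your own Cfsg.Agent.* helpers here

set_option autoImplicit false
open Cfsg

namespace Cfsg.Agent.S1641

open H5.Lee

/-- The third Conway group acts on the 11178 cosets of the Higman–Sims group with rank 5 and subdegrees 1, 352, 1100, 4125, 5600. -/
theorem result (u x : ↥Cfsg.leechLattice) (hu : Cfsg.sqNorm (u : Cfsg.GolayPt → ℤ) = 48) (hx : x ∈ {x : ↥Cfsg.leechLattice | Cfsg.sqNorm (x : Cfsg.GolayPt → ℤ) = 32 ∧ Cfsg.dotInt (u : Cfsg.GolayPt → ℤ) (x : Cfsg.GolayPt → ℤ) = -16}) : ∃ y₁ ∈ {x : ↥Cfsg.leechLattice | Cfsg.sqNorm (x : Cfsg.GolayPt → ℤ) = 32 ∧ Cfsg.dotInt (u : Cfsg.GolayPt → ℤ) (x : Cfsg.GolayPt → ℤ) = -16}, ∃ y₂ ∈ {x : ↥Cfsg.leechLattice | Cfsg.sqNorm (x : Cfsg.GolayPt → ℤ) = 32 ∧ Cfsg.dotInt (u : Cfsg.GolayPt → ℤ) (x : Cfsg.GolayPt → ℤ)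 = -16}, ∃ y₃ ∈ {x : ↥Cfsg.leechLattice | Cfsg.sqNorm (x : Cfsg.GolayPt → ℤ) = 32 ∧ Cfsg.dotInt (u : Cfsg.GolayPt → ℤ) (x : Cfsg.GolayPt → ℤ) = -16}, ∃ y₄ ∈ {x : ↥Cfsg.leechLattice | Cfsg.sqNorm (x : Cfsg.GolayPt → ℤ) = 32 ∧ Cfsg.dotInt (u : Cfsg.GolayPt → ℤ) (x : Cfsg.GolayPt → ℤ) = -16}, (MulAction.orbit ↥(MulAction.stabilizer ↥Cfsg.Co0 u ⊓ MulAction.stabilizer ↥Cfsg.Co0 x) y₁).ncard = 352 ∧ (MulAction.orbit ↥(MulAction.stabilizer ↥Cfsg.Co0 u ⊓ MulAction.stabilizer ↥Cfsg.Co0 x) y₂).ncard = 1100 ∧ (MulAction.orbit ↥(MulAction.stabilizer ↥Cfsg.Co0 u ⊓ MulAction.stabilizer ↥Cfsg.Co0 x) y₃).ncard = 4125 ∧ (MulAction.orbit ↥(MulAction.stabilizer ↥Cfsg.Co0 u ⊓ MulAction.stabilizer ↥Cfsg.Co0 x) y₄).ncard = 5600 ∧ {x : ↥Cfsg.leechLattice | Cfsg.sqNorm (x : Cfsg.GolayPt → ℤ) = 32 ∧ Cfsg.dotInt (u : Cfsg.GolayPt → ℤ) (x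 : Cfsg.GolayPt → ℤ) = -16} = {x} ∪ MulAction.orbit ↥(MulAction.stabilizer ↥Cfsg.Co0 u ⊓ MulAction.stabilizer ↥Cfsg.Co0 x) y₁ ∪ MulAction.orbit ↥(MulAction.stabilizer ↥Cfsg.Co0 u ⊓ MulAction.stabilizer ↥Cfsg.Co0 x) y₂ ∪ MulAction.orbit ↥(MulAction.stabilizer ↥Cfsg.Co0 u ⊓ MulAction.stabilizer ↥Cfsg.Co0 x) y₃ ∪ MulAction.orbit ↥(MulAction.stabilizer ↥Cfsg.Co0 u ⊓ MulAction.stabilizer ↥Cfsg.Co0 x) y₄ := by
  obtain ⟨g, rfl, rfl⟩ := trans_ux hu hx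
  have c1 := (cntB g fun _ b => b = -8).trans (show _ = 352 by decide +kernel)
  have c2 := (cntB g fun _ b => b = 16).trans (show _ = 1100 by decide +kernel)
  have c3 := (cntB g fun _ b => b = 0).trans (show _ = 4125 by decide +kernel)
  have c4 := (cntB g fun _ b => b = 8).trans (show _ = 5600 by decide +kernel)
  obtain ⟨y1, h1⟩ := exists_of_ncard c1
  obtain ⟨y2, h2⟩ := exists_of_ncard c2
  obtain ⟨y3, h3⟩ := exists_of_ncard c3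
  obtain ⟨y4, h4⟩ := exists_of_ncard c4
  refine ⟨y1, h1.1, y2, h2.1, y3, h3.1, y4, h4.1, ?_⟩
  rw [orbit_HS g h1.1 h1.2, orbit_HS g h2.1 h2.2, orbit_HS g h3.1 h3.2, orbit_HS g h4.1 h4.2]
  refine ⟨c1, c2, c3, c4, Set.ext fun y => ⟨fun hy => ?_, ?_⟩⟩
  · have hy' : y ∈ SD (g • u0) (-16) := hy
    simp only [Set.mem_union, Set.mem_singleton_iff, Set.mem_ofPred_eq, hy', true_and,
      eq_iff_dot hx.1 hy'.1, or_assoc]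
    obtain ⟨y, rfl⟩ := MulAction.surjective g y
    rw [dot_smul]
    exact dotsB (smul_mem_SD.1 hy')
  · rintro ((((rfl | h) | h) | h) | h)
    exacts [hx, h.1, h.1, h.1, h.1]

end Cfsg.Agent.S1641
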