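import Cfsg.Statements.S1642
import Cfsg.Agent.H5.LeeK
-- import your own Cfsg.Agent.* helpers here

set_option autoImplicit false
open Cfsg

namespace Cfsg.Agent.S1642

open H5.Lee

/-- Some involution of the Higman–Sims group acts without fixed points on its 100 points. -/
theorem result (v w : ↥Cfsg.leechLattice) (hv : Cfsg.sqNorm (v : Cfsg.GolayPt → ℤ) = 48) (hw : Cfsg.sqNorm (w : Cfsg.GolayPt → ℤ) = 48) (hvw : Cfsg.dotInt (v : Cfsg.GolayPt → ℤ) (w : Cfsg.GolayPt → ℤ) = -32) : ∃ g : ↥Cfsg.Co0, g • v = v ∧ g • w = w ∧ orderOf g = 2 ∧ ∀ x ∈ {x : ↥Cfsg.leechLattice | Cfsg.sqNorm (x : Cfsg.GolayPt → ℤ) = 32 ∧ Cfsg.dotInt (v : Cfsg.GolayPt → ℤ) (x : Cfsg.GolayPt → ℤ) = 24 ∧ Cfsg.dotInt (w : Cfsg.GolayPt → ℤ) (x : Cfsg.GolayPt → ℤ) = -24}, g • x ≠ x := by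
  simp only [Set.mem_ofPred_eq, hs_iff]
  obtain ⟨g, rfl, e⟩ := hs_base hv hw hvw
  obtain ⟨t, h1, h2, h3, h4⟩ := exists_inv
  refine ⟨g * t * g⁻¹, conj_smul' h1, fix_w (conj_smul' h1) (e ▸ conj_smul' h2), ?_, fun x hx => ?_⟩
  · rw [← h3]; exact (MulAut.conj g).orderOf_eq t
  · obtain ⟨x, rfl⟩ := MulAction.surjective g x
    rw [← e, smul_mem_SD, dot_smul] at hx
    rw [conj_smul' rfl]
    exact fun h => h4 x hx.1 hx.2 (MulAction.injective g h)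

end Cfsg.Agent.S1642
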