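import Cfsg.Statements.S1957
import Cfsg.Agent.H1.Dickson
import Cfsg.Agent.H1.ThompsonTransfer
import Cfsg.Agent.L.Core
import Cfsg.Agent.H2.CoprimeGen
import Cfsg.Agent.H3.Four
import Mathlib.GroupTheory.SpecificGroups.KleinFour

set_option autoImplicit false
open Cfsg

namespace Cfsg.Agent.S1957

open Cfsg.Agent.H1
open scoped commutatorElement

theorem mem_pCore {H : Type*} [Group H] [Finite H] {p : ℕ} [Fact p.Prime]
    (h : Subgroup.centralizer (pCore p H : Set H) ≤ pCore p H) {v : H}
    (hv : ∀ q ∈ pCore p H, ⁅q, v⁆ ∈ Subgroup.center H) : v ∈ pCore p H := by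
  let N : Subgroup H := (Subgroup.centralizer (((pCore p H).map
    (QuotientGroup.mk' (Subgroup.center H)) : Subgroup _) : Set (H ⧸ Subgroup.center H))).comap
    (QuotientGroup.mk' (Subgroup.center H))
  have hN : ∀ v, v ∈ N ↔ ∀ q ∈ pCore p H, ⁅q, v⁆ ∈ Subgroup.center H := by
    intro v
    simp only [N, Subgroup.mem_comap, Subgroup.mem_centralizer_iff, SetLike.mem_coe,
      Subgroup.mem_map, forall_exists_index, and_imp, forall_apply_eq_imp_iff₂]
    refine forall₂_congr fun q _ => ?_
    rw [← QuotientGroup.eq_one_iff, ← QuotientGroup.mk'_apply, map_commutatorElement,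
      commutatorElement_eq_one_iff_mul_comm]
  have : ((pCore p H).map (QuotientGroup.mk' (Subgroup.center H))).Normal :=
    Subgroup.Normal.map inferInstance _ (QuotientGroup.mk'_surjective _)
  have : N.Normal := Subgroup.Normal.comap Subgroup.normal_centralizer _
  refine L.le_pCore (N := N) (isPGroup_iff_mem.2 fun x hx => ?_) ((hN v).2 hv)
  obtain ⟨k, hk⟩ := exists_pow_coprime (p := p) x
  refine ⟨k, ?_⟩
  obtain ⟨j, hj⟩ := isPGroup_iff_mem.1 (L.pCore_isPGroup p) _ (h
    (mem_centralizer_of_coprime_of_commutator (L.pCore_isPGroup p)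
      (by rw [Subgroup.normalizer_eq_top]; trivial) hk
      fun q hq => Subgroup.mem_center_iff.1 ((hN _).1 (N.pow_mem hx _) q hq) _))
  exact eq_one_of_pow_of_coprime hj hk

theorem commutator_mem {G : Type*} [Group G] [Finite G] {U : Subgroup G} (hU4 : IsKleinFour U)
    {u r v : G} (hu : u ∈ U) (hu1 : u ≠ 1) (hr : r ∈ Subgroup.normalizer (U : Set G))
    (hru : r * u = u * r) (hv : v ∈ U) : ⁅r, v⁆ ∈ Subgroup.zpowers u := by
  have h2 : orderOf u = 2 := orderOf_eq_prime (by
    rw [sq]; exact congrArg Subtype.val (IsKleinFour.mul_self (⟨u, hu⟩ : U))) hu1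
  have h1 := H2.card_mul_relIndex (Subgroup.zpowers_le.2 hu)
  rw [Nat.card_zpowers, h2, hU4.card_four] at h1
  have h3 := Subgroup.mul_mem_iff_of_index_two (H := (Subgroup.zpowers u).subgroupOf U)
    (a := ⟨_, conj_mem_of_mem_normalizer hr hv⟩) (b := ⟨_, U.inv_mem hv⟩)
    (show (Subgroup.zpowers u).relIndex U = 2 by omega)
  refine h3.2 ?_
  simp only [Subgroup.mem_subgroupOf, inv_mem_iff]
  have h4 : r ∈ Subgroup.normalizer (Subgroup.zpowers u : Set G) :=
    Subgroup.centralizer_le_normalizer _ (mem_centralizer_zpowers_iff.2 hru)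
  exact (Subgroup.mem_normalizer_iff.1 h4 v).symm

/-- Let `G` be a finite non-abelian simple group in which every local subgroup is solvable and which is of characteristic 2 type. Let `P` be a Sylow 2-subgroup of `G` and `U` a normal subgroup of `P` that is a four-group, with `U` central in `P` if the centre of `P` is not cyclic. Then `U` centralizes every subgroup of odd order of `G` that it normalizes. -/
theorem result {G : Type*} [Group G] [Finite G]
    [IsSimpleGroup G] (hna : ¬ IsMulCommutative G) (hN : Cfsg.IsNGroup G) (h2 : Cfsg.IsCharacteristicTwoType G)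
    (P : Sylow 2 G) (U : Subgroup G) (hUP : U ≤ (P : Subgroup G)) (hUn : (P : Subgroup G) ≤ Subgroup.normalizer (U : Set G))
    (hU4 : IsKleinFour ↥U)
    (hUZ : ¬ IsCyclic ↥((P : Subgroup G) ⊓ Subgroup.centralizer ((P : Subgroup G) : Set G)) →
      U ≤ Subgroup.centralizer ((P : Subgroup G) : Set G))
    (K : Subgroup G) (hK : Odd (Nat.card K)) (hUK : U ≤ Subgroup.normalizer (K : Set G)) :
    U ≤ Subgroup.centralizer (K : Set G) := by
  have hsq : ∀ v ∈ U, v ^ 2 = 1 := fun v hv => by
    rw [sq]; exact congrArg Subtype.val (IsKleinFour.mul_self (⟨v, hv⟩ : U))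
  have hUc : IsMulCommutative U := IsKleinFour.isMulCommutative
  have hcomm : ∀ a ∈ U, ∀ b ∈ U, a * b = b * a := fun a ha b hb =>
    congrArg Subtype.val (hUc.is_comm.comm (⟨a, ha⟩ : U) ⟨b, hb⟩)
  have hnil := P.isPGroup'.isNilpotent
  have key : ∀ u ∈ U, u ≠ 1 → ∃ R, IsSylowIn 2 R (Subgroup.centralizer {u}) ∧
      R ≤ Subgroup.normalizer (U : Set G) := by
    intro u hu hu1
    obtain ⟨R, hR1, hR⟩ := exists_isSylowIn_ge (P.isPGroup'.to_le
      (inf_le_left : (P : Subgroup G) ⊓ Subgroup.centralizer {u} ≤ P)) inf_le_right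
    refine ⟨R, hR, ?_⟩
    by_cases hPu : (P : Subgroup G) ≤ Subgroup.centralizer {u}
    · rw [inf_eq_left.2 hPu] at hR1
      rwa [P.is_maximal' hR.isPGroup hR1]
    have hcyc : IsCyclic ((P : Subgroup G) ⊓ Subgroup.centralizer ((P : Subgroup G) : Set G) :
        Subgroup G) := by
      by_contra h
      exact hPu fun x hx => Subgroup.mem_centralizer_singleton_iff.2 (hUZ h hu x hx)
    obtain ⟨⟨z, hzU, hzP⟩, hz1⟩ := Subgroup.ne_bot_iff_exists_ne_one.1
      (H2.inf_centralizer_ne_bot_of_nilpotent hUP hUn (by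
        rintro rfl
        have := hU4.card_four
        simp at this))
    have hz1 : z ≠ 1 := fun h => hz1 (Subtype.ext h)
    have hZ : ∀ w ∈ (P : Subgroup G), (∀ x ∈ (P : Subgroup G), x * w = w * x) → w ^ 2 = 1 →
        w = 1 ∨ w = z := by
      intro w hw hc hw2
      rw [or_iff_not_imp_left]
      intro hw1
      exact congrArg Subtype.val (eq_of_sq_eq_one_of_isCyclic
        (A := ((P : Subgroup G) ⊓ Subgroup.centralizer ((P : Subgroup G) : Set G) : Subgroup G))
        (a := ⟨w, hw, hc⟩) (b := ⟨z, hUP hzU, hzP⟩) (Subtype.ext hw2) (Subtype.ext (hsq z hzU))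
        (fun h => hw1 (congrArg Subtype.val h)) (fun h => hz1 (congrArg Subtype.val h)))
    set P₀ := (P : Subgroup G) ⊓ Subgroup.centralizer {u} with hP₀
    have hi : P₀.relIndex P = 2 := by
      have h1 := H2.relIndex_centralizer_le_of_commutator_mem (P : Subgroup G)
        (Subgroup.zpowers z) u fun k hk => commutator_mem hU4 hzU hz1 (hUn hk) (hzP k hk) hu
      rw [Nat.card_zpowers, orderOf_eq_prime (hsq z hzU) hz1] at h1
      rw [hP₀, Subgroup.inf_relIndex_left]
      have h2 := H2.relIndex_ne_zero' (Subgroup.centralizer {u}) (P : Subgroup G)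
      have h3 := mt Subgroup.relIndex_eq_one.1 hPu
      omega
    have hRP : R ≤ Subgroup.normalizer (P₀ : Set G) := by
      have h1 := (sylow_isSylowIn_top P).card_le hR.isPGroup le_top
      rw [← H2.card_mul_relIndex hR1, ← H2.card_mul_relIndex (inf_le_left : P₀ ≤ P), hi] at h1
      have h2 := Nat.le_of_mul_le_mul_left h1 Nat.card_pos
      have h3 := H2.relIndex_ne_zero' P₀ R
      rcases (by omega : P₀.relIndex R = 1 ∨ P₀.relIndex R = 2) with h | h
      · exact (Subgroup.relIndex_eq_one.1 h).trans Subgroup.le_normalizer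
      · exact (Subgroup.normal_subgroupOf_iff_le_normalizer hR1).1
          (Subgroup.normal_of_index_eq_two h)
    have huz : u ≠ z := by
      rintro rfl
      exact hPu fun x hx => Subgroup.mem_centralizer_singleton_iff.2 (hzP x hx)
    have hUP₀ : ∀ x ∈ P₀, ∀ v ∈ U, x * v = v * x := by
      intro x hx v hv
      have h1 := commutator_mem hU4 hzU hz1 (hUn hx.1) (hzP x hx.1) hv
      have h2 := commutator_mem hU4 hu hu1 (hUn hx.1)
        (Subgroup.mem_centralizer_singleton_iff.1 hx.2) hv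
      rw [← commutatorElement_eq_one_iff_mul_comm]
      rcases H3.eq_one_or_eq_of_mem_zpowers (by rw [← sq, hsq z hzU]) h1 with h | h
      · exact h
      rcases H3.eq_one_or_eq_of_mem_zpowers (by rw [← sq, hsq u hu]) h2 with h' | h'
      · exact h'
      · exact absurd (h'.symm.trans h) huz
    obtain ⟨t, htP, ht⟩ := SetLike.not_le_iff_exists.1 hPu
    have htP₀ : ∀ x ∈ (P : Subgroup G), x ∉ P₀ → x * t ∈ P₀ := fun x hx hx' =>
      (Subgroup.mul_mem_iff_of_index_two (H := P₀.subgroupOf P) (a := ⟨x, hx⟩) (b := ⟨t, htP⟩)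
        hi).2 (iff_of_false hx' fun h => ht h.2)
    have hPP₀ : (P : Subgroup G) ≤ Subgroup.normalizer (P₀ : Set G) :=
      (Subgroup.normal_subgroupOf_iff_le_normalizer inf_le_left).1
        (Subgroup.normal_of_index_eq_two hi)
    have hZ' : ∀ w ∈ P₀, (∀ x ∈ P₀, x * w = w * x) → t * w = w * t → w ^ 2 = 1 →
        w = 1 ∨ w = z := by
      intro w hw hc htw hw2
      refine hZ w hw.1 (fun x hx => ?_) hw2
      by_cases hx' : x ∈ P₀
      · exact hc x hx'
      · have := hc _ (htP₀ x hx hx')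
        rw [mul_assoc, htw, ← mul_assoc, ← mul_assoc] at this
        exact mul_right_cancel this
    have hconj : ∀ r ∈ Subgroup.normalizer (P₀ : Set G), ∀ w, (∀ x ∈ P₀, x * w = w * x) →
        ∀ x ∈ P₀, x * (r * w * r⁻¹) = r * w * r⁻¹ * x := by
      intro r hr w hw x hx
      calc x * (r * w * r⁻¹) = r * (r⁻¹ * x * r * w) * r⁻¹ := by group
        _ = _ := by rw [hw _ (conj_mem_of_mem_normalizer' hr hx)]; group
    have hW : ∀ w ∈ P₀, (∀ x ∈ P₀, x * w = w * x) → w ^ 2 = 1 →
        t * w * t⁻¹ * w = 1 ∨ t * w * t⁻¹ * w = z := by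
      intro w hw hc hw2
      have h1 := conj_mem_of_mem_normalizer (hPP₀ htP) hw
      refine hZ' _ (P₀.mul_mem h1 hw) (fun x hx => ?_) ?_ ?_
      · rw [← mul_assoc, hconj t (hPP₀ htP) w hc x hx, mul_assoc, hc x hx, ← mul_assoc]
      · rw [hc _ h1]
        calc t * (w * (t * w * t⁻¹)) = t * w * t⁻¹ * (t * t * w) * t⁻¹ := by group
          _ = t * w * t⁻¹ * w * t := by rw [hc _ (htP₀ t htP fun h => ht h.2)]; group
          _ = _ := by rw [hc _ h1]
      · rw [Commute.mul_pow (hc _ h1), conj_pow, hw2]; group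
    have huP₀ : u ∈ P₀ := ⟨hUP hu, Subgroup.mem_centralizer_singleton_iff.2 rfl⟩
    have hinv : ∀ w : G, w ^ 2 = 1 → w⁻¹ = w := fun w hw =>
      inv_eq_of_mul_eq_one_left (by rw [← sq, hw])
    have htu : t * u * t⁻¹ = z * u := by
      rcases hW u huP₀ (fun x hx => hUP₀ x hx u hu) (hsq u hu) with h | h
      · refine absurd (Subgroup.mem_centralizer_singleton_iff.2 ?_) ht
        rw [mul_eq_one_iff_eq_inv, hinv u (hsq u hu)] at h
        exact mul_inv_eq_iff_eq_mul.1 h
      · rw [← h, mul_assoc _ u u, ← sq, hsq u hu, mul_one]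
    have hWU : ∀ w ∈ P₀, (∀ x ∈ P₀, x * w = w * x) → w ^ 2 = 1 → w ∈ U := by
      intro w hw hc hw2
      rcases hW w hw hc hw2 with h | h
      · rw [mul_eq_one_iff_eq_inv, hinv w hw2] at h
        rcases hZ' w hw hc (mul_inv_eq_iff_eq_mul.1 h) hw2 with rfl | rfl
        exacts [U.one_mem, hzU]
      · have h1 : t * w * t⁻¹ = z * w := by rw [← h, mul_assoc _ w w, ← sq, hw2, mul_one]
        rw [← U.mul_mem_cancel_right hu]
        rcases hZ' (w * u) (P₀.mul_mem hw huP₀) (fun x hx => by
            rw [← mul_assoc, hc x hx, mul_assoc, hUP₀ x hx u hu, mul_assoc])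
          (by
            rw [← mul_inv_eq_iff_eq_mul, ← conj_mul, h1, htu, ← hzP w hw.1, mul_assoc,
              ← mul_assoc z, ← sq, hsq z hzU, one_mul])
          (by rw [Commute.mul_pow (hc u huP₀).symm, hw2, hsq u hu, one_mul]) with h | h <;> rw [h]
        exacts [U.one_mem, hzU]
    refine H2.le_normalizer_of_conj_mem fun r hr v hv => hWU _ (conj_mem_of_mem_normalizer (hRP hr)
      ⟨hUP hv, Subgroup.mem_centralizer_singleton_iff.2 (hcomm v hv u hu)⟩)
      (hconj r (hRP hr) v fun x hx => hUP₀ x hx v hv) (by rw [conj_pow, hsq v hv]; group)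
  rw [Subgroup.le_centralizer_iff]
  refine H2.le_of_forall_centralizer_le hUc IsKleinFour.not_isCyclic hUK
    (by rw [hU4.card_four]; exact (Nat.coprime_two_left.2 hK).pow_left 2) fun u hu hu1 x hx v hv => ?_
  obtain ⟨R, hR, hRU⟩ := key u hu hu1
  have hC : Subgroup.normalizer (Subgroup.zpowers u : Set G) = Subgroup.centralizer {u} := by
    refine le_antisymm (fun g hg => Subgroup.mem_centralizer_singleton_iff.2 ?_)
      fun g hg => Subgroup.centralizer_le_normalizer _ (mem_centralizer_zpowers_iff.2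
        (Subgroup.mem_centralizer_singleton_iff.1 hg))
    rcases H3.eq_one_or_eq_of_mem_zpowers (by rw [← sq, hsq u hu])
      (conj_mem_of_mem_normalizer hg (Subgroup.mem_zpowers u)) with h | h
    · exact absurd (conj_eq_one_iff.1 h) hu1
    · exact mul_inv_eq_iff_eq_mul.1 h
  have h3 := h2.2 _ (isPGroup_zpowers (p := 2) (k := 1) (hsq u hu)) (by simpa using hu1)
  rw [hC] at h3
  have hv' : v ∈ Subgroup.centralizer {u} :=
    Subgroup.mem_centralizer_singleton_iff.2 (hcomm v hv u hu)
  have h4 := mem_pCore h3 (v := ⟨v, hv'⟩) fun q hq => by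
    have h5 := commutator_mem hU4 hu hu1 (hRU (x := q) (L.pCore_le_sylow hR.toSylow hq))
      (Subgroup.mem_centralizer_singleton_iff.1 q.2) hv
    refine Subgroup.mem_center_iff.2 fun g => Subtype.ext ?_
    exact ((Commute.refl u).symm.zpow_right 1 |> fun _ => by
      obtain ⟨k, hk⟩ := h5
      have : Commute (g : G) u := Subgroup.mem_centralizer_singleton_iff.1 g.2
      change (g : G) * ⁅(q : G), v⁆ = ⁅(q : G), v⁆ * g
      rw [← hk]
      exact this.zpow_right k)
  obtain ⟨k, hk⟩ := isPGroup_iff_mem.1 (L.pCore_isPGroup 2) _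
    (Subgroup.commutator_le_left _ ⊤ (Subgroup.commutator_mem_commutator h4
      (Subgroup.mem_top ⟨x, hx.2⟩)))
  rw [← commutatorElement_eq_one_iff_mul_comm]
  refine eq_one_of_pow_of_coprime (p := 2) (k := k) (congrArg Subtype.val hk) ?_
  refine (Nat.coprime_two_right.2 hK).coprime_dvd_left (K.orderOf_dvd_natCard ?_)
  exact K.mul_mem (conj_mem_of_mem_normalizer (hUK hv) hx.1) (K.inv_mem hx.1)

end Cfsg.Agent.S1957
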