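import Cfsg.Statements.S1958
import Cfsg.Agent.H1.Constrained
import Cfsg.Agent.L.Diag

set_option autoImplicit false
open Cfsg

namespace Cfsg.Agent.S1958

open Cfsg.Agent.H1
open scoped commutatorElement

theorem aux {G : Type*} [Group G] [Finite G] {p : ℕ} [Fact p.Prime] [Group.IsSolvable G] {x : G}
    (hx : IsPGroup p (Subgroup.zpowers x)) :
    L.oc p (Subgroup.centralizer {x}) ≤ pPrimeCore p G := by
  rw [← QuotientGroup.ker_mk' (pPrimeCore p G), ← Subgroup.map_eq_bot_iff,
    L.map_oc_centralizer_singleton hx (L.pPrimeCore_coprime p), ← L.centralizer_zpowers]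
  refine L.eq_bot_of_isPGroup_of_coprime ((L.pCore_isPGroup p).to_le
    ((L.oc_centralizer_le_centralizer_pCore ?_).trans (L.centralizer_pCore_le
      (L.isPSolvable_of_isSolvable p) (L.pPrimeCore_quotient p)))) (L.oc_coprime _)
  rw [← MonoidHom.map_zpowers]
  exact hx.map _

theorem aux2 {G : Type*} [Group G] [Finite G] (p : ℕ) [Fact p.Prime] (x y : G)
    (hx : orderOf x = p) (hxy : x * y = y * x)
    (hCy : Group.IsSolvable ↥(Subgroup.centralizer ({y} : Set G))) :
    Cfsg.centralizerPPrimeCore p x ⊓ Subgroup.centralizer {y} ≤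
      Cfsg.centralizerPPrimeCore p y ⊓ Subgroup.centralizer {x} := by
  intro d hd
  have hx' : x ∈ Subgroup.centralizer ({y} : Set G) := Subgroup.mem_centralizer_singleton_iff.2 hxy
  have h1 : (⟨d, hd.2⟩ : Subgroup.centralizer ({y} : Set G)) ∈
      L.oc p (Subgroup.centralizer {(⟨x, hx'⟩ : Subgroup.centralizer ({y} : Set G))}) :=
    L.oc_centralizer_subgroupOf_le (⟨x, hx'⟩ : Subgroup.centralizer ({y} : Set G)) hd.1
  have h2 : (⟨x, hx'⟩ : Subgroup.centralizer ({y} : Set G)) ^ p ^ 1 = 1 :=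
    Subtype.ext (by simp [← hx])
  exact ⟨⟨_, aux (isPGroup_zpowers h2) h1, rfl⟩, Subgroup.map_subtype_le _ hd.1⟩

/-- Let `G` be a finite group, `p` a prime, and `x, y` commuting elements of order `p` whose centralizers `C_G(x)` and `C_G(y)` are both solvable. Then `O_{p'}(C_G(x)) ∩ C_G(y) = O_{p'}(C_G(y)) ∩ C_G(x)` (balance). -/
theorem result {G : Type*} [Group G] [Finite G]
    (p : ℕ) [Fact p.Prime] (x y : G) (hx : orderOf x = p) (hy : orderOf y = p) (hxy : x * y = y * x)
    (hCx : Group.IsSolvable ↥(Subgroup.centralizer ({x} : Set G))) (hCy : Group.IsSolvable ↥(Subgroup.centralizer ({y} : Set G))) :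
    Cfsg.centralizerPPrimeCore p x ⊓ Subgroup.centralizer {y} = Cfsg.centralizerPPrimeCore p y ⊓ Subgroup.centralizer {x} := by
  exact le_antisymm (aux2 p x y hx hxy hCy) (aux2 p y x hy hxy.symm hCx)

end Cfsg.Agent.S1958
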