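import Cfsg.Statements.S1962
import Cfsg.Agent.H9.LocalGlobal

set_option autoImplicit false
open Cfsg

namespace Cfsg.Agent.S1962

open Cfsg.Agent.H9

/-- Local-to-global control of transfer through well-placed subgroups. Let p be a prime, G a finite group with Sylow p-subgroup S, and W a conjugacy functor for p on G. If W controls transfer in N_G(T) for every nonidentity subgroup T of S that is well placed in S with respect to W, then W controls transfer in G: S ∩ G' = S ∩ (N_G(W(S)))'. -/
theorem result {G : Type*} [Group G] [Finite G] {p : ℕ} [Fact p.Prime] (S : Sylow p G) (W : Subgroup G → Subgroup G) (hW : Cfsg.IsConjugacyFunctor p W) (hloc : ∀ T : Subgroup G, T ≠ ⊥ → Cfsg.IsWellPlaced p W (S : Subgroup G) T → Cfsg.ControlsTransferIn p W (Subgroup.normalizer ((T : Subgroup G) : Set G))) : Cfsg.ControlsTransferIn p W ⊤ := by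
  refine controlsTransferIn_iff_family.2 (familyControlsTransferIn_iff.2 ⟨S, isSylowIn_top S, ?_⟩)
  rw [famFocal_singleton]
  refine wp_focal hW (isSylowIn_top S) _ (fun U => U ≠ ⊥) (fun U _ h _ => h) (fun U hU hU0 => ?_)
      le_rfl fun U hU hU0 => ?_
  · exact cf_ne_bot hW S.isPGroup'.to_inf_left
      fun h => hU0 (eq_bot_iff.2 (h ▸ le_inf hU.le Subgroup.le_normalizer))
  · have h1 := hloc U hU0 ((wp_top_iff S.isPGroup').1 hU)
    have hTe := hU.extremal
    unfold Extremal at hTe
    rw [top_inf_eq] at hTe
    rw [top_inf_eq (Subgroup.normalizer (U : Set G))]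
    refine (focal_le_of_controls hW h1 hTe).trans (le_sup_of_le_right (inf_le_inf_left _ ?_))
    exact Subgroup.commutator_mono (inf_le_inf_right _ le_top) (inf_le_inf_right _ le_top)

end Cfsg.Agent.S1962
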