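import Cfsg.Statements.S1970
import Cfsg.Agent.H9.Reduction

set_option autoImplicit false
universe u
open Cfsg

namespace Cfsg.Agent.S1970

open Cfsg.Agent.H9

/-- Let p be a prime, G a finite group and W an isomorphism-invariant p-group functor (W assigns to every group Q a subgroup W(Q), nontrivial whenever Q is a nontrivial finite p-group, and every isomorphism from a finite p-group Q onto a group R carries W(Q) onto W(R)). Suppose that for every section G* = K/R of G with C_{G*}(O_p(G*)) ≤ O_p(G*) and every Sylow p-subgroup S* of G*, one has O_p(G*) ∩ (G*)' = O_p(G*) ∩ (N_{G*}(W(S*)))'. Then W controls transfer in every section G* of G: S* ∩ (G*)' = S* ∩ (N_{G*}(W(S*)))' for a Sylow p-subgroup S* of G*. -/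
theorem result {G : Type u} [Group G] [Finite G] {p : ℕ} [Fact p.Prime] (W : ∀ (Q : Type u) [Group Q], Subgroup Q) (hW : Cfsg.IsCharPFunctor.{u} p W) (hloc : ∀ (K R : Subgroup G) [hR : (R.subgroupOf K).Normal], Subgroup.centralizer ((Cfsg.pCore p (↥K ⧸ R.subgroupOf K) : Subgroup (↥K ⧸ R.subgroupOf K)) : Set (↥K ⧸ R.subgroupOf K)) ≤ Cfsg.pCore p (↥K ⧸ R.subgroupOf K) → ∀ T : Sylow p (↥K ⧸ R.subgroupOf K), Cfsg.pCore p (↥K ⧸ R.subgroupOf K) ⊓ commutator (↥K ⧸ R.subgroupOf K) = Cfsg.pCore p (↥K ⧸ R.subgroupOf K) ⊓ ⁅Subgroup.normalizer ((Cfsg.inducedFunctor (G := (↥K ⧸ R.subgroupOf K)) W ((T : Subgroup (↥K ⧸ R.subgroupOf K))) : Subgroup (↥K ⧸ R.subgroupOf K)) : Set (↥K ⧸ R.subgroupOf K)), Subgroup.normalizer ((Cfsg.inducedFunctor (G := (↥K ⧸ R.subgroupOf K)) W ((T : Subgroup (↥K ⧸ R.subgroupOf K))) : Subgroup (↥K ⧸ R.subgroupOf K)) : Set (↥K ⧸ R.subgroupOf K))⁆) : ∀ (K R : Subgroup G) [hR : (R.subgroupOf K).Normal], Cfsg.ControlsTransferIn p (Cfsg.inducedFunctor (G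 := (↥K ⧸ R.subgroupOf K)) W) ⊤ := by
  intro K R _
  refine ctlT_single_iff.1 (ctlT_of_constrained' (single_cf hW) ?_ _ (Sec.section K R))
  intro K R _ hc ih
  let T : Sylow p (K ⧸ R.subgroupOf K) := default
  have hT := isSylowIn_top T
  by_cases hP : pCore p (K ⧸ R.subgroupOf K) = ⊥
  · refine ctlT_single_of_normal hT ?_
    unfold Constrained at hc
    rw [hP] at hc
    have : Subsingleton (K ⧸ R.subgroupOf K) := ⟨fun a b => by
      have h : ∀ a : K ⧸ R.subgroupOf K, a = 1 := fun a => hc (x := a) (by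
        intro x hx
        have : x = 1 := hx
        subst this; simp)
      rw [h a, h b]⟩
    exact ⟨fun a ha g => by rwa [Subsingleton.elim (g * a * g⁻¹) a]⟩
  refine familyControlsTransferIn_iff.2 ⟨T, hT, ?_⟩
  refine le_of_le_sup_of_inf_le (focal_le_pCore_sup (single_cf hW) hT
    (focal_proper (single_cf hW) ih hT) (ih _ (Sec.quotient _) (card_quotient_lt hP)))
    famFocal_le ?_
  rw [indFam_singleton, famFocal_singleton, top_inf_eq]
  refine le_inf (inf_le_right.trans inf_le_left) ?_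
  refine le_trans (inf_le_inf_left _ inf_le_right) ?_
  exact (hloc K R hc T).le.trans inf_le_right

end Cfsg.Agent.S1970
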