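import Cfsg.Statements.S1971
import Cfsg.Agent.H9.Reduction
import Cfsg.Agent.H1.Transfer
import Cfsg.Agent.H2.PGroup

set_option autoImplicit false
universe u
open Cfsg

namespace Cfsg.Agent.S1971

open Cfsg.Agent.H9

open Subgroup

theorem exists_normal_index {G : Type*} [Group G] [Finite G] {p : ℕ} [Fact p.Prime]
    {S : Subgroup G} (hS : IsPGroup p S) (h : ¬ S ≤ ⁅(⊤ : Subgroup G), ⊤⁆) :
    ∃ N : Subgroup G, N.Normal ∧ N.index = p := by
  have h1 : pResidual p G ≠ ⊤ := by
    intro he
    have hf : Function.Surjective (Abelianization.of (G := G)) := QuotientGroup.mk'_surjective _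
    have h2 := H1.map_pResidual_of_surjective (p := p) _ hf
    rw [he, Subgroup.map_top_of_surjective _ hf] at h2
    have h3 : HasNormalPComplement p (Abelianization G) :=
      H1.hasNormalPComplement_of_isNilpotent
    rw [H1.hasNormalPComplement_iff_not_dvd, ← h2, Subgroup.card_top] at h3
    exact h (L.le_of_isPGroup_of_coprime_index (N := _root_.commutator G) hS
      ((Nat.Prime.coprime_iff_not_dvd Fact.out).2 h3).symm)
  have h2 : (⊥ : Subgroup (G ⧸ pResidual p G)) ≠ ⊤ := by
    intro he
    apply h1
    have := congrArg (Subgroup.comap (QuotientGroup.mk' (pResidual p G))) he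
    rwa [MonoidHom.comap_bot, QuotientGroup.ker_mk', comap_top] at this
  obtain ⟨M, hM, -⟩ := (eq_top_or_exists_le_coatom _).resolve_left h2
  have := H2.isCoatom_normal H1.isPGroup_quotient_pResidual hM
  refine ⟨M.comap (QuotientGroup.mk' _), inferInstance, ?_⟩
  rw [index_comap_of_surjective _ (QuotientGroup.mk'_surjective _),
    H2.index_eq_of_isCoatom H1.isPGroup_quotient_pResidual hM]

theorem main {G : Type u} [Group G] [Finite G] {p : ℕ} [Fact p.Prime]
    {W : ∀ (Q : Type u) [Group Q], Subgroup Q} (hW : IsCharPFunctor.{u} p W)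
    (hctl : ∀ (X : Type u) [Group X], Sec X G → CtlT p {W} X) :
    ∀ (X : Type u) [Group X], Sec X G → ∀ S : Subgroup X, IsSylowIn p S ⊤ → S ≠ ⊥ →
      normalizer (S : Set X) ≤ S ⊔ centralizer (S : Set X) → ¬ S ≤ ⁅(⊤ : Subgroup X), ⊤⁆ := by
  refine sec_induction _ fun X _ _ hX ih S hS hS0 hN hle => ?_
  have h1 := (le_inf le_rfl hle).trans ((hctl X hX).single_le hW hS)
  have hcf := ind_isConjugacyFunctor (G := X) hW
  set U := inducedFunctor W S with hU
  have hSH : S ≤ normalizer (U : Set X) := cf_le_normalizer hcf hS.isPGroup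
  by_cases hH : normalizer (U : Set X) = ⊤
  swap
  · set H := normalizer (U : Set X) with hHdef
    refine ih H (Sec.subgroup H) (card_subgroup_lt hH) (S.subgroupOf H)
      (isSylowIn_subgroupOf (hS.mono hSH le_top)) ?_ ?_ ?_
    · intro he
      rw [← Subgroup.map_subgroupOf_eq_of_le hSH, he, Subgroup.map_bot] at hS0
      exact hS0 rfl
    · intro x hx
      rw [← subgroupOf_normalizer_eq hSH] at hx
      obtain ⟨s, hs, c, hc, he⟩ := (mem_sup_of_le_normalizer
        (le_normalizer.trans (normalizer_le_normalizer_centralizer S))).1 (hN hx)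
      have hcH : c ∈ H := by
        have := H.mul_mem (H.inv_mem (hSH hs)) x.2
        rw [show (x : X) = s * c from he.symm] at this
        simpa using this
      have : x = (⟨s, hSH hs⟩ : H) * ⟨c, hcH⟩ := Subtype.ext he.symm
      rw [this]
      exact mul_mem (mem_sup_left hs) (mem_sup_right fun y hy => Subtype.ext (hc y hy))
    · rw [← Subgroup.map_le_map_iff_of_injective H.subtype_injective, Subgroup.map_commutator,
        map_subtype_top, Subgroup.map_subgroupOf_eq_of_le hSH]
      exact h1
  have hn : U.Normal := normalizer_eq_top_iff.1 hH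
  have hUS : U ≤ S := ind_le W S
  by_cases hUS' : S ≤ U
  · have hUS'' : U = S := le_antisymm hUS hUS'
    have : S.Normal := hUS'' ▸ hn
    have h2 := inf_commutator_le_of_sup_centralizer hS (P := S) le_rfl
      (eq_top_iff.2 (by rw [← normalizer_eq_top S]; exact hN))
    have := hS.isPGroup.isNilpotent
    exact (H2.commutator_lt_of_nilpotent le_rfl le_normalizer hS0).not_ge
      ((le_inf le_rfl hle).trans h2)
  have hf := QuotientGroup.mk'_surjective U
  refine ih (X ⧸ U) (Sec.quotient U) (card_quotient_lt (ind_ne_bot hW hS.isPGroup hS0))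
    (S.map (QuotientGroup.mk' U)) (isSylowIn_map_top hS hf) ?_ ?_ ?_
  · rwa [Ne, Subgroup.map_eq_bot_iff, QuotientGroup.ker_mk']
  · intro y hy
    obtain ⟨x, rfl⟩ := hf y
    have h2 := Subgroup.le_normalizer_comap (QuotientGroup.mk' U) hy
    rw [Subgroup.comap_map_eq, QuotientGroup.ker_mk', sup_eq_left.2 hUS] at h2
    refine (sup_le_sup_left (Subgroup.map_centralizer_le_centralizer_image _ _) _) ?_
    rw [← Subgroup.map_sup]
    exact ⟨x, hN h2, rfl⟩
  · rw [← Subgroup.map_top_of_surjective _ hf, ← Subgroup.map_commutator]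
    exact Subgroup.map_mono hle


/-- Let p be a prime, G a finite group with nontrivial Sylow p-subgroup S, and W an isomorphism-invariant p-group functor (W assigns to every group Q a subgroup W(Q), nontrivial whenever Q is a nontrivial finite p-group, and every isomorphism from a finite p-group Q onto a group R carries W(Q) onto W(R)) that controls transfer in every section of G. If N_G(S)/C_G(S) is a p-group (every element of N_G(S) of order prime to p centralizes S), then G has a normal subgroup of index p. -/
theorem result {G : Type u} [Group G] [Finite G] {p : ℕ} [Fact p.Prime] (W : ∀ (Q : Type u) [Group Q], Subgroup Q) (hW : Cfsg.IsCharPFunctor.{u} p W) (hctl : ∀ (K R : Subgroup G) [hR : (R.subgroupOf K).Normal], Cfsg.ControlsTransferIn p (Cfsg.inducedFunctor (G := (↥K ⧸ R.subgroupOf K)) W) ⊤) (S : Sylow p G) (hS : (S : Subgroup G) ≠ ⊥) (hN : ∀ g ∈ Subgroup.normalizer (((S : Subgroup G) : Subgroup G) : Set G), (orderOf g).Coprime p → g ∈ Subgroup.centralizer ((S : Subgroup G) : Set G)) : ∃ N : Subgroup G, N.Normal ∧ N.index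 = p := by
  refine exists_normal_index S.isPGroup' (main hW (fun X _ hX => ?_) G (Sec.refl G) S
    (isSylowIn_top S) hS ?_)
  · obtain ⟨K, R, hR, -, ⟨e⟩⟩ := hX.exists_equiv
    exact CtlT.of_equiv (single_cf hW) e (ctlT_single_iff.2 (hctl K R))
  · rw [← ((isSylowIn_top S).mono le_normalizer le_top).toH1.pResidualOf_sup, sup_comm]
    exact sup_le_sup_left (H1.pResidualOf_le_iff.2 hN) _

end Cfsg.Agent.S1971
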