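import Cfsg.Statements.S1980
import Cfsg.Agent.H9.KInf

set_option autoImplicit false
open Cfsg

namespace Cfsg.Agent.S1980

open Cfsg.Agent.H9

/-- Let P be a finite p-group and A an abelian normal subgroup of P. Then A belongs to every family used to build the K-sequence of P: the class-two family, every lower-star family relative to an odd-indexed term, and every upper-star family relative to an even-indexed term. In particular A lies in every term of the K-sequence. -/
theorem result {P : Type*} [Group P] [Finite P] {p : ℕ} [Fact p.Prime] (hP : IsPGroup p P) (A : Subgroup P) [A.Normal] (hA : IsMulCommutative ↥A) : A ∈ Cfsg.classTwoSubgroups P ∧ ∀ n : ℕ, A ∈ Cfsg.kLowerStarFamily (Cfsg.kSeqOdd P n) ∧ A ∈ Cfsg.kUpperStarFamily (Cfsg.kSeqEven P n) := by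
  have h := fun Q : Subgroup P => mem_families_of_normal_comm (A := A) (Q := Q)
    (Subgroup.le_centralizer_iff_isMulCommutative.2 hA) Subgroup.le_normalizer_of_normal
  exact ⟨(h ⊥).1, fun n => ⟨(h _).2.1, (h _).2.2⟩⟩

end Cfsg.Agent.S1980
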