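import Cfsg.Statements.S1981
import Cfsg.Agent.H9.KInf

set_option autoImplicit false
open Cfsg

namespace Cfsg.Agent.S1981

open Cfsg.Agent.H9

/-- Let P be a finite p-group generated by its abelian normal subgroups. Then both K-infinity subgroups of P equal P. -/
theorem result {P : Type*} [Group P] [Finite P] {p : ℕ} [Fact p.Prime] (hP : IsPGroup p P) (hgen : ⨆ A ∈ {A : Subgroup P | A.Normal ∧ IsMulCommutative ↥A}, A = ⊤) : Cfsg.kInfLower P = ⊤ ∧ Cfsg.kInfUpper P = ⊤ := by
  obtain ⟨n, h⟩ := kSeq_stabilize P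
  rw [← (h n le_rfl).1, ← (h (n + 1) (Nat.le_succ n)).2, kSeqOdd_succ, kSeqEven_eq,
    eq_top_iff, eq_top_iff, ← hgen]
  have h := fun (A Q : Subgroup P) (hA : A.Normal ∧ IsMulCommutative A) =>
    mem_families_of_normal_comm (A := A) (Q := Q)
    (Subgroup.le_centralizer_iff_isMulCommutative.2 hA.2)
    (have := hA.1; Subgroup.le_normalizer_of_normal)
  exact ⟨iSup₂_le fun A hA => le_sSup (h A _ hA).2.1, iSup₂_le fun A hA => le_sSup (h A _ hA).2.2⟩

end Cfsg.Agent.S1981
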