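import Cfsg.Statements.S1987
import Cfsg.Agent.S1983

set_option autoImplicit false
universe u
open Cfsg

namespace Cfsg.Agent.S1987

open Cfsg.Agent.H9

open Subgroup

theorem normal_of_stable {G : Type u} [Group G] [Finite G] {p : ℕ} [Fact p.Prime]
    (hst : ∀ (N : Subgroup G) [N.Normal], IsNormalizerPStable p (G ⧸ N)) (hc : Constrained p G)
    (S : Sylow p G) : (inducedFunctor kInfLower (S : Subgroup G)).Normal ∧
      (inducedFunctor kInfUpper (S : Subgroup G)).Normal := by
  by_contra h
  obtain ⟨g, -, -, -, -, h5⟩ := S1983.result S (not_and_or.1 h)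
  obtain ⟨N, hN, h6⟩ := h5 hc
  exact h6 (hst N)

theorem main {G : Type u} [Group G] [Finite G] {p : ℕ} [Fact p.Prime]
    (hst : ∀ (K R : Subgroup G) [(R.subgroupOf K).Normal],
      IsNormalizerPStable p (↥K ⧸ R.subgroupOf K)) (X : Type u) [Group X] (hX : Sec X G) :
    CtlF p {kInfLower} X ∧ CtlF p {kInfUpper} X :=
  ⟨ctlF_of_normal (isCharPFunctor_kInfLower p) (fun K R _ hc T => (normal_of_stable
      (fun N _ => stable_of_sec hst _ ((Sec.quotient N).trans (Sec.section K R))) hc T).1) X hX,
    ctlF_of_normal (isCharPFunctor_kInfUpper p) (fun K R _ hc T => (normal_of_stable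
      (fun N _ => stable_of_sec hst _ ((Sec.quotient N).trans (Sec.section K R))) hc T).2) X hX⟩


/-- Let p be an odd prime and G a finite group every section of which is p-stable in the normalizer form (in each section, an element of the normalizer of a p-subgroup Q acting quadratically on Q maps into O_p of N(Q)/C(Q)). Then for every Sylow p-subgroup S of G the lower K-infinity subgroup of S controls strong fusion in G. -/
theorem result {G : Type u} [Group G] [Finite G] {p : ℕ} [Fact p.Prime] (hp : p ≠ 2) (hst : ∀ (K R : Subgroup G) [hR : (R.subgroupOf K).Normal], Cfsg.IsNormalizerPStable p (↥K ⧸ R.subgroupOf K)) (S : Sylow p G) : Cfsg.ControlsStrongFusion p (Cfsg.inducedFunctor Cfsg.kInfLower (S : Subgroup G)) := by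
  exact (main hst G (Sec.refl G)).1.controlsStrongFusion (isCharPFunctor_kInfLower p) S

end Cfsg.Agent.S1987
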