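import Cfsg.Statements.S1988
import Cfsg.Agent.S2006
import Cfsg.Agent.S2007
import Cfsg.Agent.S1983

set_option autoImplicit false
universe u
open Cfsg

namespace Cfsg.Agent.S1988

open Cfsg.Agent.H9

open Subgroup

/-- Let p be an odd prime, G a finite group with Sylow p-subgroup S and K the lower K-infinity subgroup of S. If N_G(K) has a normal p-complement, or if N_G(K)/C_G(K) is a p-group (every element of N_G(K) of order prime to p centralizes K), then G has a normal p-complement. -/
theorem result {G : Type u} [Group G] [Finite G] {p : ℕ} [Fact p.Prime] (hp : p ≠ 2) (S : Sylow p G) (h : Cfsg.HasNormalPComplement p ↥(Subgroup.normalizer ((Cfsg.inducedFunctor Cfsg.kInfLower (S : Subgroup G) : Subgroup G) : Set G)) ∨ ∀ g ∈ Subgroup.normalizer ((Cfsg.inducedFunctor Cfsg.kInfLower (S : Subgroup G) : Subgroup G) : Set G), (orderOf g).Coprime p → g ∈ Subgroup.centralizer ((Cfsg.inducedFunctor Cfsg.kInfLower (S : Subgroup G) : Subgroup G) : Set G)) : Cfsg.HasNormalPComplement p G := by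
  have hW := isCharPFunctor_kInfLower.{u} p
  refine S2006.result kInfLower hW S ?_ fun K R _ hc T hT => ?_
  · rcases h with h | h
    · exact h
    · exact S2007.result S _ (ind_le _ _)
        (cf_le_normalizer (ind_isConjugacyFunctor hW) S.isPGroup')
        (inf_centralizer_map_subtype_le (centralizer_kInf_le S.isPGroup').1) h
  · obtain ⟨g, h1, h2, -, -, h3⟩ := S1983.main (isSylowIn_top T) (Or.inl hT)
    obtain ⟨U, V, h4, h5, h6, h7⟩ := h3 hc
    have := h4.2.1
    have h8 : 2 ≤ p - 1 := by
      have := (Fact.out : p.Prime).two_le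
      omega
    exact ⟨g, h1, h2, U, V, h4, h5, (iterCommutator_anti le_normalizer_of_normal h8).trans h6, h7⟩

end Cfsg.Agent.S1988
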