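import Cfsg.Statements.S1989
import Cfsg.Agent.H9.Qd
import Cfsg.Agent.S1987

set_option autoImplicit false
universe u
open Cfsg

namespace Cfsg.Agent.S1989

open Cfsg.Agent.H9

open Subgroup

theorem ind_kInfLower_eq_of_classTwo {G : Type u} [Group G] [Finite G] {T : Subgroup G}
    (hT : T ∈ classTwoSubgroups G) : inducedFunctor kInfLower T = T := by
  refine le_antisymm (ind_le _ _) ?_
  have h1 : T ≤ kEven T 0 := by
    rw [kEven_eq, kOdd_zero]
    refine le_sSup ⟨le_rfl, hT, le_normalizer, fun A hA hAT _ _ _ => ?_⟩
    exact (commutator_mono le_rfl hAT).trans (le_inf (commutator_le_self T) hT)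
  exact h1.trans (Subgroup.map_mono (le_iSup (kSeqEven T) 0))

/-- Let p be an odd prime and G a finite group. Then Qd(p) (the natural semidirect product of an elementary abelian group of order p² by SL₂(p)) is not involved in G if and only if, in every section K/R of G and for every Sylow p-subgroup T of K/R, the lower K-infinity subgroup of T controls strong fusion in K/R. -/
theorem result {G : Type u} [Group G] [Finite G] {p : ℕ} [Fact p.Prime] (hp : p ≠ 2) : ¬ Cfsg.Involves ↥(Cfsg.qd p) G ↔ ∀ (K R : Subgroup G) [hR : (R.subgroupOf K).Normal], ∀ T : Sylow p (↥K ⧸ R.subgroupOf K), Cfsg.ControlsStrongFusion p (Cfsg.inducedFunctor (G := (↥K ⧸ R.subgroupOf K)) Cfsg.kInfLower (T : Subgroup (↥K ⧸ R.subgroupOf K))) := by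
  constructor
  · intro h K R _ T
    refine (S1987.main (G := G) (fun K R _ => ?_) _ (Sec.section K R)).1.controlsStrongFusion
      (isCharPFunctor_kInfLower p) T
    by_contra hcon
    exact h (H1.involves_iff_sec.2 ((H1.involves_iff_sec.1
      (H1.involves_qd_of_not_isNormalizerPStable hp hcon)).trans (Sec.section K R)))
  · rintro h ⟨K, R, hR, ⟨e⟩⟩
    obtain ⟨T, hT⟩ := (isSylowIn_map_top (isSylowIn_qdSyl (p := p)) (f := e.symm.toMonoidHom)
      e.symm.surjective).exists_sylow_top
    have h2 : (T : Subgroup _) ∈ classTwoSubgroups (K ⧸ R.subgroupOf K) := by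
      rw [hT]
      exact (map_mem_classTwo_iff e.symm.injective).2 qdSyl_classTwo
    have h3 := h K R T
    rw [ind_kInfLower_eq_of_classTwo h2] at h3
    obtain ⟨S, hS, h4⟩ := exists_fctl_of_controlsStrongFusion h3
    have h5 := T.is_maximal' S.isPGroup' hS
    rw [h5] at h4
    have h6 := h4.map_injective (f := e.toMonoidHom) e.injective
    have h7 : (T : Subgroup _).map e.toMonoidHom = qdSyl p := by
      rw [hT, Subgroup.map_map]
      convert Subgroup.map_id _
      ext x
      simp
    rw [h7, map_top_of_surjective _ e.surjective, ← coe_map, map_equiv_normalizer_eq, h7] at h6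
    exact not_fctl_qd h6

end Cfsg.Agent.S1989
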