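import Cfsg.Statements.S1990
import Cfsg.Agent.H9.Thompson
import Cfsg.Agent.H9.Qd
import Cfsg.Agent.H2.Coprime

set_option autoImplicit false
universe u
open Cfsg

namespace Cfsg.Agent.S1990

open Cfsg.Agent.H9

open Subgroup Matrix MatrixGroups H1
open scoped commutatorElement

theorem not_sec_SL2 {X : Type*} [Group X] [Finite X] {p : ℕ} [Fact p.Prime] (hp : p ≠ 2)
    (h : IsPGroup p (⁅pResidual p X, pResidual p X⁆ : Subgroup X)) : ¬ Sec SL(2, ZMod p) X := by
  rintro ⟨K, f, hf⟩
  have h1 : IsPGroup p (⁅pResidual p K, pResidual p K⁆ : Subgroup K) := by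
    refine IsPGroup.to_le (h.comap_of_injective K.subtype K.subtype_injective) ?_
    rw [← map_le_iff_le_comap, map_commutator]
    exact commutator_mono (map_pResidual_le _) (map_pResidual_le _)
  have h2 := h1.map f
  rw [map_commutator, map_pResidual_of_surjective f hf] at h2
  have h3 := (L.le_pCore h2).trans (pCore_le_of_isSylowIn isSylowIn_uuSub)
  set a : SL(2, ZMod p) := uu 1 * ll (-1) * uu 1 with ha
  have h4 : a ^ 4 = 1 := by
    ext i j
    fin_cases i <;> fin_cases j <;> simp [ha, pow_succ, coe_uu, coe_ll]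
  have h5 : a ∈ pResidual p SL(2, ZMod p) := by
    refine mem_pResidual_of_coprime (Nat.Coprime.coprime_dvd_left (orderOf_dvd_of_pow_eq_one h4) ?_)
    exact Nat.Coprime.pow_left 2 ((Nat.coprime_primes Nat.prime_two Fact.out).2 hp.symm)
  have h6 : a⁻¹ = a ^ 3 := by rw [inv_eq_iff_mul_eq_one, ← pow_succ', h4]
  obtain ⟨c, hc⟩ := h3 (commutator_mem_commutator h5 (Normal.conj_mem inferInstance _ h5 (uu 1)))
  simp only [commutatorElement_def, _root_.mul_inv_rev, inv_inv, h6, uu_inv] at hc
  have := congrArg (fun M : SL(2, ZMod p) => M.1 0 0) hc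
  simp [ha, pow_succ, coe_uu, coe_ll] at this

theorem commutator_eq_bot_of_coatom {X : Type*} [Group X] [Finite X] {p : ℕ} [Fact p.Prime]
    {T N : Subgroup X} [N.Normal] (hT : IsPGroup p T) (hco : IsCoatom T)
    (hN : ¬ p ∣ Nat.card N) : ⁅N, N⁆ = ⊥ := by
  by_cases h0 : N = ⊥
  · rw [h0, commutator_bot_left]
  obtain ⟨q, hq, hqN⟩ := Nat.exists_prime_and_dvd (fun h => h0 (card_eq_one.1 h))
  have := Fact.mk hq
  have := hT.isNilpotent
  obtain ⟨Q, h1, h2, h3, h4⟩ := H2.exists_invariant_sylow (A := T) (K := N) q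
    le_normalizer_of_normal (L.coprime_card_of_isPGroup hT
      ((Nat.Prime.coprime_iff_not_dvd Fact.out).2 hN).symm) (Or.inl inferInstance)
  have hQ : Q ≠ ⊥ := by
    rintro rfl
    rw [relIndex_bot_left] at h3
    exact h3 hqN
  have := h2.isNilpotent
  have h5 : zc Q ≠ ⊥ := H2.inf_centralizer_ne_bot_of_nilpotent le_rfl le_normalizer hQ
  have h6 := inf_eq_bot_of_not_dvd hT hN
  have h7 : T ⊔ zc Q = ⊤ := hco.2 _ (left_lt_sup.2 fun h =>
    h5 (le_bot_iff.1 (h6 ▸ le_inf h (inf_le_left.trans h1))))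
  have h8 : N ≤ zc Q := fun n hn => by
    obtain ⟨t, ht, z, hz, rfl⟩ := (mem_sup_of_le_normalizer
      (h4.trans (normalizer_le_normalizer_zc Q))).1 (h7 ▸ mem_top n)
    have : t ∈ T ⊓ N := ⟨ht, (N.mul_mem_cancel_right (h1 hz.1)).1 hn⟩
    rw [h6, mem_bot] at this
    rwa [this, one_mul]
  rw [commutator_eq_bot_iff_le_centralizer]
  exact h8.trans (inf_le_right.trans (centralizer_le (h8.trans inf_le_left)))

/-- Let p be an odd prime, G a finite group with Sylow p-subgroup S, and W an isomorphism-invariant p-group functor (W assigns to every group Q a subgroup W(Q), nontrivial whenever Q is a nontrivial finite p-group, and every isomorphism from a finite p-group Q onto a group R carries W(Q) onto W(R)). Suppose N_G(W(S)) has a normal p-complement, and W(T) controls strong fusion in every section G* = K/R of G all of whose sections are p-stable in the normalizer form, for every Sylow p-subgroup T of G*. Then G has a normal p-complement. -/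
theorem result {G : Type u} [Group G] [Finite G] {p : ℕ} [Fact p.Prime] (hp : p ≠ 2) (W : ∀ (Q : Type u) [Group Q], Subgroup Q) (hW : Cfsg.IsCharPFunctor.{u} p W) (S : Sylow p G) (hN : Cfsg.HasNormalPComplement p ↥(Subgroup.normalizer ((Cfsg.inducedFunctor (G := G) W (S : Subgroup G) : Subgroup G) : Set G))) (hctl : ∀ (K R : Subgroup G) [hR : (R.subgroupOf K).Normal], (∀ (K' R' : Subgroup (↥K ⧸ R.subgroupOf K)) [hR' : (R'.subgroupOf K').Normal], Cfsg.IsNormalizerPStable p (↥K' ⧸ R'.subgroupOf K')) → ∀ T : Sylow p (↥K ⧸ R.subgroupOf K), Cfsg.ControlsStrongFusion p (Cfsg.inducedFunctor (G := (↥K ⧸ R.subgroupOf K)) W (T : Subgroup (↥K ⧸ R.subgroupOf K)))) : Cfsg.HasNormalPComplement p G := by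
  refine npc_of_local hW (fun K R _ hc hq T hT => ?_) G (Sec.refl G) S (isSylowIn_top S) hN
  have hPT := pCore_le_of_isSylowIn (isSylowIn_top T)
  refine normal_of_controlsStrongFusion hc
    (hPT.trans (cf_le_normalizer (ind_isConjugacyFunctor hW) T.isPGroup'))
    (hctl K R (fun K' R' _ => ?_) T)
  by_contra hcon
  obtain ⟨P, -, -, -, h1⟩ := involves_of_not_isNormalizerPStable hp hcon
  refine not_sec_SL2 hp ?_ ((involves_iff_sec.1 h1).trans ((Sec.subgroup _).trans
    (Sec.section K' R')))
  refine (L.pCore_isPGroup p).to_le ?_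
  rw [le_iff_map_eq_bot, map_commutator,
    map_pResidual_of_surjective _ (QuotientGroup.mk'_surjective _)]
  refine commutator_eq_bot_of_coatom (T.isPGroup'.map (QuotientGroup.mk' _)) ?_
    (hasNormalPComplement_iff_not_dvd.1 hq)
  have e := comap_map_eq_self (f := QuotientGroup.mk' (pCore p (K ⧸ R.subgroupOf K))) (H := T.1)
    (by rwa [QuotientGroup.ker_mk'])
  refine ⟨fun h => hT.1 (by rw [← e, h, comap_top]), fun H hH => ?_⟩
  have h2 := hT.2 _ (e ▸ (comap_lt_comap_of_surjective (QuotientGroup.mk'_surjective _)).2 hH)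
  exact comap_injective (QuotientGroup.mk'_surjective _) (h2.trans (comap_top _).symm)

end Cfsg.Agent.S1990
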