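import Cfsg.Statements.S1992
import Cfsg.Agent.S1991
import Cfsg.Agent.H9.Burnside

set_option autoImplicit false
open Cfsg

namespace Cfsg.Agent.S1992

open Cfsg.Agent.H9

open Subgroup

theorem exists_normal_prime_index {G : Type*} [Group G] [Finite G] [Nontrivial G]
    [Group.IsSolvable G] : ∃ N : Subgroup G, N.Normal ∧ N.index.Prime := by
  obtain ⟨M, hM, hle⟩ := (eq_top_or_exists_le_coatom (_root_.commutator G)).resolve_left
    (Group.IsSolvable.commutator_lt_top_of_nontrivial G).ne
  have hn : M.Normal := Normal.of_commutator_le G hle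
  refine ⟨M, hn, ?_⟩
  have := (QuotientGroup.nontrivial_iff (N := M)).2 hM.1
  obtain ⟨r, hr, hd⟩ := Nat.exists_prime_and_dvd (Finite.one_lt_card (α := G ⧸ M)).ne'
  have := Fact.mk hr
  obtain ⟨x, hx⟩ := exists_prime_orderOf_dvd_card' r hd
  have h1 : (zpowers x).comap (QuotientGroup.mk' M) = ⊤ := by
    refine hM.2 _ (lt_of_le_of_ne (L.le_comap_mk' M _) fun h => ?_)
    obtain ⟨y, rfl⟩ := QuotientGroup.mk'_surjective M x
    have : y ∈ M := h ▸ mem_zpowers _
    rw [(QuotientGroup.eq_one_iff y).2 this |> (show QuotientGroup.mk' M y = 1 from ·),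
      orderOf_one] at hx
    exact hr.ne_one hx.symm
  have h2 : zpowers x = ⊤ :=
    comap_injective (QuotientGroup.mk'_surjective M) (h1.trans (comap_top _).symm)
  rw [index, ← Subgroup.card_top, ← h2, Nat.card_zpowers, hx]
  exact hr

/-- Let G be a finite group in which, for every prime q dividing the order of G, every Sylow q-subgroup is its own normalizer. Then the order of G is a power of a single prime (G is a q-group for some prime q; for G trivial any prime works). -/
theorem result {G : Type*} [Group G] [Finite G] (h : ∀ q : ℕ, q.Prime → q ∣ Nat.card G → ∀ Q : Sylow q G, Subgroup.normalizer ((Q : Subgroup G) : Set G) = Q) : ∃ q : ℕ, q.Prime ∧ IsPGroup q G := by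
  rcases subsingleton_or_nontrivial G with h1 | h1
  · exact ⟨2, Nat.prime_two, fun g => ⟨0, Subsingleton.elim _ _⟩⟩
  have key : ∃ N : Subgroup G, N.Normal ∧ N.index.Prime := by
    by_cases h5 : ∃ p : ℕ, p.Prime ∧ 5 ≤ p ∧ p ∣ Nat.card G
    · obtain ⟨p, hp, h5, hd⟩ := h5
      have := Fact.mk hp
      let S : Sylow p G := default
      obtain ⟨N, hN, hi⟩ := S1991.result h5 S (S.ne_bot_of_dvd_card hd) fun g hg hc => by
        rw [h p hp hd S] at hg
        obtain ⟨k, hk⟩ := H1.isPGroup_iff_mem.1 S.isPGroup' g hg
        rw [H1.eq_one_of_pow_of_coprime hk hc]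
        exact one_mem _
      exact ⟨N, hN, hi ▸ hp⟩
    · push Not at h5
      have : Group.IsSolvable G := by
        refine burnside_pq (a := Nat.card G) (b := Nat.card G) Nat.prime_two Nat.prime_three ?_
        rw [← mul_pow]
        refine (Nat.dvd_pow_self_iff Nat.card_pos.ne' (by norm_num)).2 ?_
        intro r hr
        have h2 := Nat.prime_of_mem_primeFactors hr
        have h3 : r < 5 := by
          by_contra h3
          exact h5 r h2 (not_lt.1 h3) (Nat.dvd_of_mem_primeFactors hr)
        have := h2.two_le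
        interval_cases r
        · exact Nat.mem_primeFactors.2 ⟨h2, by norm_num, by norm_num⟩
        · exact Nat.mem_primeFactors.2 ⟨h2, by norm_num, by norm_num⟩
        · exact absurd h2 (by norm_num)
      exact exists_normal_prime_index
  obtain ⟨N, hN, hp⟩ := key
  refine ⟨N.index, hp, ?_⟩
  have := Fact.mk hp
  refine IsPGroup.of_card (n := (Nat.card G).primeFactorsList.length)
    (Nat.eq_prime_pow_of_unique_prime_dvd Nat.card_pos.ne' fun {q} hq hd => ?_)
  by_contra hne
  have := Fact.mk hq
  let Q : Sylow q G := default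
  have h2 : (Q : Subgroup G) ≤ N := L.le_of_isPGroup_of_coprime_index Q.isPGroup'
    ((Nat.coprime_primes hp hq).2 (Ne.symm hne))
  have h3 : normalizer ((Q : Subgroup G) : Set G) ⊔ N = ⊤ := Sylow.normalizer_sup_eq_top' Q h2
  rw [h q hq hd Q, sup_eq_right.2 h2] at h3
  rw [h3, index_top] at hp
  exact Nat.not_prime_one hp

end Cfsg.Agent.S1992
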