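import Cfsg.Statements.S1996
import Cfsg.Agent.H9.Reduction

set_option autoImplicit false
universe u
open Cfsg

namespace Cfsg.Agent.S1996

open Cfsg.Agent.H9

theorem fctl_of_factorization {G : Type*} [Group G] [Finite G] {p : ℕ} [Fact p.Prime]
    {S N₁ N₂ : Subgroup G} (hS : IsSylowIn p S ⊤) (h₁ : S ≤ N₁) (h₂ : S ≤ N₂)
    (h : ∀ x : G, ∃ a ∈ N₁, ∃ b ∈ N₂, x = a * b) {E : Set G} (hE₁ : (N₁ : Set G) ⊆ E)
    (hE₂ : (N₂ : Set G) ⊆ E) : FCtl E S ⊤ := by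
  intro A hA g _ hgA
  obtain ⟨a, ha, b, hb, rfl⟩ := h g
  have h1 : cj b A ≤ N₁ ⊓ N₂ := by
    refine le_inf ?_ ?_
    · rw [cj_mul, cj_le_iff_le_cj_inv] at hgA
      rw [← cj_eq_of_mem (N₁.inv_mem ha)]
      exact hgA.trans (cj_mono _ h₁)
    · rw [← cj_eq_of_mem hb]; exact cj_mono _ (hA.trans h₂)
  obtain ⟨m, hm, hle⟩ := (hS.mono (le_inf h₁ h₂) le_top).exists_cj_le
    (isPGroup_cj _ (hS.isPGroup.to_le hA)) h1
  rw [← cj_mul] at hle
  have e : a * m⁻¹ * (m * b) = a * b := by group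
  have := (Fus.of_mem (hE₂ (N₂.mul_mem hm.2 hb)) hA hle).trans
    (Fus.of_mem (x := a * m⁻¹) (hE₁ (N₁.mul_mem ha (N₁.inv_mem hm.1))) hle
      (by rwa [← cj_mul, e]))
  rwa [e] at this

/-- Let p be a prime, G a finite group and W₁, W₂ two isomorphism-invariant p-group functors (W assigns to every group Q a subgroup W(Q), nontrivial whenever Q is a nontrivial finite p-group, and every isomorphism from a finite p-group Q onto a group R carries W(Q) onto W(R)). Suppose that G* = N_{G*}(W₁(S*)) N_{G*}(W₂(S*)) whenever G* = K/R is a section of G with C_{G*}(O_p(G*)) ≤ O_p(G*) and S* is a Sylow p-subgroup of G*. Then the pair {W₁, W₂} controls strong fusion in G. -/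
theorem result {G : Type u} [Group G] [Finite G] {p : ℕ} [Fact p.Prime] (W₁ W₂ : ∀ (Q : Type u) [Group Q], Subgroup Q) (hW₁ : Cfsg.IsCharPFunctor.{u} p W₁) (hW₂ : Cfsg.IsCharPFunctor.{u} p W₂) (hfac : ∀ (K R : Subgroup G) [hR : (R.subgroupOf K).Normal], Subgroup.centralizer ((Cfsg.pCore p (↥K ⧸ R.subgroupOf K) : Subgroup (↥K ⧸ R.subgroupOf K)) : Set (↥K ⧸ R.subgroupOf K)) ≤ Cfsg.pCore p (↥K ⧸ R.subgroupOf K) → ∀ T : Sylow p (↥K ⧸ R.subgroupOf K), ∀ x : (↥K ⧸ R.subgroupOf K), ∃ a ∈ Subgroup.normalizer ((Cfsg.inducedFunctor (G := (↥K ⧸ R.subgroupOf K)) W₁ (T : Subgroup (↥K ⧸ R.subgroupOf K)) : Subgroup (↥K ⧸ R.subgroupOf K)) : Set (↥K ⧸ R.subgroupOf K)), ∃ b ∈ Subgroup.normalizer ((Cfsg.inducedFunctor (G := (↥K ⧸ R.subgroupOf K)) W₂ (T : Subgroup (↥K ⧸ R.subgroupOf K)) : Subgroup (↥K ⧸ R.subgroupOf K)) : Set (↥K ⧸ R.subgroupOf K)), x = a * b) : Cfsg.FamilyControlsStrongFusionIn p {Cfsg.inducedFunctor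 (G := G) W₁, Cfsg.inducedFunctor (G := G) W₂} ⊤ := by
  have h𝓦 : ∀ W ∈ ({W₁, W₂} : Set (∀ (Q : Type u) [Group Q], Subgroup Q)),
      IsCharPFunctor p W := by
    rintro _ (rfl | rfl) <;> assumption
  have := ctlF_of_constrained' h𝓦 (G := G) (fun K R _ hc _ => ?_) G (Sec.refl G)
  · rwa [CtlF, indFam, Set.image_pair] at this
  let T : Sylow p (K ⧸ R.subgroupOf K) := default
  have hT := isSylowIn_top T
  exact familyControlsStrongFusionIn_iff.2 ⟨T, hT, fctl_of_factorization hT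
    (cf_le_normalizer (ind_isConjugacyFunctor hW₁) hT.isPGroup)
    (cf_le_normalizer (ind_isConjugacyFunctor hW₂) hT.isPGroup) (hfac K R hc T)
    (fun x hx => ⟨_, ⟨W₁, Or.inl rfl, rfl⟩, trivial, hx⟩)
    (fun x hx => ⟨_, ⟨W₂, Or.inr rfl, rfl⟩, trivial, hx⟩)⟩

end Cfsg.Agent.S1996
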