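import Cfsg.Statements.S1997
import Cfsg.Agent.S1996
import Cfsg.Agent.H9.Strong
import Cfsg.Agent.H9.KInf2

set_option autoImplicit false
universe u
open Cfsg

namespace Cfsg.Agent.S1997

open Cfsg.Agent.H9

open Subgroup

variable {p : ℕ}

theorem map_omega_zc_le {G G' : Type*} [Group G] [Group G'] (f : G →* G') (S : Subgroup G) :
    (omegaOne p (zc S)).map f ≤ omegaOne p (zc (S.map f)) := by
  rw [omegaOne, MonoidHom.map_closure]
  refine closure_mono ?_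
  rintro _ ⟨x, ⟨hx, hxp⟩, rfl⟩
  refine ⟨⟨⟨x, hx.1, rfl⟩, ?_⟩, by rw [← map_pow, hxp, map_one]⟩
  rintro _ ⟨y, hy, rfl⟩
  rw [← map_mul, ← map_mul, hx.2 y hy]

theorem omega_le {G : Type*} [Group G] (H : Subgroup G) : omegaOne p H ≤ H :=
  (closure_le H).2 fun _ hx => hx.1

theorem pow_eq_one_of_mem_closure {G : Type*} [Group G] {B : Subgroup G} {s : Set G}
    (hs : ∀ x ∈ s, x ∈ zc B ∧ x ^ p = 1) : ∀ x ∈ closure s, x ∈ zc B ∧ x ^ p = 1 := by
  intro x hx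
  induction hx using closure_induction with
  | mem x hx => exact hs x hx
  | one => exact ⟨one_mem _, one_pow _⟩
  | mul x y _ _ hx hy =>
    refine ⟨mul_mem hx.1 hy.1, ?_⟩
    rw [Commute.mul_pow (hy.1.2 x hx.1.1), hx.2, hy.2, one_mul]
  | inv x _ hx => exact ⟨inv_mem hx.1, by rw [inv_pow, hx.2, inv_one]⟩

variable [Fact p.Prime]

theorem exists_frattini {G : Type*} [Group G] [Finite G] {S U : Subgroup G}
    (hS : IsSylowIn p S ⊤) (hU : U ≤ S) (hSU : S ≤ normalizer (U : Set G)) {h : G}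
    (hh : h ∈ normalizer (U : Set G)) :
    ∃ m ∈ normalizer (U : Set G) ⊓
      normalizer ((U ⊔ S ⊓ centralizer (U : Set G) : Subgroup G) : Set G),
      ∃ c ∈ centralizer (U : Set G), h = m * c := by
  have hn : normalizer (U : Set G) ≤
      normalizer ((U ⊔ centralizer (U : Set G) : Subgroup G) : Set G) := fun g hg =>
    mem_normalizer_sup hg (mem_normalizer_centralizer hg)
  have h1 := (hS.mono hSU le_top).inf_normal (sup_le le_normalizer (centralizer_le_normalizer _)) hn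
  have hUC : U ≤ normalizer (centralizer (U : Set G) : Set G) := fun g hg =>
    mem_normalizer_centralizer (le_normalizer hg)
  have h2 : S ⊓ (U ⊔ centralizer (U : Set G)) = U ⊔ S ⊓ centralizer (U : Set G) := by
    refine le_antisymm (fun x hx => ?_)
      (sup_le (le_inf hU le_sup_left) (inf_le_inf_left _ le_sup_right))
    obtain ⟨a, ha, b, hb, rfl⟩ := (mem_sup_of_le_normalizer hUC).1 hx.2
    exact mul_mem (mem_sup_left ha) (mem_sup_right ⟨(S.mul_mem_cancel_left (hU ha)).1 hx.1, hb⟩)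
  rw [h2] at h1
  obtain ⟨m, hm, n, hn, rfl⟩ := h1.frattini' (hn hh)
  obtain ⟨a, ha, b, hb, rfl⟩ := (mem_sup_of_le_normalizer hUC).1 hn
  refine ⟨m * a, ⟨?_, mul_mem hm (le_normalizer (mem_sup_left ha))⟩, b, hb, by group⟩
  rw [← mul_assoc] at hh
  exact (mul_mem_cancel_right (centralizer_le_normalizer _ hb)).1 hh

variable {W : ∀ (Q : Type u) [Group Q], Subgroup Q}

theorem exists_conj_eq_aux (hW : IsCharPFunctor p W) {K : Type u} [Group K] [Finite K]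
    {S S₀ : Subgroup K} [S₀.Normal] (hS : IsSylowIn p S ⊤) (hS₀ : S₀ ≤ S)
    (hC : S ⊓ centralizer (S₀ : Set K) ≤ S₀) (N : Subgroup K) [N.Normal] (hN : N = pPrimeCore p K)
    (hfac : Constrained p (K ⧸ N) → ∀ T : Sylow p (K ⧸ N), ∀ x : K ⧸ N,
      ∃ a ∈ centralizer (omegaOne p (zc (T : Subgroup (K ⧸ N))) : Set (K ⧸ N)),
      ∃ b ∈ normalizer (inducedFunctor W (T : Subgroup (K ⧸ N)) : Set (K ⧸ N)), x = a * b)
    (n : K) : ∃ y ∈ normalizer (inducedFunctor W S : Set K), ∀ z ∈ omegaOne p (zc S),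
      n * z * n⁻¹ = y * z * y⁻¹ := by
  subst hN
  set f := QuotientGroup.mk' (pPrimeCore p K) with hf
  have hfs : Function.Surjective f := QuotientGroup.mk'_surjective _
  have hk : ¬ p ∣ Nat.card f.ker := by
    rw [hf, QuotientGroup.ker_mk']
    exact (Nat.Prime.coprime_iff_not_dvd Fact.out).1 (L.pPrimeCore_coprime p).symm
  have hinj : ∀ a ∈ S, ∀ b ∈ S, f a = f b → a = b := fun a ha b hb h => by
    have : a⁻¹ * b ∈ S ⊓ f.ker := ⟨S.mul_mem (S.inv_mem ha) hb, by show f _ = 1; simp [h]⟩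
    rw [inf_eq_bot_of_not_dvd hS.isPGroup hk, mem_bot] at this
    exact inv_mul_eq_one.1 this
  obtain ⟨T, hT⟩ := (isSylowIn_map_top hS hfs).exists_sylow_top
  have := ‹S₀.Normal›.map f hfs
  have h0 : S₀.map f ≤ pCore p _ := L.le_pCore ((hS.isPGroup.to_le hS₀).map f)
  have hc : Constrained p (K ⧸ pPrimeCore p K) := by
    refine constrained_of_inf_centralizer_le (isSylowIn_map_top hS hfs) (L.pPrimeCore_quotient p) ?_
    rintro _ ⟨⟨s, hs, rfl⟩, h2⟩
    refine h0 ⟨s, hC ⟨hs, fun t ht => hinj _ (mul_mem (hS₀ ht) hs) _ (mul_mem hs (hS₀ ht)) ?_⟩, rfl⟩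
    rw [map_mul, map_mul]
    exact h2 _ (h0 ⟨t, ht, rfl⟩)
  obtain ⟨a, ha, b, hb, he⟩ := hfac hc T (f n)⁻¹
  rw [hT] at ha hb
  rw [← map_normalizer_ind_of_coprime hW hfs hk hS.isPGroup] at hb
  obtain ⟨y, hy, rfl⟩ := hb
  refine ⟨y⁻¹, inv_mem hy, fun z hz => ?_⟩
  have hz0 : z ∈ S₀ := hC ⟨(omega_le _ hz).1, centralizer_le hS₀ (omega_le _ hz).2⟩
  refine hinj _ (hS₀ (Normal.conj_mem inferInstance _ hz0 _)) _
    (hS₀ (Normal.conj_mem inferInstance _ hz0 _)) ?_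
  have h1 := ha _ (map_omega_zc_le f S ⟨z, hz, rfl⟩)
  have h2 : f n = (f y)⁻¹ * a⁻¹ := by rw [← _root_.mul_inv_rev, ← he, inv_inv]
  simp only [map_mul, map_inv, h2, _root_.mul_inv_rev, inv_inv]
  calc _ = (f y)⁻¹ * a⁻¹ * (f z * a) * f y := by group
    _ = _ := by rw [h1]; group

theorem exists_conj_eq (hW : IsCharPFunctor p W) {G : Type u} [Group G] [Finite G]
    (hfac : ∀ (K R : Subgroup G) [(R.subgroupOf K).Normal], Constrained p (K ⧸ R.subgroupOf K) →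
      ∀ T : Sylow p (K ⧸ R.subgroupOf K), ∀ x : K ⧸ R.subgroupOf K,
      ∃ a ∈ centralizer (omegaOne p (zc (T : Subgroup (K ⧸ R.subgroupOf K))) :
        Set (K ⧸ R.subgroupOf K)),
      ∃ b ∈ normalizer (inducedFunctor W (T : Subgroup (K ⧸ R.subgroupOf K)) :
        Set (K ⧸ R.subgroupOf K)), x = a * b)
    {S U : Subgroup G} (hS : IsSylowIn p S ⊤) (hU : U ≤ S) (hSU : S ≤ normalizer (U : Set G))
    (hZ : omegaOne p (zc S) ≤ U) {h : G} (hh : h ∈ normalizer (U : Set G)) :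
    ∃ y ∈ normalizer (inducedFunctor W S : Set G), ∀ z ∈ omegaOne p (zc S),
      h * z * h⁻¹ = y * z * y⁻¹ := by
  obtain ⟨m, hm, c, hc, rfl⟩ := exists_frattini hS hU hSU hh
  set S₀ := U ⊔ S ⊓ centralizer (U : Set G) with hS₀
  set K := normalizer (S₀ : Set G) with hK
  have hS₀S : S₀ ≤ S := sup_le hU inf_le_left
  have hSK : S ≤ K := fun s hs => mem_normalizer_sup (hSU hs)
    (mem_normalizer_inf (le_normalizer hs) (mem_normalizer_centralizer (hSU hs)))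
  have hR : ((pPrimeCore p K).map K.subtype).subgroupOf K = pPrimeCore p K :=
    comap_map_eq_self_of_injective K.subtype_injective _
  have : (((pPrimeCore p K).map K.subtype).subgroupOf K).Normal := by rw [hR]; infer_instance
  have : (S₀.subgroupOf K).Normal := normal_subgroupOf_of_le_normalizer le_rfl
  obtain ⟨y, hy, he⟩ := exists_conj_eq_aux hW (S₀ := S₀.subgroupOf K)
    (isSylowIn_subgroupOf (hS.mono hSK le_top)) (comap_mono hS₀S) (by
      rintro x ⟨hx1, hx2⟩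
      refine mem_sup_right (T := S ⊓ centralizer (U : Set G)) ⟨hx1, fun u hu => ?_⟩
      exact congrArg Subtype.val (hx2 ⟨u, hSK (hU hu)⟩ (mem_sup_left (T := _) hu)))
    _ hR (hfac K _) ⟨m, hm.2⟩
  refine ⟨y, (map_normalizer_ind_le hW hS.isPGroup hSK ⟨y, ⟨trivial, hy⟩, rfl⟩).2, fun z hz => ?_⟩
  have h1 : omegaOne p (zc S) ≤ (omegaOne p (zc (S.subgroupOf K))).map K.subtype := by
    rw [omegaOne, closure_le]
    rintro x ⟨hx, hxp⟩
    refine ⟨⟨x, hSK hx.1⟩, subset_closure ⟨⟨hx.1, fun t ht => Subtype.ext (hx.2 t ht)⟩,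
      Subtype.ext hxp⟩, rfl⟩
  obtain ⟨z', hz', rfl⟩ := h1 hz
  have h2 := congrArg Subtype.val (he z' hz')
  have h3 := hc _ (hZ hz)
  calc _ = m * (c * K.subtype z') * c⁻¹ * m⁻¹ := by group
    _ = m * K.subtype z' * m⁻¹ := by rw [← h3]; group
    _ = _ := h2

/-- the normal closure of `Z` in `N` -/
def ncl {G : Type*} [Group G] (Z N : Subgroup G) : Subgroup G :=
  closure {x | ∃ n ∈ N, ∃ z ∈ Z, x = n * z * n⁻¹}

theorem le_normalizer_ncl {G : Type*} [Group G] (Z N : Subgroup G) :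
    N ≤ normalizer (ncl Z N : Set G) := by
  refine le_normalizer_iff.2 fun g hg x hx => ?_
  have : cj g (ncl Z N) ≤ ncl Z N := by
    rw [ncl, cj, MonoidHom.map_closure]
    refine closure_mono ?_
    rintro _ ⟨_, ⟨n, hn, z, hz, rfl⟩, rfl⟩
    exact ⟨g * n, mul_mem hg hn, z, hz, by simp [mul_assoc]⟩
  exact this (conj_mem_cj hx)

theorem ncl_eq {G : Type*} [Group G] {Z N : Subgroup G} (h : Z ≤ N) :
    (normalClosure ((Z.subgroupOf N : Subgroup N) : Set N)).map N.subtype = ncl Z N := by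
  rw [normalClosure, MonoidHom.map_closure, ncl]
  congr 1
  ext x
  constructor
  · rintro ⟨y, hy, rfl⟩
    obtain ⟨z, hz, hc⟩ := Group.mem_conjugatesOfSet_iff.1 hy
    obtain ⟨n, rfl⟩ := isConj_iff.1 hc
    exact ⟨n, n.2, z, hz, rfl⟩
  · rintro ⟨n, hn, z, hz, rfl⟩
    exact ⟨⟨n, hn⟩ * ⟨z, h hz⟩ * ⟨n, hn⟩⁻¹, Group.mem_conjugatesOfSet_iff.2
      ⟨⟨z, h hz⟩, hz, isConj_iff.2 ⟨_, rfl⟩⟩, rfl⟩

/-- Let p be a prime, G a finite group with Sylow p-subgroup S, and W₁, W₂ two isomorphism-invariant p-group functors (W assigns to every group Q a subgroup W(Q), nontrivial whenever Q is a nontrivial finite p-group, and every isomorphism from a finite p-group Q onto a group R carries W(Q) onto W(R)). Suppose that G* = C_{G*}(Ω₁Z(S*)) N_{G*}(W₁(S*)) = C_{G*}(Ω₁Z(S*)) N_{G*}(W₂(S*)) = N_{G*}(W₁(S*)) N_{G*}(W₂(S*)) whenever G* = K/R is a section of G with C_{G*}(O_p(G*)) ≤ O_p(G*) and S* is a Sylow p-subgroup of G*,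 where Ω₁Z denotes the subgroup generated by the elements of order dividing p in the centre. Suppose also Ω₁Z(S) ≤ W₁(S) ∩ W₂(S), and let A be the normal closure of Ω₁Z(S) in N_G(W₁(S)). Then A is an elementary abelian subgroup of S, strongly closed in S with respect to G, and A controls strong fusion in G. -/
theorem result {G : Type u} [Group G] [Finite G] {p : ℕ} [Fact p.Prime] (S : Sylow p G) (W₁ W₂ : ∀ (Q : Type u) [Group Q], Subgroup Q) (hW₁ : Cfsg.IsCharPFunctor.{u} p W₁) (hW₂ : Cfsg.IsCharPFunctor.{u} p W₂) (hfac : ∀ (K R : Subgroup G) [hR : (R.subgroupOf K).Normal], Subgroup.centralizer ((Cfsg.pCore p (↥K ⧸ R.subgroupOf K) : Subgroup (↥K ⧸ R.subgroupOf K)) : Set (↥K ⧸ R.subgroupOf K)) ≤ Cfsg.pCore p (↥K ⧸ R.subgroupOf K) → ∀ T : Sylow p (↥K ⧸ R.subgroupOf K), (∀ x : (↥K ⧸ R.subgroupOf K), ∃ a ∈ Subgroup.centralizer ((Cfsg.omegaOne p ((T : Subgroup (↥K ⧸ R.subgroupOf K)) ⊓ Subgroup.centralizer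 (((T : Subgroup (↥K ⧸ R.subgroupOf K)) : Subgroup (↥K ⧸ R.subgroupOf K)) : Set (↥K ⧸ R.subgroupOf K))) : Subgroup (↥K ⧸ R.subgroupOf K)) : Set (↥K ⧸ R.subgroupOf K)), ∃ b ∈ Subgroup.normalizer ((Cfsg.inducedFunctor (G := (↥K ⧸ R.subgroupOf K)) W₁ (T : Subgroup (↥K ⧸ R.subgroupOf K)) : Subgroup (↥K ⧸ R.subgroupOf K)) : Set (↥K ⧸ R.subgroupOf K)), x = a * b) ∧ (∀ x : (↥K ⧸ R.subgroupOf K), ∃ a ∈ Subgroup.centralizer ((Cfsg.omegaOne p ((T : Subgroup (↥K ⧸ R.subgroupOf K)) ⊓ Subgroup.centralizer (((T : Subgroup (↥K ⧸ R.subgroupOf K)) : Subgroup (↥K ⧸ R.subgroupOf K)) : Set (↥K ⧸ R.subgroupOf K))) : Subgroup (↥K ⧸ R.subgroupOf K)) : Set (↥K ⧸ R.subgroupOf K)), ∃ b ∈ Subgroup.normalizer ((Cfsg.inducedFunctor (G := (↥K ⧸ R.subgroupOf K)) W₂ (T : Subgroup (↥K ⧸ R.subgroupOf K)) : Subgroup (↥K ⧸ R.subgroupOf K)) : Set (↥K ⧸ R.subgroupOf K)), x = a * b) ∧ (∀ x : (↥K ⧸ R.subgroupOf K), ∃ a ∈ Subgroup.normalizer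 ((Cfsg.inducedFunctor (G := (↥K ⧸ R.subgroupOf K)) W₁ (T : Subgroup (↥K ⧸ R.subgroupOf K)) : Subgroup (↥K ⧸ R.subgroupOf K)) : Set (↥K ⧸ R.subgroupOf K)), ∃ b ∈ Subgroup.normalizer ((Cfsg.inducedFunctor (G := (↥K ⧸ R.subgroupOf K)) W₂ (T : Subgroup (↥K ⧸ R.subgroupOf K)) : Subgroup (↥K ⧸ R.subgroupOf K)) : Set (↥K ⧸ R.subgroupOf K)), x = a * b)) (hZ : Cfsg.omegaOne p ((S : Subgroup G) ⊓ Subgroup.centralizer (((S : Subgroup G) : Subgroup G) : Set G)) ≤ Cfsg.inducedFunctor (G := G) W₁ (S : Subgroup G) ⊓ Cfsg.inducedFunctor (G := G) W₂ (S : Subgroup G)) (N₁ : Subgroup G) (hN₁ : N₁ = Subgroup.normalizer ((Cfsg.inducedFunctor (G := G) W₁ (S : Subgroup G) : Subgroup G) : Set G)) (A : Subgroup G) (hA : A = (Subgroup.normalClosure (((Cfsg.omegaOne p ((S : Subgroup G) ⊓ Subgroup.centralizer (((S : Subgroup G) : Subgroup G) : Set G))).subgroupOf N₁ : Subgroup ↥N₁) : Set ↥N₁)).map N₁.subtype) : A ≤ (S : Subgroup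 G) ∧ Cfsg.IsElementaryAbelian p A ∧ Cfsg.IsStronglyClosed A (S : Subgroup G) ∧ Cfsg.ControlsStrongFusion p A := by
  have hS := isSylowIn_top S
  have c₁ := cf_le_normalizer (ind_isConjugacyFunctor (G := G) hW₁) S.isPGroup'
  have c₂ := cf_le_normalizer (ind_isConjugacyFunctor (G := G) hW₂) S.isPGroup'
  have hZS : omegaOne p (zc (S : Subgroup G)) ≤ S := (omega_le _).trans inf_le_left
  subst hN₁
  rw [ncl_eq (hZS.trans c₁)] at hA
  have hA₂ : A = ncl (omegaOne p (zc (S : Subgroup G)))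
      (normalizer (inducedFunctor W₂ (S : Subgroup G) : Set G)) := by
    rw [hA]
    apply le_antisymm
    · refine closure_mono ?_
      rintro _ ⟨n, hn, z, hz, rfl⟩
      obtain ⟨y, hy, he⟩ := exists_conj_eq hW₂ (fun K R _ hc T => (hfac K R hc T).2.1) hS
        (ind_le W₁ _) c₁ (hZ.trans inf_le_left) hn
      exact ⟨y, hy, z, hz, he z hz⟩
    · refine closure_mono ?_
      rintro _ ⟨n, hn, z, hz, rfl⟩
      obtain ⟨y, hy, he⟩ := exists_conj_eq hW₁ (fun K R _ hc T => (hfac K R hc T).1) hS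
        (ind_le W₂ _) c₂ (hZ.trans inf_le_right) hn
      exact ⟨y, hy, z, hz, he z hz⟩
  have h1 : ∀ x ∈ A, x ∈ zc (inducedFunctor W₁ (S : Subgroup G)) ∧ x ^ p = 1 := by
    rw [hA]
    refine pow_eq_one_of_mem_closure ?_
    rintro _ ⟨n, hn, z, hz, rfl⟩
    obtain ⟨h2, h3⟩ := pow_eq_one_of_mem_closure (p := p) (B := (S : Subgroup G))
      (s := {x | x ∈ zc (S : Subgroup G) ∧ x ^ p = 1}) (fun _ h => h) z hz
    exact ⟨conj_mem_of_mem_normalizer (normalizer_le_normalizer_zc _ hn)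
      ⟨(hZ hz).1, centralizer_le (ind_le W₁ _) h2.2⟩, by rw [conj_pow, h3]; simp⟩
  have hAS : A ≤ S := fun x hx => ind_le W₁ _ (h1 x hx).1.1
  have h2 : FCtl (normalizer (A : Set G) : Subgroup G) (S : Subgroup G) ⊤ := by
    refine (fctl_of_family ?_ (S1996.result W₁ W₂ hW₁ hW₂ fun K R _ hc T => (hfac K R hc T).2.2)
      hS).mono_set ?_
    · rintro _ (rfl | rfl)
      exacts [ind_isConjugacyFunctor hW₁, ind_isConjugacyFunctor hW₂]
    · rintro x ⟨_, rfl | rfl, hx⟩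
      · rw [hA]; exact le_normalizer_ncl _ _ hx.2
      · rw [hA₂]; exact le_normalizer_ncl _ _ hx.2
  refine ⟨hAS, ⟨⟨⟨fun a b => Subtype.ext ((h1 b b.2).1.2 a (h1 a a.2).1.1)⟩⟩,
    fun a ha => (h1 a ha).2⟩, ⟨hAS, fun x hx g hg => ?_⟩, controlsStrongFusion_of_fctl S hAS h2⟩
  obtain ⟨y, hy, he⟩ := (h2 (zpowers x) (zpowers_le.2 (hAS hx)) g trivial
    (by rwa [cj_zpowers, zpowers_le])).exists_mem le_rfl
  rw [← he x (mem_zpowers x)]
  exact conj_mem_of_mem_normalizer hy hx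

end Cfsg.Agent.S1997
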