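import Cfsg.Statements.S1999
import Cfsg.Agent.SF.Qd

set_option autoImplicit false
open Cfsg

namespace Cfsg.Agent.S1999

/-- Let G be a finite group. The symmetric group of degree 4 is not involved in G if and only if, in every section K/R of G, the pair of conjugacy functors {Z, J_e} controls strong fusion (for the prime 2): here Z(P) is the centre and J_e(P) the subgroup generated by the elementary abelian subgroups of P of largest order, and control by the pair means that 2-fusion of tuples inside a Sylow 2-subgroup T of the section is generated, staying inside T, by conjugation inside N(Z(T)) and N(J_e(T)). -/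
theorem result {G : Type*} [Group G] [Finite G] : ¬ Cfsg.Involves (Equiv.Perm (Fin 4)) G ↔ ∀ (K R : Subgroup G) [hR : (R.subgroupOf K).Normal], Cfsg.FamilyControlsStrongFusionIn 2 ({fun P : Subgroup (↥K ⧸ R.subgroupOf K) => P ⊓ Subgroup.centralizer ((P : Subgroup (↥K ⧸ R.subgroupOf K)) : Set (↥K ⧸ R.subgroupOf K)), fun P : Subgroup (↥K ⧸ R.subgroupOf K) => Cfsg.thompsonSubgroupOf 2 P} : Set (Subgroup (↥K ⧸ R.subgroupOf K) → Subgroup (↥K ⧸ R.subgroupOf K))) ⊤ := by
  have hw : ∀ (X : Type _) [Group X], H9.indFam SF.WW X =
      ({fun P : Subgroup X => P ⊓ Subgroup.centralizer (P : Set X),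
        fun P : Subgroup X => Cfsg.thompsonSubgroupOf 2 P} : Set (Subgroup X → Subgroup X)) := by
    intro X _
    rw [H9.indFam, SF.WW, Set.image_pair]
    congr 1
    · exact funext H1.inducedFunctor_ZF
    · congr 1
      funext P
      rw [H1.inducedFunctor_JJF, H1.thompsonSubgroupOf_eq]
  constructor
  · intro h K R _
    rw [← hw]
    exact SF.ctl_of_not_sec (fun e => h (H1.involves_iff_sec.2 e)) _ (H9.Sec.section K R)
  · rintro h ⟨K, R, hR, ⟨e⟩⟩
    obtain ⟨f⟩ := SF.exists_qd_two
    have := h K R
    rw [← hw] at this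
    exact SF.not_ctlF_of_qd (e.trans f.symm) SF.ww_cf this

end Cfsg.Agent.S1999
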