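import Cfsg.Statements.S2000
import Cfsg.Agent.SF.Qd
import Cfsg.Agent.S1987

set_option autoImplicit false
universe u
open Cfsg

namespace Cfsg.Agent.S2000

/-- Let p be a prime and G a finite group. Then Qd(p) (the natural semidirect product of an elementary abelian group of order p² by SL₂(p)) is not involved in G if and only if there is a set 𝓦 of isomorphism-invariant p-group functors (each nontrivial on nontrivial finite p-groups and carried onto W(R) by every isomorphism from a finite p-group Q onto R, hence with characteristic values on finite p-groups) whose induced conjugacy functors control strong fusion in every section of G. -/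
theorem result {G : Type u} [Group G] [Finite G] {p : ℕ} [Fact p.Prime] : ¬ Cfsg.Involves ↥(Cfsg.qd p) G ↔ ∃ 𝓦 : Set (∀ (Q : Type u) [Group Q], Subgroup Q), (∀ W ∈ 𝓦, Cfsg.IsCharPFunctor.{u} p W) ∧ ∀ (K R : Subgroup G) [hR : (R.subgroupOf K).Normal], Cfsg.FamilyControlsStrongFusionIn p ((fun W => Cfsg.inducedFunctor (G := (↥K ⧸ R.subgroupOf K)) W) '' 𝓦) ⊤ := by
  constructor
  · intro h
    rw [H1.involves_iff_sec] at h
    by_cases hp : p = 2
    · subst hp
      obtain ⟨f⟩ := SF.exists_qd_two
      exact ⟨SF.WW, SF.ww_cf, fun K R _ => SF.ctl_of_not_sec (fun e => h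
        ((H9.Sec.of_surjective f.symm.toMonoidHom f.symm.surjective).trans e)) _
        (H9.Sec.section K R)⟩
    · refine ⟨{kInfLower}, fun W hW => hW ▸ H9.isCharPFunctor_kInfLower p, fun K R _ =>
        (S1987.main (G := G) (fun K R _ => ?_) _ (H9.Sec.section K R)).1⟩
      by_contra hcon
      exact h ((H1.involves_iff_sec.1
        (H1.involves_qd_of_not_isNormalizerPStable hp hcon)).trans (H9.Sec.section K R))
  · rintro ⟨𝓦, h𝓦, h⟩ ⟨K, R, hR, ⟨e⟩⟩
    exact SF.not_ctlF_of_qd e h𝓦 (h K R)

end Cfsg.Agent.S2000
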