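import Cfsg.Statements.S2009
import Cfsg.Agent.H3.Misc

set_option autoImplicit false
open Cfsg

namespace Cfsg.Agent.S2009

/-- Let H be a finite group and z an involution such that every proper normal subgroup of H meets the centralizer of z trivially, and suppose z lies in a Klein four-subgroup E of H all three of whose involutions are conjugate to z in H. Then H is simple. -/
theorem result {H : Type*} [Group H] [Finite H] (z : H) (hz : orderOf z = 2) (hN : ∀ N : Subgroup H, N.Normal → N ≠ ⊤ → N ⊓ Subgroup.centralizer ({z} : Set H) = ⊥) (E : Subgroup H) (hE : IsKleinFour ↥E) (hzE : z ∈ E) (hc : ∀ e ∈ E, e ≠ 1 → IsConj z e) : IsSimpleGroup H := by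
  haveI : Nontrivial H := ⟨⟨z, 1, H3.ne_one_of_orderOf_two hz⟩⟩
  refine ⟨fun N hNn => ?_⟩
  by_cases htop : N = ⊤
  · exact Or.inr htop
  left
  refine H3.eq_bot_of_klein_fpf hE (by rw [Subgroup.normalizer_eq_top]; exact le_top) ?_
  intro e he he1 n hn hen
  obtain ⟨c, rfl⟩ := isConj_iff.1 (hc e he he1)
  have h1 : c⁻¹ * n * c ∈ N ⊓ Subgroup.centralizer ({z} : Set H) := by
    refine ⟨hNn.conj_mem' n hn c, Subgroup.mem_centralizer_singleton_iff.2 ?_⟩
    calc c⁻¹ * n * c * z = c⁻¹ * (n * (c * z * c⁻¹)) * c := by group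
      _ = z * (c⁻¹ * n * c) := by rw [← hen]; group
  rw [hN N hNn htop, Subgroup.mem_bot] at h1
  calc n = c * (c⁻¹ * n * c) * c⁻¹ := by group
    _ = 1 := by rw [h1]; group

end Cfsg.Agent.S2009
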