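import Cfsg.Statements.S2008
import Cfsg.Agent.S2009

set_option autoImplicit false
open Cfsg

namespace Cfsg.Agent.S2008

/-- Let H be a finite group and z an involution such that every proper normal subgroup of H meets the centralizer of z trivially, and suppose z lies in a Klein four-subgroup E of H all three of whose involutions are conjugate to z in H. Then H has no non-trivial abelian normal subgroup. -/
theorem result {H : Type*} [Group H] [Finite H] (z : H) (hz : orderOf z = 2) (hN : ∀ N : Subgroup H, N.Normal → N ≠ ⊤ → N ⊓ Subgroup.centralizer ({z} : Set H) = ⊥) (E : Subgroup H) (hE : IsKleinFour ↥E) (hzE : z ∈ E) (hc : ∀ e ∈ E, e ≠ 1 → IsConj z e) (N : Subgroup H) [N.Normal] (hab : IsMulCommutative ↥N) : N = ⊥ := by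
  rcases (S2009.result z hz hN E hE hzE hc).eq_bot_or_eq_top_of_normal N ‹_› with h | h
  · exact h
  exfalso
  obtain ⟨a, b, ha, hb, ha2, hb2, -, hne, -, -⟩ := H3.klein_elems hE
  have key : ∀ e ∈ E, orderOf e = 2 → e = z := by
    intro e he he2
    obtain ⟨c, rfl⟩ := isConj_iff.1 (hc e he (H3.ne_one_of_orderOf_two he2))
    have : c * z = z * c := congrArg Subtype.val
      (hab.is_comm.comm (⟨c, h ▸ Subgroup.mem_top c⟩ : N) ⟨z, h ▸ Subgroup.mem_top z⟩)
    rw [this, mul_inv_cancel_right]
  exact hne ((key a ha ha2).trans (key b hb hb2).symm)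

end Cfsg.Agent.S2008
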