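import Cfsg.Statements.S2531
import Cfsg.Agent.H7.Classify

set_option autoImplicit false
open Cfsg

namespace Cfsg.Agent.S2531

open Projectivization in
theorem pts {F V : Type*} [Field F] [Finite F] [AddCommGroup V] [Module F V] [Module.Finite F V]
    (W : Submodule F V) (h : W ≠ ⊥) :
    (Nat.card {x : Projectivization F V // x.submodule ≤ W} : ZMod (Nat.card F)) = 1 := by
  rw [← Nat.card_congr (Equiv.ofBijective (fun x => (⟨map W.subtype W.injective_subtype x, by
    induction x using ind; simp [map_mk]⟩ : {x : Projectivization F V // x.submodule ≤ W}))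
    ⟨fun x y e => map_injective _ W.injective_subtype (congrArg Subtype.val e), fun ⟨x, hx⟩ => by
      induction x using ind with | h v hv =>
      exact ⟨mk F ⟨v, by simpa using hx⟩ (by simpa using hv), rfl⟩⟩), card_of_finrank _ _ rfl]
  obtain ⟨k, hk⟩ := Nat.exists_eq_succ_of_ne_zero (mt Submodule.finrank_eq_zero.1 h)
  simp [hk, Finset.sum_range_succ', pow_succ]

/-- Let `F` be a finite field and `n ≥ 3`. No set of permutations of the points of the projective space of `Fⁿ`, each induced by an invertible semilinear transformation of `Fⁿ` (so a subset of the full projective semilinear group), is sharply 2-transitive on the points: it is impossible that for all pairs of distinct points `(a, b)` and `(c, d)` exactly one member of the set sends `a` to `c` and `b` to `d`. -/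
theorem result {F : Type*} [Field F] [Finite F]
    (n : ℕ) (hn : 3 ≤ n) (S : Set (Equiv.Perm (Projectivization F (Fin n → F))))
    (hS : ∀ s ∈ S, ∃ (σ : F ≃+* F) (f : (Fin n → F) →ₛₗ[(σ : F →+* F)] (Fin n → F)) (hf : Function.Injective f),
      ∀ x, s x = Projectivization.map f hf x) :
    ¬ (∀ a b c d : Projectivization F (Fin n → F), a ≠ b → c ≠ d →
        ∃! s, s ∈ S ∧ s a = c ∧ s b = d) := by
  intro h
  classical
  have := Fintype.ofFinite (Projectivization F (Fin n → F))
  have := Fact.mk (Finite.one_lt_card (α := F))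
  let i : Fin n := ⟨0, by omega⟩
  let H := LinearMap.ker (LinearMap.proj (R := F) (φ := fun _ => F) i)
  let a := Projectivization.mk F (Pi.single i 1 : Fin n → F) (by simp)
  have ha : ∀ x : Projectivization F (Fin n → F), x.submodule ≤ H → a ≠ x := by
    rintro _ hx rfl; simp [a, H] at hx
  have key : ∀ s ∈ S, (Nat.card {x : Projectivization F (Fin n → F) //
      x.submodule ≤ H ∧ (s x).submodule ≤ H} : ZMod (Nat.card F)) = 1 := fun s hs => by
    obtain ⟨σ, f, hf, e⟩ := hS s hs
    obtain ⟨z, z0, z1, z2⟩ := H7.exists_ne_zero_ker_two (F := F) (V := Fin n → F) (by simpa using hn)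
      (LinearMap.proj i)
      { toFun := fun v => σ.symm (f v i), map_add' := by simp, map_smul' := by simp [map_smulₛₗ] }
    rw [← pts (H ⊓ H.comap f) ((Submodule.ne_bot_iff _).2 ⟨z, ⟨z1, by simpa [H] using z2⟩, z0⟩)]
    refine congrArg _ (Nat.card_congr (Equiv.subtypeEquivRight fun x => ?_))
    induction x using Projectivization.ind
    simp [e, Projectivization.map_mk]
  obtain ⟨z, z0, z1, -⟩ := H7.exists_ne_zero_ker_two (F := F) (V := Fin n → F) (by simpa using hn)
    (LinearMap.proj i) 0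
  have h2 := pts H ((Submodule.ne_bot_iff _).2 ⟨z, z1, z0⟩)
  have h3 := pts (F := F) (V := Fin n → F) ⊤ ((Submodule.ne_bot_iff _).2 ⟨z, trivial, z0⟩)
  have hb := ha (.mk F z z0) (by simpa [H] using z1)
  have h4 : Nat.card {s // s ∈ S ∧ s a = a} = Nat.card {y // a ≠ y} := Nat.card_congr
    (Equiv.ofBijective (fun s => ⟨s.1 (.mk F z z0), fun e => hb (s.1.injective (s.2.2.trans e))⟩)
      ⟨fun s t e => Subtype.ext ((h a _ a _ hb (fun e => hb (t.1.injective (t.2.2.trans e)))).unique
        ⟨s.2.1, s.2.2, congrArg Subtype.val e⟩ ⟨t.2.1, t.2.2, rfl⟩), fun y =>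
        let ⟨s, hs, _⟩ := h a _ a y hb y.2; ⟨⟨s, hs.1, hs.2.1⟩, Subtype.ext hs.2.2⟩⟩)
  have h5 : Nat.card (Σ s : {s // s ∈ S ∧ s a = a}, {x : Projectivization F (Fin n → F) //
      x.submodule ≤ H ∧ (s.1 x).submodule ≤ H}) = Nat.card ({x : Projectivization F (Fin n → F) //
      x.submodule ≤ H} × {x : Projectivization F (Fin n → F) // x.submodule ≤ H}) := Nat.card_congr
    (Equiv.ofBijective (fun p => (⟨p.2.1, p.2.2.1⟩, ⟨_, p.2.2.2⟩)) ⟨fun ⟨s, x⟩ ⟨t, y⟩ e => by
      simp only [Prod.mk.injEq, Subtype.mk.injEq] at e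
      obtain rfl : s = t := Subtype.ext ((h a _ a _ (ha _ y.2.1) (ha _ y.2.2)).unique
        ⟨s.2.1, s.2.2, e.1 ▸ e.2⟩ ⟨t.2.1, t.2.2, rfl⟩)
      rw [Subtype.ext e.1], fun ⟨x, y⟩ =>
      let ⟨s, hs, _⟩ := h a x a y (ha _ x.2) (ha _ y.2)
      ⟨⟨⟨s, hs.1, hs.2.1⟩, x, x.2, hs.2.2.symm ▸ y.2⟩, Prod.ext rfl (Subtype.ext hs.2.2)⟩⟩)
  have := Fintype.ofFinite {s // s ∈ S ∧ s a = a}
  apply_fun ((↑) : ℕ → ZMod (Nat.card F)) at h5
  rw [Nat.card_sigma, Nat.card_prod, Nat.cast_mul, h2, Nat.cast_sum,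
    Finset.sum_congr rfl fun s _ => key s.1 s.2.1, Finset.sum_const, Finset.card_univ,
    ← Nat.card_eq_fintype_card, h4] at h5
  rw [Nat.card_congr (Equiv.subtypeUnivEquiv fun _ => le_top), Nat.card_eq_fintype_card (α := Projectivization _ _)] at h3
  rw [Nat.card_eq_fintype_card (α := Subtype _), Fintype.card_subtype_compl, Fintype.card_subtype_eq', nsmul_one,
    Nat.cast_sub (Fintype.card_pos_iff.2 ⟨a⟩), h3] at h5
  simp at h5

end Cfsg.Agent.S2531
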