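import Cfsg.Statements.S2532
import Cfsg.Agent.H1.Basic
import Mathlib.GroupTheory.Perm.ViaEmbedding
import Mathlib.Combinatorics.Pigeonhole

set_option autoImplicit false
open Cfsg

namespace Cfsg.Agent.S2532

open Cfsg.Agent.H1
open scoped commutatorElement

theorem exists_hom {H X : Type*} [Group H] [Finite H] [Fintype X] [MulAction H X] {r : ℕ}
    (h : 2 ^ Nat.card H * (Nat.card H * r) ≤ Fintype.card X) :
    ∃ φ : Equiv.Perm (Fin r) →* Equiv.Perm X, Function.Injective φ ∧
      ∀ σ (h : H) (x : X), φ σ (h • x) = h • φ σ x := by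
  classical
  have := Fintype.ofFinite (Subgroup H)
  have := Fintype.ofFinite H
  have h1 : Fintype.card (Subgroup H) ≤ 2 ^ Nat.card H := by
    rw [Nat.card_eq_fintype_card, ← Fintype.card_set]
    exact Fintype.card_le_of_injective _ SetLike.coe_injective
  obtain ⟨K, hK⟩ := Fintype.exists_le_card_fiber_of_mul_le_card
    (fun x : X => MulAction.stabilizer H x) ((Nat.mul_le_mul_right _ h1).trans h)
  set S := Finset.univ.filter (fun x : X => MulAction.stabilizer H x = K) with hS
  have h2 := Finset.card_le_mul_card_image (f := fun x : X => MulAction.orbit H x) S (Nat.card H)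
    (by
      intro b hb
      obtain ⟨x, -, rfl⟩ := Finset.mem_image.1 hb
      rw [Nat.card_eq_fintype_card, ← Finset.card_univ]
      refine Finset.card_le_card_of_surjOn (fun h => h • x) fun y hy => ?_
      obtain ⟨g, hg⟩ := MulAction.orbit_eq_iff.1 (Finset.mem_filter.1 hy).2
      exact ⟨g, by simp, hg⟩)
  have h3 := Nat.le_of_mul_le_mul_left (hK.trans h2) Nat.card_pos
  obtain ⟨j⟩ : Nonempty (Fin r ↪ S.image fun x : X => MulAction.orbit H x) :=
    Function.Embedding.nonempty_of_card_le (by rwa [Fintype.card_fin, Fintype.card_coe])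
  choose x hx hxj using fun i => Finset.mem_image.1 (j i).2
  have hxK : ∀ i, MulAction.stabilizer H (x i) = K := fun i => (Finset.mem_filter.1 (hx i)).2
  let ι : Fin r × (H ⧸ K) → X := fun q => q.2.out • x q.1
  have hι : ∀ i (g : H), ι (i, (g : H ⧸ K)) = g • x i := by
    intro i g
    obtain ⟨k, hk⟩ := QuotientGroup.mk_out_eq_mul K g
    simp only [ι]
    rw [hk, mul_smul, MulAction.mem_stabilizer_iff.1 ((hxK i).ge k.2)]
  have hinj : Function.Injective ι := by
    rintro ⟨i, q⟩ ⟨i', q'⟩ hq
    induction q using QuotientGroup.induction_on with | H g => ?_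
    induction q' using QuotientGroup.induction_on with | H g' => ?_
    rw [hι, hι] at hq
    have h4 : i = i' := j.injective (Subtype.ext (by
      rw [← hxj, ← hxj, ← MulAction.orbit_smul g, hq, MulAction.orbit_smul]))
    subst h4
    rw [Prod.mk.injEq, QuotientGroup.eq, ← hxK i, MulAction.mem_stabilizer_iff, mul_smul, ← hq,
      inv_smul_smul]
    exact ⟨rfl, rfl⟩
  let ψ : Equiv.Perm (Fin r) →* Equiv.Perm (Fin r × (H ⧸ K)) :=
    MonoidHom.mk' (fun σ => Equiv.prodCongr σ (Equiv.refl _)) fun _ _ => rfl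
  refine ⟨(Equiv.Perm.viaEmbeddingHom ⟨ι, hinj⟩).comp ψ,
    (Equiv.Perm.viaEmbeddingHom_injective _).comp fun σ τ hst => Equiv.ext fun i =>
      congrArg Prod.fst (DFunLike.congr_fun hst (i, ((1 : H) : H ⧸ K))), fun σ h y => ?_⟩
  simp only [MonoidHom.comp_apply, Equiv.Perm.viaEmbeddingHom_apply]
  have h5 : ∀ i (g : H), (ψ σ).viaEmbedding ⟨ι, hinj⟩ (g • x i) = g • x (σ i) := fun i g => by
    rw [← hι, ← hι]
    exact Equiv.Perm.viaEmbedding_apply (ψ σ) ⟨ι, hinj⟩ (i, (g : H ⧸ K))
  by_cases hy : y ∈ Set.range ι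
  · obtain ⟨⟨i, q⟩, rfl⟩ := hy
    induction q using QuotientGroup.induction_on with | H g => ?_
    rw [hι, ← mul_smul, h5, h5, mul_smul]
  · rw [Equiv.Perm.viaEmbedding_apply_of_notMem _ _ y hy,
      Equiv.Perm.viaEmbedding_apply_of_notMem]
    rintro ⟨⟨i, q⟩, hq⟩
    induction q using QuotientGroup.induction_on with | H g => ?_
    refine hy ⟨(i, ((h⁻¹ * g : H) : H ⧸ K)), ?_⟩
    have h6 : g • x i = h • y := (hι i g).symm.trans hq
    rw [hι, mul_smul, h6, inv_smul_smul]

/-- There is a function `f` of two natural-number arguments such that, whenever `m ≥ f(n, r)`, every subgroup of order `n` of the alternating group of degree `m` centralizes some subgroup of that alternating group isomorphic to the alternating group of degree `r`. -/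
theorem result :
    ∃ f : ℕ → ℕ → ℕ, ∀ (m r : ℕ) (H : Subgroup ↥(alternatingGroup (Fin m))), f (Nat.card H) r ≤ m →
      ∃ K : Subgroup ↥(alternatingGroup (Fin m)), Nonempty (↥K ≃* ↥(alternatingGroup (Fin r))) ∧
        K ≤ Subgroup.centralizer (H : Set ↥(alternatingGroup (Fin m))) := by
  refine ⟨fun n r => 2 ^ n * (n * r), fun m r H hm => ?_⟩
  obtain ⟨φ, hφ, hc⟩ := exists_hom (H := H) (X := Fin m) (r := r) (by simpa using hm)
  have h1 : alternatingGroup (Fin r) ≤ (alternatingGroup (Fin m)).comap φ := by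
    rw [← Equiv.Perm.closure_three_cycles_eq_alternating, Subgroup.closure_le]
    intro σ hσ
    have h2 : Equiv.Perm.sign (φ σ) ^ 3 = 1 := by
      rw [← map_pow, ← map_pow, ← hσ.orderOf, pow_orderOf_eq_one, map_one, map_one]
    rwa [pow_succ, Int.units_sq, one_mul] at h2
  let ψ : alternatingGroup (Fin r) →* alternatingGroup (Fin m) :=
    (φ.comp (alternatingGroup (Fin r)).subtype).codRestrict _ fun σ => h1 σ.2
  refine ⟨ψ.range, ⟨(MonoidHom.ofInjective (f := ψ) fun a b h =>
    Subtype.ext (hφ (congrArg Subtype.val h))).symm⟩, ?_⟩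
  rintro _ ⟨σ, rfl⟩ h hh
  exact Subtype.ext (Equiv.ext fun x => (hc σ ⟨h, hh⟩ x).symm)

end Cfsg.Agent.S2532
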