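import Cfsg.Statements.S2533


set_option autoImplicit false
open Cfsg

namespace Cfsg.Agent.S2533

open Matrix

@[ext] structure HH (F : Type) where
  v : Fin 3 → F
  e : ℤˣ

variable {F : Type} [Field F]

instance : Mul (HH F) := ⟨fun a b => ⟨b.v + b.e • a.v, a.e * b.e⟩⟩
instance : One (HH F) := ⟨⟨0, 1⟩⟩
instance : Inv (HH F) := ⟨fun a => ⟨-(a.e • a.v), a.e⟩⟩

@[simp] lemma mul_v (a b : HH F) : (a * b).v = b.v + b.e • a.v := rfl
@[simp] lemma mul_e (a b : HH F) : (a * b).e = a.e * b.e := rfl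
@[simp] lemma one_v : (1 : HH F).v = 0 := rfl
@[simp] lemma one_e : (1 : HH F).e = 1 := rfl
@[simp] lemma inv_v (a : HH F) : (a⁻¹).v = -(a.e • a.v) := rfl
@[simp] lemma inv_e (a : HH F) : (a⁻¹).e = a.e := rfl

instance : Group (HH F) := Group.ofLeftAxioms
  (fun a b c => HH.ext (by simp [add_assoc, smul_smul, mul_comm]) (by simp [mul_assoc]))
  (fun a => HH.ext (by simp) (by simp))
  (fun a => HH.ext (by simp [smul_smul]) (by simp))

def eqv : HH F ≃ (Fin 3 → F) × ℤˣ := ⟨fun a => (a.v, a.e), fun a => ⟨a.1, a.2⟩, fun _ => rfl, fun _ => rfl⟩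

def N (k : ℕ) (v : Fin 3 → F) : Matrix (Fin (k + 1)) (Fin k) F := of fun i j =>
  (if i = j.castSucc then v 0 else 0) + (if i = j.succ then v 1 else 0) +
    if i = Fin.last k ∧ j.1 = 0 then v 2 else 0

lemma N_add (k : ℕ) (v w : Fin 3 → F) (e : ℤˣ) : N k (v + e • w) = N k v + e • N k w := by
  ext i j
  simp only [N, of_apply, Matrix.add_apply, Matrix.smul_apply, Pi.add_apply, Pi.smul_apply, smul_add]
  split_ifs <;> (try simp only [smul_zero]) <;> abel

def M (k : ℕ) (a : HH F) : Matrix (Fin (k + 1) ⊕ Fin k) (Fin (k + 1) ⊕ Fin k) F :=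
  fromBlocks 1 (N k a.v) 0 (a.e • 1)

lemma M_mul (k : ℕ) (a b : HH F) : M k (a * b) = M k a * M k b := by
  simp [M, fromBlocks_multiply, N_add, smul_smul, mul_comm]

lemma M_one (k : ℕ) : M k (1 : HH F) = 1 := by
  have : N k (0 : Fin 3 → F) = 0 := by ext i j; simp [N]
  simp [M, this]

lemma M_det (k : ℕ) (a : HH F) : (M (2 * k) a).det = 1 := by
  rw [M, det_fromBlocks_zero₂₁, det_one, one_mul]
  rcases Int.units_eq_one_or a.e with h | h <;> simp [h, det_neg]

lemma toeplitz {k : ℕ} (B : Matrix (Fin (k + 1)) (Fin (k + 1)) F)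
    (h1 : ∀ i j : Fin k, B i.castSucc j.castSucc = B i.succ j.succ)
    (h2 : ∀ j : Fin k, B (Fin.last k) j.castSucc = 0) (h3 : ∀ j : Fin k, B 0 j.succ = 0) :
    B = B 0 0 • 1 := by
  have e1 : ∀ i j, i ≤ j → B i j = if i = j then B 0 0 else 0 := by
    intro i
    induction i using Fin.induction with
    | zero =>
      intro j _
      cases j using Fin.cases with
      | zero => simp
      | succ j => simp [h3, (Fin.succ_ne_zero j).symm]
    | succ i ih =>
      intro j hj
      cases j using Fin.cases with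
      | zero => exact absurd hj (by simp)
      | succ j => rw [← h1, ih _ (by simpa using hj)]; simp
  have e2 : ∀ i j, j < i → B i j = 0 := by
    intro i
    induction i using Fin.reverseInduction with
    | last =>
      intro j hj
      obtain ⟨j, rfl⟩ := Fin.exists_castSucc_eq.mpr hj.ne
      exact h2 j
    | cast i ih =>
      intro j hj
      obtain ⟨j, rfl⟩ := Fin.exists_castSucc_eq.mpr (hj.trans (Fin.castSucc_lt_last i)).ne
      rw [h1, ih _ (by simpa using hj)]
  ext i j
  rcases le_or_gt i j with h | h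
  · simp [e1 i j h, one_apply]
  · simp [e2 i j h, h.ne']

lemma key (h2 : (2 : F) ≠ 0) {k : ℕ} (A : Matrix (Fin (k + 1) ⊕ Fin k) (Fin (k + 1) ⊕ Fin k) F)
    (hA : A.det = 1) (h : ∀ a : HH F, ∃ c : F, A * M k a = c • (M k a * A)) : ∃ c : F, A = c • 1 := by
  obtain ⟨c, hc⟩ := h ⟨0, -1⟩
  have hN : N k (0 : Fin 3 → F) = 0 := by ext i j; simp [N]
  have h1 : c = 1 := by
    have e1 := congrArg (fun X => trace (X * A⁻¹)) hc
    simp only [smul_mul_assoc, trace_smul] at e1
    rw [trace_mul_cycle, nonsing_inv_mul _ (by simp [hA]), Matrix.mul_assoc,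
      mul_nonsing_inv _ (by simp [hA]), Matrix.one_mul, Matrix.mul_one] at e1
    have e2 : trace (M k (⟨0, -1⟩ : HH F)) = 1 := by simp [M, trace, Fintype.sum_sum_type]
    simpa [e2] using e1.symm
  rw [← fromBlocks_toBlocks A] at *
  generalize A.toBlocks₁₁ = B, A.toBlocks₁₂ = X, A.toBlocks₂₁ = Y, A.toBlocks₂₂ = C at *
  simp only [h1, one_smul, M, hN, fromBlocks_multiply, fromBlocks_inj] at hc
  have hX : X = 0 := by
    have : (2 : F) • X = 0 := by have := hc.2.1; simp at this; rw [two_smul]; nth_rw 1 [← this]; simp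
    simpa [h2] using this
  have hY : Y = 0 := by
    have : (2 : F) • Y = 0 := by have := hc.2.2.1; simp at this; rw [two_smul]; nth_rw 1 [this]; simp
    simpa [h2] using this
  subst hX hY
  have hB : B ≠ 0 := by
    rintro rfl
    simp [det_fromBlocks_zero₂₁] at hA
  have h3 : ∀ v : Fin 3 → F, (B * N k v : Matrix _ _ F) = N k v * C := by
    intro v
    obtain ⟨c, hc⟩ := h ⟨v, 1⟩
    simp only [M, fromBlocks_multiply, fromBlocks_smul, fromBlocks_inj] at hc
    have : c = 1 := by
      have := hc.1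
      simp only [Matrix.mul_one, Matrix.mul_zero, add_zero, Matrix.one_mul] at this
      by_contra hne
      apply hB
      have e : (c - 1) • B = 0 := by rw [sub_smul, ← this, one_smul, sub_self]
      simpa [sub_eq_zero, hne] using e
    simpa [this] using hc.2.1
  have h4 : ∀ i j, B i (Fin.castSucc j) = ∑ l, if i = l.castSucc then C l j else 0 := fun i j => by
    simpa [Matrix.mul_apply, N] using congrFun (congrFun (h3 (Pi.single 0 1)) i) j
  have h5 : ∀ i j, B i (Fin.succ j) = ∑ l, if i = l.succ then C l j else 0 := fun i j => by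
    simpa [Matrix.mul_apply, N] using congrFun (congrFun (h3 (Pi.single 1 1)) i) j
  have h6 := toeplitz B (fun i j => by simp [h4, h5]) (fun j => by simp [h4, (Fin.castSucc_lt_last _).ne'])
    (fun j => by simp [h5, (Fin.succ_ne_zero _).symm])
  refine ⟨B 0 0, ?_⟩
  rw [← fromBlocks_one, fromBlocks_smul, ← h6]
  congr 1
  · simp
  · simp
  · ext i j
    have := h4 i.castSucc j
    rw [h6] at this
    simpa [one_apply] using this.symm

lemma M_inj (h2 : (2 : F) ≠ 0) {k : ℕ} (a : HH F) (c : F) (h : M (k + 2) a = c • 1) : a = 1 := by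
  have e1 := congrFun (congrFun h (.inl 0)) (.inl 0)
  have e2 := congrFun (congrFun h (.inr 0)) (.inr 0)
  have e3 := congrFun (congrFun h (.inl 0)) (.inr 0)
  have e4 := congrFun (congrFun h (.inl 1)) (.inr 0)
  have e5 := congrFun (congrFun h (.inl (Fin.last _))) (.inr 0)
  have n1 : (0 : Fin (k + 2 + 1)) ≠ Fin.last _ := by simp [Fin.ext_iff]
  have n2 : (1 : Fin (k + 2 + 1)) ≠ Fin.last _ := by simp [Fin.ext_iff]
  simp [M] at e1
  simp [M] at e2
  simp [M, N, n1] at e3
  simp [M, N, n2] at e4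
  simp [M, N, n1.symm, n2.symm] at e5
  refine HH.ext (funext fun i => by fin_cases i <;> simpa) ?_
  rcases Int.units_eq_one_or a.e with h | h
  · exact h
  · rw [h, ← e1] at e2
    exact absurd (by simp at e2; linear_combination -e2) h2

/-- For every odd prime `p` there is a finite group `H` of order `2p³` which, for infinitely many `n`, embeds in the projective special linear group `PSL(n, p)` as a subgroup with trivial centralizer. -/
theorem result
    (p : ℕ) [Fact p.Prime] (hp : p ≠ 2) :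
    ∃ (H : Type) (_ : Group H) (_ : Finite H), Nat.card H = 2 * p ^ 3 ∧
      ∀ N : ℕ, ∃ n, N ≤ n ∧ ∃ φ : H →* Matrix.ProjectiveSpecialLinearGroup (Fin n) (ZMod p),
        Function.Injective φ ∧ Subgroup.centralizer (φ.range : Set (Matrix.ProjectiveSpecialLinearGroup (Fin n) (ZMod p))) = ⊥ := by
  have h2 : (2 : ZMod p) ≠ 0 := by
    intro h
    exact hp ((Nat.prime_dvd_prime_iff_eq Fact.out Nat.prime_two).mp
      ((ZMod.natCast_eq_zero_iff 2 p).mp h))
  refine ⟨HH (ZMod p), inferInstance, Finite.of_equiv _ eqv.symm, ?_, fun n => ?_⟩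
  · rw [Nat.card_congr eqv]; simp [mul_comm]
  let e := reindexAlgEquiv (ZMod p) (ZMod p) (finSumFinEquiv (m := 2 * (n + 1) + 1) (n := 2 * (n + 1)))
  let ψ : HH (ZMod p) →* Matrix.SpecialLinearGroup (Fin (2 * (n + 1) + 1 + 2 * (n + 1))) (ZMod p) :=
    ⟨⟨fun a => ⟨e (M _ a), by rw [det_reindexAlgEquiv, M_det]⟩, Subtype.ext (by simp [M_one])⟩,
      fun a b => Subtype.ext (by show e _ = e _ * e _; rw [M_mul, map_mul])⟩
  refine ⟨_, by omega, (QuotientGroup.mk' _).comp ψ, (injective_iff_map_eq_one _).mpr fun a ha => ?_,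
    eq_bot_iff.mpr fun g hg => ?_⟩
  · obtain ⟨c, -, hc⟩ := Matrix.SpecialLinearGroup.mem_center_iff.mp ((QuotientGroup.eq_one_iff (ψ a)).mp ha)
    refine M_inj h2 (k := 2 * n) a c (e.injective ?_)
    rw [map_smul, map_one, smul_one_eq_diagonal]
    exact hc.symm
  · obtain ⟨g, rfl⟩ := QuotientGroup.mk_surjective g
    obtain ⟨c, hc⟩ := key h2 (e.symm g.1) (by
      have := g.2
      rw [← e.apply_symm_apply g.1] at this
      exact (det_reindexAlgEquiv _ _ _ _).symm.trans this)
      fun a => by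
        have h1 := Subgroup.mem_centralizer_iff.mp hg _ ⟨a, rfl⟩
        obtain ⟨c, -, hc⟩ := Matrix.SpecialLinearGroup.mem_center_iff.mp ((QuotientGroup.eq (a := ψ a * g) (b := g * ψ a)).mp h1)
        refine ⟨c, e.injective ?_⟩
        have h3 : g * ψ a = ψ a * g * ((ψ a * g)⁻¹ * (g * ψ a)) := by group
        have h4 := congrArg Subtype.val h3
        rw [Matrix.SpecialLinearGroup.coe_mul, Matrix.SpecialLinearGroup.coe_mul _ (_ * _), ← hc] at h4
        rw [map_smul, map_mul, map_mul, e.apply_symm_apply]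
        refine h4.trans ?_
        rw [scalar_apply, ← smul_one_eq_diagonal, Matrix.mul_smul, Matrix.mul_one]
        rfl
    have h5 : g.1 = c • 1 := by
      rw [← e.apply_symm_apply g.1, hc, map_smul, map_one]
    rw [Subgroup.mem_bot, QuotientGroup.eq_one_iff, Subgroup.mem_center_iff]
    intro x
    exact Subtype.ext (by simp [h5])

end Cfsg.Agent.S2533
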