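import Cfsg.Statements.S2534
import Cfsg.Agent.H1.HallSymMain

set_option autoImplicit false
open Cfsg

namespace Cfsg.Agent.S2534

open Cfsg.Agent.H1
open scoped commutatorElement

theorem aux_triv : True := trivial

/-- For `n ≥ 5` and a set of primes `π`, the alternating group of degree `n` satisfies the full Sylow analogue for `π` (its maximal `π`-subgroups are pairwise conjugate; for a finite group this says Hall `π`-subgroups exist, are all conjugate, and contain every `π`-subgroup up to conjugacy) if and only if either at most one prime of `π` divides its order or every prime dividing its order lies in `π`. -/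
theorem result (n : ℕ) (hn : 5 ≤ n) (π : Set ℕ) :
    Cfsg.IsDPiGroup π ↥(alternatingGroup (Fin n)) ↔
      ((∀ r s : ℕ, r.Prime → s.Prime → r ∈ π → s ∈ π → r ∣ Nat.card ↥(alternatingGroup (Fin n)) → s ∣ Nat.card ↥(alternatingGroup (Fin n)) → r = s) ∨
        ∀ r : ℕ, r.Prime → r ∣ Nat.card ↥(alternatingGroup (Fin n)) → r ∈ π) := by
  refine ⟨fun hD => ?_, fun h => h.elim isD_of_one isD_of_all⟩
  by_contra hc
  rw [not_or] at hc
  obtain ⟨h1, h2⟩ := hc
  have key : ∀ r : ℕ, r.Prime → r ∣ Nat.card (alternatingGroup (Fin n)) → r ≤ n := fun r hr hd => by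
    simpa using le_card_of_prime_dvd_card hr hd
  refine not_isD_alt ?_ ?_ hD
  · by_contra h3
    refine h1 fun r s hr hs a1 a2 a3 a4 => ?_
    by_contra hne
    exact h3 ⟨r, s, hr, hs, hne, a1, a2, key r hr a3, key s hs a4⟩
  · exact fun h3 => h2 fun r hr hd => h3 r hr (key r hr hd)

end Cfsg.Agent.S2534
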