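import Cfsg.Statements.S2537
import Cfsg.Agent.H9.Burnside
import Cfsg.Agent.H2.Hall
import Cfsg.Agent.H2.N8
import Cfsg.Agent.H4.Mat

set_option autoImplicit false
open Cfsg

namespace Cfsg.Agent.S2537

open Matrix
open scoped MatrixGroups

section Grp
variable {G : Type*} [Group G] [Finite G] {x y : G}

/-- `x, y` generate a self-centralizing four-group. -/
structure Four (x y : G) : Prop where
  x1 : x ≠ 1
  y1 : y ≠ 1
  xy : x ≠ y
  x2 : x * x = 1
  y2 : y * y = 1
  comm : x * y = y * x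
  cent : ∀ g, x * g = g * x → y * g = g * y → g = 1 ∨ g = x ∨ g = y ∨ g = x * y

def VV (x y : G) : Subgroup G := Subgroup.centralizer {x, y}

omit [Finite G] in
lemma Four.mem (h : Four x y) {g : G} : g ∈ VV x y ↔ g = 1 ∨ g = x ∨ g = y ∨ g = x * y := by
  have h1 : g ∈ VV x y ↔ x * g = g * x ∧ y * g = g * y := by simp [VV, Subgroup.mem_centralizer_iff]
  refine ⟨fun hg => h.cent g (h1.mp hg).1 (h1.mp hg).2, fun hg => ?_⟩
  have hx : x ∈ VV x y := by simp [VV, Subgroup.mem_centralizer_iff, h.comm]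
  have hy : y ∈ VV x y := by simp [VV, Subgroup.mem_centralizer_iff, h.comm]
  rcases hg with rfl | rfl | rfl | rfl
  exacts [one_mem _, hx, hy, mul_mem hx hy]

omit [Finite G] in
lemma Four.card (h : Four x y) : Nat.card (VV x y) = 4 := by
  classical
  have h1 : ((VV x y : Subgroup G) : Set G) = ({1, x, y, x * y} : Finset G) := by
    ext g; simp [h.mem]
  have h2 : x * y ≠ 1 := fun e => h.xy (mul_left_cancel (h.x2.trans e.symm))
  rw [← SetLike.coe_sort_coe, h1, Finset.coe_sort_coe, Nat.card_eq_fintype_card, Fintype.card_coe,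
    Finset.card_eq_four]
  exact ⟨_, _, _, _, h.x1.symm, h.y1.symm, h2.symm, h.xy, by simp [h.y1], by simp [h.x1], rfl⟩

omit [Finite G] in
lemma Four.sq (h : Four x y) (v : VV x y) : v ^ 2 = 1 := by
  apply Subtype.ext
  rcases h.mem.mp v.2 with e | e | e | e <;> simp only [Subgroup.coe_pow, pow_two, e, Subgroup.coe_mul, Subgroup.coe_one]
  · simp
  · exact h.x2
  · exact h.y2
  · rw [mul_assoc, ← mul_assoc y, ← h.comm, mul_assoc, h.y2, mul_one, h.x2]

omit [Finite G] in
lemma Four.cent_eq (h : Four x y) : Subgroup.centralizer (VV x y : Set G) = VV x y := by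
  refine le_antisymm (Subgroup.centralizer_le ?_) fun g hg k hk => ?_
  · rintro _ (rfl | rfl) <;> simp [h.mem]
  · have := congrArg Subtype.val (h.sq (⟨k, hk⟩ * ⟨g, hg⟩))
    have h1 := congrArg Subtype.val (h.sq ⟨k, hk⟩)
    have h2 := congrArg Subtype.val (h.sq ⟨g, hg⟩)
    simp only [pow_two, Subgroup.coe_mul, Subgroup.coe_one] at this h1 h2
    calc k * g = k * (k * g * (k * g)) * g := by rw [this, mul_one]
      _ = (k * k) * g * k * (g * g) := by group
      _ = g * k := by rw [h1, h2]; group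

lemma Four.card_norm (h : Four x y) : Nat.card (Subgroup.normalizer (VV x y : Set G)) =
    4 * Nat.card (VV x y).normalizerMonoidHom.range := by
  rw [← Subgroup.index_ker, Subgroup.normalizerMonoidHom_ker, h.cent_eq, ← h.card,
    ← Nat.card_congr (Subgroup.subgroupOfEquivOfLe (H := VV x y) Subgroup.le_normalizer).toEquiv, Subgroup.card_mul_index]

lemma Four.card_dvd (h : Four x y) : Nat.card (Subgroup.normalizer (VV x y : Set G)) ∣ 24 := by
  rw [h.card_norm]
  exact Nat.mul_dvd_mul_left 4 ((Subgroup.card_subgroup_dvd_card _).trans (H2.card_mulAut_dvd_six h.card h.sq))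

omit [Finite G] in
lemma Four.mem_norm [Finite G] (h : Four x y) {g : G} (h1 : g * x * g⁻¹ ∈ VV x y) (h2 : g * y * g⁻¹ ∈ VV x y) :
    g ∈ Subgroup.normalizer (VV x y : Set G) := by
  refine Subgroup.mem_normalizer_fintype fun n hn => ?_
  rcases h.mem.mp hn with rfl | rfl | rfl | rfl
  · simp
  · exact h1
  · exact h2
  · simpa [mul_assoc] using mul_mem h1 h2

lemma Four.dvd_range (h : Four x y) {g : G} (hg : g ∈ Subgroup.normalizer (VV x y : Set G)) (h1 : g ∉ VV x y)
    {r : ℕ} [Fact r.Prime] (h2 : g ^ r ∈ VV x y) : r ∣ Nat.card (VV x y).normalizerMonoidHom.range := by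
  have h3 : ∀ k, (VV x y).normalizerMonoidHom.rangeRestrict k = 1 ↔ k.1 ∈ VV x y := fun k => by
    rw [← MonoidHom.mem_ker, MonoidHom.ker_rangeRestrict, Subgroup.normalizerMonoidHom_ker, h.cent_eq]; rfl
  rw [← orderOf_eq_prime (p := r) (x := (VV x y).normalizerMonoidHom.rangeRestrict ⟨g, hg⟩)
    (by rw [← map_pow, h3]; exact h2) (by rw [Ne, h3]; exact h1)]
  exact orderOf_dvd_natCard _

lemma hall_of (K : Subgroup G) (hs : Group.IsSolvable K) (h2 : ¬ 2 ∣ K.index) (h3 : ¬ 3 ∣ K.index) :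
    ∃ H : Subgroup G, IsPiHall ({2, 3} : Set ℕ) H := by
  obtain ⟨H, ⟨h4, h5⟩, -⟩ := H2.exists_hall (G := K) ({2, 3} : Set ℕ)
  refine ⟨H.map K.subtype, by rwa [Subgroup.card_subtype], fun p hp hπ h6 => ?_⟩
  rw [Subgroup.index_map_subtype] at h6
  rcases hp.dvd_mul.mp h6 with h7 | h7
  · exact h5 p hp hπ h7
  · rcases hπ with rfl | rfl
    exacts [h2 h7, h3 h7]

lemma small_or_six (H : Subgroup G) (hH : ∀ p : ℕ, p.Prime → p ∣ Nat.card H → p ∈ ({2, 3} : Set ℕ))
    (h12 : 12 ∣ Nat.card H)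
    (h4 : ∀ x y : G, x ≠ 1 → y ≠ 1 → x ≠ y → x * x = 1 → y * y = 1 → x * y = y * x → Four x y)
    (h3 : ∀ x y : G, x ≠ 1 → x ^ 3 = 1 → y ^ 3 = 1 → x * y = y * x → y = 1 ∨ y = x ∨ y = x ^ 2) :
    Nat.card H ∣ 24 ∨ ∃ x y : G, x ≠ 1 ∧ y ≠ 1 ∧ x ^ 2 = 1 ∧ y ^ 3 = 1 ∧ x * y = y * x := by
  classical
  haveI : Group.IsSolvable H := H9.burnside_pq (a := Nat.card H) (b := Nat.card H) Nat.prime_two Nat.prime_three (by
    rw [← mul_pow]
    refine (Nat.dvd_prod_primeFactors_pow_self Nat.card_pos.ne').trans (pow_dvd_pow_of_dvd ?_ _)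
    refine (Finset.prod_dvd_prod_of_subset _ {2, 3} _ fun p hp => ?_).trans (by simp)
    simpa using hH p (Nat.prime_of_mem_primeFactors hp) (Nat.dvd_of_mem_primeFactors hp))
  haveI : Nontrivial H := Finite.one_lt_card_iff_nontrivial.mp
    (lt_of_lt_of_le (by norm_num) (Nat.le_of_dvd Nat.card_pos h12))
  obtain ⟨p, N, hp, hN, h0, -, hc, hpow, -⟩ := H2.exists_normal_elementary_le (K := (⊤ : Subgroup H))
    inferInstance top_ne_bot
  obtain ⟨⟨x, hx⟩, hx1⟩ := Subgroup.ne_bot_iff_exists_ne_one.mp h0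
  replace hx1 : x ≠ 1 := fun e => hx1 (Subtype.ext e)
  haveI := Fact.mk hp
  have hcomm : ∀ a ∈ N, ∀ b ∈ N, a.1 * b.1 = b.1 * a.1 := fun a ha b hb =>
    congrArg Subtype.val (setLike_mul_comm ha hb)
  rcases hH p hp (orderOf_eq_prime (hpow x hx) hx1 ▸ orderOf_dvd_natCard x) with rfl | rfl
  · by_cases h5 : ∃ y ∈ N, y ≠ 1 ∧ x ≠ y
    · obtain ⟨y, hy, hy1, hxy⟩ := h5
      have hF := h4 x y (by simpa using hx1) (by simpa using hy1) (fun e => hxy (Subtype.ext e))
        (congrArg Subtype.val ((pow_two x).symm.trans (hpow x hx)))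
        (congrArg Subtype.val ((pow_two y).symm.trans (hpow y hy)))
        (hcomm x hx y hy)
      have hV : ∀ a ∈ N, a.1 ∈ VV x.1 y.1 := fun a ha => by
        rintro _ (rfl | rfl)
        exacts [hcomm _ hx _ ha, hcomm _ hy _ ha]
      exact .inl ((Subgroup.card_dvd_of_le fun g hg => hF.mem_norm
        (hV _ (hN.conj_mem x hx ⟨g, hg⟩)) (hV _ (hN.conj_mem y hy ⟨g, hg⟩))).trans hF.card_dvd)
    · obtain ⟨y, hy⟩ := exists_prime_orderOf_dvd_card' (G := H) 3 (Dvd.dvd.trans (by norm_num) h12)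
      refine .inr ⟨x, y, by simpa using hx1, fun e => ?_, congrArg Subtype.val (hpow x hx),
        congrArg Subtype.val (hy ▸ pow_orderOf_eq_one y), ?_⟩
      · rw [show y = 1 from Subtype.ext e] at hy; simp at hy
      · have : x = y * x * y⁻¹ := by
          by_contra h6
          exact h5 ⟨_, hN.conj_mem x hx y, by simpa using hx1, h6⟩
        exact congrArg Subtype.val (show x * y = y * x by nth_rw 1 [this]; simp)
  · have h5 : (Subgroup.centralizer {x}).index ≤ 2 := by
      have h0 : (Subgroup.centralizer {x}).index = (MulAction.stabilizer (ConjAct H) x).index := by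
        rw [Subgroup.centralizer_eq_comap_stabilizer]
        exact Subgroup.index_comap_of_surjective _ ConjAct.toConjAct.surjective
      rw [h0, MulAction.index_stabilizer]
      refine (Set.ncard_le_ncard (t := {x, x ^ 2}) ?_).trans ((Set.ncard_insert_le _ _).trans (by simp))
      rintro _ ⟨g, rfl⟩
      have h6 := hN.conj_mem x hx (ConjAct.ofConjAct g)
      rcases h3 x _ (by simpa using hx1) (congrArg Subtype.val (hpow x hx)) (congrArg Subtype.val (hpow _ h6))
        (hcomm _ hx _ h6) with e | e | e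
      · exact absurd (Subtype.ext e : _ = (1 : H)) (by simpa using hx1)
      · exact .inl (Subtype.ext e)
      · exact .inr (Subtype.ext e)
    have h6 : 2 ∣ Nat.card (Subgroup.centralizer {x}) := by
      have := (Subgroup.centralizer {x}).card_mul_index
      have h7 := (Subgroup.centralizer {x}).index_ne_zero_of_finite
      by_contra h8
      obtain h9 | h9 : (Subgroup.centralizer {x}).index = 1 ∨ (Subgroup.centralizer {x}).index = 2 := by omega
      all_goals rw [h9] at this; omega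
    obtain ⟨y, hy⟩ := exists_prime_orderOf_dvd_card' 2 h6
    refine .inr ⟨y, x, fun e => ?_, by simpa using hx1, congrArg (·.1.1) (hy ▸ pow_orderOf_eq_one y),
      congrArg Subtype.val (hpow x hx), (congrArg Subtype.val (y.2 x rfl)).symm⟩
    rw [show y = 1 from Subtype.ext (Subtype.ext e)] at hy; simp at hy

end Grp

section SL
variable {F : Type*} [Field F]

abbrev pr : SL(2, F) →* Matrix.ProjectiveSpecialLinearGroup (Fin 2) F := QuotientGroup.mk' _

lemma pr_scalar {u : SL(2, F)} {c : F} (h : u.1 = c • 1) : pr u = 1 :=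
  (QuotientGroup.eq_one_iff u).mpr (Subgroup.mem_center_iff.mpr fun g => Subtype.ext (by simp [h]))

lemma pr_neg (u : SL(2, F)) : pr (-u) = pr u := by
  rw [← neg_one_mul, map_mul, pr_scalar (c := -1) (by simp), one_mul]

lemma pr_eq_one {u : SL(2, F)} : pr u = 1 ↔ u = 1 ∨ u = -1 := by
  refine ⟨fun h => ?_, ?_⟩
  · obtain ⟨c, h1, h2⟩ := Matrix.SpecialLinearGroup.mem_center_iff.mp ((QuotientGroup.eq_one_iff u).mp h)
    rcases sq_eq_one_iff.mp (by simpa using h1 : c ^ 2 = 1) with rfl | rfl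
    · exact .inl (Subtype.ext (by simp [← h2]))
    · exact .inr (Subtype.ext (by rw [← h2, map_neg, map_one]; rfl))
  · rintro (rfl | rfl)
    exacts [map_one _, by rw [pr_neg, map_one]]

lemma pr_eq {u v : SL(2, F)} : pr u = pr v ↔ u = v ∨ u = -v := by
  rw [← mul_inv_eq_one, ← map_inv, ← map_mul, pr_eq_one, mul_inv_eq_one, mul_inv_eq_iff_eq_mul, neg_one_mul]

lemma det_eq (u : SL(2, F)) : u 0 0 * u 1 1 - u 0 1 * u 1 0 = 1 := by
  rw [← det_fin_two]; exact u.2

lemma CH (u : SL(2, F)) : u.1 * u.1 = u.1.trace • u.1 - 1 := by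
  have := det_eq u
  ext i j
  fin_cases i <;> fin_cases j <;> simp [mul_apply, trace_fin_two, Fin.sum_univ_two]
  · linear_combination -this
  · ring
  · ring
  · linear_combination -this

lemma indep {u : SL(2, F)} (h : pr u ≠ 1) {α β : F} (h1 : β • u.1 = α • 1) : α = 0 ∧ β = 0 := by
  by_cases hβ : β = 0
  · exact ⟨by simpa [hβ] using h1.symm, hβ⟩
  · exact absurd (pr_scalar (c := β⁻¹ * α) (by rw [mul_smul, ← h1, inv_smul_smul₀ hβ])) h

lemma span {u : SL(2, F)} (h : pr u ≠ 1) {g : Matrix (Fin 2) (Fin 2) F} (h1 : u.1 * g = g * u.1) :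
    ∃ α β : F, g = α • 1 + β • u.1 := by
  have e := fun i j => congrFun (congrFun h1 i) j
  have e00 := e 0 0; have e01 := e 0 1; have e10 := e 1 0
  simp only [mul_apply, Fin.sum_univ_two] at e00 e01 e10
  obtain ⟨β, h2, h3, h4⟩ : ∃ β, g 0 1 = β * u.1 0 1 ∧ g 1 0 = β * u.1 1 0 ∧
      g 1 1 - g 0 0 = β * (u.1 1 1 - u.1 0 0) := by
    by_cases h2 : u.1 0 1 = 0
    · by_cases h3 : u.1 1 0 = 0
      · have h4 : u.1 1 1 - u.1 0 0 ≠ 0 := fun h4 => h (pr_scalar (c := u.1 0 0) (by
          ext i j; fin_cases i <;> fin_cases j <;> simp [h2, h3, sub_eq_zero.mp h4]))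
        refine ⟨(g 1 1 - g 0 0) / (u.1 1 1 - u.1 0 0), ?_, ?_, ?_⟩ <;> field_simp
        · linear_combination -e01
        · linear_combination e10
      · refine ⟨g 1 0 / u.1 1 0, ?_, ?_, ?_⟩ <;> field_simp
        · linear_combination -e00
        · linear_combination -e10
    · refine ⟨g 0 1 / u.1 0 1, ?_, ?_, ?_⟩ <;> field_simp
      · linear_combination e00
      · linear_combination e01
  refine ⟨g 0 0 - β * u.1 0 0, β, ?_⟩
  ext i j
  fin_cases i <;> fin_cases j <;> simp [h2, h3]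
  linear_combination h4

lemma tr_det {u g : SL(2, F)} {α β : F} (h : g.1 = α • 1 + β • u.1) :
    g.1.trace = 2 * α + β * u.1.trace ∧ α ^ 2 + α * β * u.1.trace + β ^ 2 = 1 := by
  have h1 := det_eq g
  have h2 := det_eq u
  have e := fun i j => congrFun (congrFun h i) j
  refine ⟨by simp [h, mul_comm], ?_⟩
  rw [e, e, e, e] at h1
  simp [trace_fin_two] at h1 ⊢
  linear_combination h1 - β ^ 2 * h2

variable (h2 : (2 : F) ≠ 0)
include h2

lemma neg_ne (u : SL(2, F)) : -u ≠ u := fun h => by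
  have h1 : (-1 : SL(2, F)) = 1 := mul_right_cancel (b := u) (by simpa using h)
  have := congrArg (fun g : SL(2, F) => g.1 0 0) h1
  simp at this
  exact h2 (by linear_combination -this)

lemma sq_neg {u : SL(2, F)} (h : pr u ≠ 1) (h1 : pr u * pr u = 1) : u * u = -1 ∧ u.1.trace = 0 := by
  rw [← map_mul, pr_eq_one] at h1
  have := CH u
  rcases h1 with h1 | h1
  · rw [← Matrix.SpecialLinearGroup.coe_mul, h1] at this
    exact absurd (indep h (α := 2) (β := u.1.trace) (by rw [two_smul]; exact sub_eq_iff_eq_add.mp this.symm)).1 h2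
  · refine ⟨h1, (indep h (α := 0) ?_).2⟩
    rw [← Matrix.SpecialLinearGroup.coe_mul, h1] at this
    simpa using this.symm

omit h2 in
lemma tr_three {u : SL(2, F)} (h : pr u ≠ 1) (h1 : u ^ 3 = 1) : u.1.trace = -1 := by
  have h3 : u.1 * (u.1 * u.1) = 1 := by simpa [pow_succ, mul_assoc] using congrArg Subtype.val h1
  rw [CH, mul_sub, Matrix.mul_smul, CH, mul_one] at h3
  have := indep h (α := u.1.trace + 1) (β := u.1.trace ^ 2 - 1) (by
    linear_combination (norm := module) h3)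
  linear_combination this.1

omit h2 in
lemma lift3 {x : Matrix.ProjectiveSpecialLinearGroup (Fin 2) F} (h : x ^ 3 = 1) : ∃ u, pr u = x ∧ u ^ 3 = 1 := by
  obtain ⟨u, rfl⟩ := QuotientGroup.mk'_surjective _ x
  rcases pr_eq_one.mp ((map_pow pr u 3).trans h) with h | h
  · exact ⟨u, rfl, h⟩
  · exact ⟨-u, pr_neg u, by rw [Odd.neg_pow (by decide), h, neg_neg]⟩

lemma comm3 {u g : SL(2, F)} (hu : u ^ 3 = 1) (h : pr u * pr g = pr g * pr u) : u.1 * g.1 = g.1 * u.1 := by
  rw [← map_mul, ← map_mul, pr_eq] at h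
  refine congrArg Subtype.val (h.resolve_right fun h => neg_ne h2 1 ?_)
  have : u = -(g * u * g⁻¹) := by rw [← neg_mul, ← h]; simp
  have h3 := hu
  rw [this, Odd.neg_pow (by decide), conj_pow, hu] at h3
  simpa using h3

lemma six {x y : Matrix.ProjectiveSpecialLinearGroup (Fin 2) F} (hx : x ≠ 1) (hy : y ≠ 1) (h1 : x ^ 2 = 1)
    (h3 : y ^ 3 = 1) (h : x * y = y * x) : IsSquare (3 : F) := by
  obtain ⟨u, rfl, hu⟩ := lift3 h3
  obtain ⟨z, rfl⟩ := QuotientGroup.mk'_surjective _ x
  obtain ⟨α, β, h4⟩ := span hy (comm3 h2 hu h.symm)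
  obtain ⟨h5, h6⟩ := tr_det h4
  rw [tr_three hy hu] at h5 h6
  rw [(sq_neg h2 hx (by rwa [← pow_two])).2] at h5
  exact ⟨3 * α, by linear_combination -3 * h6 + 3 * (α + β) * h5⟩

lemma three (h3 : (3 : F) ≠ 0) (x y : Matrix.ProjectiveSpecialLinearGroup (Fin 2) F) (hx : x ≠ 1) (h1 : x ^ 3 = 1)
    (h4 : y ^ 3 = 1) (h : x * y = y * x) : y = 1 ∨ y = x ∨ y = x ^ 2 := by
  obtain ⟨u, rfl, hu⟩ := lift3 h1
  obtain ⟨v, rfl, hv⟩ := lift3 h4
  refine or_iff_not_imp_left.mpr fun hy => ?_
  obtain ⟨α, β, h4⟩ := span hx (comm3 h2 hu h)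
  obtain ⟨h5, h6⟩ := tr_det h4
  rw [tr_three hx hu] at h5 h6
  rw [tr_three hy hv] at h5
  obtain rfl : β = 2 * α + 1 := by linear_combination h5
  rcases mul_eq_zero.mp ((mul_eq_zero.mp (show 3 * (α * (α + 1)) = 0 by linear_combination h6)).resolve_left h3)
    with h7 | h7
  · exact .inl (congrArg pr (Subtype.ext (by simp [h4, h7])))
  · refine .inr ((congrArg pr (Subtype.ext ?_)).trans (map_pow _ _ _))
    rw [pow_two, Matrix.SpecialLinearGroup.coe_mul, CH, h4, tr_three hx hu, eq_neg_of_add_eq_zero_left h7]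
    module

lemma four_of {u v : SL(2, F)} (hu : u * u = -1) (hv : v * v = -1) (h : u * v = -(v * u)) : Four (pr u) (pr v) := by
  have hn : ∀ w : SL(2, F), w * w = -1 → pr w ≠ 1 := fun w hw e => by
    rcases pr_eq_one.mp e with rfl | rfl <;> exact neg_ne h2 1 (by simpa using hw.symm)
  have hs : ∀ w : SL(2, F), w * w = -1 → pr w * pr w = 1 := fun w hw => by rw [← map_mul, hw, pr_neg, map_one]
  have h0 : ∀ g : SL(2, F), u * g = g * u → v * g = g * v → pr g = 1 := fun g h3 h4 => by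
    obtain ⟨α, β, h5⟩ := span (hn u hu) (congrArg Subtype.val h3)
    have h6 : v.1 * g.1 = g.1 * v.1 := congrArg Subtype.val h4
    have h7 : u.1 * v.1 = -(v.1 * u.1) := congrArg Subtype.val h
    simp only [h5, mul_add, add_mul, Matrix.mul_smul, Matrix.smul_mul, mul_one, one_mul, h7, add_right_inj] at h6
    have h8 : (2 * β) • (v * u).1 = 0 := by
      rw [mul_smul, two_smul]; nth_rw 1 [Matrix.SpecialLinearGroup.coe_mul, h6]; simp
    have h9 : β = 0 := by
      have : (v * u).1 ≠ 0 := fun e => by simpa [e] using (v * u).2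
      simpa [h2] using (smul_eq_zero.mp h8).resolve_right this
    exact pr_scalar (c := α) (by simp [h5, h9])
  have hc : pr u * pr v = pr v * pr u := by rw [← map_mul, h, pr_neg, map_mul]
  refine ⟨hn u hu, hn v hv, fun e => ?_, hs u hu, hs v hv, hc, fun g h3 h4 => ?_⟩
  · rcases pr_eq.mp e with rfl | rfl
    · exact neg_ne h2 _ h.symm
    · exact neg_ne h2 (v * v) (by simpa using h)
  obtain ⟨g, rfl⟩ := QuotientGroup.mk'_surjective _ g
  have h' : v * u = -(u * v) := by rw [h, neg_neg]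
  have h5 : ∀ w, w * w = -1 → pr (g * w) = 1 → pr g = pr w := fun w hw e =>
    mul_right_cancel ((map_mul pr g w).symm.trans (e.trans (hs w hw).symm))
  rcases pr_eq.mp ((map_mul pr u g).trans (h3.trans (map_mul pr g u).symm)) with h3 | h3 <;>
    rcases pr_eq.mp ((map_mul pr v g).trans (h4.trans (map_mul pr g v).symm)) with h4 | h4
  · exact .inl (h0 g h3 h4)
  · refine .inr (.inl (h5 u hu (h0 _ (by rw [← mul_assoc, h3]) ?_)))
    rw [← mul_assoc, h4, mul_assoc, h, neg_mul, mul_neg, mul_assoc]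
  · refine .inr (.inr (.inl (h5 v hv (h0 _ ?_ (by rw [← mul_assoc, h4])))))
    rw [← mul_assoc, h3, mul_assoc, h', neg_mul, mul_neg, mul_assoc]
  · refine .inr (.inr (.inr ((h5 (u * v) ?_ (h0 _ ?_ ?_)).trans (map_mul _ _ _))))
    · rw [mul_assoc, ← mul_assoc v, h', neg_mul, mul_neg, mul_assoc, hv, ← mul_assoc, hu]; simp
    · rw [← mul_assoc, h3, mul_assoc g, mul_assoc u v, h', neg_mul, mul_neg, mul_neg, mul_assoc]
    · rw [← mul_assoc, h4, neg_mul, mul_assoc, ← mul_assoc v, h', neg_mul, mul_neg, neg_neg, mul_assoc g]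

lemma four (x y : Matrix.ProjectiveSpecialLinearGroup (Fin 2) F) (hx : x ≠ 1) (hy : y ≠ 1) (hxy : x ≠ y)
    (h1 : x * x = 1) (h3 : y * y = 1) (h : x * y = y * x) : Four x y := by
  obtain ⟨u, rfl⟩ := QuotientGroup.mk'_surjective _ x
  obtain ⟨v, rfl⟩ := QuotientGroup.mk'_surjective _ y
  have hu := (sq_neg h2 hx h1).1
  have hv := (sq_neg h2 hy h3).1
  refine four_of h2 hu hv ((pr_eq.mp ((map_mul pr u v).trans (h.trans (map_mul pr v u).symm))).resolve_left fun e => ?_)
  have h4 : pr (u * v) ≠ 1 := fun e => hxy (mul_right_cancel ((map_mul pr u v).symm.trans (e.trans h3.symm)))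
  have h5 : u * v * (u * v) = 1 := by rw [mul_assoc, ← mul_assoc v, ← e, mul_assoc, hv, ← mul_assoc, hu]; simp
  exact neg_ne h2 1 ((sq_neg h2 h4 (by rw [← map_mul, h5, map_one])).1.symm.trans h5)

def zz : SL(2, F) := ⟨!![0, -1; 1, 0], by simp⟩

omit h2 in
lemma zz_val : (zz : SL(2, F)).1 = !![0, -1; 1, 0] := rfl

omit h2 in
lemma zz_sq : (zz : SL(2, F)) * zz = -1 := Subtype.ext (by ext i j; fin_cases i <;> fin_cases j <;> simp [zz_val])

def ww {a b : F} (h : a ^ 2 + b ^ 2 = -1) : SL(2, F) := ⟨!![a, b; b, -a], by simp; linear_combination -h⟩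

omit h2 in
lemma ww_val {a b : F} (h : a ^ 2 + b ^ 2 = -1) : (ww h).1 = !![a, b; b, -a] := rfl

omit h2 in
lemma ww_sq {a b : F} (h : a ^ 2 + b ^ 2 = -1) : ww h * ww h = -1 := Subtype.ext (by
  ext i j; fin_cases i <;> fin_cases j <;> simp [ww_val] <;> first | linear_combination h | ring)

omit h2 in
lemma zw {a b : F} (h : a ^ 2 + b ^ 2 = -1) : zz * ww h = -(ww h * zz) := Subtype.ext (by
  ext i j; fin_cases i <;> fin_cases j <;> simp [ww_val, zz_val])

def rot (x : {x : F × F // x.1 ^ 2 + x.2 ^ 2 = 1}) : SL(2, F) :=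
  ⟨!![x.1.1, -x.1.2; x.1.2, x.1.1], by simp; linear_combination x.2⟩

omit h2 in
lemma rot_val (x : {x : F × F // x.1 ^ 2 + x.2 ^ 2 = 1}) : (rot x).1 = !![x.1.1, -x.1.2; x.1.2, x.1.1] := rfl

def rot' (x : {x : F × F // x.1 ^ 2 + x.2 ^ 2 = 1}) : Subgroup.centralizer ({zz} : Set SL(2, F)) :=
  ⟨rot x, Subgroup.mem_centralizer_singleton_iff.mpr (Subtype.ext (by
    ext i j; fin_cases i <;> fin_cases j <;> simp [zz_val, rot_val]))⟩

omit h2 in
lemma rot_bij : Function.Bijective (rot' (F := F)) :=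
  ⟨fun x y h => Subtype.ext (Prod.ext (congrArg (·.1.1 0 0) h) (congrArg (·.1.1 1 0) h)), fun ⟨g, hg⟩ => by
    have h : g.1 * zz.1 = zz.1 * g.1 := congrArg Subtype.val (Subgroup.mem_centralizer_singleton_iff.mp hg : g * zz = zz * g)
    have e0 := congrFun (congrFun h 0) 0
    have e1 := congrFun (congrFun h 0) 1
    simp [zz_val, mul_apply, Fin.sum_univ_two] at e0 e1
    refine ⟨⟨(g.1 0 0, g.1 1 0), ?_⟩, Subtype.ext (Subtype.ext ?_)⟩
    · have := det_eq g
      rw [e0, ← e1] at this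
      linear_combination this
    · show !![_, _; _, _] = g.1
      ext i j; fin_cases i <;> fin_cases j <;> simp [e0, e1]⟩

lemma card_circle₁ {i : F} (hi : i * i = -1) : Nat.card {x : F × F // x.1 ^ 2 + x.2 ^ 2 = 1} = Nat.card F - 1 := by
  have hi0 : i ≠ 0 := by rintro rfl; simp at hi
  rw [← Nat.card_units]
  refine Nat.card_congr ⟨fun x => ⟨x.1.1 + i * x.1.2, x.1.1 - i * x.1.2, by linear_combination x.2 - x.1.2 ^ 2 * hi,
    by linear_combination x.2 - x.1.2 ^ 2 * hi⟩, fun c => ⟨((c.1 + c.2) / 2, (c.1 - c.2) / (2 * i)), ?_⟩,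
    fun x => Subtype.ext (Prod.ext ?_ ?_), fun c => Units.ext ?_⟩
  · field_simp
    linear_combination (c.1 + c.2) ^ 2 * hi - 4 * hi - 4 * c.val_inv
  · simp only; field_simp; ring
  · simp only; field_simp; ring
  · simp only; field_simp; ring

lemma card_circle₂ [Finite F] (hi : ¬ IsSquare (-1 : F)) :
    Nat.card {x : F × F // x.1 ^ 2 + x.2 ^ 2 = 1} = Nat.card F + 1 := by
  classical
  have h1 : ∀ t : F, 1 + t ^ 2 ≠ 0 := fun t h => hi ⟨t, by linear_combination -h⟩
  rw [← Finite.card_option]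
  refine Nat.card_congr ⟨fun x => if x.1.1 = -1 then none else some (x.1.2 / (1 + x.1.1)),
    fun t => t.elim ⟨(-1, 0), by simp⟩ fun t => ⟨((1 - t ^ 2) / (1 + t ^ 2), 2 * t / (1 + t ^ 2)), ?_⟩,
    fun ⟨⟨a, b⟩, h⟩ => ?_, fun t => ?_⟩
  · have := h1 t
    field_simp; ring
  · simp only at h ⊢
    split_ifs with h3
    · subst h3
      have : b = 0 := by simpa using h
      simp [this]
    · have h4 : 1 + a ≠ 0 := fun e => h3 (by linear_combination e)
      have h5 : 1 + (b / (1 + a)) ^ 2 = 2 / (1 + a) := by field_simp; linear_combination h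
      simp only [Option.elim_some, Subtype.mk.injEq, Prod.mk.injEq, h5]
      constructor <;> field_simp
      linear_combination -h
  · rcases t with _ | t
    · simp
    · have := h1 t
      have h3 : (1 - t ^ 2) / (1 + t ^ 2) ≠ -1 := by
        rw [Ne, div_eq_iff this]; exact fun e => h2 (by linear_combination e)
      simp only [Option.elim_some, h3, if_false, Option.some.injEq]
      rw [show 1 + (1 - t ^ 2) / (1 + t ^ 2) = 2 / (1 + t ^ 2) by field_simp; ring]
      field_simp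

lemma dihedral [Finite F] {a b : F} (h : a ^ 2 + b ^ 2 = -1) :
    ∃ K : Subgroup (Matrix.ProjectiveSpecialLinearGroup (Fin 2) F), Group.IsSolvable K ∧
      ∃ m, K.index ∣ m ∧ 2 * Nat.card {x : F × F // x.1 ^ 2 + x.2 ^ 2 = 1} * m = Nat.card SL(2, F) := by
  let T := Subgroup.centralizer ({zz} : Set SL(2, F))
  let D := (Subgroup.centralizer {pr (zz : SL(2, F))}).comap pr
  have hD : ∀ g, g ∈ D ↔ g * zz = zz * g ∨ g * zz = -(zz * g) := fun g => by
    rw [Subgroup.mem_comap, Subgroup.mem_centralizer_singleton_iff, ← map_mul, ← map_mul, pr_eq]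
  have hT : ∀ g, g ∈ T ↔ g * zz = zz * g := fun g => Subgroup.mem_centralizer_singleton_iff
  have hw : ww h * zz = -(zz * ww h) := by rw [zw, neg_neg]
  have hi : (T.subgroupOf D).index = 2 := by
    refine Subgroup.index_eq_two_iff.mpr ⟨⟨ww h, (hD _).mpr (.inr hw)⟩, fun g => ?_⟩
    simp only [Subgroup.mem_subgroupOf, hT, Subgroup.coe_mul, mul_assoc, hw, mul_neg]
    rw [← mul_assoc, ← mul_assoc]
    rcases (hD _).mp g.2 with e | e
    · exact .inr ⟨e, by rw [e]; exact neg_ne h2 _⟩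
    · exact .inl ⟨by rw [e]; simp, by rw [e]; exact neg_ne h2 _⟩
  have hle : T ≤ D := fun g hg => (hD g).mpr (.inl ((hT g).mp hg))
  have hc : ∀ x y : T, x * y = y * x := fun x y => by
    obtain ⟨x, rfl⟩ := rot_bij.2 x
    obtain ⟨y, rfl⟩ := rot_bij.2 y
    refine Subtype.ext (Subtype.ext ?_)
    show (rot x).1 * (rot y).1 = (rot y).1 * (rot x).1
    ext i j; fin_cases i <;> fin_cases j <;> simp [rot_val] <;> ring
  haveI := Subgroup.normal_of_index_eq_two hi
  haveI : Group.IsSolvable (T.subgroupOf D) := Group.isSolvable_of_comm fun x y =>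
    (Subgroup.subgroupOfEquivOfLe hle).injective (by rw [map_mul, map_mul, hc])
  haveI : Group.IsSolvable (D ⧸ T.subgroupOf D) := Group.isSolvable_of_comm fun x y =>
    (isCyclic_of_prime_card (p := 2) hi).isMulCommutative.is_comm.comm x y
  refine ⟨D.map pr, H2.isSolvable_map (Group.isSolvable_of_ker_le_range (T.subgroupOf D).subtype
    (QuotientGroup.mk' (T.subgroupOf D)) (by simp)) _, D.index, D.index_map_dvd (QuotientGroup.mk'_surjective _), ?_⟩
  rw [← D.card_mul_index, ← (T.subgroupOf D).card_mul_index, hi,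
    Nat.card_congr (Subgroup.subgroupOfEquivOfLe hle).toEquiv, ← Nat.card_eq_of_bijective _ rot_bij, mul_comm 2]

lemma norm_big [Finite F] {a b : F} (h : a ^ 2 + b ^ 2 = -1) :
    ∃ K : Subgroup (Matrix.ProjectiveSpecialLinearGroup (Fin 2) F), Nat.card K ∣ 24 ∧ 12 ∣ Nat.card K ∧
      (IsSquare (2 : F) → 24 ∣ Nat.card K) := by
  have hF := four_of h2 zz_sq (ww_sq h) (zw h)
  have hx : pr zz ∈ VV (pr zz) (pr (ww h)) := hF.mem.mpr (by simp)
  have hy : pr (ww h) ∈ VV (pr zz) (pr (ww h)) := hF.mem.mpr (by simp)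
  have hsq : ∀ g ∈ VV (pr zz) (pr (ww h)), g * g = 1 := fun g hg =>
    congrArg Subtype.val ((pow_two _).symm.trans (hF.sq ⟨g, hg⟩))
  let o : SL(2, F) := ⟨!![(-1 + a - b) / 2, (-1 + b + a) / 2; (1 + b + a) / 2, (-1 - a + b) / 2], by
    simp; field_simp; linear_combination -2 * h⟩
  have ov : o.1 = !![(-1 + a - b) / 2, (-1 + b + a) / 2; (1 + b + a) / 2, (-1 - a + b) / 2] := rfl
  have o1 : o * zz = zz * ww h * o := Subtype.ext (by
    ext i j; fin_cases i <;> fin_cases j <;> simp [ov, ww_val, zz_val] <;> field_simp <;> first | ring1 | linear_combination h | linear_combination -h)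
  have o2 : o * ww h = zz * o := Subtype.ext (by
    ext i j; fin_cases i <;> fin_cases j <;> simp [ov, ww_val, zz_val] <;> field_simp <;> first | ring1 | linear_combination h | linear_combination -h)
  have o3 : o ^ 3 = 1 := Subtype.ext (by
    have h3 : o.1.trace = -1 := by simp [ov, trace_fin_two]; field_simp; ring
    simp only [pow_succ, pow_zero, one_mul, Matrix.SpecialLinearGroup.coe_mul, CH, h3, sub_mul, Matrix.smul_mul]
    simp)
  have h3 := hF.dvd_range (g := pr o) (r := 3) (hF.mem_norm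
    (by rw [← map_mul, o1, map_mul, mul_inv_cancel_right, map_mul]; exact mul_mem hx hy)
    (by rw [← map_mul, o2, map_mul, mul_inv_cancel_right]; exact hx))
    (fun ho => hF.xy (by
      have h4 := congrArg pr o2
      rw [map_mul, map_mul, ← ho _ (.inr rfl)] at h4
      exact (mul_right_cancel h4).symm)) (by rw [← map_pow, o3, map_one]; exact one_mem _)
  refine ⟨_, hF.card_dvd, hF.card_norm ▸ Nat.mul_dvd_mul_left 4 h3, fun ⟨r, hr⟩ => ?_⟩
  have hr0 : r ≠ 0 := by rintro rfl; exact h2 (by simpa using hr)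
  let s : SL(2, F) := ⟨!![1 / r, -1 / r; 1 / r, 1 / r], by simp; field_simp; linear_combination hr⟩
  have sv : s.1 = !![1 / r, -1 / r; 1 / r, 1 / r] := rfl
  have s1 : s * zz = zz * s := Subtype.ext (by ext i j; fin_cases i <;> fin_cases j <;> simp [sv, zz_val] <;> ring)
  have s2 : s * ww h = zz * ww h * s := Subtype.ext (by
    ext i j; fin_cases i <;> fin_cases j <;> simp [sv, ww_val, zz_val] <;> ring)
  have s3 : s * s = zz := Subtype.ext (by
    ext i j; fin_cases i <;> fin_cases j <;> simp [sv, zz_val] <;> field_simp <;> first | ring1 | linear_combination hr | linear_combination -hr)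
  have h4 := hF.dvd_range (g := pr s) (r := 2) (hF.mem_norm
    (by rw [← map_mul, s1, map_mul, mul_inv_cancel_right]; exact hx)
    (by rw [← map_mul, s2, map_mul, mul_inv_cancel_right, map_mul]; exact mul_mem hx hy))
    (fun hs => hF.x1 (by rw [← s3, map_mul, hsq _ hs])) (by rw [pow_two, ← map_mul, s3]; exact hx)
  rw [hF.card_norm]
  exact Nat.mul_dvd_mul_left 4 (Nat.Coprime.mul_dvd_of_dvd_of_dvd (by norm_num : Nat.Coprime 2 3) h4 h3)

omit h2 in
lemma card_SL2 [Fintype F] : Nat.card SL(2, F) = Fintype.card F * (Fintype.card F ^ 2 - 1) := by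
  have h1 := Fintype.one_lt_card (α := F)
  refine Nat.eq_of_mul_eq_mul_right (by omega : 0 < Fintype.card F - 1) ?_
  rw [H4.card_SL_mul, Matrix.card_GL_field, Fin.prod_univ_two]
  simp only [Fin.val_zero, pow_zero, Fin.val_one, pow_one]
  rw [pow_two, ← Nat.mul_sub_one (Fintype.card F)]; ring

lemma card_PSL2 [Fintype F] : 2 * Nat.card (Matrix.ProjectiveSpecialLinearGroup (Fin 2) F) =
    Fintype.card F * (Fintype.card F ^ 2 - 1) := by
  rw [← card_SL2, H4.card_SL_eq_PSL_mul, mul_comm]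
  congr 1
  refine le_antisymm ?_ (H4.card_center_SL_le 2 F)
  exact Finite.one_lt_card_iff_nontrivial.mpr ((Subgroup.nontrivial_iff_exists_ne_one _).mpr
    ⟨-1, Subgroup.mem_center_iff.mpr (by simp), neg_ne h2 1⟩)

lemma three_dvd [Fintype F] (h3 : (3 : F) ≠ 0) : 3 ∣ Fintype.card F - 1 ↔ IsSquare (-3 : F) := by
  classical
  rw [← Fintype.card_units]
  refine ⟨fun h => ?_, fun ⟨s, hs⟩ => ?_⟩
  · obtain ⟨x, hx⟩ := exists_prime_orderOf_dvd_card 3 h
    have h4 : x.1 ^ 3 = 1 := by rw [← Units.val_pow_eq_pow_val, ← hx, pow_orderOf_eq_one, Units.val_one]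
    have h5 : x.1 - 1 ≠ 0 := fun e => by rw [show x = 1 from Units.ext (sub_eq_zero.mp e)] at hx; simp at hx
    have h6 : x.1 ^ 2 + x.1 + 1 = 0 := mul_left_cancel₀ h5 (by linear_combination h4)
    exact ⟨2 * x.1 + 1, by linear_combination -4 * h6⟩
  · have h4 : ((s - 1) / 2) ^ 2 + (s - 1) / 2 + 1 = 0 := by field_simp; linear_combination -hs
    generalize (s - 1) / 2 = w at h4
    have h5 : w ≠ 0 := by rintro rfl; simp at h4
    rw [← orderOf_eq_prime (p := 3) (x := Units.mk0 w h5) (Units.ext (by simp; linear_combination (w - 1) * h4))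
      (fun e => h3 (by have : w = 1 := congrArg Units.val e; rw [this] at h4; linear_combination h4))]
    exact orderOf_dvd_card

omit h2 in
lemma fact_eq {q n a b : ℕ} (hq2 : ¬ 2 ∣ q) (hq3 : ¬ 3 ∣ q) {m : ℕ} (h : q * n = 2 ^ a * 3 ^ b * m) (h2 : ¬ 2 ∣ m)
    (h3 : ¬ 3 ∣ m) : 2 ^ n.factorization 2 * 3 ^ n.factorization 3 = 2 ^ a * 3 ^ b := by
  have hm : m ≠ 0 := by rintro rfl; simp at h2
  have hq : q ≠ 0 := by rintro rfl; simp at hq2
  have hn : n ≠ 0 := by rintro rfl; simp [hm] at h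
  have h4 := congrArg Nat.factorization h
  rw [Nat.factorization_mul hq hn, Nat.factorization_mul (by positivity) hm,
    Nat.factorization_mul (by positivity) (by positivity)] at h4
  have h5 := DFunLike.congr_fun h4 2
  have h6 := DFunLike.congr_fun h4 3
  simp [Nat.factorization_eq_zero_of_not_dvd, hq2, hq3, h2, h3, Nat.prime_two.factorization,
    Nat.prime_three.factorization] at h5 h6
  rw [h5, h6]

omit h2 in
lemma fact_spec {n : ℕ} (hn : n ≠ 0) : ∃ m, n = 2 ^ n.factorization 2 * 3 ^ n.factorization 3 * m ∧ ¬ 2 ∣ m ∧ ¬ 3 ∣ m := by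
  obtain ⟨a, k, hk, rfl⟩ := Nat.exists_eq_pow_mul_and_not_dvd hn 2 (by norm_num)
  obtain ⟨b, m, hm, rfl⟩ := Nat.exists_eq_pow_mul_and_not_dvd (n := k) (by rintro rfl; simp at hk) 3 (by norm_num)
  have h2 : ¬ 2 ∣ m := fun h => hk (h.mul_left _)
  exact ⟨m, by rw [fact_eq (q := 1) (a := a) (b := b) (by norm_num) (by norm_num) (by ring) h2 hm]; ring, h2, hm⟩

end SL

/-- Let `F` be a finite field with `q` elements of characteristic `p ≥ 5`, and `ε = 1` if `q ≡ 1 (mod 4)`, `ε = -1` otherwise. Then `PSL(2, F)` has a Hall `{2, 3}`-subgroup if and only if `3` divides `q − ε`, or the `{2,3}`-part of `q² − 1` is 24, or the `{2,3}`-part of `q² − 1` is 48 (the `{2,3}`-part of `m` being the largest divisor of `m` with no prime factor other than 2 and 3). -/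
theorem result {F : Type*} [Field F] [Fintype F] {p : ℕ} [Fact p.Prime] [CharP F p]
    (hp : 5 ≤ p) (q : ℕ) (hq : Fintype.card F = q) :
    (∃ H : Subgroup (Matrix.ProjectiveSpecialLinearGroup (Fin 2) F), Cfsg.IsPiHall ({2, 3} : Set ℕ) H) ↔
      (3 ∣ q - 1 ∧ q % 4 = 1) ∨ (3 ∣ q + 1 ∧ q % 4 = 3) ∨
        2 ^ (q ^ 2 - 1).factorization 2 * 3 ^ (q ^ 2 - 1).factorization 3 = 24 ∨
        2 ^ (q ^ 2 - 1).factorization 2 * 3 ^ (q ^ 2 - 1).factorization 3 = 48 := by
  subst hq
  have hP : p.Prime := Fact.out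
  have hne : ∀ r : ℕ, 0 < r → r < 5 → (r : F) ≠ 0 := fun r h1 h2 h =>
    absurd (Nat.le_of_dvd h1 ((CharP.cast_eq_zero_iff F p r).mp h)) (by omega)
  have h2 : (2 : F) ≠ 0 := by exact_mod_cast hne 2 (by norm_num) (by norm_num)
  have h3 : (3 : F) ≠ 0 := by exact_mod_cast hne 3 (by norm_num) (by norm_num)
  have hq : ∀ r : ℕ, r.Prime → r < 5 → ¬ r ∣ Fintype.card F := fun r hr h1 h => by
    obtain ⟨n, -, hn⟩ := FiniteField.card F p
    have := (Nat.prime_dvd_prime_iff_eq hr hP).mp (hr.dvd_of_dvd_pow (hn ▸ h))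
    omega
  have hq2 := hq 2 Nat.prime_two (by norm_num)
  have hq3 := hq 3 Nat.prime_three (by norm_num)
  have hG := card_PSL2 h2
  have h4 := three_dvd h2 h3
  have h5 := FiniteField.isSquare_neg_one_iff (F := F)
  have h1 := Fintype.one_lt_card (α := F)
  obtain ⟨a, b, hab⟩ := CharP.sq_add_sq F p (-1)
  replace hab : (a : F) ^ 2 + (b : F) ^ 2 = -1 := by exact_mod_cast hab
  have h24 : 24 ∣ Fintype.card F ^ 2 - 1 := by
    refine (Nat.modEq_iff_dvd' (Nat.one_le_pow _ _ (by omega))).mp (Nat.ModEq.symm ?_)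
    have : Fintype.card F % 24 < 24 := Nat.mod_lt _ (by norm_num)
    have e2 : ¬ 2 ∣ Fintype.card F % 24 := by omega
    have e3 : ¬ 3 ∣ Fintype.card F % 24 := by omega
    rw [Nat.ModEq, Nat.pow_mod]
    interval_cases Fintype.card F % 24 <;> simp_all
  refine ⟨fun ⟨H, hH1, hH2⟩ => ?_, fun h => ?_⟩
  · have i2 := hH2 2 Nat.prime_two (by simp)
    have i3 := hH2 3 Nat.prime_three (by simp)
    rw [← H.card_mul_index] at hG
    have h12 : 12 ∣ Nat.card H := by
      refine Nat.Coprime.dvd_of_dvd_mul_right (n := H.index) ?_ (Nat.dvd_of_mul_dvd_mul_left two_pos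
        (hG ▸ h24.mul_left _ : 2 * 12 ∣ _))
      exact Nat.Coprime.mul_left (m := 2 ^ 2) (n := 3) (((Nat.Prime.coprime_iff_not_dvd Nat.prime_two).mpr i2).pow_left 2)
        ((Nat.Prime.coprime_iff_not_dvd Nat.prime_three).mpr i3)
    rcases small_or_six H hH1 h12 (four h2) (three h2 h3) with h | ⟨x, y, hx, hy, hx2, hy3, h⟩
    · obtain ⟨k, hk⟩ := h12
      have h6 : k ∣ 2 := Nat.dvd_of_mul_dvd_mul_left (by norm_num : 0 < 12) (hk ▸ h)
      rcases (Nat.dvd_prime Nat.prime_two).mp h6 with rfl | rfl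
      · exact .inr (.inr (.inl (fact_eq (a := 3) (b := 1) hq2 hq3 (by rw [← hG, hk]; ring) i2 i3)))
      · exact .inr (.inr (.inr (fact_eq (a := 4) (b := 1) hq2 hq3 (by rw [← hG, hk]; ring) i2 i3)))
    · obtain ⟨s, hs⟩ := six h2 hx hy hx2 hy3 h
      by_cases h6 : Fintype.card F % 4 = 3
      · refine .inr (.inl ⟨?_, h6⟩)
        have : ¬ 3 ∣ Fintype.card F - 1 := fun h7 => by
          obtain ⟨t, ht⟩ := h4.mp h7
          have hs0 : s ≠ 0 := by rintro rfl; exact h3 (by simpa using hs)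
          exact h5.mp ⟨t / s, by field_simp; linear_combination hs + ht⟩ h6
        clear * - this hq3 h1
        omega
      · obtain ⟨i, hi⟩ := h5.mpr h6
        exact .inl ⟨h4.mpr ⟨i * s, by linear_combination 3 * hi + i * i * hs⟩, by omega⟩
  · rw [← or_assoc] at h
    rcases h with h | h
    · obtain ⟨K, hK, m, hm, h6⟩ := dihedral h2 hab
      suffices ¬ 2 ∣ m ∧ ¬ 3 ∣ m from hall_of K hK (fun e => this.1 (e.trans hm)) (fun e => this.2 (e.trans hm))
      rw [card_SL2, Nat.sq_sub_sq _ 1] at h6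
      rcases h with ⟨h7, h8⟩ | ⟨h7, h8⟩
      · obtain ⟨i, hi⟩ := h5.mpr (by omega)
        rw [card_circle₁ h2 hi.symm, Nat.card_eq_fintype_card] at h6
        have h9 : 2 * m = Fintype.card F * (Fintype.card F + 1) :=
          Nat.eq_of_mul_eq_mul_right (by omega : 0 < Fintype.card F - 1) (by linear_combination h6)
        refine ⟨fun e => ?_, fun e => ?_⟩
        · have := Nat.Coprime.dvd_of_dvd_mul_left (k := 2 ^ 2) (((Nat.Prime.coprime_iff_not_dvd Nat.prime_two).mpr hq2).pow_left 2)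
            (h9 ▸ Nat.mul_dvd_mul_left 2 e)
          omega
        · have := (Nat.prime_three.dvd_mul.mp (h9 ▸ e.mul_left 2)).resolve_left hq3
          omega
      · rw [card_circle₂ h2 (fun e => h5.mp e h8), Nat.card_eq_fintype_card] at h6
        have h9 : 2 * m = Fintype.card F * (Fintype.card F - 1) :=
          Nat.eq_of_mul_eq_mul_right (by omega : 0 < Fintype.card F + 1) (by linear_combination h6)
        refine ⟨fun e => ?_, fun e => ?_⟩
        · have := Nat.Coprime.dvd_of_dvd_mul_left (k := 2 ^ 2) (((Nat.Prime.coprime_iff_not_dvd Nat.prime_two).mpr hq2).pow_left 2)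
            (h9 ▸ Nat.mul_dvd_mul_left 2 e)
          omega
        · have := (Nat.prime_three.dvd_mul.mp (h9 ▸ e.mul_left 2)).resolve_left hq3
          omega
    · obtain ⟨K, k1, k2, k3⟩ := norm_big h2 hab
      obtain ⟨m, m1, m2, m3⟩ := fact_spec (n := Fintype.card F ^ 2 - 1)
        (by have := Nat.one_lt_pow two_ne_zero h1; omega)
      have h6 : 2 * Nat.card K = 2 ^ (Fintype.card F ^ 2 - 1).factorization 2 *
          3 ^ (Fintype.card F ^ 2 - 1).factorization 3 := by
        rcases h with h | h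
        · rw [h] at m1 ⊢
          obtain ⟨k, hk⟩ := k2
          rcases (Nat.dvd_prime Nat.prime_two).mp (Nat.dvd_of_mul_dvd_mul_left (by norm_num : 0 < 12) (hk ▸ k1 : 12 * k ∣ 12 * 2))
            with rfl | rfl
          · rw [hk]
          · rw [← K.card_mul_index, hk, m1] at hG
            have : 2 ∣ Fintype.card F * m := ⟨K.index, Nat.eq_of_mul_eq_mul_left (by norm_num : 0 < 24) (by linear_combination hG.symm)⟩
            exact absurd ((Nat.prime_two.dvd_mul.mp this).resolve_left hq2) m2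
        · rw [h] at m1 ⊢
          rw [Nat.dvd_antisymm k1 (k3 (FiniteField.isSquare_two_iff.mpr ?_))]
          have : (Fintype.card F ^ 2) % 16 = 1 := by have := Nat.one_lt_pow two_ne_zero h1; omega
          rw [Nat.pow_mod] at this
          have h7 : Fintype.card F % 16 < 16 := Nat.mod_lt _ (by norm_num)
          rw [← Nat.mod_mod_of_dvd _ (by norm_num : 8 ∣ 16)]
          interval_cases Fintype.card F % 16 <;> simp_all
      rw [← h6] at m1
      rw [← K.card_mul_index, m1] at hG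
      have h7 : K.index = Fintype.card F * m :=
        Nat.eq_of_mul_eq_mul_left (Nat.mul_pos two_pos (Nat.card_pos (α := K))) (by linear_combination hG)
      refine hall_of K (H9.burnside_pq (a := 3) (b := 1) Nat.prime_two Nat.prime_three k1) ?_ ?_
      · rw [h7, Nat.prime_two.dvd_mul]; tauto
      · rw [h7, Nat.prime_three.dvd_mul]; tauto

end Cfsg.Agent.S2537
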