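import Cfsg.Statements.S2540
import Cfsg.Agent.H6.SLc
import Cfsg.Agent.H6.Iwa

set_option autoImplicit false
open Cfsg

namespace Cfsg.Agent.S2540

open Matrix H6 H6.FTPG
open scoped commutatorElement

theorem commutator_eq_top {F : Type*} [Field F] [Fintype F] (n : ℕ) (hn : 2 ≤ n)
    (hex : ¬ (n = 2 ∧ Fintype.card F ≤ 3)) : commutator (SpecialLinearGroup (Fin n) F) = ⊤ := by
  classical
  rcases hn.eq_or_lt with rfl | h3
  · have h4 : 3 < Fintype.card F := by omega
    obtain ⟨a, ha⟩ : ∃ a : F, a ∉ ({0, 1, -1} : Finset F) := by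
      by_contra h
      push Not at h
      have := Finset.card_le_card (s := Finset.univ) fun x _ => h x
      have h5 := Finset.card_le_three (a := (0 : F)) (b := 1) (c := -1)
      rw [Finset.card_univ] at this
      omega
    simp only [Finset.mem_insert, Finset.mem_singleton, not_or] at ha
    exact SL2.commutator_eq_top ha.1 fun h => (sq_eq_one_iff.1 h).elim ha.2.1 ha.2.2
  · have : Nontrivial (Fin n) := Fin.nontrivial_iff_two_le.2 hn
    rw [eq_top_iff, ← sl_tvSub]
    refine (Subgroup.closure_le _).2 ?_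
    rintro t ⟨a, f, hf, e⟩
    have h3' : 3 ≤ Fintype.card (Fin n) := by rw [Fintype.card_fin]; omega
    by_cases ha : a = 0
    · rw [show t = 1 from Subtype.ext (by rw [ha, tv_zero_left] at e; exact e)]
      exact one_mem _
    obtain ⟨v, hv⟩ := exists_dot_one ha
    obtain ⟨b, hb, h1, h2⟩ := exists_perp2 h3' f v
    obtain ⟨g, h4, h5⟩ := exists_dot_of_ind2 (x := b) (y := a) (ind2_of_not_par hb ha fun h => by
      have := h.dot_eq_zero h2
      rw [dotProduct_comm, hv] at this
      exact one_ne_zero this)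
    rw [dotProduct_comm] at h4 h5
    have : t = ⁅slTv a g h5, slTv b f h1⁆ := by
      rw [commutatorElement_def, eq_mul_inv_iff_mul_eq, eq_mul_inv_iff_mul_eq]
      refine Subtype.ext (ext_mulVec fun w => ?_)
      change (slRho _ F t * tv b f * tv a g) *ᵥ w = (tv a g * tv b f) *ᵥ w
      simp only [e, ← mulVec_mulVec, tv_mulVec, dotProduct_add, dotProduct_smul, hf, h1, h4, h5]
      module
    rw [this]
    exact Subgroup.commutator_mem_commutator (Subgroup.mem_top _) (Subgroup.mem_top _)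

/-- Let F be a finite field and n ≥ 1, excluding the case n = 2 with #F ≤ 3. A subgroup of GL_n(F) that is normalized by every element of SL_n(F) either consists of scalar matrices or contains SL_n(F). -/
theorem result {F : Type*} [Field F] [Fintype F] (n : ℕ) (hn : 1 ≤ n) (hex : ¬ (n = 2 ∧ Fintype.card F ≤ 3)) (G : Subgroup (Matrix.GeneralLinearGroup (Fin n) F)) (hG : ∀ s : Matrix.SpecialLinearGroup (Fin n) F, ∀ g ∈ G, (Matrix.SpecialLinearGroup.toGL s) * g * (Matrix.SpecialLinearGroup.toGL s)⁻¹ ∈ G) : (∀ g ∈ G, ∃ c : F, (g : Matrix (Fin n) (Fin n) F) = c • (1 : Matrix (Fin n) (Fin n) F)) ∨ (Matrix.SpecialLinearGroup.toGL : Matrix.SpecialLinearGroup (Fin n) F →* _).range ≤ G := by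
  by_cases hs : ∀ g ∈ G, ∃ c : F, (g : Matrix (Fin n) (Fin n) F) = c • (1 : Matrix (Fin n) (Fin n) F)
  · exact Or.inl hs
  refine Or.inr ?_
  push Not at hs
  obtain ⟨g, hg, hs⟩ := hs
  obtain ⟨a, ha, hp⟩ := exists_not_par (ρ := Units.coeHom (Matrix (Fin n) (Fin n) F)) hs
  have i2 := ind2_of_not_par ha (rho_mulVec_ne_zero (ρ := Units.coeHom _) g ha) hp
  change Ind2 F a (g.1 *ᵥ a) at i2
  have h2 : 2 ≤ n := by
    by_contra h
    obtain rfl : n = 1 := by omega
    refine hs (g.1 0 0) ?_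
    ext i j
    fin_cases i; fin_cases j; simp
  have : Nontrivial (Fin n) := Fin.nontrivial_iff_two_le.2 h2
  let M : Subgroup (SpecialLinearGroup (Fin n) F) := G.comap SpecialLinearGroup.toGL
  have hM : M.Normal := ⟨fun m hm s => by
    change _ ∈ G
    rw [map_mul, map_mul, map_inv]
    exact hG s _ hm⟩
  -- a non-scalar element of `M`
  obtain ⟨m, hm, hm'⟩ : ∃ m ∈ M, ∀ c : F, slRho _ F m ≠ c • 1 := by
    obtain ⟨f, h1, h2⟩ := exists_dot_of_ind2 i2.symm
    rw [dotProduct_comm] at h1 h2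
    let s := slTv a f h2
    obtain ⟨m, hm⟩ := (sl_hr (SpecialLinearGroup.toGL s * g * (SpecialLinearGroup.toGL s)⁻¹ * g⁻¹)).1
      (by rw [map_mul, map_mul, map_mul, map_inv, map_inv, (sl_hr _).2 ⟨s, rfl⟩]; simp)
    refine ⟨m, ?_, fun c hc => ?_⟩
    · change _ ∈ G
      rw [hm]
      exact mul_mem (hG s g hg) (inv_mem hg)
    have e : SpecialLinearGroup.toGL s * g = SpecialLinearGroup.toGL m * g *
      SpecialLinearGroup.toGL s := by rw [hm]; group
    have e' := congrArg (fun x : GL (Fin n) F => x.1 *ᵥ a) e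
    change (tv a f * g.1) *ᵥ a = (slRho _ F m * g.1 * tv a f) *ᵥ a at e'
    simp only [hc, ← mulVec_mulVec, tv_mulVec, h1, h2, smul_mulVec, one_mulVec, zero_smul,
      add_zero] at e'
    simpa using (i2 1 (1 - c) (by linear_combination (norm := module) e')).1
  obtain ⟨a, ha, hp⟩ := exists_not_par hm'
  have h3 : M ⊔ tvAt (slRho _ F) a = ⊤ := by
    rw [eq_top_iff, ← sl_tvSub]
    refine (Subgroup.closure_le _).2 fun t ht => ?_
    rcases TvOr1.cases ht with e | ⟨b, f, e⟩
    · rw [show t = 1 from Subtype.ext e]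
      exact one_mem _
    have : Orb (slRho _ F) M b a := by
      refine Orb.symm ?_
      by_cases hb : Par a b
      · exact Orb.of_par hb
      obtain ⟨x, h1, h2⟩ := sl_exists_map2 (ind2_of_not_par ha (rho_mulVec_ne_zero m ha) hp)
        (ind2_of_not_par ha e.1 hb)
      have := Orb.conj (M := M) ⟨m, hm, Par.refl (slRho _ F m *ᵥ a)⟩ x
      rw [h1] at this
      exact this.trans (Orb.of_par h2)
    obtain ⟨m, hm, hp⟩ := this
    exact mem_sup_of_conj hm (conj_mem_tvAt hp ⟨f, e.2.2.1, e.2.2.2⟩)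
  have h4 := Subgroup.Normal.commutator_le_of_self_sup_commutative_eq_top h3 ⟨⟨by
    rintro ⟨s, f, hf, e⟩ ⟨t, f', hf', e'⟩
    refine Subtype.ext (Subtype.ext ?_)
    change slRho _ F s * slRho _ F t = slRho _ F t * slRho _ F s
    rw [e, e', tv_comm hf' hf]⟩⟩
  rw [commutator_eq_top n h2 hex] at h4
  rintro _ ⟨s, rfl⟩
  exact h4 (Subgroup.mem_top s)

end Cfsg.Agent.S2540
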