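import Cfsg.Statements.S2541
import Cfsg.Agent.H4.Cover

set_option autoImplicit false
open Cfsg

set_option maxRecDepth 100000

namespace Cfsg.Agent.S2541

open Cfsg.Agent.H4

/-- The fourth power of a diagonal matrix. -/
def c4 : ℕ × ℕ := (f9Ops.cg 9 4 2).mul ((f9Ops.cg 9 4 2).mul (0x1004, 0x1005) (0x1004, 0x1005))
  ((f9Ops.cg 9 4 2).mul (0x1004, 0x1005) (0x1004, 0x1005))

theorem pow_sixty (σ : Equiv.Perm (Fin 6)) : σ ^ 60 = 1 := by
  rw [← orderOf_dvd_iff_pow_eq_one, ← Equiv.Perm.lcm_cycleType, Multiset.lcm_dvd]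
  intro k hk
  have h1 := Equiv.Perm.two_le_of_mem_cycleType hk
  have h2 := (Equiv.Perm.le_card_support_of_mem_cycleType hk).trans (Finset.card_le_univ _)
  rw [Fintype.card_fin] at h2
  interval_cases k <;> norm_num


/-- Let F be a field with 9 elements. The symmetric group S_6 is not isomorphic to PGL_2(F) (although both have index-2 subgroups isomorphic to A_6). -/
theorem result {F : Type*} [Field F] [Fintype F] (hF : Fintype.card F = 9) : ¬ Nonempty (Equiv.Perm (Fin 6) ≃* Matrix.ProjGenLinGroup (Fin 2) F) := by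
  rintro ⟨e⟩
  obtain ⟨K⟩ := nonempty_f9FC hF
  obtain ⟨g, hg⟩ := K.glcg_vt 2 (0x1004, 0x1005) (by decide +kernel)
  obtain ⟨d, hd⟩ := K.glcg_vt 2 (0x1011, 0x1021) (by decide +kernel)
  have h2 := (K.glcg 2).rep_mul hg hg
  have h4 := (K.glcg 2).rep_mul h2 h2
  have h8 := (K.glcg 2).eq_one ((K.glcg 2).rep_mul h4 h4)
    (show (f9Ops.cg 9 4 2).isOne ((f9Ops.cg 9 4 2).mul c4 c4) = true by decide +kernel)
  refine (K.cg_complete 2 _ Units.coeHom_injective).not_mem_center h4 hd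
    (show (f9Ops.cg 9 4 2).comm (0x1011, 0x1021) c4 = false by decide +kernel) ?_
  have h5 : Matrix.ProjGenLinGroup.mk g ^ 60 = 1 := by
    rw [← e.apply_symm_apply (Matrix.ProjGenLinGroup.mk g), ← map_pow, pow_sixty, map_one]
  have h6 : g ^ 60 = g * g * (g * g) := by
    have h7 : g ^ 4 = g * g * (g * g) := by rw [← sq, ← sq, ← pow_mul]
    rw [← h7, ← pow_add] at h8
    rw [← h7, show 60 = (4 + 4) * 7 + 4 by norm_num, pow_add, pow_mul, h8, one_pow, one_mul]
  rwa [← map_pow, h6, Matrix.ProjGenLinGroup.mk_eq_one] at h5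

end Cfsg.Agent.S2541
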