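import Cfsg.Statements.S2543
import Cfsg.Agent.H4.L211

set_option autoImplicit false
open scoped Pointwise
open Cfsg

set_option maxRecDepth 100000

namespace Cfsg.Agent.S2543

open Cfsg.Agent.H4

open L211

/-- The standard involution. -/
def a0 : ℕ × ℕ := (0x9162, 0x2a59)

/-- A chain for a Sylow `2`-subgroup. -/
def LS : List (CG.Level (ℕ × ℕ)) :=
  [(16, [(0x9162, 0x2a59), (0x5856, 0x6365)],
     [(0, 0), (1, 1), (1, 1)])]

/-- Both `a0` and `c` are conjugated into the group given by `L`. -/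
def inConj (L : List (CG.Level (ℕ × ℕ))) (T : List (ℕ × ℕ)) (c : ℕ × ℕ) : Bool :=
  anyL T fun t => band (ok t)
    (band (N.sift (N.transOf L) (N.conj t a0)) (N.sift (N.transOf L) (N.conj t c)))

theorem check_all : N.allProd (N.transOf LG) (fun c => bimp (Nat.beq (N.ord 3 c) 3)
    (bimp (Nat.beq (N.ord 5 (N.mul a0 c)) 5) (bor (inConj LH [(0x1001, 0x1001), (0x1031, 0x1081), (0x1041, 0x1071)] c)
      (inConj LK [(0x1001, 0x1001), (0x1081, 0x1031), (0x1071, 0x1041)] c)))) N.one = true := by decide +kernel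

variable {F : Type*} [Field F] [Fintype F] (hF : Fintype.card F = 11) (K : FC F 11 4 (primeOps 11))

include hF

theorem isConj_a0 {a x : Matrix.ProjectiveSpecialLinearGroup (Fin 2) F} (ha : (M K).Rep a a0)
    (hx : orderOf x = 2) : IsConj x a := by
  obtain ⟨hv, h1, -, h2⟩ := CG.ordCheck_spec (keyed hF K) K.kpcg_uniq (vt K) (N := N) rfl (L := LS)
    (n := 4) (by decide +kernel)
  obtain ⟨g, hg⟩ := exists_conj_mem Nat.prime_two _
    (by rw [index_eq_of_card _ (b := 165) (by norm_num) h2 (card hF K)]; norm_num)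
    (x := x) (k := 1) (orderOf_dvd_iff_pow_eq_one.mp hx.dvd)
  obtain ⟨c, h3, h4⟩ := CG.forall_gen' hv h1 (N := N) rfl
    (fun c => bor (N.isOne c) (N.conjTo [(0x1001, 0x1001), (0x1081, 0x1031), (0x1262, 0x2951)] a0 c)) (by decide +kernel) _ hg
  rw [bor_eq, Bool.or_eq_true] at h4
  rcases h4 with h4 | h4
  · have h5 := (M K).eq_one h3 h4
    rw [mul_inv_eq_one, mul_eq_left] at h5
    simp [h5] at hx
  · exact (isConj_iff.mpr ⟨g, rfl⟩).trans
      (CG.isConj_of_conjTo ((vt K).valid (by decide +kernel)) h3 ha h4)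

omit hF in
theorem ord_of {G : Type*} [Group G] {C : Type} {M : CG G C} (hc : M.Complete) {g : G} {c : C}
    (hg : M.Rep g c) {n : ℕ} (hn : n ≠ 0) (h : orderOf g = n) : M.ord n c = n := by
  have key : ∀ fuel k a, M.Rep (g ^ k) a → k + fuel = n → fuel ≠ 0 → M.ordF c fuel a k ≠ 0 := by
    intro fuel
    induction fuel with
    | zero => exact fun _ _ _ _ h => absurd rfl h
    | succ fuel ih =>
      intro k a ha hk _
      have h1 : M.ordF c (fuel + 1) a k =
        ite' (M.isOne (M.mul a c)) (k + 1) (M.ordF c fuel (M.mul a c) (k + 1)) := rfl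
      rw [h1, ite'_eq]
      split_ifs with h2
      · omega
      · refine ih _ _ (by rw [pow_succ]; exact M.rep_mul ha hg) (by omega) fun h3 => h2 ?_
        rw [hc.isOne_mul_iff ha hg, ← pow_succ, show k + 1 = orderOf g by omega, pow_orderOf_eq_one]
  rw [← hc.ord_spec hg (key n 0 _ (by rw [pow_zero]; exact M.rep_one) (zero_add n) hn), h]

omit hF in
theorem exists_gens : ∃ a b : alternatingGroup (Fin 5), orderOf a = 2 ∧ orderOf b = 3 ∧
    orderOf (a * b) = 5 ∧ ∀ H : Subgroup (alternatingGroup (Fin 5)), a ∈ H → b ∈ H → H = ⊤ := by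
  obtain ⟨a, ha⟩ := acg_vt 5 3 (by norm_num) 0x44c1 (by decide +kernel)
  obtain ⟨b, hb⟩ := acg_vt 5 3 (by norm_num) 0x1710 (by decide +kernel)
  have hc := acg_complete 5 3 (by norm_num)
  refine ⟨a, b, hc.ord_eq rfl ha (fuel := 5) (by norm_num) (by decide +kernel),
    hc.ord_eq rfl hb (fuel := 5) (by norm_num) (by decide +kernel),
    hc.ord_eq rfl ((acg 5 3 _).rep_mul ha hb) (fuel := 5) (by norm_num) (by decide +kernel),
    fun H h1 h2 => ?_⟩
  rw [eq_top_iff, ← CG.gen_eq_top_of_check (acg_keyed 5 3 (by norm_num)) (acg_vt _ _ _) rfl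
    (L := [(0, [0x111a],
     [(0, 0), (0, 0), (2, 1), (0, 1)]),
   (1, [0x32a0],
     [(0, 0), (0, 0), (1, 1)]),
   (2, [0x28c8],
     [(0, 0), (0, 0)])]) (card_alt_fin 5 (by norm_num)).le (by decide +kernel)]
  refine CG.gen_le_of_slp rfl (l := [0x44c1, 0x1710]) (prog := [(0, 2), (0, 2), (0, 4), (0, 4), (1, 6), (0, 6), (0, 8), (3, 9), (0, 10), (0, 10), (0, 12), (0, 12)]) ?_ (by decide +kernel)
  intro c hc
  simp only [List.mem_cons, List.not_mem_nil, or_false] at hc
  rcases hc with rfl | rfl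
  · exact ⟨a, h1, ha⟩
  · exact ⟨b, h2, hb⟩

theorem classify (L : Subgroup (Matrix.ProjectiveSpecialLinearGroup (Fin 2) F))
    (e : L ≃* alternatingGroup (Fin 5)) : ∃ g : Matrix.ProjectiveSpecialLinearGroup (Fin 2) F,
      MulAut.conj g • L = (M K).gen (CG.gensOf LH) ∨ MulAut.conj g • L = (M K).gen (CG.gensOf LK) := by
  obtain ⟨a, b, h1, h2, h3, h4⟩ := exists_gens
  obtain ⟨x₀, hx⟩ := vt K a0 (by decide +kernel)
  rw [← e.symm.orderOf_eq, ← Subgroup.orderOf_coe] at h1 h2 h3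
  obtain ⟨g, hg⟩ := isConj_iff.mp (isConj_a0 hF K hx h1)
  have hM : (M K).triv = N.triv := rfl
  obtain ⟨c, h5, h6⟩ := CG.forall_gen' (M := M K) (L := LG) ((vt K).valid (by decide +kernel))
    (by rw [CG.ssCheck_eq hM]; decide +kernel) hM _ check_all
    (g * e.symm b * g⁻¹) (by rw [top hF K]; trivial)
  rw [bimp_iff, bimp_iff, Nat.beq_eq, Nat.beq_eq, bor_eq, Bool.or_eq_true, ← CG.mul_eq hM,
    show N.ord = (M K).ord from (congrArg CG.ord hM).symm] at h6
  have h7 := h6 (ord_of (complete hF K) h5 (by norm_num) (((MulAut.conj g).orderOf_eq _).trans h2))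
    (ord_of (complete hF K) ((M K).rep_mul hx h5) (by norm_num) (by
      rw [← hg, conj_mul, ← Subgroup.coe_mul, ← map_mul]
      exact ((MulAut.conj g).orderOf_eq _).trans h3))
  have key : ∀ L' T, (M K).Valid (CG.gensOf L') → Nat.card ((M K).gen (CG.gensOf L')) = 60 →
      inConj L' T c = true → ∃ t : Matrix.ProjectiveSpecialLinearGroup (Fin 2) F,
        MulAut.conj t • L = (M K).gen (CG.gensOf L') := by
    intro L' T hv hc h
    obtain ⟨t, -, h8⟩ := anyL_iff.mp h
    simp only [band_eq, Bool.and_eq_true] at h8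
    rw [← CG.sift_eq hM, ← CG.transOf_eq hM,
      show N.conj = (M K).conj from (congrArg CG.conj hM).symm] at h8
    obtain ⟨u, hu⟩ := vt K t h8.1
    have h9 := (M K).mem_of_sift hv ((M K).rep_conj hu hx) h8.2.1
    have h10 := (M K).mem_of_sift hv ((M K).rep_conj hu h5) h8.2.2
    have h11 := h4 ((((M K).gen (CG.gensOf L')).comap (MulAut.conj (u * g)).toMonoidHom).comap
      (L.subtype.comp e.symm.toMonoidHom)) (by
        rw [← hg] at h9
        simpa [Subgroup.mem_comap, mul_assoc] using h9)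
      (by simpa [Subgroup.mem_comap, mul_assoc] using h10)
    refine ⟨u * g, Subgroup.eq_of_le_of_card_ge ?_ ?_⟩
    · rintro _ ⟨y, hy, rfl⟩
      have h12 : e ⟨y, hy⟩ ∈ (⊤ : Subgroup _) := trivial
      rw [← h11] at h12
      simpa [Subgroup.mem_comap] using h12
    · rw [hc, card_conj_smul', Nat.card_congr e.toEquiv, card_alt_fin 5 (by norm_num)]
      norm_num [Nat.factorial]
  obtain ⟨h8, h9, -⟩ := a5_spec hF K checkH
  obtain ⟨h10, h11, -⟩ := a5_spec hF K checkK
  rcases h7 with h7 | h7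
  · exact (key _ _ h8 h9 h7).imp fun _ => Or.inl
  · exact (key _ _ h10 h11 h7).imp fun _ => Or.inr

theorem check_ne : allL (N.one :: hH.map fun c => N.mul c (0x1011, 0x10a1)) (fun u =>
    anyL [(0xa1a, 0xa1a0), (0x7a77, 0x7147), (0x46a7, 0x7514)] fun x => anyL [(0x7908, 0x8207), (0x1a66, 0x6151), (0x8532, 0x2688)] fun y =>
      band (band (band (ok x) (N.sift (N.transOf LH) x)) (band (ok y) (N.sift (N.transOf LK) y)))
        (Nat.beq (N.ord 11 (N.mul (N.conj u x) y)) 11)) = true := by decide +kernel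

theorem not_conj (g : Matrix.ProjectiveSpecialLinearGroup (Fin 2) F) :
    MulAut.conj g • (M K).gen (CG.gensOf LH) ≠ (M K).gen (CG.gensOf LK) := by
  obtain ⟨h1, -, -, g₀, h2, h3⟩ := a5_spec hF K checkH
  obtain ⟨h4, h5, -⟩ := a5_spec hF K checkK
  obtain ⟨c, hc, u, hu, h6⟩ : ∃ c ∈ N.one :: hH.map fun c => N.mul c (0x1011, 0x10a1), ∃ u, (M K).Rep u c ∧
      u⁻¹ * g ∈ (M K).gen (CG.gensOf LH) := by
    rcases h3 g with h6 | ⟨c, hc, k, -, h6, h7⟩
    · exact ⟨_, List.mem_cons_self, 1, (M K).rep_one, by simpa using h6⟩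
    · exact ⟨_, List.mem_cons_of_mem _ (List.mem_map_of_mem hc), _, (M K).rep_mul h6 h2, h7⟩
  intro h
  rw [← mul_inv_cancel_left u g, map_mul, mul_smul, conj_smul_of_mem h6] at h
  obtain ⟨x, -, h7⟩ := anyL_iff.mp (allL_iff.mp (check_ne hF) c hc)
  obtain ⟨y, -, h8⟩ := anyL_iff.mp h7
  have hM : (M K).triv = N.triv := rfl
  rw [band_eq, band_eq, Bool.and_eq_true, Bool.and_eq_true, ← CG.sift_eq hM, ← CG.transOf_eq hM] at h8
  obtain ⟨x', hx⟩ := (vt K).gen h1 x h8.1.1
  obtain ⟨y', hy⟩ := (vt K).gen h4 y h8.1.2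
  have h9 := (complete hF K).ord_eq (N := N) rfl ((M K).rep_mul ((M K).rep_conj hu hx) hy)
    (by norm_num) h8.2
  have h10 : u * x' * u⁻¹ * y' ∈ (M K).gen (CG.gensOf LK) :=
    mul_mem (by rw [← h, mem_conj_smul]; simp [mul_assoc]) y'.2
  have h11 := Subgroup.orderOf_dvd_natCard _ h10
  rw [h5] at h11
  exact absurd (h9 ▸ h11) (by norm_num)

theorem ncard_conj (H : Subgroup (Matrix.ProjectiveSpecialLinearGroup (Fin 2) F))
    (h : Nat.card H = 60) : {L | ∃ g : Matrix.ProjectiveSpecialLinearGroup (Fin 2) F, MulAut.conj g • H = L}.ncard = 11 := by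
  obtain ⟨K⟩ := nonempty_primeFC (by norm_num) 4 (by norm_num) hF
  have : IsSimpleGroup (Matrix.ProjectiveSpecialLinearGroup (Fin 2) F) :=
    Matrix.ProjectiveSpecialLinearGroup.rank_two_simple (by rw [Nat.card_eq_fintype_card, hF]; norm_num)
  have h1 := index_eq_of_card H (b := 11) (by norm_num) h (card hF K)
  rw [ncard_conj_subgroup, normalizer_eq_self_of_prime_index H (by rw [h1]; norm_num)
    (by rintro rfl; simp at h), h1]

omit hF K


/-- Let F be a field with 11 elements. PSL_2(F) has exactly 22 subgroups isomorphic to the alternating group A_5, and they form two conjugacy classes: there are two such subgroups that are not conjugate, and every such subgroup is conjugate to one of these two. -/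
theorem result {F : Type*} [Field F] [Fintype F] (hF : Fintype.card F = 11) : Nat.card {H : Subgroup (Matrix.ProjectiveSpecialLinearGroup (Fin 2) F) // Nonempty (H ≃* alternatingGroup (Fin 5))} = 22 ∧ ∃ H K : Subgroup (Matrix.ProjectiveSpecialLinearGroup (Fin 2) F), Nonempty (H ≃* alternatingGroup (Fin 5)) ∧ Nonempty (K ≃* alternatingGroup (Fin 5)) ∧ (∀ g : Matrix.ProjectiveSpecialLinearGroup (Fin 2) F, MulAut.conj g • H ≠ K) ∧ ∀ L : Subgroup (Matrix.ProjectiveSpecialLinearGroup (Fin 2) F), Nonempty (L ≃* alternatingGroup (Fin 5)) → ∃ g : Matrix.ProjectiveSpecialLinearGroup (Fin 2) F, MulAut.conj g • L = H ∨ MulAut.conj g • L = K := by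
  obtain ⟨K⟩ := nonempty_primeFC (by norm_num) 4 (by norm_num) hF
  obtain ⟨-, h1, ⟨e1⟩, -⟩ := a5_spec hF K checkH
  obtain ⟨-, h2, ⟨e2⟩, -⟩ := a5_spec hF K checkK
  refine ⟨?_, _, _, ⟨e1⟩, ⟨e2⟩, not_conj hF K, fun L ⟨e⟩ => classify hF K L e⟩
  have h3 : {H : Subgroup (Matrix.ProjectiveSpecialLinearGroup (Fin 2) F) |
      Nonempty (H ≃* alternatingGroup (Fin 5))} =
      {L | ∃ g : Matrix.ProjectiveSpecialLinearGroup (Fin 2) F,
          MulAut.conj g • (M K).gen (CG.gensOf LH) = L} ∪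
        {L | ∃ g : Matrix.ProjectiveSpecialLinearGroup (Fin 2) F,
          MulAut.conj g • (M K).gen (CG.gensOf LK) = L} := by
    ext L
    constructor
    · rintro ⟨e⟩
      obtain ⟨g, h | h⟩ := classify hF K L e
      · exact Or.inl ⟨g⁻¹, by rw [← h, map_inv, inv_smul_smul]⟩
      · exact Or.inr ⟨g⁻¹, by rw [← h, map_inv, inv_smul_smul]⟩
    · rintro (⟨g, rfl⟩ | ⟨g, rfl⟩)
      · exact ⟨(Subgroup.equivSMul _ _).symm.trans e1⟩
      · exact ⟨(Subgroup.equivSMul _ _).symm.trans e2⟩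
  show Set.ncard {H : Subgroup (Matrix.ProjectiveSpecialLinearGroup (Fin 2) F) |
      Nonempty (H ≃* alternatingGroup (Fin 5))} = 22
  rw [h3, Set.ncard_union_eq, ncard_conj hF _ h1, ncard_conj hF _ h2]
  refine Set.disjoint_left.mpr ?_
  rintro _ ⟨g, rfl⟩ ⟨g', h⟩
  exact not_conj hF K (g'⁻¹ * g) (by rw [map_mul, mul_smul, ← h, map_inv, inv_smul_smul])

end Cfsg.Agent.S2543
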