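import Cfsg.Statements.S2545
import Cfsg.Agent.H9.StHerm

set_option autoImplicit false
open Cfsg

namespace Cfsg.Agent.S2545

/-- Let F be a finite field of characteristic p and consider the projective symplectic group PSp_{2m}(F) with m ≥ 1. This group has an irreducible complex character χ whose degree equals the order of a Sylow p-subgroup (namely q^(m²) when #F = q) and whose restriction to any Sylow p-subgroup P is the regular character of P: χ vanishes on the non-identity elements of P. (This is the Steinberg character.) -/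
theorem result {F : Type*} [Field F] [Fintype F] (p : ℕ) [Fact p.Prime] [CharP F p] (m : ℕ) (hm : 1 ≤ m) : ∃ χ : Cfsg.PSp m F → ℂ, Cfsg.IsIrrCharacter (Cfsg.PSp m F) χ ∧ ∀ P : Sylow p (Cfsg.PSp m F), χ 1 = Nat.card P ∧ ∀ x : Cfsg.PSp m F, x ∈ P → x ≠ 1 → χ x = 0 := by
  haveI : FaithfulSMul (Matrix.symplecticGroup (Fin m) F) (Fin m ⊕ Fin m → F) :=
    ⟨fun h => Subtype.ext (Matrix.ext_iff_mulVec.2 h)⟩
  let B : (Fin m ⊕ Fin m → F) →ₗ[F] (Fin m ⊕ Fin m → F) →ₗ[F] F := Matrix.toLinearMap₂' F (Matrix.J (Fin m) F)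
  have hB (x y) : B x y = x ⬝ᵥ (Matrix.J (Fin m) F).mulVec y := Matrix.toLinearMap₂'_apply' ..
  have e (A : Matrix (Fin m ⊕ Fin m) (Fin m ⊕ Fin m) F) (x y) : B (A.mulVec x) (A.mulVec y) =
      x ⬝ᵥ (A.transpose * Matrix.J (Fin m) F * A).mulVec y := by
    simp only [hB, ← Matrix.mulVec_mulVec, Matrix.dotProduct_mulVec x, Matrix.vecMul_transpose]
  refine H9.St.hasSt_herm (p := p) B (-1) (fun x y => ?_) (by simp) (H9.St.surj_of_nd fun x h => ?_)
    (fun w => ⟨0, ?_⟩) ⟨1, by simp⟩ (fun g x y => ?_) fun g h _ => ⟨⟨LinearMap.toMatrix' g, ?_⟩,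
      fun z => LinearMap.toMatrix'_mulVec ..⟩
  · simp [hB, Matrix.J, Matrix.fromBlocks_mulVec, dotProduct, mul_comm, Matrix.neg_mulVec]
  · funext i
    rcases i with i | i
    · simpa [hB, Matrix.J, Matrix.fromBlocks_mulVec, dotProduct, Matrix.one_apply] using
        h (Pi.single (.inr i) 1)
    · simpa [hB, Matrix.J, Matrix.fromBlocks_mulVec, dotProduct, Matrix.one_apply] using
        h (Pi.single (.inl i) 1)
  · simp [hB, Matrix.J, Matrix.fromBlocks_mulVec, dotProduct, mul_comm, Matrix.neg_mulVec]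
  · exact (e g x y).trans (by rw [SymplecticGroup.mem_iff'.1 g.2, hB])
  · refine SymplecticGroup.mem_iff'.2 (Matrix.ext fun i j => ?_)
    have := e (LinearMap.toMatrix' g) (Pi.single i 1) (Pi.single j 1)
    rw [LinearMap.toMatrix'_mulVec, LinearMap.toMatrix'_mulVec, h, hB] at this
    simpa using this.symm

end Cfsg.Agent.S2545
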