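import Cfsg.Statements.S2546
import Cfsg.Agent.H9.StHerm
import Cfsg.Agent.H6.Lang
import Cfsg.Agent.H6.Unitary

set_option autoImplicit false
open Cfsg

namespace Cfsg.Agent.S2546

/-- Let F be a finite field of characteristic p and consider the projective special unitary group PSU_n(q), n ≥ 2, realised over the field F with q² elements. This group has an irreducible complex character χ whose degree equals the order of a Sylow p-subgroup (namely q^(n(n−1)/2)) and whose restriction to any Sylow p-subgroup P is the regular character of P: χ vanishes on the non-identity elements of P. (This is the Steinberg character.) -/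
theorem result {F : Type*} [Field F] [Fintype F] (p : ℕ) [Fact p.Prime] [CharP F p] (n q : ℕ) (hn : 2 ≤ n) (hF : Fintype.card F = q ^ 2) : ∃ χ : Cfsg.PSU n F q → ℂ, Cfsg.IsIrrCharacter (Cfsg.PSU n F q) χ ∧ ∀ P : Sylow p (Cfsg.PSU n F q), χ 1 = Nat.card P ∧ ∀ x : Cfsg.PSU n F q, x ∈ P → x ≠ 1 → χ x = 0 := by
  haveI : FaithfulSMul (Cfsg.SU n F q) (Fin n → F) :=
    ⟨fun h => Subtype.ext (Subtype.ext (Matrix.ext_iff_mulVec.2 h))⟩
  obtain ⟨τ, h1, h2⟩ := H6.exists_conj_aut hF
  let B : (Fin n → F) →ₛₗ[(τ : F →+* F)] (Fin n → F) →ₗ[F] F :=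
    LinearMap.mk₂'ₛₗ _ _ (fun x y => H6.hf τ y x) (fun _ _ _ => H6.hf_add_right ..)
      (fun _ _ _ => H6.hf_smul_right ..) (fun _ _ _ => H6.hf_add_left ..)
      fun _ _ _ => H6.hf_smul_left ..
  have hB (x y) : B x y = hermForm n F q y x := (H6.hermForm_eq_sf h2 y x).symm
  refine H9.St.hasSt_herm (p := p) B 1 (fun x y => ?_) (by simp) (H9.St.surj_of_nd fun x h => ?_)
    (fun w => ?_) (by simpa using H6.exists_trace_zero h1) (fun g x y => ?_) fun g h e =>
      ⟨⟨⟨LinearMap.toMatrix' g, ?_⟩, fun x y => ?_⟩, fun z => LinearMap.toMatrix'_mulVec ..⟩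
  · exact (H6.hf_conj h1 y x).symm.trans (one_mul _).symm
  · exact H6.sf_nondeg_right (A := 1) (by simp) h
  · exact (H6.exists_trace_eq h1 (H6.hf_conj h1 w w)).imp fun c e => by rw [one_mul]; exact e
  · rw [hB, hB]; exact g.2 y x
  · have := (-(g - 1)).eval_charpoly 1
    rw [e.neg.charpoly_eq_X_pow_finrank] at this
    simpa using this.symm
  · change hermForm n F q ((LinearMap.toMatrix' g).mulVec x) ((LinearMap.toMatrix' g).mulVec y) = _
    rw [LinearMap.toMatrix'_mulVec, LinearMap.toMatrix'_mulVec, ← hB, ← hB, h]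

end Cfsg.Agent.S2546
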