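import Cfsg.Statements.S2548
import Cfsg.Agent.H9.StExc
import Cfsg.Agent.H7.Classify

set_option autoImplicit false
open Cfsg

namespace Cfsg.Agent.S2548

/-- the relation of lying in the same anisotropic plane -/
def R {K : Type*} [Field K] (u v : Fin 2 ⊕ Fin 2 → K) : Prop :=
  u = v ∨ quadFormPlus 2 K (u + v) - quadFormPlus 2 K u - quadFormPlus 2 K v ≠ 0

instance instDecR : DecidableRel (R (K := ZMod 2)) := fun _ _ => by unfold R; infer_instance

local notation "q₂" => quadFormPlus 2 (ZMod 2)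

theorem f0 : ∀ x : ZMod 2, x ≠ 0 → x = 1 := by decide

theorem f1 : ∀ u v w, q₂ u ≠ 0 → q₂ v ≠ 0 → q₂ w ≠ 0 → (R u w ↔ (R u v ↔ R v w)) := by
  decide +kernel

set_option synthInstance.maxSize 1000 in
theorem f2 : ∀ u v w, q₂ u ≠ 0 → q₂ v ≠ 0 → q₂ w ≠ 0 → R u v → R u w → u ≠ v → u ≠ w →
    w = v ∨ w = v - u := by
  decide +kernel

theorem f3 : ∀ u, q₂ u ≠ 0 → ∃ v w, q₂ v ≠ 0 ∧ q₂ w ≠ 0 ∧ R u v ∧ u ≠ v ∧ ¬ R u w := by
  decide +kernel

theorem f4 : ∀ u, ∃ v w, q₂ v ≠ 0 ∧ (q₂ w ≠ 0 ∨ w = 0) ∧ u = v + w := by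
  decide +kernel

/-- Let F be a finite field of characteristic p and consider the group PΩ⁺_{2m}(F) of the hyperbolic quadratic form Σ x_i y_i with m ≥ 1, where Ω denotes the commutator subgroup of the full isometry group. This group has an irreducible complex character χ whose degree equals the order of a Sylow p-subgroup (equal to q^(m(m−1)) when #F = q, except in the degenerate case m = 2, q = 2, where this commutator subgroup has order 18 and its Sylow 2-subgroups have order 2) and whose restriction to any Sylow p-subgroup P is the regular character of P: χ vanishes on the non-identity elements of P. (This is the Steinberg character.) -/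
theorem result {F : Type*} [Field F] [Fintype F] (p : ℕ) [Fact p.Prime] [CharP F p] (m : ℕ) (hm : 1 ≤ m) : ∃ χ : Cfsg.POmega F (Cfsg.quadFormPlus m F) → ℂ, Cfsg.IsIrrCharacter (Cfsg.POmega F (Cfsg.quadFormPlus m F)) χ ∧ ∀ P : Sylow p (Cfsg.POmega F (Cfsg.quadFormPlus m F)), χ 1 = Nat.card P ∧ ∀ x : Cfsg.POmega F (Cfsg.quadFormPlus m F), x ∈ P → x ≠ 1 → χ x = 0 := by
  by_cases h : Fintype.card F ≠ 2 ∨ m ≠ 2
  · exact H9.St.hasSt_omega (H7.nd_QP m) (H7.nonExc_QP h)
  push Not at h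
  obtain ⟨h, rfl⟩ := h
  let e := ZMod.ringEquivOfPrime F Nat.prime_two h
  obtain rfl : p = 2 := CharP.eq F ‹_› (charP_of_injective_ringHom e.toRingHom.injective 2)
  let E : (Fin 2 ⊕ Fin 2 → ZMod 2) ≃+ (Fin 2 ⊕ Fin 2 → F) := .piCongrRight fun _ => e.toAddEquiv
  have e1 (v) : quadFormPlus 2 F (E v) = e (q₂ v) := by simp [quadFormPlus, E]
  have e2 (v) : H7.QP F 2 (E v) ≠ 0 ↔ q₂ v ≠ 0 := by rw [← e.map_ne_zero_iff, ← e1]; rfl
  have e3 (u v) : R (E u) (E v) ↔ R u v := by
    simp only [R, ← map_add, e1, ← map_sub, e.map_ne_zero_iff, E.injective.eq_iff]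
  refine H9.St.hasSt_exc' (H7.nd_QP 2) R (fun _ _ => .rfl) (fun x => ?_) ?_ ?_ ?_ ?_
  · obtain ⟨x, rfl⟩ := e.surjective x
    rw [e.map_ne_zero_iff, e.map_eq_one_iff]
    exact f0 x
  · refine E.surjective.forall₃.2 ?_
    simpa only [e2, e3] using f1
  · refine E.surjective.forall₃.2 ?_
    simpa only [e2, e3, ← map_sub, E.injective.eq_iff, E.injective.ne_iff] using f2
  · refine E.surjective.forall.2 fun u hu => E.surjective.exists₂.2 ?_
    simpa only [e2, e3, E.injective.ne_iff] using f3 u ((e2 u).1 hu)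
  · refine E.surjective.forall.2 fun u => E.surjective.exists₂.2 ?_
    simpa only [e2, ← map_add, E.injective.eq_iff, E.map_eq_zero_iff] using f4 u

end Cfsg.Agent.S2548
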