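import Cfsg.Statements.S2550
import Cfsg.Agent.H4.L34

set_option autoImplicit false
open Cfsg

set_option maxRecDepth 100000

namespace Cfsg.Agent.S2550

open Cfsg.Agent.H4

theorem exists_three {F : Type*} [Field F] [Fintype F] (hF : Fintype.card F = 2)
    (E : FC F 2 1 f2Ops) (c : ℕ × ℕ) (h : band (f2Ops.okGL 2 1 4 c)
      (Nat.beq ((f2Ops.kpcg 2 1 4 [1]).ord 3 c) 3) = true) :
    ∃ g : Matrix.SpecialLinearGroup (Fin 4) F, E.RepM g.1 c.1 ∧
      orderOf (g : Matrix.ProjectiveSpecialLinearGroup (Fin 4) F) = 3 := by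
  rw [band_eq, Bool.and_eq_true] at h
  obtain ⟨g, hg⟩ := E.exists_sl h.1 (by
    have h3 := Matrix.isUnit_det_of_right_inverse (E.okGL_spec h.1).2.2
    have h4 := FiniteField.pow_card_sub_one_eq_one _ h3.ne_zero
    rwa [hF, pow_one] at h4)
  exact ⟨g, hg.1, (E.kpcg_complete (E.cen_sl hF 4 (l := [1]) (by decide +kernel))).ord_eq
    (N := f2Ops.kpcg 2 1 4 [1]) rfl (E.kpcg_rep hg) (by norm_num) h.2⟩


/-- Let F be a field with 2 elements and K a field with 4 elements. PSL_4(F) and PSL_3(K) have the same order (20160) but are not isomorphic. -/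
theorem result {F K : Type*} [Field F] [Fintype F] [Field K] [Fintype K] (hF : Fintype.card F = 2) (hK : Fintype.card K = 4) : Nat.card (Matrix.ProjectiveSpecialLinearGroup (Fin 4) F) = Nat.card (Matrix.ProjectiveSpecialLinearGroup (Fin 3) K) ∧ ¬ Nonempty (Matrix.ProjectiveSpecialLinearGroup (Fin 4) F ≃* Matrix.ProjectiveSpecialLinearGroup (Fin 3) K) := by
  obtain ⟨E⟩ := nonempty_f2FC hF
  have hc := FC.Cen.card_center E (FC.slHom_injective 4 F)
    (E.cen_sl hF 4 (l := [1]) (by decide +kernel)) (by decide +kernel)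
  refine ⟨?_, fun ⟨e⟩ => ?_⟩
  · have h1 := card_SL_of 4 F (N := 20160) hF (by decide)
    have h2 := card_SL_eq_PSL_mul 4 F
    rw [hc] at h2
    rw [card_L34 hK, ← h1, h2]
    exact (mul_one _).symm
  · obtain ⟨a, h2⟩ := exists_order_three_L34 hK
    obtain ⟨x, hx, h3⟩ := exists_three hF E (0x8432, 0x8413) (by decide +kernel)
    obtain ⟨y, hy, h4⟩ := exists_three hF E (0xc832, 0x4c13) (by decide +kernel)
    obtain ⟨t, ht⟩ := isConj_iff.mp
      ((h2 _ ((e.orderOf_eq _).trans h3)).trans (h2 _ ((e.orderOf_eq _).trans h4)).symm)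
    obtain ⟨t, rfl⟩ := e.surjective t
    rw [← map_mul, ← map_inv, ← map_mul, e.apply_eq_iff_eq] at ht
    induction t using QuotientGroup.induction_on with
    | H t =>
    have h5 : (t * x * t⁻¹)⁻¹ * y ∈ Subgroup.center _ := QuotientGroup.eq.mp ht
    rw [Subgroup.card_eq_one.mp hc, Subgroup.mem_bot, inv_mul_eq_one] at h5
    have h6 : y.1.trace = x.1.trace := by
      rw [← h5, Matrix.SpecialLinearGroup.coe_mul, Matrix.trace_mul_comm,
        ← Matrix.SpecialLinearGroup.coe_mul, inv_mul_cancel_left]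
    simp only [Matrix.trace, Matrix.diag, Fin.sum_univ_four] at h6
    rw [(hx 0 0).2, (hx 1 1).2, (hx 2 2).2, (hx 3 3).2, (hy 0 0).2, (hy 1 1).2, (hy 2 2).2,
      (hy 3 3).2] at h6
    have h7 : E.val 0 + E.val 1 + E.val 0 + E.val 1 = E.val 0 + E.val 1 + E.val 1 + E.val 1 := h6
    simp [E.val_zero, E.val_one] at h7

end Cfsg.Agent.S2550
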