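import Cfsg.Statements.S2551
import Cfsg.Agent.H4.Vec

set_option autoImplicit false
open Cfsg

set_option maxRecDepth 100000

namespace Cfsg.Agent.S2551

open Cfsg.Agent.H4 MulAction Equiv


/-- Generators of a point stabiliser. -/
def gens : List ((ℕ × ℕ) × ℕ) := [((0x39c4, 0x31f7), 0xf95063), ((0x89f3, 0x8bdc), 0xef4a11)]

/-- The orbit of a pair of vectors. -/
def pairs : List (ℕ × ℕ) :=
  CG.orbL (f2Ops.cg 2 1 4).one (fun c d => (f2Ops.mvec 1 4 c.1 d.1, f2Ops.mvec 1 4 c.1 d.2)) (1, 2)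
    (gens.map Prod.fst) [(0, 0), (1, 1), (0, 1), (1, 2), (0, 2), (1, 3), (0, 3), (1, 4), (0, 4), (1, 5), (1, 5), (0, 5), (1, 5), (0, 5), (1, 6), (0, 6), (1, 7), (0, 6), (1, 7), (0, 7), (1, 8), (0, 8), (1, 9), (0, 9), (1, 10), (0, 10), (0, 10), (1, 11), (0, 11), (1, 12), (0, 12), (1, 13), (0, 13), (0, 13), (1, 14), (0, 14), (1, 15), (0, 15), (1, 16), (0, 16), (1, 16), (0, 16), (1, 17), (0, 17), (1, 18), (1, 18), (0, 18), (1, 19), (0, 19), (0, 19), (0, 19), (1, 20), (1, 20), (0, 20), (1, 21), (1, 21), (0, 21), (1, 22), (0, 22), (1, 23), (0, 23), (0, 23), (1, 24), (0, 24), (1, 25), (0, 25), (1, 26), (0, 26), (0, 26), (0, 26), (0, 26), (1, 27), (0, 27), (1, 28), (0, 28), (0, 28), (1, 29), (0, 29), (0, 29), (1, 30), (1, 30), (1, 30), (0, 30), (1, 31), (0, 31), (1, 31), (0, 31), (1, 32), (0, 32), (0, 32), (1, 33), (0, 33), (0, 33), (1, 34), (1, 34), (0, 34), (1, 35), (1, 35), (0, 35), (0, 35), (1, 34), (0, 34), (1, 35), (0, 35), (1,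 36), (0, 36), (1, 37), (0, 37), (1, 38), (0, 37), (1, 38), (0, 37), (0, 37), (1, 38), (0, 38), (1, 39), (0, 39), (1, 37), (1, 37), (0, 37), (1, 38), (0, 38), (1, 39), (0, 39), (0, 39), (1, 40), (0, 40), (1, 41), (0, 41), (1, 42), (0, 41), (1, 42), (0, 42), (1, 43), (0, 43), (1, 44), (1, 44), (0, 43), (1, 44), (0, 43), (1, 44), (0, 44), (0, 44), (1, 45), (0, 45), (0, 45), (1, 45), (0, 45), (1, 46), (0, 45), (1, 46), (0, 46), (1, 47), (0, 46), (0, 46), (0, 46), (1, 47), (0, 47), (0, 47), (0, 47), (1, 47), (0, 47), (1, 48), (1, 48), (0, 46), (0, 46), (0, 44), (1, 45), (0, 45), (1, 46), (1, 46), (0, 46), (0, 46), (1, 47), (0, 47), (1, 48), (0, 48), (0, 48), (1, 49), (1, 49), (1, 49), (0, 49), (1, 50), (1, 49), (0, 47), (1, 47), (1, 46), (0, 46), (1, 47), (1, 47), (0, 46), (1, 43), (1, 42), (1, 42), (0, 42), (0, 42), (1, 42), (1, 42), (1, 40), (0, 40), (0, 37), (0, 28), (0, 18), (1, 18), (0, 18), (1, 12), (0, 12), (0, 11), (0, 2)]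 [(1, 2)]

theorem check : allLt 16 (fun a => allLt 16 fun b => bor (Nat.beq a 0) (bor (Nat.beq b 0)
    (bor (Nat.beq a b) (anyL pairs fun d => band (Nat.beq d.1 a) (Nat.beq d.2 b))))) = true := by
  decide +kernel

theorem check' : allL gens (fun c => band (f2Ops.okGL 2 1 4 c.1) (band (isEven 8 3 c.2)
    (band (gl42Pair c) (Nat.beq (img 3 c.2 7) 7)))) = true := by decide +kernel

theorem card_stab (x : Fin 8) : Nat.card (stabilizer (alternatingGroup (Fin 8)) x) = 2520 := by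
  have := alternatingGroup.isPretransitive_of_three_le_card (Fin 8) (by simp)
  have h1 := (stabilizer (alternatingGroup (Fin 8)) x).index_mul_card
  rw [index_stabilizer_of_transitive, card_A8, Nat.card_eq_fintype_card, Fintype.card_fin] at h1
  omega

theorem eq_stab (H : Subgroup (alternatingGroup (Fin 8))) (e : H ≃* alternatingGroup (Fin 7)) :
    ∃ x : Fin 8, H = stabilizer (alternatingGroup (Fin 8)) x := by
  have hc : Nat.card H = 2520 := (Nat.card_congr e.toEquiv).trans (card_alt_fin 7 (by norm_num))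
  have : IsSimpleGroup (alternatingGroup (Fin 7)) := alternatingGroup.isSimpleGroup (by simp)
  have : IsSimpleGroup H := e.isSimpleGroup
  suffices ∃ x : Fin 8, ∀ g : H, g • x = x by
    obtain ⟨x, hx⟩ := this
    exact ⟨x, Subgroup.eq_of_le_of_card_ge (fun g hg => hx ⟨g, hg⟩) (by rw [hc, card_stab])⟩
  have h1 : ∀ x : Fin 8, (orbit H x).ncard ≠ 8 := fun x h => by
    have h0 : IsPretransitive H (Fin 8) := (isPretransitive_iff_orbit_eq_univ x).mpr
        ((Set.eq_univ_iff_ncard _).mpr (by simpa using h))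
    have : IsPretransitive (H.map (alternatingGroup (Fin 8)).subtype) (Fin 8) := ⟨fun a b => by
      obtain ⟨g, hg⟩ := h0.exists_smul_eq a b
      exact ⟨⟨g.1.1, Subgroup.mem_map_of_mem _ g.2⟩, hg⟩⟩
    have := Fact.mk (show Nat.Prime 5 by norm_num)
    obtain ⟨b, hb⟩ := exists_prime_orderOf_dvd_card' (G := H) 5 (by rw [hc]; norm_num)
    have h10 := (isMultiplyPretransitive_of_prime (m := 2) (by norm_num) (by norm_num) rfl
      (H.map (alternatingGroup (Fin 8)).subtype) (g := b.1.1)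
      (by rw [Subgroup.orderOf_coe, Subgroup.orderOf_coe, hb])
      (Subgroup.mem_map_of_mem _ b.2)).index_of_fixingSubgroup_mul (s := {0, 1, 2, 3}) (by
          rw [Set.ncard_eq_toFinset_card']; decide)
    have h11 := Subgroup.index_dvd_card (fixingSubgroup (H.map (alternatingGroup (Fin 8)).subtype)
      ({0, 1, 2, 3} : Set (Fin 8)))
    rw [Subgroup.card_map_of_injective Subtype.val_injective, hc] at h11
    simp [Nat.factorial] at h10
    rw [show (fixingSubgroup (H.map (alternatingGroup (Fin 8)).subtype)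
      ({0, 1, 2, 3} : Set (Fin 8))).index = 1680 by omega] at h11
    norm_num at h11
  have h2 : ∀ x : Fin 8, (orbit H x).ncard = 1 ∨ (orbit H x).ncard = 7 := fun x => by
    have h3 := Set.ncard_le_card (orbit H x)
    have h4 := card_dvd_factorial_of_simple (K := stabilizer H x)
    have h5 := h1 x
    rw [index_stabilizer, hc] at h4
    simp at h3
    generalize (orbit H x).ncard = m at *
    interval_cases m <;> simp_all [Nat.factorial]
  have h3 : ∀ x : Fin 8, (orbit H x).ncard = 1 → ∀ g : H, g • x = x := fun x hx g => by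
    rw [← index_stabilizer, Subgroup.index_eq_one] at hx
    exact (hx ▸ Subgroup.mem_top g : g ∈ stabilizer H x)
  rcases h2 0 with h4 | h4
  · exact ⟨0, h3 0 h4⟩
  obtain ⟨y, hy⟩ : ∃ y, y ∉ orbit H (0 : Fin 8) := by
    by_contra! h
    exact h1 0 (by rw [Set.eq_univ_of_forall h]; simp)
  refine ⟨y, h3 y ((h2 y).resolve_right fun h5 => ?_)⟩
  have h6 : Disjoint (orbit H y) (orbit H (0 : Fin 8)) := Set.disjoint_left.mpr fun z hz hz' =>
    hy (by rw [← orbit_eq_iff.mpr hz', orbit_eq_iff.mpr hz]; exact mem_orbit_self y)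
  have h7 := Set.ncard_le_card (orbit H y ∪ orbit H (0 : Fin 8))
  rw [Set.ncard_union_eq h6, h4, h5] at h7
  simp at h7


/-- Let F be the field with 2 elements. GL_4(F) (≅ A_8) has a subgroup isomorphic to the alternating group A_7, and every such subgroup acts 2-transitively on the 15 non-zero vectors of F⁴: any ordered pair of distinct non-zero vectors is carried to any other by some element of the subgroup. -/
theorem result {F : Type*} [Field F] [Fintype F] (hF : Fintype.card F = 2) : (∃ H : Subgroup (Matrix.GeneralLinearGroup (Fin 4) F), Nonempty (H ≃* alternatingGroup (Fin 7))) ∧ ∀ H : Subgroup (Matrix.GeneralLinearGroup (Fin 4) F), Nonempty (H ≃* alternatingGroup (Fin 7)) → ∀ v w v' w' : Fin 4 → F, v ≠ 0 → w ≠ 0 → v ≠ w → v' ≠ 0 → w' ≠ 0 → v' ≠ w' → ∃ g ∈ H, (g : Matrix (Fin 4) (Fin 4) F).mulVec v = v' ∧ (g : Matrix (Fin 4) (Fin 4) F).mulVec w = w' := by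
  obtain ⟨K⟩ := nonempty_f2FC hF
  obtain ⟨e, he⟩ := exists_gl42_equiv hF K
  have : IsSimpleGroup (alternatingGroup (Fin 8)) := alternatingGroup.isSimpleGroup (by simp)
  have := alternatingGroup.isPretransitive_of_three_le_card (Fin 8) (by simp)
  refine ⟨?_, ?_⟩
  · obtain ⟨e'⟩ := equiv_alt_of_index (stabilizer (alternatingGroup (Fin 8)) (0 : Fin 8)) (n := 7)
      (by norm_num) (by rw [index_stabilizer_of_transitive]; simp) (card_stab 0)
    exact ⟨_, ⟨(e.symm.subgroupMap _).symm.trans e'⟩⟩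
  let S := (stabilizer (alternatingGroup (Fin 8)) (7 : Fin 8)).comap e.toMonoidHom
  have h1 : (K.glcg 4).In S (gens.map Prod.fst) := by
    intro c hc
    obtain ⟨c, hc', rfl⟩ := List.mem_map.mp hc
    have h2 := allL_iff.mp check' c hc'
    simp only [band_eq, Bool.and_eq_true, Nat.beq_eq] at h2
    obtain ⟨g, hg⟩ := K.glcg_vt 4 _ h2.1
    obtain ⟨k, hk⟩ := acg_vt 8 3 (by norm_num) _ h2.2.1
    refine ⟨g, ?_, hg⟩
    show e g • (7 : Fin 8) = 7
    rw [he g k c hg hk h2.2.2.1]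
    exact Fin.ext ((hk 7).trans h2.2.2.2)
  have h2 : ∀ d ∈ pairs, ∃ g ∈ S, K.RepV ((g : Matrix (Fin 4) (Fin 4) F).mulVec (K.vecOf 4 1)) d.1 ∧
      K.RepV ((g : Matrix (Fin 4) (Fin 4) F).mulVec (K.vecOf 4 2)) d.2 := by
    have h0 : ∃ g ∈ S, K.RepV ((g : Matrix (Fin 4) (Fin 4) F).mulVec (K.vecOf 4 1)) 1 ∧
        K.RepV ((g : Matrix (Fin 4) (Fin 4) F).mulVec (K.vecOf 4 2)) 2 :=
      ⟨1, S.one_mem, by simpa using K.repV_vecOf (by decide), by simpa using K.repV_vecOf (by decide)⟩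
    refine (K.glcg 4).orbL_spec (K := S) _ (fun d : ℕ × ℕ => ∃ g ∈ S,
      K.RepV ((g : Matrix (Fin 4) (Fin 4) F).mulVec (K.vecOf 4 1)) d.1 ∧
      K.RepV ((g : Matrix (Fin 4) (Fin 4) F).mulVec (K.vecOf 4 2)) d.2) ?_ h0 h1 _ (by simpa using h0)
    rintro g hg c hc d ⟨k, hk, h3, h4⟩
    refine ⟨g * k, S.mul_mem hg hk, ?_, ?_⟩ <;> rw [Units.val_mul, ← Matrix.mulVec_mulVec]
    · exact hc.1.mulVec h3
    · exact hc.1.mulVec h4
  have h3 : ∀ v w : Fin 4 → F, v ≠ 0 → w ≠ 0 → v ≠ w → ∃ g ∈ S,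
      (g : Matrix (Fin 4) (Fin 4) F).mulVec (K.vecOf 4 1) = v ∧
      (g : Matrix (Fin 4) (Fin 4) F).mulVec (K.vecOf 4 2) = w := by
    intro v w hv hw hvw
    obtain ⟨a, ha, h4⟩ := exists_repV K hF v
    obtain ⟨b, hb, h5⟩ := exists_repV K hF w
    have h6 := allLt_iff.mp (allLt_iff.mp check a ha) b hb
    have h0 : K.RepV (0 : Fin 4 → F) 0 := fun i => by
      have : img 1 0 i = 0 := by simp [img]
      rw [this]; exact ⟨two_pos, K.val_zero.symm⟩
    simp only [bor_eq, band_eq, Bool.or_eq_true, Nat.beq_eq, anyL_iff, Bool.and_eq_true] at h6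
    rcases h6 with rfl | rfl | rfl | ⟨d, hd, rfl, rfl⟩
    · exact absurd (h4.unique h0) hv
    · exact absurd (h5.unique h0) hw
    · exact absurd (h4.unique h5) hvw
    · obtain ⟨g, hg, h7, h8⟩ := h2 d hd
      exact ⟨g, hg, h7.unique h4, h8.unique h5⟩
  rintro H ⟨eH⟩ v w v' w' hv hw hvw hv' hw' hvw'
  obtain ⟨x, hx⟩ := eq_stab (H.map e.toMonoidHom) ((e.subgroupMap H).symm.trans eH)
  obtain ⟨t, ht⟩ := exists_smul_eq (alternatingGroup (Fin 8)) (7 : Fin 8) x
  obtain ⟨u, rfl⟩ := e.surjective t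
  have h4 : ∀ {a b : Fin 4 → F}, a ≠ b → u⁻¹ • a ≠ u⁻¹ • b := fun h h' => h (MulAction.injective _ h')
  obtain ⟨g, hg, h5, h6⟩ := h3 (u⁻¹ • v) (u⁻¹ • w) ((smul_ne_zero_iff_ne _).mpr hv) ((smul_ne_zero_iff_ne _).mpr hw) (h4 hvw)
  obtain ⟨g', hg', h7, h8⟩ := h3 (u⁻¹ • v') (u⁻¹ • w') ((smul_ne_zero_iff_ne _).mpr hv') ((smul_ne_zero_iff_ne _).mpr hw')
    (h4 hvw')
  refine ⟨u * (g' * g⁻¹) * u⁻¹, ?_, ?_, ?_⟩
  · rw [← Subgroup.mem_map_iff_mem (f := e.toMonoidHom) e.injective, hx, ← ht]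
    have h9 : e (g' * g⁻¹) • (7 : Fin 8) = 7 := S.mul_mem hg' (S.inv_mem hg)
    show e _ • _ = _
    rw [map_mul, map_mul, map_inv, mul_smul, inv_smul_smul, mul_smul, h9]
  · show (u * (g' * g⁻¹) * u⁻¹) • v = v'
    rw [mul_smul, ← h5, mul_smul, mul_smul]
    erw [inv_smul_smul g]
    exact (congrArg (u • ·) h7).trans (smul_inv_smul u v')
  · show (u * (g' * g⁻¹) * u⁻¹) • w = w'
    rw [mul_smul, ← h6, mul_smul, mul_smul]
    erw [inv_smul_smul g]
    exact (congrArg (u • ·) h8).trans (smul_inv_smul u w')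
end Cfsg.Agent.S2551
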