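import Cfsg.Statements.S2552
import Cfsg.Agent.H6.SLc

set_option autoImplicit false
open Cfsg

namespace Cfsg.Agent.S2552

/-- Let F be a finite field and n ≥ 1. For every k, the special linear group SL_n(F) acts transitively on the set of k-dimensional subspaces of F^n: any two subspaces of the same dimension are carried onto each other by some matrix of determinant 1. -/
theorem result {F : Type*} [Field F] [Fintype F] (n : ℕ) (hn : 1 ≤ n) (U₁ U₂ : Submodule F (Fin n → F)) (h : Module.finrank F U₁ = Module.finrank F U₂) : ∃ g : Matrix.SpecialLinearGroup (Fin n) F, U₁.map ((Matrix.SpecialLinearGroup.toLin' g : (Fin n → F) ≃ₗ[F] (Fin n → F)) : (Fin n → F) →ₗ[F] (Fin n → F)) = U₂ := by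
  open Matrix H6 in
  by_cases h0 : U₁ = ⊥
  · subst h0
    rw [finrank_bot, eq_comm, Submodule.finrank_eq_zero] at h
    exact ⟨1, by simp [h]⟩
  obtain ⟨a, ha, ha0⟩ := Submodule.exists_mem_ne_zero_of_ne_bot h0
  obtain ⟨f, hf⟩ := exists_dot_one ha0
  obtain ⟨g, hg⟩ := Submodule.exists_linearEquiv_restrict_eq (LinearEquiv.ofFinrankEq U₁ U₂ h)
  have hd : (LinearMap.toMatrix' g.toLinearMap).det ≠ 0 := by
    rw [LinearMap.det_toMatrix']
    exact (LinearEquiv.isUnit_det' g).ne_zero
  let s : SpecialLinearGroup (Fin n) F := ⟨LinearMap.toMatrix' g.toLinearMap *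
    tv a (((LinearMap.toMatrix' g.toLinearMap).det⁻¹ - 1) • f), by
      rw [det_mul, det_tv', smul_dotProduct, dotProduct_comm, hf, smul_eq_mul, mul_one,
        add_sub_cancel, mul_inv_cancel₀ hd]⟩
  refine ⟨s, Submodule.eq_of_le_of_finrank_eq ?_ ?_⟩
  · rintro _ ⟨v, hv, rfl⟩
    change s.1 *ᵥ v ∈ U₂
    simp only [s, ← mulVec_mulVec, tv_mulVec, LinearMap.toMatrix'_mulVec]
    have := hg ⟨_, add_mem hv (U₁.smul_mem
      ((((LinearMap.toMatrix' g.toLinearMap).det⁻¹ - 1) • f) ⬝ᵥ v) ha)⟩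
    exact this ▸ Subtype.property _
  · rw [LinearEquiv.finrank_map_eq, h]

end Cfsg.Agent.S2552
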