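import Cfsg.Statements.S2561
import Cfsg.Agent.H7.Bin

set_option autoImplicit false
open Cfsg

namespace Cfsg.Agent.S2561

open H7 QuadraticMap Module

/-- Fix the non-singular alternating form on the 2m-dimensional space over the field of two elements obtained by polarizing the plus-type form Σ xᵢyᵢ (m ≥ 1). The functions q on the space with q(u + v) = q(u) + q(v) + f(u, v) (the quadratic forms polarizing to f) number 2^(2m); each is equivalent under an invertible linear map either to the plus-type form or to the minus-type form Σ xᵢyᵢ + (z₁² + z₁z₂ + z₂²); and those of plus type number 2^(2m−1) + 2^(m−1), those of minus type 2^(2m−1) − 2^(m−1). -/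
theorem result (m : ℕ) (hm : 1 ≤ m) :
    Nat.card {q : (Fin m ⊕ Fin m → ZMod 2) → ZMod 2 // (∀ u v : (Fin m ⊕ Fin m → ZMod 2), q (u + v) = q u + q v + (Cfsg.quadFormPlus m (ZMod 2) (u + v) - Cfsg.quadFormPlus m (ZMod 2) u - Cfsg.quadFormPlus m (ZMod 2) v))} = 2 ^ (2 * m) ∧
    (∀ q : (Fin m ⊕ Fin m → ZMod 2) → ZMod 2, (∀ u v : (Fin m ⊕ Fin m → ZMod 2), q (u + v) = q u + q v + (Cfsg.quadFormPlus m (ZMod 2) (u + v) - Cfsg.quadFormPlus m (ZMod 2) u - Cfsg.quadFormPlus m (ZMod 2) v)) →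
      (∃ g : (Fin m ⊕ Fin m → ZMod 2) ≃ₗ[ZMod 2] (Fin m ⊕ Fin m → ZMod 2), ∀ v, q v = Cfsg.quadFormPlus m (ZMod 2) (g v)) ∨
      (∃ g : (Fin m ⊕ Fin m → ZMod 2) ≃ₗ[ZMod 2] ((Fin (m - 1) ⊕ Fin (m - 1)) ⊕ Fin 2 → ZMod 2), ∀ v, q v = Cfsg.quadFormMinus (m - 1) (ZMod 2) 1 1 (g v))) ∧
    Nat.card {q : (Fin m ⊕ Fin m → ZMod 2) → ZMod 2 // (∀ u v : (Fin m ⊕ Fin m → ZMod 2), q (u + v) = q u + q v + (Cfsg.quadFormPlus m (ZMod 2) (u + v) - Cfsg.quadFormPlus m (ZMod 2) u - Cfsg.quadFormPlus m (ZMod 2) v)) ∧ ∃ g : (Fin m ⊕ Fin m → ZMod 2) ≃ₗ[ZMod 2] (Fin m ⊕ Fin m → ZMod 2), ∀ v, q v = Cfsg.quadFormPlus m (ZMod 2) (g v)} = 2 ^ (2 * m - 1) + 2 ^ (m - 1) ∧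
    Nat.card {q : (Fin m ⊕ Fin m → ZMod 2) → ZMod 2 // (∀ u v : (Fin m ⊕ Fin m → ZMod 2), q (u + v) = q u + q v + (Cfsg.quadFormPlus m (ZMod 2) (u + v) - Cfsg.quadFormPlus m (ZMod 2) u - Cfsg.quadFormPlus m (ZMod 2) v)) ∧ ∃ g : (Fin m ⊕ Fin m → ZMod 2) ≃ₗ[ZMod 2] ((Fin (m - 1) ⊕ Fin (m - 1)) ⊕ Fin 2 → ZMod 2), ∀ v, q v = Cfsg.quadFormMinus (m - 1) (ZMod 2) 1 1 (g v)} = 2 ^ (2 * m - 1) - 2 ^ (m - 1) := by
  have hQ := nd_QP (F := ZMod 2) m
  have hd : finrank (ZMod 2) (Fin m ⊕ Fin m → ZMod 2) = 2 * m := by simp; ring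
  have hc : Nat.card (Fin m ⊕ Fin m → ZMod 2) = 2 ^ (2 * m) := by simp; ring
  have h0 : ∀ w u v, trF (QP (ZMod 2) m) w (u + v) = trF (QP (ZMod 2) m) w u +
      trF (QP (ZMod 2) m) w v + polar (QP (ZMod 2) m) u v := fun w u v => by rw [Q_add, polar_trF]
  have key : ∀ (P : ((Fin m ⊕ Fin m → ZMod 2) → ZMod 2) → Prop),
      Nat.card {q : (Fin m ⊕ Fin m → ZMod 2) → ZMod 2 //
        (∀ u v, q (u + v) = q u + q v + polar (QP (ZMod 2) m) u v) ∧ P q} =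
      Nat.card {w // P (trF (QP (ZMod 2) m) w)} := fun P =>
    (Nat.card_congr (Equiv.ofBijective (fun w => ⟨trF (QP (ZMod 2) m) w.1, h0 _, w.2⟩)
      ⟨fun w w' h => Subtype.ext (hQ.ext fun v => by
        have := congrFun (congrArg Subtype.val h) v
        simpa [trF_apply, B_comm _ v] using this), fun q => by
        obtain ⟨q, h1, h2⟩ := q
        obtain ⟨w, rfl⟩ := exists_trF hQ h1
        exact ⟨⟨w, h2⟩, rfl⟩⟩)).symm
  have h1 : ∀ w, PlusType (trF (QP (ZMod 2) m) w) ↔ QP (ZMod 2) m w = 0 := fun w => by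
    rw [plusType_iff_gauss (nd_trF hQ w) hd, gauss_trF, gauss_QP]
    have : (0 : ℤ) < 2 ^ m := by positivity
    rcases z2_cases (QP (ZMod 2) m w) with h | h <;> simp [h, sg_zero, sg_one]
  have h2 : ∀ w, (∃ g : (Fin m ⊕ Fin m → ZMod 2) ≃ₗ[ZMod 2] (Fin m ⊕ Fin m → ZMod 2),
      ∀ v, trF (QP (ZMod 2) m) w v = QP (ZMod 2) m (g v)) ↔ QP (ZMod 2) m w = 0 := fun w =>
    ⟨fun ⟨g, hg⟩ => (h1 w).1 ((plusType_QP m).congr g.symm fun x => by simp [hg]), fun h => by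
      obtain ⟨φ, hφ⟩ := exists_equiv_QP (nd_trF hQ w) hd ((h1 w).2 h)
      exact ⟨φ.symm, fun v => by simp [← hφ]⟩⟩
  have h3 : ∀ w, (∃ g : (Fin m ⊕ Fin m → ZMod 2) ≃ₗ[ZMod 2] _,
      ∀ v, trF (QP (ZMod 2) m) w v = QM (ZMod 2) (m - 1) 1 1 (g v)) ↔ QP (ZMod 2) m w ≠ 0 := fun w =>
    ⟨fun ⟨g, hg⟩ h => not_plusType_QM aniso_two (((h1 w).2 h).congr g fun x => (hg x).symm), fun h => by
      obtain ⟨φ, hφ⟩ := exists_equiv_QM (nd_trF hQ w) (m := m - 1) (by omega) (mt (h1 w).1 h) aniso_two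
      exact ⟨φ.symm, fun v => by simp [← hφ]⟩⟩
  obtain ⟨k, rfl⟩ : ∃ k, m = k + 1 := ⟨m - 1, by omega⟩
  have e1 : 2 * (k + 1) - 1 = 2 * k + 1 := by omega
  refine ⟨?_, fun q hq => ?_, (key _).trans ?_, (key _).trans ?_⟩
  · exact (Nat.card_congr (Equiv.subtypeEquivRight fun _ => (and_iff_left trivial).symm)).trans
      ((key fun _ => True).trans ((Nat.card_congr (Equiv.subtypeUnivEquiv fun _ => trivial)).trans hc))
  · obtain ⟨w, rfl⟩ := exists_trF hQ hq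
    exact (em _).imp (h2 w).2 (h3 w).2
  · refine (Nat.card_congr (Equiv.subtypeEquivRight h2)).trans ?_
    have := two_mul_card_zero (QP (ZMod 2) (k + 1))
    rw [gauss_QP, hc] at this
    rw [e1, Nat.add_sub_cancel]
    zify
    push_cast at this
    exact mul_left_cancel₀ two_ne_zero (by linear_combination this)
  · refine (Nat.card_congr (Equiv.subtypeEquivRight h3)).trans ?_
    have := two_mul_card_ne (QP (ZMod 2) (k + 1))
    rw [gauss_QP, hc] at this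
    rw [e1, Nat.add_sub_cancel]
    refine Nat.eq_sub_of_add_eq ?_
    zify
    push_cast at this
    exact mul_left_cancel₀ two_ne_zero (by linear_combination this)

end Cfsg.Agent.S2561
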