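import Cfsg.Statements.S2563
import Cfsg.Agent.H7.BinSym

set_option autoImplicit false
open Cfsg

namespace Cfsg.Agent.S2563

open H7 Module

/-- For k ≥ 1 the symmetric group of degree 4k + 4 embeds in a full orthogonal group in dimension 4k + 2 over the field of two elements: in the isometry group of the plus-type form Σ xᵢyᵢ when k is odd, and in that of the minus-type form Σ xᵢyᵢ + (z₁² + z₁z₂ + z₂²) when k is even (through its action on even partitions of a (4k+4)-set, with the form 'half the size of a part, modulo 2'). -/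
theorem result (k : ℕ) (hk : 1 ≤ k) :
    (Odd k → ∃ φ : Equiv.Perm (Fin (4 * k + 4)) →* ↥(Cfsg.isometryGroup (ZMod 2) (Cfsg.quadFormPlus (2 * k + 1) (ZMod 2))), Function.Injective φ) ∧
    (Even k → ∃ φ : Equiv.Perm (Fin (4 * k + 4)) →* ↥(Cfsg.isometryGroup (ZMod 2) (Cfsg.quadFormMinus (2 * k) (ZMod 2) 1 1)), Function.Injective φ) := by
  have hQ := nd_evQ (N := 4 * k + 2) ⟨2 * k + 1, by ring⟩
  have hd : finrank (ZMod 2) (Fin (4 * k + 2) → ZMod 2) = 2 * (2 * k + 1) := by simp; ring
  have h1 := plusType_iff_gauss hQ hd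
  rw [gauss_evQ] at h1
  constructor
  · intro h
    obtain ⟨φ, hφ⟩ := exists_equiv_QP hQ hd (h1.2 (by
      have := h.neg_pow (4 : ℤ)
      have : (0 : ℤ) < 4 ^ k := by positivity
      omega))
    exact ⟨((OG.congr φ hφ).symm.trans (isoEquiv _).symm).toMonoidHom.comp (evHom k),
      ((OG.congr φ hφ).symm.trans (isoEquiv _).symm).injective.comp (evHom_injective hk)⟩
  · intro h
    obtain ⟨φ, hφ⟩ := exists_equiv_QM hQ (m := 2 * k) hd (fun h2 => by
      have := h1.1 h2
      have := h.neg_pow (4 : ℤ)
      have : (0 : ℤ) < 4 ^ k := by positivity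
      omega) aniso_two
    exact ⟨((OG.congr φ hφ).symm.trans (isoEquiv _).symm).toMonoidHom.comp (evHom k),
      ((OG.congr φ hφ).symm.trans (isoEquiv _).symm).injective.comp (evHom_injective hk)⟩

end Cfsg.Agent.S2563
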