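import Cfsg.Statements.S2564
import Cfsg.Agent.H7.Bin

set_option autoImplicit false
open Cfsg

namespace Cfsg.Agent.S2564

open H7 QuadraticMap

/-- On the 2m-dimensional space over the field of two elements (m ≥ 1) let f be the alternating form obtained by polarizing the plus-type form Σ xᵢyᵢ, and let q be any quadratic form polarizing to f. For a vector w, the function q + f(·, w) again polarizes to f, and it is equivalent to q under an invertible linear map (that is, has the same type) if and only if q(w) = 0. -/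
theorem result (m : ℕ) (hm : 1 ≤ m) (q : (Fin m ⊕ Fin m → ZMod 2) → ZMod 2) (hq : (∀ u v : (Fin m ⊕ Fin m → ZMod 2), q (u + v) = q u + q v + (Cfsg.quadFormPlus m (ZMod 2) (u + v) - Cfsg.quadFormPlus m (ZMod 2) u - Cfsg.quadFormPlus m (ZMod 2) v))) (w : (Fin m ⊕ Fin m → ZMod 2)) :
    (∀ u v : (Fin m ⊕ Fin m → ZMod 2), (q (u + v) + (Cfsg.quadFormPlus m (ZMod 2) (u + v + w) - Cfsg.quadFormPlus m (ZMod 2) (u + v) - Cfsg.quadFormPlus m (ZMod 2) w)) =
        (q u + (Cfsg.quadFormPlus m (ZMod 2) (u + w) - Cfsg.quadFormPlus m (ZMod 2) u - Cfsg.quadFormPlus m (ZMod 2) w)) + (q v + (Cfsg.quadFormPlus m (ZMod 2) (v + w) - Cfsg.quadFormPlus m (ZMod 2) v - Cfsg.quadFormPlus m (ZMod 2) w)) +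
        (Cfsg.quadFormPlus m (ZMod 2) (u + v) - Cfsg.quadFormPlus m (ZMod 2) u - Cfsg.quadFormPlus m (ZMod 2) v)) ∧
    ((∃ g : (Fin m ⊕ Fin m → ZMod 2) ≃ₗ[ZMod 2] (Fin m ⊕ Fin m → ZMod 2), ∀ v, q v + (Cfsg.quadFormPlus m (ZMod 2) (v + w) - Cfsg.quadFormPlus m (ZMod 2) v - Cfsg.quadFormPlus m (ZMod 2) w) = q (g v)) ↔ q w = 0) := by
  obtain ⟨z, rfl⟩ := exists_trF (nd_QP m) (q := q) hq
  have e : ∀ u v, quadFormPlus m (ZMod 2) (u + v) - quadFormPlus m (ZMod 2) u -
    quadFormPlus m (ZMod 2) v = polar (trF (QP (ZMod 2) m) z) u v := fun u v => (polar_trF (Q := QP (ZMod 2) m) z u v).symm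
  have hQ := nd_trF (nd_QP (F := ZMod 2) m) z
  simp only [e]
  generalize trF (QP (ZMod 2) m) z = Q at hQ ⊢
  refine ⟨fun u v => by rw [Q_add, polar_add_left]; ring, ⟨fun ⟨g, hg⟩ => ?_, fun h => ?_⟩⟩
  · have h1 := gauss_trF (Q := Q) w
    rw [show ⇑(trF Q w) = fun v => Q (g.toEquiv v) from funext fun v => (trF_apply w v).trans (hg v),
      gauss_comp] at h1
    have := gauss_ne_zero hQ
    rcases z2_cases (Q w) with h | h
    · exact h
    · rw [h, sg_one] at h1; omega
  · let f : (Fin m ⊕ Fin m → ZMod 2) →ₗ[ZMod 2] (Fin m ⊕ Fin m → ZMod 2) :=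
      LinearMap.id + LinearMap.smulRight (LinearMap.flip (polarBilin Q) w) w
    have hf : ∀ v, f v = v + polar Q v w • w := fun v => rfl
    have hi : Function.Involutive f := fun v => by
      simp [hf, B_self, h, add_assoc, ← add_smul, z2_add_self]
    refine ⟨LinearEquiv.ofInvolutive _ hi, fun v => ?_⟩
    change _ = Q (f v)
    rw [hf]
    rw [Q_add, Q_smul, h, B_smul_right, ← pow_two (polar Q v w), z2_sq (polar Q v w)]
    ring

end Cfsg.Agent.S2564
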