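import Cfsg.Statements.S2565
import Cfsg.Agent.H7.BinSym

set_option autoImplicit false
open Cfsg

namespace Cfsg.Agent.S2565

open H7 Module

/-- The commutator subgroup of the full orthogonal group of the plus-type form Σ xᵢyᵢ in dimension 6 over the field of two elements (the group Ω⁺₆(2), of index 2) is isomorphic to the alternating group of degree 8. -/
theorem result :
    (Cfsg.Omega (ZMod 2) (Cfsg.quadFormPlus 3 (ZMod 2))).index = 2 ∧
    Nonempty (↥(Cfsg.Omega (ZMod 2) (Cfsg.quadFormPlus 3 (ZMod 2))) ≃* alternatingGroup (Fin 8)) := by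
  have hQ := nd_evQ (N := 4 * 1 + 2) (by decide)
  have hd : finrank (ZMod 2) (Fin (4 * 1 + 2) → ZMod 2) = 2 * 3 := by simp
  obtain ⟨φ, hφ⟩ := exists_equiv_QP hQ hd ((plusType_iff_gauss hQ hd).2 (by rw [gauss_evQ]; simp))
  obtain ⟨e⟩ : Nonempty (Equiv.Perm (Fin 8) ≃* isometryGroup (ZMod 2) (quadFormPlus 3 (ZMod 2))) :=
    ⟨(MulEquiv.ofBijective _ ⟨evHom_injective le_rfl, evHom_one_surjective⟩).trans
      ((OG.congr φ hφ).symm.trans (isoEquiv _).symm)⟩
  have h : Omega (ZMod 2) (quadFormPlus 3 (ZMod 2)) = (alternatingGroup (Fin 8)).map e := by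
    rw [← alternatingGroup.commutator_perm_eq (by simp), commutator_def, Subgroup.map_commutator,
      Subgroup.map_equiv_top]
    rfl
  rw [h]
  exact ⟨(Subgroup.index_map_equiv _ e).trans alternatingGroup.index_eq_two,
    ⟨(e.subgroupMap _).symm⟩⟩

end Cfsg.Agent.S2565
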