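import Cfsg.Statements.S2566
import Cfsg.Agent.H7.Grp
import Cfsg.Agent.H7.Bridge

set_option autoImplicit false
open Cfsg

namespace Cfsg.Agent.S2566

open H7 Matrix

abbrev Ix := Fin 2 ⊕ Fin 2

def uu : Fin 3 → Ix → ZMod 2 := ![Sum.elim ![1, 0] ![1, 0], Sum.elim ![1, 1] ![0, 1], Sum.elim ![0, 1] ![1, 1]]
def ww : Fin 3 → Ix → ZMod 2 := ![Sum.elim ![1, 1] ![1, 0], Sum.elim ![1, 0] ![1, 1], Sum.elim ![0, 1] ![0, 1]]

def mk4 (a b c d : Ix → ZMod 2) : Matrix Ix Ix (ZMod 2) := Matrix.of fun i j =>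
  uu 1 j.swap * a i + uu 0 j.swap * b i + ww 1 j.swap * c i + ww 0 j.swap * d i

def mm (x : Equiv.Perm (Fin 3) × Equiv.Perm (Fin 3)) : Matrix Ix Ix (ZMod 2) :=
  mk4 (uu (x.1 0)) (uu (x.1 1)) (ww (x.2 0)) (ww (x.2 1))

def mg : Matrix Ix Ix (ZMod 2) := mk4 (ww 0) (ww 1) (uu 0) (uu 1)

def mh : Equiv.Perm (Fin 3) × Equiv.Perm (Fin 3) →* Matrix Ix Ix (ZMod 2) where
  toFun := mm
  map_one' := by decide +kernel
  map_mul' := by decide +kernel

def ph : Equiv.Perm (Fin 3) × Equiv.Perm (Fin 3) →*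
    isometryGroup (ZMod 2) (quadFormPlus 2 (ZMod 2)) :=
  mh.toHomUnits.codRestrict _ fun x => mem_isometryGroup.2 (by
    change ∀ v, quadFormPlus 2 (ZMod 2) (mm x *ᵥ v) = _
    revert x; decide +kernel)

def gg : isometryGroup (ZMod 2) (quadFormPlus 2 (ZMod 2)) :=
  ⟨⟨mg, mg, by decide +kernel, by decide +kernel⟩, mem_isometryGroup.2 (by decide +kernel)⟩

lemma ext' {a b : isometryGroup (ZMod 2) (quadFormPlus 2 (ZMod 2))} (h : a.1.1 = b.1.1) : a = b :=
  Subtype.ext (Units.ext h)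

def mx (x : (Equiv.Perm (Fin 3) × Equiv.Perm (Fin 3)) × Bool) : Matrix Ix Ix (ZMod 2) :=
  if x.2 then mk4 (ww (x.1.2 0)) (ww (x.1.2 1)) (uu (x.1.1 0)) (uu (x.1.1 1)) else mm x.1

lemma mx_inj : Function.Injective mx := by decide +kernel

lemma mx_eq : ∀ x, mm x * mg = mx (x, true) := by decide +kernel

def pol (u v : Ix → ZMod 2) : ZMod 2 :=
  quadFormPlus 2 (ZMod 2) (u + v) - quadFormPlus 2 (ZMod 2) u - quadFormPlus 2 (ZMod 2) v

set_option synthInstance.maxSize 2000 in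
set_option synthInstance.maxHeartbeats 200000 in
lemma mx_surj : ∀ a, quadFormPlus 2 (ZMod 2) a = 1 → ∀ b, quadFormPlus 2 (ZMod 2) b = 1 → pol a b = 1 →
    ∀ c, quadFormPlus 2 (ZMod 2) c = 1 → pol a c = 0 → pol b c = 0 →
    ∀ d, quadFormPlus 2 (ZMod 2) d = 1 → pol a d = 0 → pol b d = 0 → pol c d = 1 →
    ∃ x, mx x = mk4 a b c d := by decide +kernel

lemma card_eq : Nat.card (isometryGroup (ZMod 2) (quadFormPlus 2 (ZMod 2))) = 72 := by
  have h1 : ∀ x, (if x.2 then ph x.1 * gg else ph x.1).1.1 = mx x := fun x => by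
    obtain ⟨x, _ | _⟩ := x
    · rfl
    · exact mx_eq x
  rw [← Nat.card_congr (Equiv.ofBijective (fun x : (Equiv.Perm (Fin 3) × Equiv.Perm (Fin 3)) × Bool =>
    if x.2 then ph x.1 * gg else ph x.1)
    ⟨fun x y h => mx_inj ((h1 x).symm.trans ((congrArg (·.1.1) h).trans (h1 y))), fun g => ?_⟩)]
  · simp [Fintype.card_perm]; rfl
  have h2 := mem_isometryGroup.1 g.2
  have h3 : ∀ u v, pol (g.1.1 *ᵥ u) (g.1.1 *ᵥ v) = pol u v := fun u v => by
    simp only [pol, ← mulVec_add, h2]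
  obtain ⟨x, hx⟩ := mx_surj (g.1.1 *ᵥ uu 0) ((h2 _).trans (by decide)) (g.1.1 *ᵥ uu 1)
    ((h2 _).trans (by decide)) ((h3 _ _).trans (by decide)) (g.1.1 *ᵥ ww 0) ((h2 _).trans (by decide))
    ((h3 _ _).trans (by decide)) ((h3 _ _).trans (by decide)) (g.1.1 *ᵥ ww 1)
    ((h2 _).trans (by decide)) ((h3 _ _).trans (by decide)) ((h3 _ _).trans (by decide))
    ((h3 _ _).trans (by decide))
  refine ⟨x, ext' ((h1 x).trans (hx.trans ?_))⟩
  have h4 : mk4 (uu 0) (uu 1) (ww 0) (ww 1) = 1 := by decide +kernel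
  conv_rhs => rw [← mul_one g.1.1, ← h4]
  ext i j
  simp only [mk4, of_apply, mul_apply, mulVec, dotProduct, Finset.mul_sum, ← Finset.sum_add_distrib]
  exact Finset.sum_congr rfl fun k _ => by ring

/-- The full orthogonal group of the plus-type form x₁y₁ + x₂y₂ in dimension 4 over the field of two elements has order 72 and is isomorphic to the wreath product of the symmetric group of degree 3 by a group of order 2: it has a normal subgroup isomorphic to the direct product of two symmetric groups of degree 3, of index 2, whose two direct factors are interchanged by conjugation by some element. -/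
theorem result :
    Nat.card ↥(Cfsg.isometryGroup (ZMod 2) (Cfsg.quadFormPlus 2 (ZMod 2))) = 72 ∧
    ∃ (A B : Subgroup ↥(Cfsg.isometryGroup (ZMod 2) (Cfsg.quadFormPlus 2 (ZMod 2)))),
      Nonempty (↥A ≃* Equiv.Perm (Fin 3)) ∧ Nonempty (↥B ≃* Equiv.Perm (Fin 3)) ∧ A ⊓ B = ⊥ ∧ (∀ a ∈ A, ∀ b ∈ B, a * b = b * a) ∧
      (A ⊔ B).index = 2 ∧ ∃ g : ↥(Cfsg.isometryGroup (ZMod 2) (Cfsg.quadFormPlus 2 (ZMod 2))), A.map (MulAut.conj g).toMonoidHom = B := by
  have hi : Function.Injective ph := fun x y h =>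
    congrArg Prod.fst (mx_inj (a₁ := (x, false)) (a₂ := (y, false)) (congrArg (·.1.1) h))
  have hA := hi.comp (Prod.mk_left_injective (1 : Equiv.Perm (Fin 3)))
  have hB := hi.comp (Prod.mk_right_injective (1 : Equiv.Perm (Fin 3)))
  have eA := (MonoidHom.ofInjective (f := ph.comp (MonoidHom.inl _ _)) hA).symm
  have eB := (MonoidHom.ofInjective (f := ph.comp (MonoidHom.inr _ _)) hB).symm
  have h1 : (ph.comp (MonoidHom.inl _ _)).range ⊓ (ph.comp (MonoidHom.inr _ _)).range = ⊥ :=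
    (Subgroup.eq_bot_iff_forall _).2 (by
      rintro _ ⟨⟨σ, rfl⟩, τ, h⟩
      obtain rfl : 1 = σ := congrArg Prod.fst (hi h)
      exact map_one _)
  have h2 : ∀ a ∈ (ph.comp (MonoidHom.inl _ _)).range, ∀ b ∈ (ph.comp (MonoidHom.inr _ _)).range,
      a * b = b * a := by
    rintro _ ⟨σ, rfl⟩ _ ⟨τ, rfl⟩
    simp [← map_mul]
  refine ⟨card_eq, _, _, ⟨eA⟩, ⟨eB⟩, h1, h2, ?_, gg, ?_⟩
  · obtain ⟨e⟩ := nonempty_sup_equiv_prod h2 (disjoint_iff.2 h1)
    have h3 := Subgroup.index_mul_card ((ph.comp (MonoidHom.inl _ _)).range ⊔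
      (ph.comp (MonoidHom.inr _ _)).range)
    rw [card_eq, Nat.card_congr e.toEquiv, Nat.card_prod, Nat.card_congr eA.toEquiv,
      Nat.card_congr eB.toEquiv] at h3
    simp [Fintype.card_perm, Nat.factorial] at h3
    omega
  · rw [MonoidHom.map_range]
    refine congrArg MonoidHom.range (MonoidHom.ext fun σ => ext' ?_)
    change mg * mm (σ, 1) * mg = mm (1, σ)
    revert σ; decide +kernel

end Cfsg.Agent.S2566
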