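import Cfsg.Statements.S2567
import Cfsg.Agent.H6.Lang

set_option autoImplicit false
open Cfsg

namespace Cfsg.Agent.S2567

/-- Lifting elements of prime order from PGL to GL: let F be a finite field with q elements, r a prime not dividing q − 1, and x an element of order r in GL_n(F) modulo its centre (the scalar matrices). Then x has exactly one preimage in GL_n(F) of order r. -/
theorem result {F : Type*} [Field F] [Fintype F] {q n r : ℕ} (hF : Fintype.card F = q) (hr : r.Prime) (hdiv : ¬ r ∣ q - 1) (x : GL (Fin n) F ⧸ Subgroup.center (GL (Fin n) F)) (hx : orderOf x = r) : ∃! g : GL (Fin n) F, (QuotientGroup.mk g : GL (Fin n) F ⧸ Subgroup.center (GL (Fin n) F)) = x ∧ orderOf g = r := by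
  classical
  have : Fact r.Prime := ⟨hr⟩
  have hc : (Nat.card (Subgroup.center (GL (Fin n) F))).Coprime r := by
    rw [Matrix.GeneralLinearGroup.center_eq_range_scalar]
    refine Nat.Coprime.coprime_dvd_left (Subgroup.card_range_dvd _) ?_
    rw [Nat.card_units, Nat.card_eq_fintype_card, hF]
    exact ((Nat.Prime.coprime_iff_not_dvd hr).2 hdiv).symm
  obtain ⟨g, rfl⟩ := QuotientGroup.mk_surjective x
  have h1 : g ^ r ∈ Subgroup.center (GL (Fin n) F) := by
    rw [← QuotientGroup.eq_one_iff, QuotientGroup.mk_pow, ← hx, pow_orderOf_eq_one]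
  obtain ⟨z, hz⟩ := (powCoprime hc).surjective ⟨_, h1⟩
  have hz' : z.1 ^ r = g ^ r := congrArg Subtype.val hz
  have h2 : (QuotientGroup.mk (g * z.1⁻¹) : GL (Fin n) F ⧸ Subgroup.center (GL (Fin n) F)) =
      QuotientGroup.mk g := QuotientGroup.mk_mul_of_mem _ (inv_mem z.2)
  have h3 : (g * z.1⁻¹) ^ r = 1 := by
    rw [Commute.mul_pow (Subgroup.mem_center_iff.1 (inv_mem z.2) g), inv_pow, hz', mul_inv_cancel]
  refine ⟨g * z.1⁻¹, ⟨h2, orderOf_eq_prime h3 fun h => ?_⟩, ?_⟩
  · rw [← h2, h, QuotientGroup.mk_one, orderOf_one] at hx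
    exact hr.one_lt.ne hx
  · rintro y ⟨h4, h5⟩
    have h6 := QuotientGroup.eq.1 (h2.trans h4.symm)
    generalize g * z.1⁻¹ = w at *
    have h7 : (⟨_, h6⟩ : Subgroup.center (GL (Fin n) F)) = 1 := (powCoprime hc).injective (by
      refine Subtype.ext ?_
      have h8 : (w * (w⁻¹ * y)) ^ r = 1 := by rw [mul_inv_cancel_left, ← h5, pow_orderOf_eq_one]
      rw [Commute.mul_pow (Subgroup.mem_center_iff.1 h6 w), h3, one_mul] at h8
      simpa using h8)
    exact (inv_mul_eq_one.1 (congrArg Subtype.val h7)).symm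

end Cfsg.Agent.S2567
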