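import Cfsg.Statements.S2568
import Cfsg.Agent.H6.Cnt

set_option autoImplicit false
open Cfsg

namespace Cfsg.Agent.S2568

/-- Number of conjugacy classes of elements of a given prime order r, coprime to the characteristic, in GL_n(q): if i is the multiplicative order of q modulo r and t = (r − 1)/i, the classes correspond to the non-zero t-tuples of natural numbers (a_1, …, a_t) with i(a_1 + ⋯ + a_t) ≤ n (a_j is the multiplicity of the j-th Frobenius orbit of nontrivial r-th roots of unity among the eigenvalues), so there are exactly C(⌊n/i⌋ + t, t) − 1 of them. -/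
theorem result {F : Type*} [Field F] [Fintype F] {p q : ℕ} [Fact p.Prime] [CharP F p] (hF : Fintype.card F = q) (n r i t : ℕ) (hr : r.Prime) (hrp : r ≠ p) (hi : i = orderOf (q : ZMod r)) (ht : t * i = r - 1) : Nat.card {C : ConjClasses (GL (Fin n) F) // ∃ g : GL (Fin n) F, ConjClasses.mk g = C ∧ orderOf g = r} = Nat.choose (n / i + t) t - 1 := by
  open H6 in
  have : Fact r.Prime := ⟨hr⟩
  obtain ⟨h0, u, hu⟩ := exists_unit_card (j := 1) one_ne_zero (hF.trans (pow_one q).symm) hr hrp
  obtain ⟨L, _, _, e, φ, ζ, S⟩ := exists_spl F hr h0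
  rw [← hu, orderOf_units] at hi
  rw [card_prime_classes (e := e) S.prim (Units.coeHom _) Units.val_injective (Subgroup.zpowers u)
    (fun a b _ _ h => isConj_units_iff.2 h)
    (fun g => inv_zpowers fun k => by rw [hu, ← hF]; exact S.em_frob _ k) fun m hm hs => ?_,
    index_zpowers u hi.symm ht, Nat.card_zpowers, ← hi, Fintype.card_fin]
  obtain ⟨A, h1, h2⟩ := S.exists_em m (by
    rw [hF, ← hu]; exact hm u (Subgroup.mem_zpowers u)) hs
  obtain ⟨g, rfl⟩ := IsUnit.of_pow_eq_one h1 hr.ne_zero
  exact ⟨g, Units.ext h1, h2⟩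

end Cfsg.Agent.S2568
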