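import Cfsg.Statements.S2569
import Cfsg.Agent.H6.SLc

set_option autoImplicit false
open Cfsg

namespace Cfsg.Agent.S2569

/-- In GL_n over a finite field of characteristic p, the conjugacy class of a semisimple element (an element of order prime to p) under the special linear group is its whole GL-conjugacy class: for every such x and every invertible g there is h of determinant one with h x h⁻¹ = g x g⁻¹. -/
theorem result {F : Type*} [Field F] [Fintype F] {p : ℕ} [Fact p.Prime] [CharP F p] {n : ℕ} (x g : GL (Fin n) F) (hx : (orderOf x).Coprime p) : ∃ h : GL (Fin n) F, (h : Matrix (Fin n) (Fin n) F).det = 1 ∧ h * x * h⁻¹ = g * x * g⁻¹ := by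
  rcases isEmpty_or_nonempty (Fin n) with h | h
  · exact ⟨g, Matrix.det_isEmpty, rfl⟩
  obtain ⟨z, h1, h2⟩ := H6.exists_comm_det (A := x.1) (H6.aeval_X_pow_sub_one.2 (by
    rw [← Units.val_pow_eq_pow_val, pow_orderOf_eq_one, Units.val_one]))
    (H6.squarefree_X_pow_sub_one (H6.cast_ne_zero_of_coprime hx)) (g.1.det)⁻¹
  have hg : g.1.det ≠ 0 := Matrix.GeneralLinearGroup.det_ne_zero g
  let z' := Matrix.GeneralLinearGroup.mkOfDetNeZero z (h2.trans_ne (inv_ne_zero hg))
  have h3 : z' * x = x * z' := Units.ext h1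
  refine ⟨g * z', ?_, ?_⟩
  · rw [Units.val_mul, Matrix.det_mul]
    exact (congrArg _ h2).trans (mul_inv_cancel₀ hg)
  · rw [mul_assoc g, h3]
    group

end Cfsg.Agent.S2569
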