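import Cfsg.Statements.S2571
import Cfsg.Agent.H6.Unip

set_option autoImplicit false
open Cfsg

namespace Cfsg.Agent.S2571

/-- Centraliser of a regular unipotent element in GL_n(q): if u is an invertible n × n matrix over the field with q elements, n ≥ 1, with (u − 1)^n = 0 and rank(u − 1) = n − 1 (a single unipotent Jordan block), then its centraliser in GL_n(q) has order (q − 1) q^(n−1). -/
theorem result {F : Type*} [Field F] [Fintype F] {q n : ℕ} (hF : Fintype.card F = q) (hn : 1 ≤ n) (u : GL (Fin n) F) (hnil : ((u : Matrix (Fin n) (Fin n) F) - 1) ^ n = 0) (hreg : ((u : Matrix (Fin n) (Fin n) F) - 1).rank = n - 1) : Nat.card ↥(Subgroup.centralizer ({u} : Set (GL (Fin n) F))) = (q - 1) * q ^ (n - 1) := by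
  subst hF
  have : Nonempty (Fin n) := ⟨⟨0, hn⟩⟩
  obtain ⟨e, c, J⟩ := H6.exists_jf_regular hnil (by simpa using hreg)
  rw [H6.card_centralizer_GL, J.card_comm_GL (n := n + 1) (by simp), Fintype.card_fin]
  have h : ∀ i, (Finset.univ.filter fun _ : Unit => n = i).card = if n = i then 1 else 0 :=
    fun i => by split_ifs with h <;> simp [h]
  rw [Finset.prod_eq_single n (fun i _ hi => by
      haveI : IsEmpty (Fin (Finset.univ.filter fun _ : Unit => n = i).card) := by
        rw [h, if_neg hi.symm]; infer_instance
      exact Fintype.prod_empty _) (by simp), Finset.sum_eq_zero fun i _ =>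
    Finset.sum_eq_zero fun j _ => by rw [h, h]; split_ifs <;> first | rfl | omega,
    Finset.sum_eq_single n (fun i _ hi => by simp [hi.symm]) (by simp), h, if_pos rfl]
  simp [mul_comm]

end Cfsg.Agent.S2571
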