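import Cfsg.Statements.S2572
import Cfsg.Agent.H6.Unip

set_option autoImplicit false
open Cfsg

namespace Cfsg.Agent.S2572

/-- Centraliser of a transvection in GL_n(q), n ≥ 2: if t − 1 has rank one and square zero, the centraliser of t in GL_n(q) has order q^(2n−3) (q − 1) |GL_(n−2)(q)| (a group of order q^(2n−3) extended by GL_1(q) × GL_(n−2)(q)). -/
theorem result {F : Type*} [Field F] [Fintype F] {q n : ℕ} (hF : Fintype.card F = q) (hn : 2 ≤ n) (t : GL (Fin n) F) (ht : Cfsg.IsTransvection (t : Matrix (Fin n) (Fin n) F)) : Nat.card ↥(Subgroup.centralizer ({t} : Set (GL (Fin n) F))) = q ^ (2 * n - 3) * (q - 1) * ∏ i : Fin (n - 2), (q ^ (n - 2) - q ^ (i : ℕ)) := by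
  subst hF
  obtain ⟨e, c, J⟩ := H6.exists_jf (N := t.1 - 1)
    (d := fun k : Option (Fin (n - 2)) => k.elim 2 fun _ => 1) (fun k => by cases k <;> simp)
    fun m => by
      match m with
      | 0 => simp; omega
      | 1 => simp [ht.1]
      | m + 2 => rw [pow_add, sq, ht.2]; simp
  rw [H6.card_centralizer_GL, J.card_comm_GL (n := 3) (fun k => by cases k <;> simp)]
  have h : ∀ i, (Finset.univ.filter fun k : Option (Fin (n - 2)) => (k.elim 2 fun _ => 1) = i).card
      = (if 2 = i then 1 else 0) + (n - 2) * if 1 = i then 1 else 0 := fun i => by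
    rw [Finset.card_filter, Fintype.sum_option]
    change (if 2 = i then 1 else 0) + ∑ _k : Fin (n - 2), (if 1 = i then 1 else 0) = _
    rw [Finset.sum_const, Finset.card_univ, Fintype.card_fin, smul_eq_mul]
  simp only [Finset.prod_range_succ, Finset.sum_range_succ, Finset.range_zero, Finset.sum_empty,
    Finset.prod_empty]
  have h0 := h 0
  have h1 := h 1
  have h2 := h 2
  simp only [OfNat.ofNat_ne_zero, ↓reduceIte, one_ne_zero, mul_zero, add_zero, OfNat.ofNat_ne_one,
    mul_one, zero_add, OfNat.one_ne_ofNat] at h0 h1 h2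
  rw [h0, h1, h2]
  have : 2 * (n - 2) + 1 = 2 * n - 3 := by omega
  simp [this]
  rw [mul_assoc, mul_comm (_ - 1)]

end Cfsg.Agent.S2572
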