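import Cfsg.Statements.S2574
import Cfsg.Agent.H6.Adj

set_option autoImplicit false
open Cfsg

namespace Cfsg.Agent.S2574

/-- A regular unipotent element of the symplectic group has totally isotropic small invariant subspaces: over a finite field, if u ∈ Sp_2m(F) satisfies (u − 1)^(2m) = 0 and rank(u − 1) = 2m − 1, and W is a u-invariant subspace with 2 dim W ≤ 2m, then the alternating form vanishes identically on W. -/
theorem result {F : Type*} [Field F] [Finite F] {m : ℕ} (u : Matrix.symplecticGroup (Fin m) F) (hnil : ((u : Matrix (Fin m ⊕ Fin m) (Fin m ⊕ Fin m) F) - 1) ^ (2 * m) = 0) (hreg : ((u : Matrix (Fin m ⊕ Fin m) (Fin m ⊕ Fin m) F) - 1).rank = 2 * m - 1) (W : Submodule F (Fin m ⊕ Fin m → F)) (hW : ∀ v ∈ W, (u : Matrix (Fin m ⊕ Fin m) (Fin m ⊕ Fin m) F).mulVec v ∈ W) (hdim : 2 * Module.finrank F W ≤ 2 * m) : ∀ v ∈ W, ∀ w ∈ W, Cfsg.sympForm m F v w = 0 := by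
  open Matrix H6 in
  intro v hv w hw
  have hc : Fintype.card (Fin m ⊕ Fin m) = 2 * m := by simp [two_mul]
  have hr : (u.1 - 1).rank = Fintype.card (Fin m ⊕ Fin m) - 1 := by rw [hc, hreg]
  have hu := (isom_iff_adj (σ := RingHom.id F) (fun _ => rfl) det_J_ne_zero).1
    (SymplecticGroup.mem_iff'.1 u.2)
  generalize u.1 = A at *
  have h1 := eq_ker_of_regular hnil hr W fun v hv => by
    rw [sub_mulVec, one_mulVec]
    exact sub_mem (hW v hv) hv
  generalize Module.finrank F W = k at *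
  have h2 := eq_ker_of_regular hnil hr (LinearMap.range ((A - 1) ^ k).mulVecLin) (by
    rintro _ ⟨x, rfl⟩
    exact ⟨(A - 1) *ᵥ x, by simp only [mulVecLin_apply, mulVec_mulVec, pow_mul_comm']⟩)
  have h3 := rank_pow_of_regular hnil hr k
  rw [Matrix.rank] at h3
  rw [h1] at hv hw
  obtain ⟨x, rfl⟩ : v ∈ LinearMap.range ((A - 1) ^ k).mulVecLin := by
    rw [h2, h3, hc, show 2 * m - k = (2 * m - 2 * k) + k by omega, LinearMap.mem_ker, pow_add,
      mulVecLin_apply, ← mulVec_mulVec]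
    exact (congrArg _ hv).trans (mulVec_zero _)
  exact sf_pow_eq_zero (fun _ => rfl) det_J_ne_zero hu hw x

end Cfsg.Agent.S2574
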