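import Cfsg.Statements.S2575
import Cfsg.Agent.H6.Cyc

set_option autoImplicit false
open Cfsg

namespace Cfsg.Agent.S2575

/-- Which diagonal involutions of PGL_n(q) lie in PSL_n(q), q odd: for the diagonal matrix t with i entries −1 and n − i entries 1, some non-zero scalar multiple of t has determinant one if and only if i is even or the 2-part of q − 1 exceeds the 2-part of n (that is, −1 is an n-th power in the field exactly in the latter case). -/
theorem result {F : Type*} [Field F] [Fintype F] {q : ℕ} (hF : Fintype.card F = q) (hq : Odd q) {n : ℕ} (hn : 1 ≤ n) (i : ℕ) (hi : i ≤ n) : (∃ c : F, c ≠ 0 ∧ (c • Matrix.diagonal (fun j : Fin n => if (j : ℕ) < i then (-1 : F) else 1)).det = 1) ↔ (Even i ∨ padicValNat 2 n < padicValNat 2 (q - 1)) := by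
  subst hF
  have h1 := Fintype.one_lt_card (α := F)
  have e : ∀ c : F, (c • Matrix.diagonal (fun j : Fin n => if (j : ℕ) < i then (-1 : F) else 1)).det
      = c ^ n * (-1) ^ i := fun c => by
    rw [Matrix.det_smul, Matrix.det_diagonal, Finset.prod_ite, Finset.prod_const,
      Finset.prod_const_one, mul_one, Fin.card_filter_val_lt, min_eq_right hi, Fintype.card_fin]
  simp only [e]
  rcases Nat.even_or_odd i with h | h
  · exact ⟨fun _ => Or.inl h, fun _ => ⟨1, one_ne_zero, by simp [h.neg_one_pow]⟩⟩
  have h2 := H6.exists_pow_eq_iff_field n (x := (-1 : F)) (by simp)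
  have h3 := H6.padicValNat_div_gcd (p := 2) (N := Fintype.card F - 1) (n := n) (by omega) (by omega)
  have h4 : (Fintype.card F - 1) / (Fintype.card F - 1).gcd n ≠ 0 :=
    (Nat.div_pos (Nat.gcd_le_left _ (by omega)) (Nat.gcd_pos_of_pos_left _ (by omega))).ne'
  rw [neg_one_pow_eq_one_iff_even (H6.neg_one_ne_one_of_odd hq), even_iff_two_dvd,
    ← pow_one 2, padicValNat_dvd_iff_le h4, h3] at h2
  simp only [h.neg_one_pow, mul_neg, mul_one, neg_eq_iff_eq_neg, h2, Nat.not_even_iff_odd.2 h,
    false_or]
  omega

end Cfsg.Agent.S2575
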