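import Cfsg.Statements.S2576
import Cfsg.Agent.H6.Cyc

set_option autoImplicit false
open Cfsg

namespace Cfsg.Agent.S2576

/-- Which involutions of PGL_2m(q) coming from a scalar of the quadratic extension field lie in PSL_2m(q), q odd: let μ generate the Sylow 2-subgroup of the multiplicative group of the field with q elements (μ has order the 2-part of q − 1) and let t be the block-diagonal matrix with m diagonal blocks [[0, 1], [μ, 0]] (so t² is the scalar μ and t is an involution modulo scalars). Then some non-zero scalar multiple of t has determinant one if and only if q ≡ 3 (mod 4) or the 2-part of q − 1 is less than the 2-part of 2m. -/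
theorem result {F : Type*} [Field F] [Fintype F] {q : ℕ} (hF : Fintype.card F = q) (hq : Odd q) {m : ℕ} (hm : 1 ≤ m) (μ : F) (hμ : orderOf μ = 2 ^ padicValNat 2 (q - 1)) : (∃ c : F, c ≠ 0 ∧ (c • Matrix.blockDiagonal (fun _ : Fin m => !![(0 : F), 1; μ, 0])).det = 1) ↔ (q % 4 = 3 ∨ padicValNat 2 (q - 1) < padicValNat 2 (2 * m)) := by
  subst hF
  have h1 := Fintype.one_lt_card (α := F)
  have hμ0 : μ ≠ 0 := fun h => by
    have := pow_orderOf_eq_one μ
    rw [hμ, h, zero_pow (by positivity)] at this
    exact zero_ne_one this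
  have e : ∀ c : F, (c • Matrix.blockDiagonal (fun _ : Fin m => !![(0 : F), 1; μ, 0])).det = 1
      ↔ c ^ (2 * m) = ((-μ) ^ m)⁻¹ := fun c => by
    rw [Matrix.det_smul, Matrix.det_blockDiagonal, Finset.prod_const, Matrix.det_fin_two_of,
      ← mul_eq_one_iff_eq_inv₀ (by simpa using fun h => absurd h hμ0)]
    simp
  simp only [e]
  have h3 := H6.padicValNat_div_gcd (p := 2) (N := Fintype.card F - 1) (n := 2 * m) (by omega)
    (by omega)
  have h4 : (Fintype.card F - 1) / (Fintype.card F - 1).gcd (2 * m) ≠ 0 :=
    (Nat.div_pos (Nat.gcd_le_left _ (by omega)) (Nat.gcd_pos_of_pos_left _ (by omega))).ne'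
  rw [H6.exists_pow_eq_iff_field _ (by simpa using fun h => absurd h hμ0), inv_pow, inv_eq_one,
    ← pow_mul]
  have h5 : padicValNat 2 (2 * m) = 1 + padicValNat 2 m := by
    rw [padicValNat.mul two_ne_zero (by omega), padicValNat_self]
  have h6 := padicValNat_dvd_iff_le (p := 2) (a := Fintype.card F - 1) (n := 1) (by omega)
  have h7 := padicValNat_dvd_iff_le (p := 2) (a := Fintype.card F - 1) (n := 2) (by omega)
  have h8 := Nat.odd_iff.1 hq
  generalize padicValNat 2 (Fintype.card F - 1) = a at *
  by_cases h : Fintype.card F % 4 = 3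
  · have : a = 1 := by omega
    subst this
    have h9 : μ = -1 := by
      have h10 := pow_orderOf_eq_one μ
      rw [hμ, pow_one] at h10
      refine (sq_eq_one_iff.1 h10).resolve_left fun h => ?_
      simp [h] at hμ
    simp [h, h9]
  obtain ⟨a, rfl⟩ : ∃ b, a = b + 2 := ⟨a - 2, by omega⟩
  have h9 : orderOf (-μ) = 2 ^ (a + 1 + 1) := by
    refine orderOf_eq_prime_pow (fun h => ?_) ?_
    · rw [Even.neg_pow (by simp [pow_succ]), ← orderOf_dvd_iff_pow_eq_one, hμ,
        Nat.pow_dvd_pow_iff_le_right (by norm_num)] at h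
      omega
    · rw [Even.neg_pow (by simp [pow_succ]), ← hμ, pow_orderOf_eq_one]
  rw [← orderOf_dvd_iff_pow_eq_one, h9, padicValNat_dvd_iff_le (by positivity),
    padicValNat.mul (by omega) h4, h3]
  omega

end Cfsg.Agent.S2576
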