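import Cfsg.Statements.S2578
import Cfsg.Agent.H6.Unip

set_option autoImplicit false
open Cfsg

namespace Cfsg.Agent.S2578

/-- Regular unipotent classes of SL_n(q): for n ≥ 2 over the field with q elements, the matrices u of determinant one with (u − 1)^n = 0 and rank(u − 1) = n − 1 form a single GL_n(q)-class which splits into exactly gcd(n, q − 1) conjugacy classes of SL_n(q). -/
theorem result {F : Type*} [Field F] [Fintype F] {q : ℕ} (hF : Fintype.card F = q) {n : ℕ} (hn : 2 ≤ n) : Nat.card {C : ConjClasses (Matrix.SpecialLinearGroup (Fin n) F) // ∃ u : Matrix.SpecialLinearGroup (Fin n) F, ConjClasses.mk u = C ∧ ((u : Matrix (Fin n) (Fin n) F) - 1) ^ n = 0 ∧ ((u : Matrix (Fin n) (Fin n) F) - 1).rank = n - 1} = Nat.gcd n (q - 1) := by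
  open Matrix H6 in
  subst hF
  have : Nonempty (Fin n) := ⟨⟨0, by omega⟩⟩
  obtain ⟨N, hN⟩ := exists_nil_of_type (F := F) (ι := Fin n) (fun _ : Unit => n) (by simp)
  simp only [Finset.univ_unique, Finset.sum_singleton] at hN
  have h0 : N ^ n = 0 := by rw [← H6.rank_eq_zero_iff, hN, Nat.sub_self]
  have h1 : N.rank = Fintype.card (Fin n) - 1 := by simpa using hN 1
  let x : SpecialLinearGroup (Fin n) F := ⟨1 + N, by simpa using det_smul_add_nil ⟨n, h0⟩ (1 : F)⟩
  have hx : x.1 - 1 = N := add_sub_cancel_left _ _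
  rw [card_split SpecialLinearGroup.toGL SpecialLinearGroup.toGL_injective GeneralLinearGroup.det
    sl_hr gl_det_surj _ x fun u => ?_]
  · rw [Nat.gcd_comm, ← Nat.card_eq_fintype_card, ← Nat.card_units,
      ← IsCyclic.index_powMonoidHom_range]
    congr 1
    ext a
    constructor
    · rintro ⟨g, hg, rfl⟩
      obtain ⟨c, hc⟩ := exists_nil_of_comm_regular h0 h1 (g := g.1) (by
        rw [← hx, comm_sub_one]
        exact congrArg Units.val (Subgroup.mem_centralizer_singleton_iff.1 hg))
      have h2 := det_smul_add_nil hc c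
      rw [add_sub_cancel, Fintype.card_fin] at h2
      exact ⟨Units.mk0 c fun h => GeneralLinearGroup.det_ne_zero g (by
        rw [h2, h, zero_pow (by omega)]), Units.ext h2.symm⟩
    · rintro ⟨c, rfl⟩
      refine ⟨GeneralLinearGroup.scalar _ c, Subgroup.mem_centralizer_singleton_iff.2
        (Units.ext (scalar_commute _ (fun _ => Commute.all _ _) _)), Units.ext ?_⟩
      simp
  · rw [isConj_units_iff]
    change _ ↔ IsConj x.1 u.1
    refine ⟨fun h => isConj_of_unip_one (hx ▸ h0) h.1 fun m => ?_, fun h => ?_⟩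
    · rw [hx, hN, rank_pow_of_regular h.1 (by simpa using h.2), Fintype.card_fin]
    · have := IsConj.rank_sub_one_pow h
      simp only [hx, hN] at this
      exact ⟨by rw [← H6.rank_eq_zero_iff, ← this, Nat.sub_self], by simpa using (this 1).symm⟩

end Cfsg.Agent.S2578
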