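import Cfsg.Statements.S2583
import Cfsg.Agent.H6.QF

set_option autoImplicit false
open Cfsg

namespace Cfsg.Agent.S2583

/-- Which unipotent Jordan types occur in a finite orthogonal group in odd characteristic: over a finite field of odd order, a unipotent matrix with Jordan block sizes d_1, …, d_t (sum n, all at least 1) is similar to an isometry of some quadratic form on F^n with non-degenerate polar form if and only if every even block size occurs an even number of times. -/
theorem result {F : Type*} [Field F] [Fintype F] (h2 : (2 : F) ≠ 0) {n t : ℕ} (d : Fin t → ℕ) (hd : ∀ k, 1 ≤ d k) (hsum : ∑ k, d k = n) : (∃ Q : QuadraticForm F (Fin n → F), (QuadraticMap.polarBilin Q).Nondegenerate ∧ ∃ e : ((k : Fin t) × Fin (d k)) ≃ Fin n, ∃ A : ↥(Cfsg.isometryGroup F ⇑Q), IsConj (Matrix.reindex e e (Cfsg.jordanTypeMatrix d F)) ((A : Matrix.GeneralLinearGroup (Fin n) F) : Matrix (Fin n) (Fin n) F)) ↔ ∀ j : ℕ, Even j → 0 < j → Even (Finset.univ.filter (fun k : Fin t => d k = j)).card := by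
  open H6 Matrix in
  constructor
  · rintro ⟨Q, hQ, e, A, h⟩ j hj h0
    obtain ⟨x, c, J⟩ := exists_jf hd (rank_jordan_sub_one_pow d e h)
    exact J.even_of_symm h2 (det_pG.2 hQ) pG_symm (pG_isom (H7.mem_isometryGroup.1 A.2)) hj h0
  · intro h
    obtain ⟨G, u, h1, h3, -, h4, h5⟩ := (uEx_o h2 (μ := Finset.univ.val.map d) fun j hj h0 => by
      obtain ⟨k, -, rfl⟩ := Multiset.mem_map.1 hj
      exact count_map_univ d _ ▸ h _ h0 (hd k)).reindex (ι := Fin n) (hsum.trans (Fintype.card_fin _).symm)
    obtain ⟨Q, rfl⟩ := exists_pG_eq h2 (h3.trans (one_smul _ _))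
    exact ⟨Q, det_pG.1 h1, Fintype.equivOfCardEq (by simp [hsum]),
      ⟨GeneralLinearGroup.mkOfDetNeZero u (det_ne_zero_of_gram h1 h4),
        H7.mem_isometryGroup.2 (isom_of_pG h2 h4)⟩,
      isConj_jordan d _ fun m => (h5 m).trans (sum_map_univ d _)⟩

end Cfsg.Agent.S2583
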