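import Cfsg.Statements.S2584
import Cfsg.Agent.H6.QF

set_option autoImplicit false
open Cfsg

namespace Cfsg.Agent.S2584

/-- Which unipotent Jordan types occur in a finite orthogonal group in characteristic two: over a finite field of characteristic 2 and in even dimension 2m, a unipotent matrix with Jordan block sizes d_1, …, d_t (sum 2m, all at least 1) is similar to an isometry of some quadratic form on F^(2m) with non-degenerate polar form if and only if every odd block size occurs an even number of times (the same condition as for the symplectic group, which contains these orthogonal groups). -/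
theorem result {F : Type*} [Field F] [Fintype F] [CharP F 2] {m t : ℕ} (d : Fin t → ℕ) (hd : ∀ k, 1 ≤ d k) (hsum : ∑ k, d k = 2 * m) : (∃ Q : QuadraticForm F (Fin (2 * m) → F), (QuadraticMap.polarBilin Q).Nondegenerate ∧ ∃ e : ((k : Fin t) × Fin (d k)) ≃ Fin (2 * m), ∃ A : ↥(Cfsg.isometryGroup F ⇑Q), IsConj (Matrix.reindex e e (Cfsg.jordanTypeMatrix d F)) ((A : Matrix.GeneralLinearGroup (Fin (2 * m)) F) : Matrix (Fin (2 * m)) (Fin (2 * m)) F)) ↔ ∀ j : ℕ, Odd j → Even (Finset.univ.filter (fun k : Fin t => d k = j)).card := by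
  open H6 Matrix in
  constructor
  · rintro ⟨Q, hQ, e, A, h⟩ j hj
    obtain ⟨x, c, J⟩ := exists_jf hd (rank_jordan_sub_one_pow d e h)
    exact J.even_of_alt (det_pG.2 hQ) isAlt_pG (pG_isom (H7.mem_isometryGroup.1 A.2)) hj
  · intro h
    obtain ⟨G, u, h1, h3, h2, h4, h5⟩ := (uEx_sp (F := F) (μ := Finset.univ.val.map d)
      fun j hj => count_map_univ d _ ▸ h _ hj).reindex (ι := Fin (2 * m)) (hsum.trans (Fintype.card_fin _).symm)
    obtain ⟨Q, rfl⟩ := exists_pG_eq_of_alt (isAlt_iff.2 ⟨by simpa using h3, h2 trivial⟩)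
    obtain ⟨Q', h6, h7⟩ := dye h4
    exact ⟨Q', det_pG.1 (h6 ▸ h1), Fintype.equivOfCardEq (by simp [hsum]),
      ⟨GeneralLinearGroup.mkOfDetNeZero u (det_ne_zero_of_gram h1 h4), H7.mem_isometryGroup.2 h7⟩,
      isConj_jordan d _ fun m => (h5 m).trans (sum_map_univ d _)⟩

end Cfsg.Agent.S2584
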