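import Cfsg.Statements.S2585
import Cfsg.Agent.H6.QF

set_option autoImplicit false
open Cfsg

namespace Cfsg.Agent.S2585

/-- Over a finite field of characteristic two every element of the symplectic group is orthogonal for a suitable quadratic form: for each A in Sp_2m(F) there is a quadratic form Q on F^(2m) whose polar form is the alternating form defining Sp_2m(F) (so Q is non-degenerate) and which A preserves. Equivalently, for m ≥ 1, Sp_2m(F) is the union of the conjugates of its two orthogonal subgroups O⁺_2m(F) and O⁻_2m(F). -/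
theorem result {F : Type*} [Field F] [Fintype F] [CharP F 2] {m : ℕ} (A : Matrix.symplecticGroup (Fin m) F) : ∃ Q : QuadraticForm F (Fin m ⊕ Fin m → F), (∀ u v : Fin m ⊕ Fin m → F, QuadraticMap.polar ⇑Q u v = Cfsg.sympForm m F u v) ∧ ∀ v : Fin m ⊕ Fin m → F, Q ((A : Matrix (Fin m ⊕ Fin m) (Fin m ⊕ Fin m) F).mulVec v) = Q v := by
  open H6 Matrix in
  obtain ⟨Q, hQ⟩ := exists_pG_eq_of_alt (isAlt_J (κ := Fin m) (F := F))
  obtain ⟨Q', h1, h2⟩ := dye (Q := Q) (A := A.1) (hQ ▸ SymplecticGroup.mem_iff'.1 A.2)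
  exact ⟨Q', pG_eq_iff.1 (h1.trans hQ), h2⟩

end Cfsg.Agent.S2585
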