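import Cfsg.Statements.S2586
import Cfsg.Agent.H6.RCF

set_option autoImplicit false
open Cfsg

namespace Cfsg.Agent.S2586

/-- Over a finite field, every element of the symplectic group Sp_2m(F) is conjugate by an invertible matrix to its inverse. -/
theorem result {F : Type*} [Field F] [Finite F] {m : ℕ} (A : Matrix.symplecticGroup (Fin m) F) : IsConj (A : Matrix (Fin m ⊕ Fin m) (Fin m ⊕ Fin m) F) ((A⁻¹ : Matrix.symplecticGroup (Fin m) F) : Matrix (Fin m ⊕ Fin m) (Fin m ⊕ Fin m) F) := by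
  refine (H6.isConj_transpose A.1).trans ?_
  rw [SymplecticGroup.coe_inv]
  have h := Matrix.J_squared (Fin m) F
  refine ⟨⟨-Matrix.J (Fin m) F, Matrix.J (Fin m) F, by rw [neg_mul, h, neg_neg],
    by rw [mul_neg, h, neg_neg]⟩, ?_⟩
  change -Matrix.J (Fin m) F * _ = _ * -Matrix.J (Fin m) F
  rw [mul_assoc, mul_neg, h, neg_neg, mul_one]

end Cfsg.Agent.S2586
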