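import Cfsg.Statements.S2590
import Cfsg.Agent.H6.SS

set_option autoImplicit false
open Cfsg

namespace Cfsg.Agent.S2590

/-- Two semisimple elements of odd order of a finite orthogonal group (isometry group of a quadratic form on F^n with non-degenerate polar form, F finite of characteristic p; the elements have odd order prime to p) are conjugate in the orthogonal group if and only if they are conjugate in GL_n(F). -/
theorem result {F : Type*} [Field F] [Fintype F] {p : ℕ} [Fact p.Prime] [CharP F p] {n : ℕ} (Q : QuadraticForm F (Fin n → F)) (hQ : (QuadraticMap.polarBilin Q).Nondegenerate) (A B : ↥(Cfsg.isometryGroup F ⇑Q)) (hodd : Odd (orderOf A)) (hA : (orderOf A).Coprime p) : IsConj A B ↔ IsConj ((A : Matrix.GeneralLinearGroup (Fin n) F) : Matrix (Fin n) (Fin n) F) ((B : Matrix.GeneralLinearGroup (Fin n) F) : Matrix (Fin n) (Fin n) F) := by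
  open H6 Matrix QuadraticMap in
  refine ⟨fun h => isConj_units_iff.1 ((isometryGroup F Q).subtype.map_isConj h), fun ⟨g, hg⟩ => ?_⟩
  have h0 : A.1.1 ^ orderOf A = 1 := congrArg (·.1.1) (pow_orderOf_eq_one A)
  obtain ⟨a, b, P, P', R, C, S⟩ := (ssE_of_pow h0 (fun h0 => (Fact.out : p.Prime).ne_one
    (hA.symm.eq_one_of_dvd ((CharP.cast_eq_zero_iff F p _).1 h0))) 1).exists_spt
  have hA' := H7.mem_isometryGroup.1 A.2
  have hB' := H7.mem_isometryGroup.1 B.2
  have h1 : IsUnit (C - 1) := by simpa using S.unit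
  have hG := det_pG.2 hQ
  have hG' := det_gram_ne_zero (σ := RingHom.id F) hG (GeneralLinearGroup.det_ne_zero g)
  have i1 := pG_isom hA'
  have i2 := isom_of_conj (σ := RingHom.id F) hg.eq (pG_isom hB')
  obtain ⟨Y, h2, h3⟩ := wall_cong (σ := RingHom.id F) (fun _ => rfl) (S.det (mul_one _) i1 hG).2
    (S.det (mul_one _) i2 hG').2 ((eh_of_symm pG_symm).congr P')
    (((eh_of_symm pG_symm).congr g.1).congr P') (S.isom i1) (S.isom i2) (Or.inr (by
      obtain ⟨k, hk⟩ := hodd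
      have h2 := (Commute.one_right (C * C)).mul_geom_sum₂ (k + 1)
      rw [← _root_.sq, ← pow_mul, mul_add, mul_one, pow_succ C (2 * k + 1), ← hk, S.pow h0, one_mul,
        one_pow, _root_.sq] at h2
      exact isUnit_of_mul_isUnit_left (h2 ▸ h1)))
  have h4 : ∀ x y, polar Q ((P' * Y) *ᵥ x) ((P' * Y) *ᵥ y) =
      polar Q ((g.1 * P') *ᵥ x) ((g.1 * P') *ᵥ y) := fun x y => by
    rw [← bf_pG, ← bf_pG, sf_mulVec, sf_mulVec, gram_mul, gram_mul]
    exact congrArg (bf · x y) h3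
  have h5 : ∀ x, A.1.1 *ᵥ ((P' * Y) *ᵥ x) = (P' * Y) *ᵥ (C *ᵥ x) := fun x => by
    rw [mulVec_mulVec, mulVec_mulVec, ← Matrix.mul_assoc, S.res, Matrix.mul_assoc, ← h2,
      Matrix.mul_assoc]
  have h6 : ∀ x, B.1.1 *ᵥ ((g.1 * P') *ᵥ x) = (g.1 * P') *ᵥ (C *ᵥ x) := fun x => by
    rw [mulVec_mulVec, mulVec_mulVec, ← Matrix.mul_assoc, ← hg.eq, Matrix.mul_assoc, S.res,
      Matrix.mul_assoc]
  have hY := (isUnit_iff_isUnit_det Y).2 (det_ne_zero_of_isom (κ := Unit) (S.det (mul_one _) i2 hG').2 h3).isUnit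
  obtain ⟨h, -, hh⟩ := H7.witt_maps hQ H7.gen_top (P' * Y).mulVecLin (g.1 * P').mulVecLin
    (fun x y h => mulVec_injective_iff_isUnit.2 hY (S.inj (by simpa using h)))
    (fun x y h => S.inj (mulVec_injective_iff_isUnit.2 g.isUnit (by simpa using h))) fun x => by
    obtain ⟨y, rfl⟩ := mulVec_surjective_iff_isUnit.2 h1 x
    simp only [mulVecLin_apply, sub_mulVec, one_mulVec, mulVec_sub]
    rw [H7.Q_sub, H7.Q_sub, h4, ← h5, ← h6, hA', hB', ← two_mul, ← two_mul, ← H7.B_self,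
      ← H7.B_self, h4]
  simp only [mulVecLin_apply] at hh
  refine isConj_iff.2 ⟨(H7.isoEquiv Q).symm h, mul_inv_eq_iff_eq_mul.2 (Subtype.ext (Units.ext
    (ext_mulVec fun v => ?_)))⟩
  simp only [Subgroup.coe_mul, Units.val_mul, ← mulVec_mulVec, H7.isoEquiv_symm_mulVec]
  obtain ⟨x, y, rfl⟩ := S.decomp v
  obtain ⟨y, rfl⟩ := mulVec_surjective_iff_isUnit.2 hY y
  have h7 : A.1.1 *ᵥ (P *ᵥ x) = P *ᵥ x := by rw [mulVec_mulVec, S.eig, one_smul]
  rw [mulVec_mulVec y, mulVec_add, h5, h7, map_add, map_add, hh, hh, mulVec_add, h6, add_left_inj]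
  refine H7.ND.ext hQ fun z => ?_
  obtain ⟨z, rfl⟩ := mulVec_surjective_iff_isUnit.2 (B.1 * g).isUnit z
  obtain ⟨x', y', rfl⟩ := S.decomp z
  have h8 : ∀ y, polar Q (h.1 (P *ᵥ x)) ((g.1 * P') *ᵥ y) = 0 := fun y => by
    rw [← hh, H7.OG.map_B, ← bf_pG, ← mulVec_mulVec, bf_eq, mulVec_mulVec, dotProduct_mulVec,
      ← vecMul_transpose, vecMul_vecMul, ← Matrix.mul_assoc, S.orth (mul_one _) i1]
    simp
  have h9 := H7.polar_map_of B.1.1.mulVecLin hB'
  simp only [mulVecLin_apply] at h9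
  erw [Units.val_mul]
  rw [← mulVec_mulVec, h9, mulVec_add, mulVec_add,
    polar_add_right, polar_add_right, mulVec_mulVec y', h6, h8, h8, mulVec_mulVec _ _ g.1, ← hg.eq,
    ← mulVec_mulVec, mulVec_mulVec _ A.1.1, S.eig, one_smul]

end Cfsg.Agent.S2590
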