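import Cfsg.Statements.S2591
import Cfsg.Agent.H6.SpU
import Cfsg.Agent.H6.Cyc

set_option autoImplicit false
open Cfsg

namespace Cfsg.Agent.S2591

/-- Over a finite field of odd order and for m ≥ 1, the regular unipotent elements of Sp_2m(F) (u − 1 nilpotent of rank 2m − 1, a single Jordan block) form exactly two conjugacy classes of Sp_2m(F) (one class under the similarity group, which splits in two). -/
theorem result {F : Type*} [Field F] [Fintype F] {q : ℕ} (hF : Fintype.card F = q) (hq : Odd q) {m : ℕ} (hm : 1 ≤ m) : Nat.card {C : ConjClasses ↥(Matrix.symplecticGroup (Fin m) F) // ∃ u : Matrix.symplecticGroup (Fin m) F, ConjClasses.mk u = C ∧ ((u : Matrix (Fin m ⊕ Fin m) (Fin m ⊕ Fin m) F) - 1) ^ (2 * m) = 0 ∧ ((u : Matrix (Fin m ⊕ Fin m) (Fin m ⊕ Fin m) F) - 1).rank = 2 * m - 1} = 2 := by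
  open H6 Matrix in
  classical
  have two : (2 : F) ≠ 0 := two_ne_zero_of_odd (hF ▸ hq)
  have hc : Fintype.card (Fin m ⊕ Fin m) = 2 * m := by simp [two_mul]
  let o := Nat.Partition.indiscrete (2 * m)
  have ho : o.parts = {2 * m} := Nat.Partition.indiscrete_parts (by omega)
  rw [card_sp_unip two (· = o) _ (fun u hu => ⟨_, hu.1⟩) fun u μ h => ⟨fun hu =>
    Nat.Partition.ext (multiset_ext_of_sum_sub (fun h => (μ.parts_pos h).false)
      (fun h => (o.parts_pos h).false) fun k => by
        rw [← h, rank_pow_of_regular hu.1 (hc ▸ hu.2), ho, hc]; simp), fun hu => by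
      have h1 := h 1
      rw [← H6.rank_eq_zero_iff, h]
      rw [pow_one] at h1
      rw [h1, hu, ho]; simp⟩]
  rw [Finset.sum_eq_single o (by simp +contextual) fun h => absurd (by
    simp only [Finset.mem_filter, Finset.mem_univ, true_and, ho]
    intro j hj
    rw [Multiset.count_singleton, if_neg (by rintro rfl; exact absurd hj (by simp))]
    simp) h, ho]
  simp [Finset.filter_singleton]

end Cfsg.Agent.S2591
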