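import Cfsg.Statements.S2592
import Cfsg.Agent.H6.SpU
import Cfsg.Agent.H6.Cyc

set_option autoImplicit false
open Cfsg

namespace Cfsg.Agent.S2592

open H6 Matrix

theorem card_split {R : Type*} [Ring R] [StarRing R] {a : R} (hc : ∀ y, a * y = y * a)
    (h1 : a + a = 1) (h2 : star a = a) (K : Ideal R) (hs : ∀ x ∈ K, star x ∈ K) :
    Nat.card K = Nat.card {x // x ∈ K ∧ star x = x} * Nat.card {x // x ∈ K ∧ star x = -x} := by
  rw [← Nat.card_prod]
  refine (Nat.card_congr (Equiv.ofBijective (fun p => ⟨p.1.1 + p.2.1, K.add_mem p.1.2.1 p.2.2.1⟩)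
    ⟨?_, fun x => ⟨(⟨a * (x + star x.1), K.mul_mem_left _ (K.add_mem x.2 (hs _ x.2)), by
      rw [star_mul, h2, ← hc, star_add, star_star, add_comm]⟩,
      ⟨a * (x - star x.1), K.mul_mem_left _ (K.sub_mem x.2 (hs _ x.2)), by
      rw [star_mul, h2, ← hc, star_sub, star_star, ← mul_neg, neg_sub]⟩), Subtype.ext (by
      simp only
      rw [← mul_add, add_add_sub_cancel, mul_add, ← add_mul, h1, one_mul])⟩⟩)).symm
  rintro ⟨⟨y, h3, h4⟩, z, h5, h6⟩ ⟨⟨y', h3', h4'⟩, z', h5', h6'⟩ h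
  have h7 : y + z = y' + z' := congrArg Subtype.val h
  have h8 := congrArg star h7
  rw [star_add, star_add, h4, h4', h6, h6'] at h8
  obtain rfl : y = y' := by
    rw [← one_mul y, ← one_mul y', ← h1, add_mul, add_mul, ← mul_add, ← mul_add,
      show y + y = (y + z) + (y + -z) by abel, h7, h8]
    abel_nf
  obtain rfl := add_left_cancel h7
  rfl

/-- Over a finite field with q elements, q odd, the centraliser in Sp_2m(F) (m ≥ 1) of a regular unipotent element (u − 1 nilpotent of rank 2m − 1) has order 2 q^m. -/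
theorem result {F : Type*} [Field F] [Fintype F] {q : ℕ} (hF : Fintype.card F = q) (hq : Odd q) {m : ℕ} (hm : 1 ≤ m) (u : Matrix.symplecticGroup (Fin m) F) (hnil : ((u : Matrix (Fin m ⊕ Fin m) (Fin m ⊕ Fin m) F) - 1) ^ (2 * m) = 0) (hreg : ((u : Matrix (Fin m ⊕ Fin m) (Fin m ⊕ Fin m) F) - 1).rank = 2 * m - 1) : Nat.card ↥(Subgroup.centralizer ({u} : Set ↥(Matrix.symplecticGroup (Fin m) F))) = 2 * q ^ m := by
  have two : (2 : F) ≠ 0 := two_ne_zero_of_odd (hF ▸ hq)
  have hc : Fintype.card (Fin m ⊕ Fin m) = 2 * m := by simp [two_mul]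
  have : Nonempty (Fin m ⊕ Fin m) := ⟨Sum.inl ⟨0, hm⟩⟩
  obtain ⟨e, c, J⟩ := exists_jf_regular hnil (hc ▸ hreg)
  have h0 : ∀ x, RingHom.id F (RingHom.id F x) = x := fun _ => rfl
  have h1 := det_J_ne_zero (F := F) (κ := Fin m)
  have h2 := (isAlt_J (F := F) (κ := Fin m)).eh
  have h3 := sp_adj u
  let _ := starE h0 h1 h2 h3
  let _ : StarRing F := starRingOfComm
  let π : cE (u.1 - 1) →+* F :=
    { toFun g := jπ e c g.1 () ()
      map_one' := by simp [J.jπ_one]
      map_mul' g h := by simp [J.jπ_mul (cE_comm g), mul_apply]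
      map_zero' := by simp [jπ_apply]
      map_add' g h := by simp [jπ_apply, add_mulVec] }
  let s : F → cE (u.1 - 1) := fun a => ⟨a • 1, mem_cE.2 (by simp)⟩
  have s1 : ∀ a, π (s a) = a := fun a => by
    simp [π, s, jπ_apply, smul_mulVec, J.dual]
  have s2 : ∀ a, star (s a) = s a := fun a => Subtype.ext (adj_smul_one h0 h1 a)
  have s3 : ∀ a y, s a * y = y * s a := fun a y => Subtype.ext (by simp [s])
  have s4 : s 2⁻¹ + s 2⁻¹ = 1 := Subtype.ext (by
    change (2⁻¹ : F) • (1 : Matrix _ _ F) + (2⁻¹ : F) • 1 = 1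
    rw [← add_smul, ← two_mul, mul_inv_cancel₀ two, one_smul])
  have hn : ∀ x, π x = 0 → IsNilpotent x := fun x hx => by
    obtain ⟨k, hk⟩ := J.nil_of_jπ (cE_comm x) (ext fun _ _ => hx)
    exact ⟨k, Subtype.ext (by simpa using hk)⟩
  have hπ : ∀ x, π (star x) = π x := fun x => by
    obtain ⟨k, hk⟩ := hn (x - s (π x)) (by rw [map_sub, s1, sub_self])
    have := congrArg (fun y => π (star y)) hk
    simp only [star_pow, map_pow, star_sub, s2, map_sub, s1, star_zero, map_zero] at this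
    exact sub_eq_zero.1 (eq_zero_of_pow_eq_zero this)
  have h4 := card_unitary_mul π (fun a => ⟨_, s1 a⟩) hn hπ (fun x hx => norm_of_nil
    (IsUnit.of_mul_eq_one (s 2⁻¹) (by rw [two_mul, s4])) (hn _ (by rw [map_sub, hx, map_one, sub_self])))
    (s3 2⁻¹) (by rw [s2, s4])
  have h5 := card_split (s3 2⁻¹) s4 (s2 _) (RingHom.ker π) fun x hx => (hπ x).trans hx
  have h6 := card_split (s3 2⁻¹) s4 (s2 _) ⊤ fun _ _ => trivial
  have h7 : Nat.card {y : F // star y * y = 1} = 2 := by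
    exact (Nat.card_congr (Equiv.subtypeEquivRight (q := (· ∈ ({1, -1} : Set F)))
      fun y => mul_self_eq_one_iff)).trans (Set.ncard_pair (neg_one_ne_one_of_odd (hF ▸ hq)).symm)
  have h8 : ∀ x : cE (u.1 - 1), star x = -x → π x = 0 := fun x hx => by
    have := hπ x
    rw [hx, map_neg] at this
    exact mul_left_cancel₀ two (by linear_combination -this)
  have hu : u.1 ∈ cE (u.1 - 1) := mem_cE.2 (comm_sub_one.2 rfl)
  let v : cE (u.1 - 1) := ⟨_, hu⟩
  have v1 : star v * v = 1 := Subtype.ext h3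
  have v2 : ∀ y, y * v = v * y := fun y => Subtype.ext (comm_sub_one.1 (cE_comm y))
  have v3 : ∀ y, y * star v = star v * y := fun y => by
    rw [← star_star y, ← star_mul, ← v2, star_mul]
  have v4 : IsUnit (star v + 1) := isUnit_of_map_nil π (fun a => ⟨_, s1 a⟩) hn (by
    have : π (v - 1) = 0 := J.cN _ _
    rw [map_sub, sub_eq_zero] at this
    rw [map_add, hπ, this, map_one, one_add_one_eq_two]
    exact two.isUnit)
  have v5 : v - star v = (star v + 1) * (v - 1) := by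
    rw [add_mul, mul_sub, v1]; noncomm_ring
  have v6 : ∀ y, star ((v - star v) * y) = -((v - star v) * star y) := fun y => by
    rw [star_mul, star_sub, star_star, mul_sub, v2, v3]; noncomm_ring
  have v7 : ∀ x, star x = x → (v - star v) * x = 0 → x = 0 := fun x hx h => by
    rw [v5, mul_assoc, v4.mul_right_eq_zero] at h
    have h' : (u.1 - 1) ^ 1 *ᵥ (x.1 *ᵥ e ()) = 0 := by
      rw [pow_one, mulVec_mulVec, show (u.1 - 1) * x.1 = 0 from congrArg Subtype.val h, zero_mulVec]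
    refine Subtype.ext (J.eq_zero_of_gen (cE_comm x) fun _ => sf_nondeg_right (σ := RingHom.id F) h1 fun w => ?_)
    obtain ⟨w', hw⟩ := J.decomp w
    have h9 := sf_adj h0 h1 x.1 (e ()) (e ())
    rw [show adj _ _ x.1 = x.1 from congrArg Subtype.val hx, h2] at h9
    have h10 := sf_pow_eq_zero h0 h1 h3 h' w'
    rw [pow_one] at h10
    rw [hw, sf_add_left, h10, Fintype.sum_unique, sf_smul_left]
    refine mul_left_cancel₀ two ?_
    simp only [RingHom.id_apply] at h9
    linear_combination (-(c default ⬝ᵥ w)) * h9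
  have h9 : Nat.card {x : cE (u.1 - 1) // x ∈ (⊤ : Ideal _) ∧ star x = x} =
      Nat.card {x : cE (u.1 - 1) // x ∈ (⊤ : Ideal _) ∧ star x = -x} :=
    Nat.card_congr (Equiv.ofBijective (fun x => ⟨(v - star v) * x, trivial, by rw [v6, x.2.2]⟩)
      ⟨fun x y h => Subtype.ext (sub_eq_zero.1 (v7 _ (by rw [star_sub, x.2.2, y.2.2]) (by
        rw [mul_sub, sub_eq_zero]; exact congrArg Subtype.val h))), fun ⟨y, _, hy⟩ => by
        obtain ⟨z, hz⟩ := v4.exists_right_inv
        obtain ⟨w, hw⟩ := J.range ((z * y).1 *ᵥ e ()) fun _ =>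
          (map_mul π z y).trans (by rw [h8 y hy, mul_zero])
        obtain ⟨g, h10, h11⟩ := J.ext (fun _ => w) fun _ => by rw [hc, hnil, zero_mulVec]
        have h12 : z * y = (v - 1) * ⟨g, mem_cE.2 h10⟩ := Subtype.ext (sub_eq_zero.1
          (J.eq_zero_of_gen (cE_comm (z * y - (v - 1) * ⟨g, mem_cE.2 h10⟩)) fun _ => by
            rw [sub_mulVec, hw, ← h11 (), mulVec_mulVec]
            exact sub_self _))
        generalize (⟨g, mem_cE.2 h10⟩ : cE (u.1 - 1)) = g at h12
        have h13 : y = (v - star v) * g := by rw [v5, mul_assoc, ← h12, ← mul_assoc, hz, one_mul]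
        refine ⟨⟨s 2⁻¹ * (g + star g), trivial, by
          rw [star_mul, s2, ← s3, star_add, star_star, add_comm]⟩, Subtype.ext ?_⟩
        have h14 := v6 g
        rw [← h13, hy, neg_inj] at h14
        simp only
        rw [← mul_assoc, ← s3, mul_assoc, mul_add, ← h13, ← h14, mul_add, ← add_mul, s4, one_mul]⟩)
  rw [h9, Nat.card_congr Submodule.topEquiv.toEquiv, J.card_cE, Nat.card_eq_fintype_card, hF, hc,
    ← sq, Fintype.sum_unique, Fintype.sum_unique, min_self, mul_comm, pow_mul] at h6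
  rw [Nat.card_congr (Equiv.subtypeEquivRight (p := fun x => x ∈ RingHom.ker π ∧ star x = -x)
    (q := fun x => x ∈ (⊤ : Ideal _) ∧ star x = -x)
    fun x => ⟨fun h => ⟨trivial, h.2⟩, fun h => ⟨h8 x h.2, h.2⟩⟩),
    ← Nat.pow_left_injective two_ne_zero h6] at h5
  rw [h7, show Nat.card π.toAddMonoidHom.ker = _ from h5, mul_left_comm, mul_comm] at h4
  have : Nonempty {x // π x = 0 ∧ star x = x} := ⟨⟨0, by simp⟩⟩
  rw [← Nat.eq_of_mul_eq_mul_left Nat.card_pos h4]
  exact Nat.card_congr (Equiv.ofBijective (fun g => ⟨⟨g.1.1, mem_cE.2 (comm_sub_one.2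
    (congrArg (·.1) (Subgroup.mem_centralizer_singleton_iff.1 g.2)))⟩, Subtype.ext (sp_adj _)⟩)
    ⟨fun _ _ h => Subtype.ext (Subtype.ext (congrArg (·.1.1) h)), fun ⟨y, hy⟩ =>
      ⟨⟨⟨y.1, SymplecticGroup.mem_iff'.2 ((isom_iff_adj h0 h1).2 (congrArg Subtype.val hy))⟩,
        Subgroup.mem_centralizer_singleton_iff.2 (Subtype.ext (comm_sub_one.1 (cE_comm y)))⟩, rfl⟩⟩)

end Cfsg.Agent.S2592
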