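import Cfsg.Statements.S2593
import Cfsg.Agent.H6.Inv2

set_option autoImplicit false
open Cfsg

namespace Cfsg.Agent.S2593

/-- Number of conjugacy classes of involutions in the symplectic group Sp_2m(F) over a finite field of characteristic two (m ≥ 1): for each s with 1 ≤ s ≤ m there is one class with rank(t − 1) = s if s is odd and two if s is even (according as v ↦ f(v, tv), f the symplectic form, vanishes identically or not), so m + ⌊m/2⌋ classes in all. -/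
theorem result {F : Type*} [Field F] [Fintype F] [CharP F 2] {m : ℕ} (hm : 1 ≤ m) : Nat.card {C : ConjClasses ↥(Matrix.symplecticGroup (Fin m) F) // ∃ g : Matrix.symplecticGroup (Fin m) F, ConjClasses.mk g = C ∧ orderOf g = 2} = m + m / 2 := by
  open H6 Matrix in
  have hc : 2 * m = Fintype.card (Fin m ⊕ Fin m) := by simp [two_mul]
  let f : Fin m ⊕ Fin (m / 2) → ℕ × Prop :=
    Sum.elim (fun i => (i + 1, False)) fun j => (2 * (j + 1), True)
  have hf : Function.Injective f := by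
    rintro (a | a) (b | b) h <;> simp [f, Fin.ext_iff] at h ⊢ <;> omega
  have h0 : ∀ t : symplecticGroup (Fin m) F, orderOf t = 2 ↔ t ^ 2 = 1 ∧ (t.1 - 1).rank ≠ 0 :=
    fun t => by
    rw [orderOf_eq_prime_iff, Ne, Ne, H6.rank_eq_zero_iff, sub_eq_zero, Subtype.ext_iff (a1 := t)]
    rfl
  have ex : ∀ (k : ℕ) (S : Matrix (Fin k) (Fin k) F), k ≤ m → Sᵀ = S → S.det ≠ 0 →
      ∃ t : symplecticGroup (Fin m) F, t ^ 2 = 1 ∧ (t.1 - 1).rank = k ∧
        ((∀ v, bf (J (Fin m) F) ((t.1 - 1) *ᵥ v) v = 0) ↔ IsAlt S) := fun k S hk h1 h2 => by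
    have := spLike.exists_inv (P := of fun i j => if i = Sum.inl (Fin.castLE hk j) then 1 else 0)
      (fun x y h => funext fun i => by
        simpa [mulVec, dotProduct] using congrFun h (Sum.inl (Fin.castLE hk i)))
      (by ext i j; simp [mul_apply, J]) h1 h2
    rwa [Fintype.card_fin] at this
  rw [card_classes _ (fun t x => f x = ((t.1 - 1).rank, ∀ v, bf (J (Fin m) F) ((t.1 - 1) *ᵥ v) v = 0))
    ?_ ?_ ?_]
  · simp
  · intro t ht
    obtain ⟨h1, h2⟩ := (h0 t).1 ht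
    have h3 : (t.1 - 1).rank ≤ m := spLike.inv_le h1 hc rfl
    by_cases h : ∀ v, bf (J (Fin m) F) ((t.1 - 1) *ᵥ v) v = 0
    · obtain ⟨j, hj⟩ : Even (t.1 - 1).rank := spLike.inv_even h1 rfl h
      exact ⟨.inr ⟨j - 1, by omega⟩, Prod.ext (by simp [f]; omega) (by simp [f, h])⟩
    · exact ⟨.inl ⟨(t.1 - 1).rank - 1, by omega⟩, Prod.ext (by simp [f]; omega) (by simpa [f] using h)⟩
  · rintro (i | j)
    · obtain ⟨t, h1, h2, h3⟩ := ex (i + 1) 1 i.2 (by simp) (by simp)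
      exact ⟨t, (h0 t).2 ⟨h1, by omega⟩, Prod.ext h2.symm (propext ⟨False.elim, fun h =>
        by simpa using (isAlt_iff.1 (h3.1 h)).2 0⟩)⟩
    · obtain ⟨S, h4, h5⟩ := exists_alt (F := F) (ι := Fin (2 * (j + 1))) (by simp)
      obtain ⟨t, h1, h2, h3⟩ := ex _ S (by omega) h4.symm h5
      exact ⟨t, (h0 t).2 ⟨h1, by omega⟩, Prod.ext h2.symm (propext ⟨fun _ => h3.2 h4,
        fun _ => trivial⟩)⟩
  intro t t' x x' ht ht' h h'
  rw [← hf.eq_iff, h, h', Prod.ext_iff]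
  refine ⟨fun hc => ⟨?_, ?_⟩, fun h => spLike.inv_conj ((h0 t).1 ht).1 ((h0 t').1 ht').1 h.1
    h.2.to_iff⟩
  · simpa using IsConj.rank_sub_one_pow ((jRho (spJ F m)).map_isConj hc) 1
  have key : ∀ t t' : symplecticGroup (Fin m) F, IsConj t t' →
      (∀ v, bf (J (Fin m) F) ((t'.1 - 1) *ᵥ v) v = 0) →
        ∀ v, bf (J (Fin m) F) ((t.1 - 1) *ᵥ v) v = 0 := fun t t' ⟨g, hg⟩ h v => by
    have h1 : g.1.1 * (t.1 - 1) = (t'.1 - 1) * g.1.1 := by
      rw [mul_sub, sub_mul, show g.1.1 * t.1 = t'.1 * g.1.1 from congrArg Subtype.val hg]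
      simp
    rw [← spLike.isom g.1, ← h (g.1.1 *ᵥ v), mulVec_mulVec, mulVec_mulVec, ← h1]
    rfl
  exact propext ⟨key _ _ hc.symm, key _ _ hc⟩

end Cfsg.Agent.S2593
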