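import Cfsg.Statements.S2594
import Cfsg.Agent.H6.Inv2

set_option autoImplicit false
open Cfsg

namespace Cfsg.Agent.S2594

/-- Over a finite field with q elements, q even, an element t of Sp_2m(F) with rank(t − 1) = 1 (a symplectic transvection) has centraliser in Sp_2m(F) of order q^(2m−1) · |Sp_(2m−2)(q)| = q^(2m−1) · q^((m−1)²) · Π_(i=1)^(m−1) (q^(2i) − 1). -/
theorem result {F : Type*} [Field F] [Fintype F] [CharP F 2] {q : ℕ} (hF : Fintype.card F = q) {m : ℕ} (hm : 1 ≤ m) (t : Matrix.symplecticGroup (Fin m) F) (ht : ((t : Matrix (Fin m ⊕ Fin m) (Fin m ⊕ Fin m) F) - 1).rank = 1) : Nat.card ↥(Subgroup.centralizer ({t} : Set ↥(Matrix.symplecticGroup (Fin m) F))) = q ^ (2 * m - 1) * (q ^ ((m - 1) ^ 2) * ∏ i : Fin (m - 1), (q ^ (2 * ((i : ℕ) + 1)) - 1)) := by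
  open H6 Matrix in
  have hc : 2 * m = Fintype.card (Fin m ⊕ Fin m) := by simp [two_mul]
  obtain ⟨a, f, -, -, h⟩ := exists_vecMulVec_of_rank ht
  have h1 : t.1 = tv a f := by rw [tv, ← h, add_sub_cancel]
  have h2 : f ⬝ᵥ a = 0 := by
    have : t.1.det = 1 := spLike.det_eq_one t
    rw [h1, det_tv'] at this
    exact add_eq_left.1 this
  rw [spLike.card_cent_b (Subtype.ext (by
    rw [sq, Submonoid.coe_mul, h1]
    refine ext_mulVec fun v => ?_
    simp only [← mulVec_mulVec, tv_mulVec, dotProduct_add, dotProduct_smul, h2, add_assoc,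
      ← add_smul]
    simp [CharTwo.add_self_eq_zero])) hc ht odd_one, Nat.card_eq_fintype_card, hF]
  simp only [spO]
  simp
  exact Or.inl (congrArg _ (by omega))

end Cfsg.Agent.S2594
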