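import Cfsg.Statements.S2599
import Cfsg.Agent.H7.Classify

set_option autoImplicit false
open Cfsg

namespace Cfsg.Agent.S2599

open H7 QuadraticMap Module

/-- An irreducible invariant subspace of a semisimple isometry is non-degenerate or totally singular: let Q be a quadratic form on F^n (F finite of characteristic p) with non-degenerate polar form f, x an isometry of Q of order prime to p, and U a non-zero x-invariant subspace containing no x-invariant subspace other than 0 and U. Then U meets its f-orthogonal trivially, or Q vanishes on U, or p = 2, U is a line spanned by a non-singular vector and x fixes U pointwise. -/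
theorem result {F : Type*} [Field F] [Fintype F] {p : ℕ} [Fact p.Prime] [CharP F p] {n : ℕ} (Q : QuadraticForm F (Fin n → F)) (hQ : (QuadraticMap.polarBilin Q).Nondegenerate) (x : ↥(Cfsg.isometryGroup F ⇑Q)) (hx : (orderOf x).Coprime p) (U : Submodule F (Fin n → F)) (hU0 : U ≠ ⊥) (hUx : ∀ u ∈ U, ((x : Matrix.GeneralLinearGroup (Fin n) F) : Matrix (Fin n) (Fin n) F).mulVec u ∈ U) (hirr : ∀ W : Submodule F (Fin n → F), W ≤ U → (∀ w ∈ W, ((x : Matrix.GeneralLinearGroup (Fin n) F) : Matrix (Fin n) (Fin n) F).mulVec w ∈ W) → W = ⊥ ∨ W = U) : U ⊓ LinearMap.BilinForm.orthogonal (QuadraticMap.polarBilin Q) U = ⊥ ∨ (∀ u ∈ U, Q u = 0) ∨ (p = 2 ∧ Module.finrank F U = 1 ∧ (∃ u ∈ U, Q u ≠ 0) ∧ ∀ u ∈ U, ((x : Matrix.GeneralLinearGroup (Fin n) F) : Matrix (Fin n) (Fin n) F).mulVec u = u) := by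
  have hx' : ∀ u, ((x : Matrix.GeneralLinearGroup (Fin n) F) : Matrix (Fin n) (Fin n) F).mulVec u =
    (isoEquiv Q x).1 u := fun u => rfl
  simp only [hx'] at hUx hirr ⊢
  generalize isoEquiv Q x = g at hUx hirr ⊢
  have hs : ∀ u ∈ U, ∃ v ∈ U, g.1 v = u := fun u hu => by
    obtain ⟨v, hv⟩ := (LinearMap.injective_iff_surjective (f := g.1.toLinearMap.restrict hUx)).1
      (fun a b h => Subtype.ext (g.1.injective (congrArg Subtype.val h))) ⟨u, hu⟩
    exact ⟨v, v.2, congrArg Subtype.val hv⟩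
  rcases hirr (U ⊓ perp Q U) inf_le_left (fun w hw => ⟨hUx w hw.1, mem_perp.2 fun u hu => by
    obtain ⟨v, hv, rfl⟩ := hs u hu
    rw [OG.map_B]; exact mem_perp.1 hw.2 v hv⟩) with h | h
  · exact .inl h
  have hB : ∀ u ∈ U, ∀ v ∈ U, polar Q u v = 0 := fun u hu v hv => mem_perp.1 (h.ge hv).2 u hu
  by_cases h2 : (2 : F) = 0
  swap
  · exact .inr (.inl fun u hu => (mul_eq_zero.1 ((B_self Q u).symm.trans (hB u hu u hu))).resolve_left h2)
  let W : Submodule F (Fin n → F) :=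
    { carrier := {u | u ∈ U ∧ Q u = 0}
      add_mem' := fun {a b} ha hb => ⟨add_mem ha.1 hb.1, by rw [Q_add, ha.2, hb.2, hB a ha.1 b hb.1]; simp⟩
      zero_mem' := ⟨zero_mem _, map_zero _⟩
      smul_mem' := fun c a ha => ⟨U.smul_mem c ha.1, by rw [Q_smul, ha.2, mul_zero]⟩ }
  rcases hirr W (fun u hu => hu.1) (fun w hw => ⟨hUx w hw.1, (OG.map_Q g w).trans hw.2⟩) with h3 | h3
  swap
  · exact .inr (.inl fun u hu => (h3.ge hu).2)
  have h4 : ∀ u ∈ U, Q u = 0 → u = 0 := fun u hu h5 => (Submodule.eq_bot_iff W).1 h3 u ⟨hu, h5⟩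
  obtain ⟨u, hu, hu0⟩ := (Submodule.ne_bot_iff U).1 hU0
  have hu1 : Q u ≠ 0 := fun h5 => hu0 (h4 u hu h5)
  refine .inr (.inr ⟨?_, ?_, ⟨u, hu, hu1⟩, fun v hv => sub_eq_zero.1 (h4 _ (sub_mem (hUx v hv) hv) ?_)⟩)
  · exact (Nat.prime_dvd_prime_iff_eq Fact.out Nat.prime_two).1
      ((CharP.cast_eq_zero_iff F p 2).1 (by simpa using h2))
  · refine finrank_eq_one_iff'.2 ⟨⟨u, hu⟩, fun h5 => hu0 (congrArg Subtype.val h5), fun v => ?_⟩
    obtain ⟨c, hc⟩ := isSquare_of_two h2 (Q v / Q u)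
    refine ⟨c, Subtype.ext (sub_eq_zero.1 (h4 _ (sub_mem (U.smul_mem c hu) v.2) ?_))⟩
    change Q (c • u - v) = 0
    rw [Q_sub, hB _ (U.smul_mem c hu) _ v.2, Q_smul, pow_two, ← hc, div_mul_cancel₀ _ hu1]
    linear_combination Q v * h2
  · rw [Q_sub, hB _ (hUx v hv) _ hv, OG.map_Q]
    linear_combination Q v * h2

end Cfsg.Agent.S2599
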