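import Cfsg.Statements.S2600
import Cfsg.Agent.H6.Sp4

set_option autoImplicit false
open Cfsg

namespace Cfsg.Agent.S2600

/-- Outer automorphism group of PSp_4(q) for q = 2^f even: it is cyclic of order 2f, generated by the class of the exceptional (graph-field) automorphism whose square is the Frobenius field automorphism. -/
theorem result {F : Type*} [Field F] [Fintype F] {f : ℕ} (hf : 1 ≤ f) (hF : Fintype.card F = 2 ^ f) : IsCyclic (Cfsg.Out (Cfsg.PSp 2 F)) ∧ Nat.card (Cfsg.Out (Cfsg.PSp 2 F)) = 2 * f := by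
  have : Fact (Nat.Prime 2) := ⟨Nat.prime_two⟩
  have : CharP F 2 := charP_of_card_eq_prime_pow hF
  have hI := H6.spD_range_eq_inn (F := F) (m := 2) (CharP.ofNat_eq_zero F 2)
  have hfr := H6.orderOf_frobeniusEquiv hF
  obtain ⟨-, hc⟩ := H6.ringAut_cyclic_card (F := F) hF
  have : Finite (F ≃+* F) := Nat.finite_of_card_ne_zero (by omega)
  let π : MulAut (PSp 2 F) →* Out (PSp 2 F) := QuotientGroup.mk' _
  have hD : ∀ g, π (H6.spD F 2 g) = 1 := fun g =>
    (QuotientGroup.eq_one_iff _).2 (hI ▸ ⟨g, rfl⟩)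
  have hΦ : ∀ k : ℤ, H6.spΦ F 2 (frobeniusEquiv F 2 ^ k) = H6.gamAut F ^ (2 * k) := fun k => by
    rw [map_zpow, ← H6.gamAut_sq, zpow_mul, zpow_two]
  have hσ : ∀ σ : F ≃+* F, ∃ k : ℤ, σ = frobeniusEquiv F 2 ^ k := fun σ => by
    have : Subgroup.zpowers (frobeniusEquiv F 2) = ⊤ := by
      rw [← Subgroup.card_eq_iff_eq_top, Nat.card_zpowers, hfr, hc]
    obtain ⟨k, hk⟩ : σ ∈ Subgroup.zpowers (frobeniusEquiv F 2) := this ▸ Subgroup.mem_top _
    exact ⟨k, hk.symm⟩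
  have hgen : ∀ x, x ∈ Subgroup.zpowers (π (H6.gamAut F)) := fun x => by
    obtain ⟨α, rfl⟩ := QuotientGroup.mk'_surjective _ x
    obtain ⟨g, σ, h⟩ := H6.psp4_aut α
    obtain ⟨k, rfl⟩ := hσ σ
    rcases h with h | h
    · refine ⟨2 * k, ?_⟩
      change π _ ^ _ = π α
      rw [h, map_mul, hD, one_mul, hΦ, map_zpow]
    · refine ⟨-1 + 2 * k, ?_⟩
      change π _ ^ _ = π α
      rw [eq_inv_mul_of_mul_eq h, map_mul, map_mul, hD, one_mul, hΦ, map_zpow, map_inv, zpow_add,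
        zpow_neg_one]
  refine ⟨⟨_, hgen⟩, ?_⟩
  rw [← orderOf_eq_card_of_forall_mem_zpowers hgen]
  have h1 : π (H6.gamAut F) ^ (2 * f) = 1 := by
    have := hΦ f
    rw [zpow_natCast, ← hfr, pow_orderOf_eq_one, map_one, hfr] at this
    rw [← map_pow, ← zpow_natCast, Nat.cast_mul, Nat.cast_ofNat, ← this, map_one]
  refine Nat.dvd_antisymm (orderOf_dvd_of_pow_eq_one h1) ?_
  have h2 := pow_orderOf_eq_one (π (H6.gamAut F))
  generalize orderOf (π (H6.gamAut F)) = n at *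
  rw [← map_pow] at h2
  have h3 : H6.gamAut F ^ n ∈ (H6.spD F 2).range := hI ▸ (QuotientGroup.eq_one_iff _).1 h2
  obtain ⟨k, rfl | rfl⟩ := Nat.even_or_odd' n
  · have h4 := hΦ k
    rw [show (2 * k : ℤ) = ((2 * k : ℕ) : ℤ) by simp, zpow_natCast, zpow_natCast] at h4
    rw [← h4] at h3
    have := orderOf_dvd_of_pow_eq_one (H6.eq_one_of_spΦ_mem h3)
    rw [hfr] at this
    exact Nat.mul_dvd_mul_left 2 this
  · obtain ⟨g, hg⟩ := h3
    refine absurd ?_ (H6.gamAut_inv_ne g (frobeniusEquiv F 2 ^ (-(k + 1 : ℤ))))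
    rw [hΦ, hg, ← zpow_natCast, ← zpow_add, ← zpow_neg_one]
    congr 1
    push_cast
    ring

end Cfsg.Agent.S2600
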