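import Cfsg.Statements.S2601
import Cfsg.Agent.H6.OutPSL

set_option autoImplicit false
open Cfsg

namespace Cfsg.Agent.S2601

/-- Structure of the outer automorphism group of PSL_n(q), n ≥ 3, q = p^f: it has a normal cyclic subgroup of order gcd(n, q − 1) (the diagonal automorphisms) whose quotient is the direct product of a cyclic group of order f (field automorphisms) and a group of order 2 (the inverse-transpose graph automorphism). -/
theorem result {F : Type*} [Field F] [Fintype F] {p f n : ℕ} [Fact p.Prime] (hf : 1 ≤ f) (hF : Fintype.card F = p ^ f) (hn : 3 ≤ n) : ∃ φ : Cfsg.Out (Matrix.ProjectiveSpecialLinearGroup (Fin n) F) →* Multiplicative (ZMod f × ZMod 2), Function.Surjective φ ∧ IsCyclic φ.ker ∧ Nat.card φ.ker = Nat.gcd n (p ^ f - 1) := by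
  obtain ⟨h1, h2⟩ := H6.ringAut_cyclic_card hF
  obtain ⟨e⟩ := H6.exists_equiv_zmod (F ≃+* F) h2
  have hn' : 3 ≤ Fintype.card (Fin n) := by simpa using hn
  obtain ⟨e'⟩ := H6.exists_equiv_zmod (Subgroup.zpowers (H6.slI (Fin n) F)) (n := 2)
    (by rw [Nat.card_zpowers, H6.orderOf_slI hn'])
  refine H6.out_hom_transport ((e.prodCongr e').trans (MulEquiv.prodMultiplicative _ _).symm) ?_
  have := H6.slD_range_normal (F := F) (n := n) (by omega)
  have h3 := H6.slD_ker_relIndex (ι := Fin n) (F := F) (by omega)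
  rw [Fintype.card_fin, hF] at h3
  rw [← h3]
  have hc : ∀ (σ : F ≃+* F) (y : Subgroup.zpowers (H6.slI (Fin n) F)),
      Commute (H6.slΦ (Fin n) F σ) ((Subgroup.zpowers (H6.slI (Fin n) F)).subtype y) := by
    rintro σ ⟨y, hy⟩
    rcases H6.mem_zpowers_of_mul_self H6.slI_mul_self hy with rfl | rfl
    · exact Commute.one_right _
    · exact H6.slΦ_mul_slI σ
  refine H6.exists_out_hom (H6.slD (Fin n) F) Matrix.GeneralLinearGroup.det
    ((H6.slΦ (Fin n) F).noncommCoprod (Subgroup.zpowers (H6.slI (Fin n) F)).subtype hc) _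
    H6.inn_psl_eq (fun β => ?_) ?_
  · obtain ⟨g, σ, h | h⟩ := H6.psl_aut_three hn' β
    · exact ⟨g, (σ, 1), by simp [h]⟩
    · exact ⟨g, (σ, ⟨_, Subgroup.mem_zpowers _⟩), by simp [h, mul_assoc]⟩
  · rintro ⟨σ, y, hy⟩ h
    rcases H6.mem_zpowers_of_mul_self H6.slI_mul_self hy with rfl | rfl
    · have : σ = 1 := H6.eq_one_of_slΦ_mem (ι := Fin n) (by omega) (by simpa using h)
      rw [this]; rfl
    · exact absurd (by simpa using h) (H6.slΦI_notMem hn' σ)

end Cfsg.Agent.S2601
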