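import Cfsg.Statements.S2603
import Cfsg.Agent.H6.PSUAut

set_option autoImplicit false
open Cfsg

namespace Cfsg.Agent.S2603

/-- Structure of the outer automorphism group of PSU_n(q), n ≥ 3, (n, q) ≠ (3, 2), q = p^f, realised over the field with q² elements: it has a normal cyclic subgroup of order gcd(n, q + 1) (diagonal automorphisms) with cyclic quotient of order 2f (generated by the Frobenius field automorphism of the field with q² elements, whose f-th power is the graph automorphism). -/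
theorem result {K : Type*} [Field K] [Fintype K] {p f q n : ℕ} [Fact p.Prime] (hf : 1 ≤ f) (hq : q = p ^ f) (hK : Fintype.card K = q ^ 2) (hn : 3 ≤ n) (h32 : ¬ (n = 3 ∧ q = 2)) : ∃ φ : Cfsg.Out (Cfsg.PSU n K q) →* Multiplicative (ZMod (2 * f)), Function.Surjective φ ∧ IsCyclic φ.ker ∧ Nat.card φ.ker = Nat.gcd n (q + 1) := by
  obtain ⟨τ, hσ, hτ⟩ := H6.exists_conj_aut hK
  have : NeZero n := ⟨by omega⟩
  obtain ⟨h1, h2⟩ := H6.ringAut_cyclic_card (F := K) (p := p) (f := 2 * f)
    (by rw [hK, hq, ← pow_mul, mul_comm])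
  obtain ⟨e⟩ := H6.exists_equiv_zmod (K ≃+* K) h2
  refine H6.out_hom_transport e ?_
  have := H6.suD_range_normal hσ hτ hn
  have h3 : ((H6.suD K n q).ker.map (H6.guDet n hτ)).relIndex (H6.guDet n hτ).range =
      Nat.gcd n (q + 1) := by
    rw [H6.suD_ker_map hσ hτ (by omega), MonoidHom.range_eq_top.2 (H6.guDet_surj hτ),
      Subgroup.relIndex_top_right, IsCyclic.index_powMonoidHom_range, H6.card_normOne hK,
      Nat.gcd_comm]
  rw [← h3]
  exact H6.exists_out_hom (H6.suD K n q) (H6.guDet n hτ) (H6.suΦ K n q) _ (H6.inn_psu_eq hτ)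
    (H6.psu_aut hσ hτ hn) fun σ => H6.eq_one_of_suΦ_mem hσ hτ hn

end Cfsg.Agent.S2603
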