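import Cfsg.Statements.S2605
import Cfsg.Agent.H7.OutB

set_option autoImplicit false
open Cfsg

namespace Cfsg.Agent.S2605

open H7

/-- Outer automorphism group of PΩ⁻_2m(q), m ≥ 4, q = 2^f: cyclic of order 2f, generated by a semilinear map inducing the Frobenius automorphism of the field (its f-th power is a graph automorphism, an orthogonal transvection). -/
theorem result {F : Type*} [Field F] [Fintype F] {f m : ℕ} (hf : 1 ≤ f) (hF : Fintype.card F = 2 ^ f) (hm : 4 ≤ m) (a b : F) (hab : ∀ z₁ z₂ : F, z₁ ^ 2 + a * z₁ * z₂ + b * z₂ ^ 2 = 0 → z₁ = 0 ∧ z₂ = 0) : IsCyclic (Cfsg.Out (Cfsg.POmega F (Cfsg.quadFormMinus (m - 1) F a b))) ∧ Nat.card (Cfsg.Out (Cfsg.POmega F (Cfsg.quadFormMinus (m - 1) F a b))) = 2 * f := by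
  have hQ := nd_QM (m := m - 1) (disc_ne_zero_of_aniso hab)
  obtain ⟨e⟩ := out_equiv hQ (by simp; omega) (actP_surjective_QM (by omega) hab)
  obtain ⟨φ, w, h1, -, h3, h4⟩ := exists_frob_QM hF (m - 1) hab
  obtain ⟨h5, h6⟩ := out_minus_two hQ (nonExc_QM hab) (finrank_QM F _) h1
    (H6.ringAut_cyclic_card hF).2 h3 h4 (two_eq_zero_of_card hF)
  exact ⟨isCyclic_of_surjective e.symm e.symm.surjective, (Nat.card_congr e.toEquiv).trans h6⟩

end Cfsg.Agent.S2605
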