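import Cfsg.Statements.S2606
import Cfsg.Agent.H7.OutB

set_option autoImplicit false
open Cfsg

namespace Cfsg.Agent.S2606

open H7

/-- Outer automorphism group of PΩ⁻_2m(q), m ≥ 4, q = p^f odd: it is dihedral of order 8 times cyclic of order f when q ≡ 3 (mod 4) and m is odd, and otherwise the direct product of a group of order 2 with a cyclic group of order 2f. -/
theorem result {F : Type*} [Field F] [Fintype F] {p f m : ℕ} [Fact p.Prime] (hf : 1 ≤ f) (hF : Fintype.card F = p ^ f) (hp : p ≠ 2) (hm : 4 ≤ m) (a b : F) (hab : ∀ z₁ z₂ : F, z₁ ^ 2 + a * z₁ * z₂ + b * z₂ ^ 2 = 0 → z₁ = 0 ∧ z₂ = 0) : if p ^ f % 4 = 3 ∧ Odd m then Nonempty (Cfsg.Out (Cfsg.POmega F (Cfsg.quadFormMinus (m - 1) F a b)) ≃* DihedralGroup 4 × Multiplicative (ZMod f)) else Nonempty (Cfsg.Out (Cfsg.POmega F (Cfsg.quadFormMinus (m - 1) F a b)) ≃* Multiplicative (ZMod 2 × ZMod (2 * f))) := by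
  have hodd := odd_card_of_ne_two hF hp
  have h2 := odd_card_two_ne_zero hodd
  have hQ := nd_QM (m := m - 1) (disc_ne_zero_of_aniso hab)
  obtain ⟨e⟩ := out_equiv hQ (by simp; omega) (actP_surjective_QM (by omega) hab)
  obtain ⟨φ, w, h1, hc, h3, h4⟩ := exists_frob_QM hF (m - 1) hab
  have h5 : Even (m - 1) ∧ Fintype.card F % 4 = 3 ↔ p ^ f % 4 = 3 ∧ Odd m := by
    rw [hF, and_comm, Nat.even_sub (by omega)]; simp
  split_ifs with h
  · obtain ⟨e1⟩ := out_minus_sq hQ (nonExc_QM hab) (finrank_QM F _) (by omega) h1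
      (H6.ringAut_cyclic_card hF).2 h3 h4 h2 ((disc_QM_eq_one_iff hodd hab).2 (h5.2 h))
      (by simp [hc]) (by
        rw [← Nat.not_even_iff_odd]
        rintro ⟨j, rfl⟩
        have h6 := h.1
        rw [pow_add, Nat.mul_mod] at h6
        have := Nat.mod_lt (p ^ j) (show 0 < 4 by omega)
        generalize p ^ j % 4 = x at *
        interval_cases x <;> simp at h6)
    exact ⟨e.trans e1⟩
  · obtain ⟨e1⟩ := out_minus_nsq hQ (nonExc_QM hab) (finrank_QM F _) (by omega) h1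
      (H6.ringAut_cyclic_card hF).2 h3 h4 h2 (disc_QM_eq_neg hodd hab (mt h5.1 h))
    exact ⟨e.trans e1⟩

end Cfsg.Agent.S2606
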