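import Cfsg.Statements.S2607
import Cfsg.Agent.H7.OutTri

set_option autoImplicit false
open Cfsg

namespace Cfsg.Agent.S2607

open H7

/-- Outer automorphism group of PΩ⁺_2m(q), q = 2^f: for m ≥ 5 it is the direct product of a group of order 2 (graph automorphism, an orthogonal transvection) and a cyclic group of order f (field automorphisms); for m = 4 triality enlarges it to S_3 × C_f. -/
theorem result {F : Type*} [Field F] [Fintype F] {f m : ℕ} (hf : 1 ≤ f) (hF : Fintype.card F = 2 ^ f) (hm : 4 ≤ m) : if m = 4 then Nonempty (Cfsg.Out (Cfsg.POmega F (Cfsg.quadFormPlus m F)) ≃* Equiv.Perm (Fin 3) × Multiplicative (ZMod f)) else Nonempty (Cfsg.Out (Cfsg.POmega F (Cfsg.quadFormPlus m F)) ≃* Multiplicative (ZMod 2 × ZMod f)) := by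
  have h2 := two_eq_zero_of_card hF
  have : CharP F 2 := CharTwo.of_one_ne_zero_of_two_eq_zero one_ne_zero h2
  have h1 := exists_frob_gen hF
  have h3 := (H6.ringAut_cyclic_card hF).2
  split_ifs with h
  · subst h
    obtain ⟨ι, τ, hι, hτ⟩ := exists_out_triData (F := F)
    exact hτ.equiv_two hι h1 h3 h2
  · have hQ := nd_QP (F := F) m
    have hE := nonExc_of_finrank hQ (by simp; omega)
    have hev : Even (Module.finrank F (Fin m ⊕ Fin m → F)) := by simp
    have : Nonempty (Fin m) := ⟨⟨0, by omega⟩⟩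
    obtain ⟨e⟩ := out_equiv hQ (by simp; omega) (actP_surjective_QP (by omega))
    obtain ⟨e1⟩ := out_split hQ hE (finrank_QP F m) (by omega)
      (φ := SS.std (frobeniusEquiv F 2) (std_QP m _)) h1 h3 (by simp)
      (by rw [← map_pow, SS.std_pow_eq_one hQ _ (h3 ▸ pow_card_eq_one'), map_one])
    obtain ⟨v, hv⟩ := exists_Q_ne_zero hQ (by simp; omega)
    rw [GO_map_of_two h2 hQ hE hev hv] at e1
    obtain ⟨e2⟩ := nonempty_zpowers_equiv (orderOf_rO hQ hE hev hv)
    exact ⟨(e.trans e1).trans ((e2.prodCongr (MulEquiv.refl _)).trans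
      (MulEquiv.prodMultiplicative _ _).symm)⟩

end Cfsg.Agent.S2607
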