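import Cfsg.Statements.S2608
import Cfsg.Agent.H7.OutTri

set_option autoImplicit false
open Cfsg

namespace Cfsg.Agent.S2608

open H7

/-- Outer automorphism group of PΩ⁺_2m(q), q = p^f odd: for m = 4 it is S_4 × C_f (triality); for m ≥ 5 it is C_2 × C_2 × C_f when q ≡ 3 (mod 4) and m is odd, and D_8 × C_f otherwise. -/
theorem result {F : Type*} [Field F] [Fintype F] {p f m : ℕ} [Fact p.Prime] (hf : 1 ≤ f) (hF : Fintype.card F = p ^ f) (hp : p ≠ 2) (hm : 4 ≤ m) : if m = 4 then Nonempty (Cfsg.Out (Cfsg.POmega F (Cfsg.quadFormPlus m F)) ≃* Equiv.Perm (Fin 4) × Multiplicative (ZMod f)) else if p ^ f % 4 = 3 ∧ Odd m then Nonempty (Cfsg.Out (Cfsg.POmega F (Cfsg.quadFormPlus m F)) ≃* Multiplicative (ZMod 2 × ZMod 2 × ZMod f)) else Nonempty (Cfsg.Out (Cfsg.POmega F (Cfsg.quadFormPlus m F)) ≃* DihedralGroup 4 × Multiplicative (ZMod f)) := by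
  have hodd := odd_card_of_ne_two hF hp
  have h2 := odd_card_two_ne_zero hodd
  have : CharP F p := charP_of_card_eq_prime_pow hF
  have h1 := exists_frob_gen hF
  have h3 := (H6.ringAut_cyclic_card hF).2
  by_cases h : m = 4
  · subst h
    obtain ⟨ι, τ, hι, hτ⟩ := exists_out_triData (F := F)
    exact (if_pos rfl).mpr (hτ.equiv_odd hι h1 h3 h2)
  rw [if_neg h]
  have hQ := nd_QP (F := F) m
  have hE := nonExc_of_finrank hQ (by simp; omega)
  have : Nonempty (Fin m) := ⟨⟨0, by omega⟩⟩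
  obtain ⟨e⟩ := out_equiv hQ (by simp; omega) (actP_surjective_QP (by omega))
  obtain ⟨e1⟩ := out_split hQ hE (finrank_QP F m) (by omega)
    (φ := SS.std (frobeniusEquiv F p) (std_QP m _)) h1 h3 (by simp)
    (by rw [← map_pow, SS.std_pow_eq_one hQ _ (h3 ▸ pow_card_eq_one'), map_one])
  rw [← hF]
  split_ifs with h4
  · obtain ⟨e2⟩ := equiv_GO_klein h2 hQ (finrank_QP F m) (by omega)
      ((disc_QP_eq_neg_iff hodd m).2 h4.symm)
    exact ⟨(e.trans e1).trans ((e2.prodCongr (MulEquiv.refl _)).trans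
      ((MulEquiv.prodMultiplicative _ _).symm.trans
        (AddEquiv.toMultiplicative AddEquiv.prodAssoc)))⟩
  · obtain ⟨e2⟩ := equiv_GO_d8 h2 hQ (finrank_QP F m) (by omega) (disc_QP_eq_one hodd (mt And.symm h4))
    exact ⟨(e.trans e1).trans (e2.prodCongr (MulEquiv.refl _))⟩

end Cfsg.Agent.S2608
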