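import Cfsg.Statements.S2612
import Cfsg.Agent.H7.Parity
import Cfsg.Agent.S2629

set_option autoImplicit false
open Cfsg

namespace Cfsg.Agent.S2612

open Cfsg.Agent.H7

/-- For the hyperbolic quadratic form Σ x_i y_i on F^(2m) (F finite, m ≥ 1, excluding m = 2 over the field of two elements), Ω⁺_2m(F) (the commutator subgroup of the orthogonal group) contains an element interchanging the two complementary maximal totally singular subspaces {y = 0} and {x = 0} if and only if m is even (dimension divisible by 4). -/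
theorem result {F : Type*} [Field F] [Fintype F] {m : ℕ} (hm : 1 ≤ m) (h : Fintype.card F ≠ 2 ∨ m ≠ 2) : (∃ g : ↥(Cfsg.isometryGroup F (Cfsg.quadFormPlus m F)), g ∈ Cfsg.Omega F (Cfsg.quadFormPlus m F) ∧ (∀ v : Fin m ⊕ Fin m → F, (∀ i, v (Sum.inr i) = 0) → ∀ i, (((g : Matrix.GeneralLinearGroup (Fin m ⊕ Fin m) F) : Matrix (Fin m ⊕ Fin m) (Fin m ⊕ Fin m) F).mulVec v) (Sum.inl i) = 0) ∧ (∀ v : Fin m ⊕ Fin m → F, (∀ i, v (Sum.inl i) = 0) → ∀ i, (((g : Matrix.GeneralLinearGroup (Fin m ⊕ Fin m) F) : Matrix (Fin m ⊕ Fin m) (Fin m ⊕ Fin m) F).mulVec v) (Sum.inr i) = 0)) ↔ Even m := by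
  have hQ := nd_QP (F := F) m
  have hE := nonExc_QP h
  set U0 := LinearMap.ker (LinearMap.funLeft F F (Sum.inr : Fin m → Fin m ⊕ Fin m)) with hU0
  set W0 := LinearMap.ker (LinearMap.funLeft F F (Sum.inl : Fin m → Fin m ⊕ Fin m)) with hW0
  have mU : ∀ v, v ∈ U0 ↔ ∀ i, v (Sum.inr i) = 0 := fun v => funext_iff
  have mW : ∀ v, v ∈ W0 ↔ ∀ i, v (Sum.inl i) = 0 := fun v => funext_iff
  have hUd : 2 * Module.finrank F U0 = Module.finrank F (Fin m ⊕ Fin m → F) := by
    rw [S2629.fr0]; simp [two_mul]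
  have par : ∀ g : OG (QP F m), (∀ v ∈ U0, g.1 v ∈ W0) → (Even m ↔ Even (rk g)) := by
    intro g hg
    have := parity_iff hQ hE (S2629.ts0 m) hUd g
    have h0 : U0 ⊓ img g U0 = ⊥ := by
      rw [eq_bot_iff]
      rintro x ⟨hx, y, hy, rfl⟩
      have h1 := (mW _).1 (hg y hy)
      have h2 := (mU _).1 hx
      rw [Submodule.mem_bot]
      ext (i | i)
      exacts [h1 i, h2 i]
    rwa [h0, finrank_bot, S2629.fr0] at this
  rw [← coe_QP, exists_Omega_iff (Q := QP F m) (fun M => (∀ v : Fin m ⊕ Fin m → F, (∀ i, v (Sum.inr i) = 0) →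
    ∀ i, (M.mulVec v) (Sum.inl i) = 0) ∧ (∀ v : Fin m ⊕ Fin m → F, (∀ i, v (Sum.inl i) = 0) →
    ∀ i, (M.mulVec v) (Sum.inr i) = 0))]
  simp only [LinearMap.toMatrix'_mulVec, LinearEquiv.coe_coe]
  constructor
  · rintro ⟨g, hg, h1, -⟩
    exact (par g fun v hv => (mW _).2 (h1 v ((mU _).1 hv))).2 (even_rk_of_mem_commutator hQ hE hg)
  · intro hev
    let s : OG (QP F m) := ⟨LinearEquiv.funCongrLeft F F (Equiv.sumComm _ _), fun v => by
      simp [QP_apply, mul_comm]⟩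
    have hs : ∀ v i, s.1 v (Sum.inl i) = v (Sum.inr i) ∧ s.1 v (Sum.inr i) = v (Sum.inl i) :=
      fun v i => ⟨rfl, rfl⟩
    have hs1 : Even (rk s) := (par s fun v hv => (mW _).2 fun i => by
      rw [(hs v i).1]; exact (mU _).1 hv i).1 hev
    obtain ⟨c, hc, hcs⟩ := exists_chi_eq_theta hQ hE s
    let d : Fin m → Fˣ := Pi.mulSingle ⟨0, hm⟩ (Units.mk0 c hc)
    have hd := (hypSys_QP m).levi_spec hQ hE (diagGL d)
    rw [hypSys_QP_ext] at hd
    have hdet : (diagGL d : Matrix (Fin m) (Fin m) F).det = c := by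
      simp only [diagGL, MonoidHom.coe_mk, OneHom.coe_mk, Matrix.det_diagonal]
      rw [← Units.coe_prod, Fintype.prod_pi_mulSingle']; rfl
    refine ⟨s * levi (diagGL d), ?_, fun v hv i => ?_, fun v hv i => ?_⟩
    · rw [mem_commutator_iff hQ hE, even_rk_mul hQ hE, theta_mul hQ hE, hd.2, hdet, hcs,
        theta_mul_self hQ hE]
      simp [hs1, hd.1]
    · rw [OG.mul_apply, (hs _ _).1, levi_diagGL_apply]; simp [hv]
    · rw [OG.mul_apply, (hs _ _).2, levi_diagGL_apply]; simp [hv]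

end Cfsg.Agent.S2612
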