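import Cfsg.Statements.S2615
import Cfsg.Agent.H7.Levi

set_option autoImplicit false
open Cfsg

namespace Cfsg.Agent.S2615

open Cfsg.Agent.H7

lemma aux {F : Type*} [Field F] (m : ℕ) (a b : F) (d : Fin m → Fˣ) (x : (Fin m ⊕ Fin m) ⊕ Fin 2 → F) :
    ((hypSys_QM m a b).ext (levi (diagGL d))).1 x =
      Sum.elim (Sum.elim (fun j => d j * x (.inl (.inl j))) (fun j => (d j : F)⁻¹ * x (.inl (.inr j))))
        (fun j => x (.inr j)) := by
  rw [HypSys.ext_apply, levi_diagGL_apply]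
  ext ((j | j) | j) <;> simp [hcomb_apply, Finset.sum_apply, Pi.single_apply, polar_QM]

/-- For an elliptic form Σ_(j<m−1) x_j y_j + (z₁² + a z₁z₂ + b z₂²) (anisotropic binary part) on F^(2m), F finite with q elements, q odd, and 1 ≤ i ≤ m − 1: the involution negating the first i hyperbolic pairs and fixing the rest lies in Ω⁻_2m(q) (commutator subgroup of the orthogonal group) if and only if q^i ≡ 1 (mod 4). -/
theorem result {F : Type*} [Field F] [Fintype F] {q : ℕ} (hF : Fintype.card F = q) (hq : Odd q) {m : ℕ} (a b : F) (hab : ∀ z₁ z₂ : F, z₁ ^ 2 + a * z₁ * z₂ + b * z₂ ^ 2 = 0 → z₁ = 0 ∧ z₂ = 0) (i : ℕ) (hi : 1 ≤ i) (him : i + 1 ≤ m) : (∃ g : ↥(Cfsg.isometryGroup F (Cfsg.quadFormMinus (m - 1) F a b)), g ∈ Cfsg.Omega F (Cfsg.quadFormMinus (m - 1) F a b) ∧ ((g : Matrix.GeneralLinearGroup ((Fin (m - 1) ⊕ Fin (m - 1)) ⊕ Fin 2) F) : Matrix ((Fin (m - 1) ⊕ Fin (m - 1)) ⊕ Fin 2) ((Fin (m - 1) ⊕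 Fin (m - 1)) ⊕ Fin 2) F) = Matrix.diagonal (fun k : (Fin (m - 1) ⊕ Fin (m - 1)) ⊕ Fin 2 => if (Sum.elim (Sum.elim (fun j : Fin (m - 1) => (j : ℕ)) (fun j : Fin (m - 1) => (j : ℕ))) (fun _ : Fin 2 => i) k) < i then (-1 : F) else 1)) ↔ q ^ i % 4 = 1 := by
  have := (hypSys_QM (m - 1) a b).negPairs_mem_iff (nd_QM (disc_ne_zero_of_aniso hab))
    (nonExc_QM hab) (i := i) (by omega)
  rw [← chi_neg_one_pow_eq_one_iff hF hq, ← this]
  refine exists_Omega_eq_iff' (Q := QM F (m - 1) a b) _ (fun x => ?_)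
  rw [aux]
  ext ((j | j) | j) <;> simp only [Matrix.mulVec_diagonal, Sum.elim_inl, Sum.elim_inr]
  · split_ifs with h <;> simp [h]
  · split_ifs with h <;> simp [h]
  · simp

end Cfsg.Agent.S2615
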