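import Cfsg.Statements.S2618
import Cfsg.Agent.H7.Classify

set_option autoImplicit false
open Cfsg

namespace Cfsg.Agent.S2618

open Cfsg.Agent.H7

/-- Standard (parabolic) basis of a non-degenerate quadratic space of odd dimension 2m + 1 over a finite field (the non-degeneracy of the polar form forces the characteristic to be odd): there is a basis e_i, f_i (i < m), x with Q(e_i) = Q(f_i) = 0, B(e_i, f_j) = δ_ij (B the polar form), the e's pairwise orthogonal and the f's pairwise orthogonal, x orthogonal to all of them and Q(x) ≠ 0. -/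
theorem result {F V : Type*} [Field F] [Finite F] [AddCommGroup V] [Module F V] [FiniteDimensional F V] {m : ℕ} (hV : Module.finrank F V = 2 * m + 1) (Q : QuadraticForm F V) (hQ : (QuadraticMap.polarBilin Q).Nondegenerate) : ∃ b : Module.Basis (Unit ⊕ (Fin m ⊕ Fin m)) F V, Q (b (Sum.inl ())) ≠ 0 ∧ (∀ i, QuadraticMap.polar ⇑Q (b (Sum.inl ())) (b (Sum.inr (Sum.inl i))) = 0 ∧ QuadraticMap.polar ⇑Q (b (Sum.inl ())) (b (Sum.inr (Sum.inr i))) = 0) ∧ (∀ i, Q (b (Sum.inr (Sum.inl i))) = 0 ∧ Q (b (Sum.inr (Sum.inr i))) = 0) ∧ (∀ i j, QuadraticMap.polar ⇑Q (b (Sum.inr (Sum.inl i))) (b (Sum.inr (Sum.inr j))) = if i = j then 1 else 0) ∧ (∀ i j, QuadraticMap.polar ⇑Q (b (Sum.inr (Sum.inl i))) (b (Sum.inr (Sum.inl j))) = 0 ∧ QuadraticMap.polar ⇑Q (b (Sum.inr (Sum.inr i))) (b (Sum.inr (Sum.inr j))) = 0) := by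
  obtain ⟨e, f, x, hef, hx, hx'⟩ := exists_hypSys_odd hQ hV
  have hxp : x ∈ hperp Q e f := hx' ▸ Submodule.mem_span_singleton_self x
  have hli : LinearIndependent F (Sum.elim (fun _ : Unit => x) (Sum.elim e f)) := by
    rw [Fintype.linearIndependent_iff]
    intro c hc
    have h1 : c (Sum.inl ()) • x + hcomb e f (fun i => c (Sum.inr i)) = 0 := by
      simpa [Fintype.sum_sum_type, hcomb_apply] using hc
    have h2 := congrArg (hcoord Q e f) h1
    rw [map_add, map_smul, hcoord_of_mem hxp, hef.hcoord_hcomb, smul_zero, zero_add, map_zero] at h2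
    rw [h2, map_zero, add_zero, smul_eq_zero] at h1
    rintro (i | i)
    · exact h1.resolve_right (by rintro rfl; simp at hx)
    · exact congrFun h2 i
  refine ⟨basisOfLinearIndependentOfCardEqFinrank hli (by simp [hV]; omega), ?_⟩
  simp only [coe_basisOfLinearIndependentOfCardEqFinrank, Sum.elim_inl, Sum.elim_inr]
  exact ⟨hx, hxp, fun i => ⟨hef.Qe i, hef.Qf i⟩, hef.ef, fun i j => ⟨hef.ee i j, hef.ff i j⟩⟩

end Cfsg.Agent.S2618
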