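import Cfsg.Statements.S2619
import Cfsg.Agent.H7.Basic

set_option autoImplicit false
open Cfsg

namespace Cfsg.Agent.S2619

open Cfsg.Agent.H7 QuadraticMap

/-- Over a finite field of characteristic two, given an alternating bilinear form B on a finite-dimensional space, a basis (v_i) and scalars (λ_i), there is exactly one quadratic form whose polar form is B and whose value at each v_i is λ_i. -/
theorem result {F V ι : Type*} [Field F] [Finite F] [CharP F 2] [AddCommGroup V] [Module F V] [Fintype ι] (b : Module.Basis ι F V) (B : LinearMap.BilinForm F V) (hB : B.IsAlt) (c : ι → F) : ∃! Q : QuadraticForm F V, QuadraticMap.polarBilin Q = B ∧ ∀ i, Q (b i) = c i := by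
  classical
  have h2 : (2 : F) = 0 := CharTwo.two_eq_zero
  have hsymm : ∀ x y, B x y = B y x := fun x y => by
    rw [← hB.neg_eq, CharTwo.neg_eq]
  let r : ι → ℕ := fun i => Fintype.equivFin ι i
  have hr : Function.Injective r := fun i j hij =>
    (Fintype.equivFin ι).injective (Fin.ext hij)
  let M : Matrix ι ι F := fun i j => if i = j then c i else if r i < r j then B (b i) (b j) else 0
  let β : LinearMap.BilinForm F V := Matrix.toBilin b M
  have hβ : ∀ i j, β (b i) (b j) = M i j := fun i j => by
    simp [β, Matrix.toBilin_apply, Finsupp.single_apply]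
  refine existsUnique_of_exists_of_unique ⟨LinearMap.BilinMap.toQuadraticMap β, ?_, fun i => ?_⟩ ?_
  · rw [LinearMap.BilinMap.polarBilin_toQuadraticMap]
    refine b.ext fun i => b.ext fun j => ?_
    simp only [LinearMap.add_apply, LinearMap.flip_apply, hβ, M]
    by_cases hij : i = j
    · subst hij
      simp only [if_true, hB.self_eq_zero]
      linear_combination c i * h2
    · have hij' : ¬ j = i := fun h => hij h.symm
      simp only [hij, hij', if_false]
      rcases lt_trichotomy (r i) (r j) with h | h | h
      · simp [h, not_lt.2 h.le]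
      · exact absurd (hr h) hij
      · simp [h, not_lt.2 h.le, hsymm (b i)]
  · simp [hβ, M]
  · rintro Q₁ Q₂ ⟨h4, h5⟩ ⟨h6, h7⟩
    have h1 := h4.trans h6.symm
    have h3 : ∀ i, Q₁ (b i) = Q₂ (b i) := fun i => (h5 i).trans (h7 i).symm
    ext x
    have hp : ∀ x y, polar Q₁ x y = polar Q₂ x y := fun x y => by
      rw [← polarBilin_apply_apply, h1, polarBilin_apply_apply]
    have hx : x ∈ Submodule.span F (Set.range b) := b.mem_span x
    induction hx using Submodule.span_induction with
    | mem x hx => obtain ⟨i, rfl⟩ := hx; exact h3 i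
    | zero => simp
    | add x y _ _ hx hy => rw [Q_add, Q_add, hx, hy, hp]
    | smul a x _ hx => rw [Q_smul, Q_smul, hx]

end Cfsg.Agent.S2619
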