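import Cfsg.Statements.S2621
import Cfsg.Agent.H7.Disc

set_option autoImplicit false
open Cfsg

namespace Cfsg.Agent.S2621

open Cfsg.Agent.H7

/-- Discriminant of an elliptic quadratic form Σ_(i<m−1) x_i y_i + z₁² + a z₁z₂ + c z₂² (binary part anisotropic) in dimension 2m over a field with q elements, q odd, m ≥ 1: the determinant of the Gram matrix of its polar form in any basis is a square if and only if m(q − 1)/2 is odd (equivalently q^m ≡ 3 (mod 4)). -/
theorem result {F : Type*} [Field F] [Fintype F] {q : ℕ} (hF : Fintype.card F = q) (hq : Odd q) {m : ℕ} (hm : 1 ≤ m) (a c : F) (hac : ∀ z₁ z₂ : F, z₁ ^ 2 + a * z₁ * z₂ + c * z₂ ^ 2 = 0 → z₁ = 0 ∧ z₂ = 0) {ι : Type*} [Fintype ι] [DecidableEq ι] (b : Module.Basis ι F ((Fin (m - 1) ⊕ Fin (m - 1)) ⊕ Fin 2 → F)) : IsSquare (Matrix.of (fun i j : ι => QuadraticMap.polar (Cfsg.quadFormMinus (m - 1) F a c) (b i) (b j))).det ↔ ¬ Even (m * (q - 1) / 2) := by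
  have h2 : (2 : F) ≠ 0 := odd_card_two_ne_zero (hF ▸ hq)
  have h1 := isSquare_gram_iff (nd_QM (m := m - 1) (disc_ne_zero_of_aniso hac)) b
  rw [disc_QM_aniso h2 _ hac, Nat.sub_add_cancel hm] at h1
  rw [← chi_neg_one_pow_eq_one_iff' hF hq]
  refine Iff.trans h1 ?_
  have := chi_neg_one_pow_mul_self (F := F) m
  rcases Int.eq_one_or_neg_one_of_mul_eq_one this with h | h <;> simp [h]

end Cfsg.Agent.S2621
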