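import Cfsg.Statements.S2622
import Cfsg.Agent.H7.Classify

set_option autoImplicit false
open Cfsg

namespace Cfsg.Agent.S2622

open Module

lemma aux {F : Type*} [Field F] [Finite F] (h2 : (2 : F) = 0) (n : ℕ) :
    ∀ {V : Type*} [AddCommGroup V] [Module F V] [FiniteDimensional F V], finrank F V = n →
      ∀ B : LinearMap.BilinForm F V, B.IsSymm → B.Nondegenerate → (n = 0 ∨ ∃ v, B v v ≠ 0) →
      ∃ b : Fin n → V, ∀ i j, B (b i) (b j) = if i = j then 1 else 0 := by
  induction n with
  | zero => exact fun _ _ _ _ _ => ⟨Fin.elim0, fun i => i.elim0⟩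
  | succ n ih =>
    intro V _ _ _ hV B hS hB hna
    obtain ⟨v, hv⟩ := hna.resolve_left (by omega)
    have hc : ∀ x y, B x y = B y x := fun x y => hS.eq x y
    obtain ⟨v, hv1⟩ : ∃ v, B v v = 1 := by
      obtain ⟨c, hc⟩ := H7.isSquare_of_two h2 (B v v)⁻¹
      exact ⟨c • v, by simp [← mul_assoc, ← hc, hv]⟩
    have hd : ∀ v, B v v = 1 → finrank F (B.orthogonal (F ∙ v)) = n := fun v hv => by
      have := Submodule.finrank_add_eq_of_isCompl
        (LinearMap.BilinForm.isCompl_span_singleton_orthogonal (B := B) (x := v) (by simp [hv]))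
      rw [finrank_span_singleton (by rintro rfl; simp at hv)] at this
      omega
    have hm : ∀ v w, w ∈ B.orthogonal (F ∙ v) ↔ B v w = 0 := fun v w =>
      ⟨fun h => h v (Submodule.mem_span_singleton_self v), fun h u hu => by
        obtain ⟨c, rfl⟩ := Submodule.mem_span_singleton.1 hu
        simp [h]⟩
    have hn : ∀ v, B v v = 1 → (B.restrict (B.orthogonal (F ∙ v))).Nondegenerate := fun v hv =>
      B.restrict_nondegenerate_orthogonal_spanSingleton hB hS.isRefl
        (by simp [hv])
    obtain ⟨v, hv1, hv2⟩ : ∃ v, B v v = 1 ∧ (n = 0 ∨ ∃ w, B v w = 0 ∧ B w w ≠ 0) := by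
      by_contra! h
      obtain ⟨h0, h1⟩ := h v hv1
      have : Nontrivial (B.orthogonal (F ∙ v)) :=
        Module.nontrivial_of_finrank_pos (R := F) (by rw [hd v hv1]; omega)
      obtain ⟨e, he⟩ := exists_ne (0 : B.orthogonal (F ∙ v))
      obtain ⟨f, hf⟩ : ∃ f : B.orthogonal (F ∙ v), B e f ≠ 0 := by
        by_contra! h3
        exact he ((hn v hv1).1 e h3)
      have e1 := (hm _ _).1 e.2
      have f1 := (hm _ _).1 f.2
      have := (h (v + e) (by simp [hv1, e1, hc e v, h1 e e1])).2 (B e f • v + f)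
        (by simp [hv1, f1, hc e v, e1]; linear_combination B e f * h2)
      simp [hv1, f1, hc f v, h1 f f1, hf] at this
    obtain ⟨b, hb⟩ := ih (hd v hv1) _ (hS.restrict _) (hn v hv1)
      (hv2.imp_right fun ⟨w, h1, h3⟩ => ⟨⟨w, (hm _ _).2 h1⟩, h3⟩)
    refine ⟨Fin.cons v fun i => b i, fun i j => ?_⟩
    refine Fin.cases ?_ (fun i => ?_) i <;> refine Fin.cases ?_ (fun j => ?_) j
    · simpa using hv1
    · simpa [(Fin.succ_ne_zero j).symm] using (hm _ _).1 (b j).2
    · simpa [hc _ v] using (hm _ _).1 (b i).2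
    · simpa using hb i j

/-- Over a finite field of characteristic two, a non-degenerate symmetric bilinear form that is not alternating (some vector v has B(v, v) ≠ 0) admits an orthonormal basis. -/
theorem result {F V : Type*} [Field F] [Finite F] [CharP F 2] [AddCommGroup V] [Module F V] [FiniteDimensional F V] {n : ℕ} (hV : Module.finrank F V = n) (B : LinearMap.BilinForm F V) (hS : B.IsSymm) (hB : B.Nondegenerate) (hna : ∃ v : V, B v v ≠ 0) : ∃ b : Module.Basis (Fin n) F V, ∀ i j, B (b i) (b j) = if i = j then 1 else 0 := by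
  obtain ⟨b, hb⟩ := aux (CharP.cast_eq_zero F 2) n hV B hS hB (.inr hna)
  have hl : LinearIndependent F b := Fintype.linearIndependent_iff.2 fun c hc j => by
    simpa [hb] using congrArg (fun x => B x (b j)) hc
  obtain ⟨v, hv⟩ := hna
  have : Nonempty (Fin n) := by
    have : Nontrivial V := ⟨v, 0, by rintro rfl; simp at hv⟩
    exact ⟨⟨0, hV ▸ Module.finrank_pos⟩⟩
  exact ⟨basisOfLinearIndependentOfCardEqFinrank hl (by simp [hV]), by simpa using hb⟩

end Cfsg.Agent.S2622
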