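import Cfsg.Statements.S2623
import Cfsg.Agent.H7.Disc

set_option autoImplicit false
open Cfsg

namespace Cfsg.Agent.S2623

open Cfsg.Agent.H7

/-- Over a finite field of odd order, two quadratic forms on F^n with non-degenerate polar forms are isometric (related by an invertible linear change of variables) if and only if their discriminants (determinants of the Gram matrices of their polar forms) lie in the same square class. -/
theorem result {F : Type*} [Field F] [Fintype F] (h2 : (2 : F) ≠ 0) {n : ℕ} (Q₁ Q₂ : QuadraticForm F (Fin n → F)) (h₁ : (QuadraticMap.polarBilin Q₁).Nondegenerate) (h₂ : (QuadraticMap.polarBilin Q₂).Nondegenerate) : (∃ g : (Fin n → F) ≃ₗ[F] (Fin n → F), ∀ v, Q₂ (g v) = Q₁ v) ↔ IsSquare ((Matrix.of (fun i j : Fin n => QuadraticMap.polar ⇑Q₁ (Pi.single i 1) (Pi.single j 1))).det * (Matrix.of (fun i j : Fin n => QuadraticMap.polar ⇑Q₂ (Pi.single i 1) (Pi.single j 1))).det) := by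
  have e1 : (Matrix.of (fun i j : Fin n => QuadraticMap.polar ⇑Q₁ (Pi.single i 1) (Pi.single j 1))) =
      gram (QuadraticMap.polarBilin Q₁) (Pi.basisFun F (Fin n)) := by ext i j; simp [gram]
  have e2 : (Matrix.of (fun i j : Fin n => QuadraticMap.polar ⇑Q₂ (Pi.single i 1) (Pi.single j 1))) =
      gram (QuadraticMap.polarBilin Q₂) (Pi.basisFun F (Fin n)) := by ext i j; simp [gram]
  rw [e1, e2, ← chi_eq_one_iff (mul_ne_zero (gram_det_ne_zero h₁ _) (gram_det_ne_zero h₂ _)),
    map_mul, ← disc_eq, ← disc_eq]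
  constructor
  · rintro ⟨g, hg⟩
    rw [disc_congr g hg, disc_mul_self h₁]
  · intro h
    apply exists_isometry_of_disc h2 h₁ h₂ rfl
    calc disc Q₁ = disc Q₁ * (disc Q₂ * disc Q₂) := by rw [disc_mul_self h₂, mul_one]
      _ = disc Q₂ := by rw [← mul_assoc, h, one_mul]

end Cfsg.Agent.S2623
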