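import Cfsg.Statements.S2625
import Cfsg.Agent.H7.Disc

set_option autoImplicit false
open Cfsg

namespace Cfsg.Agent.S2625

open Cfsg.Agent.H7

/-- For a quadratic form Q on F^n with non-degenerate polar form, F finite and n odd (so |F| is odd), the multiplier of any similarity is a square: if g is an invertible linear map with Q(g v) = c·Q(v) for all v then c is a square. -/
theorem result {F : Type*} [Field F] [Fintype F] {n : ℕ} (hn : Odd n) (Q : QuadraticForm F (Fin n → F)) (hQ : (QuadraticMap.polarBilin Q).Nondegenerate) (g : (Fin n → F) ≃ₗ[F] (Fin n → F)) (c : F) (hg : ∀ v, Q (g v) = c * Q v) : IsSquare c := by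
  have h := det_sq_of_similarity hQ g.toLinearMap c hg
  obtain ⟨k, rfl⟩ := hn
  by_cases hc : c = 0
  · simp [hc]
  refine ⟨LinearMap.det g.toLinearMap / c ^ k, ?_⟩
  simp only [Module.finrank_fintype_fun_eq_card, Fintype.card_fin] at h
  field_simp
  rw [h]; ring

end Cfsg.Agent.S2625
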