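import Cfsg.Statements.S2627
import Cfsg.Agent.H7.Sum

set_option autoImplicit false
open Cfsg

namespace Cfsg.Agent.S2627

open Cfsg.Agent.H7

/-- For an orthogonal direct sum Q = Q₁ ⊕ Q₂ of quadratic forms with non-degenerate polar forms over a finite field, an isometry g₁ of Q₁ extended by the identity on the second summand lies in Ω(Q) (the commutator subgroup of the orthogonal group of Q) if and only if g₁ lies in Ω(Q₁). (Excluded: the field of two elements when the first summand or the whole space has dimension 4, where the commutator subgroup of O⁺₄(2) is smaller than the group usually called Ω.) -/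
theorem result {F : Type*} [Field F] [Fintype F] {k l : ℕ} (h : Fintype.card F ≠ 2 ∨ (k ≠ 4 ∧ k + l ≠ 4)) (Q₁ : QuadraticForm F (Fin k → F)) (Q₂ : QuadraticForm F (Fin l → F)) (h₁ : (QuadraticMap.polarBilin Q₁).Nondegenerate) (h₂ : (QuadraticMap.polarBilin Q₂).Nondegenerate) (g₁ : ↥(Cfsg.isometryGroup F ⇑Q₁)) : (∃ g : ↥(Cfsg.isometryGroup F (fun v : Fin k ⊕ Fin l → F => Q₁ (v ∘ Sum.inl) + Q₂ (v ∘ Sum.inr))), g ∈ Cfsg.Omega F (fun v : Fin k ⊕ Fin l → F => Q₁ (v ∘ Sum.inl) + Q₂ (v ∘ Sum.inr)) ∧ ((g : Matrix.GeneralLinearGroup (Fin k ⊕ Fin l) F) : Matrix (Fin k ⊕ Fin l) (Fin k ⊕ Fin l) F) = Matrix.fromBlocks ((g₁ : Matrix.GeneralLinearGroup (Fin k) F) : Matrix (Fin k) (Fin k) F) 0 0 1) ↔ g₁ ∈ Cfsg.Omega F ⇑Q₁ := by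
  have hQ := nd_QSum h₁ h₂
  have hE : NonExc (QSum Q₁ Q₂) := nonExc_of_card hQ (h.imp id fun h => by simpa using h.2)
  have hE₁ : NonExc Q₁ := nonExc_of_card h₁ (h.imp id fun h => by simpa using h.1)
  refine (exists_Omega_eq_iff' (Q := QSum Q₁ Q₂) _ (qsumHom_apply g₁ 1)).trans ?_
  rw [mem_Omega_iff, map_one]
  obtain ⟨vs, hvs, hg⟩ := exists_refl_list h₁ hE₁ (isoEquiv Q₁ g₁)
  have hq : ∀ v, QSum Q₁ Q₂ (Sum.elim v 0) = Q₁ v := fun v => by simp [coe_QSum]
  have : qsumHom Q₁ Q₂ (isoEquiv Q₁ g₁, 1) =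
      ((vs.map fun v => Sum.elim v (0 : Fin l → F)).map (refl (QSum Q₁ Q₂))).prod := by
    rw [hg]
    change ((qsumHom Q₁ Q₂).comp (MonoidHom.inl _ _)) _ = _
    rw [map_list_prod, List.map_map, List.map_map]
    congr 1
    exact List.map_congr_left fun v _ => qsumHom_refl_left v
  rw [this, hg, list_mem_commutator_iff hQ hE _ (by simpa [hq] using hvs),
    list_mem_commutator_iff h₁ hE₁ _ hvs]
  simp [List.map_map, Function.comp_def, hq]

end Cfsg.Agent.S2627
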