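import Cfsg.Statements.S2628
import Cfsg.Agent.H7.Sum

set_option autoImplicit false
open Cfsg

namespace Cfsg.Agent.S2628

open Cfsg.Agent.H7

/-- For the orthogonal direct sum Q ⊕ Q of two copies of a quadratic form Q with non-degenerate polar form on F^k (F finite), every isometry g of Q acting diagonally, diag(g, g), lies in Ω(Q ⊕ Q), the commutator subgroup of the orthogonal group of Q ⊕ Q. (Excluded: k = 2 over the field of two elements, where Q ⊕ Q is the hyperbolic 4-space whose orthogonal group's commutator subgroup is smaller than the group usually called Ω.) -/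
theorem result {F : Type*} [Field F] [Fintype F] {k : ℕ} (h : Fintype.card F ≠ 2 ∨ k ≠ 2) (Q : QuadraticForm F (Fin k → F)) (hQ : (QuadraticMap.polarBilin Q).Nondegenerate) (g : ↥(Cfsg.isometryGroup F ⇑Q)) : ∃ x : ↥(Cfsg.isometryGroup F (fun v : Fin k ⊕ Fin k → F => Q (v ∘ Sum.inl) + Q (v ∘ Sum.inr))), x ∈ Cfsg.Omega F (fun v : Fin k ⊕ Fin k → F => Q (v ∘ Sum.inl) + Q (v ∘ Sum.inr)) ∧ ((x : Matrix.GeneralLinearGroup (Fin k ⊕ Fin k) F) : Matrix (Fin k ⊕ Fin k) (Fin k ⊕ Fin k) F) = Matrix.fromBlocks ((g : Matrix.GeneralLinearGroup (Fin k) F) : Matrix (Fin k) (Fin k) F) 0 0 ((g : Matrix.GeneralLinearGroup (Fin k) F) : Matrix (Fin k) (Fin k) F) := by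
  have hQ' := nd_QSum hQ hQ
  have hE : NonExc (QSum Q Q) := nonExc_of_card hQ' (h.imp id fun h => by simp; omega)
  refine (exists_Omega_eq_iff' (Q := QSum Q Q) _ (qsumHom_apply g g)).2 ?_
  let s : OG (QSum Q Q) := ⟨LinearEquiv.funCongrLeft F F (Equiv.sumComm _ _), fun v => by
    simp only [coe_QSum]; rw [add_comm]; rfl⟩
  have : qsumHom Q Q (isoEquiv Q g, isoEquiv Q g) =
      qsumHom Q Q (isoEquiv Q g, 1) * (s * qsumHom Q Q (isoEquiv Q g, 1) * s⁻¹) := by
    have h1 : s * qsumHom Q Q (isoEquiv Q g, 1) * s⁻¹ = qsumHom Q Q (1, isoEquiv Q g) := by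
      apply OG.ext'; intro x
      ext (i | i) <;> rfl
    rw [h1, ← map_mul]; simp
  rw [this, mem_commutator_iff hQ' hE, even_rk_mul hQ' hE, even_rk_mul hQ' hE, even_rk_mul hQ' hE,
    theta_mul hQ' hE, theta_mul hQ' hE, theta_mul hQ' hE, rk_inv, theta_inv hQ' hE,
    mul_right_comm (theta s), theta_mul_self hQ' hE, one_mul, theta_mul_self hQ' hE]
  tauto

end Cfsg.Agent.S2628
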