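import Cfsg.Statements.S2631
import Cfsg.Agent.H7.Parity

set_option autoImplicit false
open Cfsg

namespace Cfsg.Agent.S2631

open Cfsg.Agent.H7

/-- For the hyperbolic form Σ x_i y_i on F^(2m) over a finite field (m ≥ 1, excluding m = 2 over the field of two elements), Ω (the commutator subgroup of the orthogonal group) acts transitively on each of the two classes of maximal totally singular subspaces: if U and W are m-dimensional totally singular subspaces with m − dim(U ∩ W) even, some element of Ω carries U to W. -/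
theorem result {F : Type*} [Field F] [Fintype F] {m : ℕ} (hm : 1 ≤ m) (h : Fintype.card F ≠ 2 ∨ m ≠ 2) (U W : Submodule F (Fin m ⊕ Fin m → F)) (hU : Module.finrank F U = m) (hW : Module.finrank F W = m) (hU0 : ∀ u ∈ U, Cfsg.quadFormPlus m F u = 0) (hW0 : ∀ w ∈ W, Cfsg.quadFormPlus m F w = 0) (he : Even (m - Module.finrank F ↥(U ⊓ W))) : ∃ g : ↥(Cfsg.isometryGroup F (Cfsg.quadFormPlus m F)), g ∈ Cfsg.Omega F (Cfsg.quadFormPlus m F) ∧ U.map (Matrix.mulVecLin ((g : Matrix.GeneralLinearGroup (Fin m ⊕ Fin m) F) : Matrix (Fin m ⊕ Fin m) (Fin m ⊕ Fin m) F)) = W := by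
  have hQ := nd_QP (F := F) m
  have hE := nonExc_QP h
  obtain ⟨g, hg⟩ := TS.exists_img_eq hQ hU0 hW0 (hU.trans hW.symm)
  have hev : Even (rk g) := by
    rw [← parity_iff hQ hE hU0 (by rw [hU]; simp [two_mul]), hg, hU]; exact he
  obtain ⟨c, hc, hcg⟩ := exists_chi_eq_theta hQ hE g
  obtain ⟨s, hs, hs1, hs2⟩ := TS.exists_stab_theta hQ hU0
    (by rintro rfl; simp at hU; omega) hc
  obtain ⟨g', hg', hg2⟩ := exists_Omega_img hQ hE hg s hs (by simp [hs1, hev]) (hs2.trans hcg)
  refine ⟨(isoEquiv (QP F m)).symm g', (mem_Omega_iff (Q := QP F m) _).2 (by simpa using hg'), ?_⟩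
  rw [← isoEquiv_toLinearMap (Q := QP F m), MulEquiv.apply_symm_apply]
  exact hg2

end Cfsg.Agent.S2631
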