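import Cfsg.Statements.S2632
import Cfsg.Agent.H7.Parity

set_option autoImplicit false
open Cfsg

namespace Cfsg.Agent.S2632

open Cfsg.Agent.H7

/-- Ω is transitive on non-degenerate subspaces of each isometry type: for a quadratic form Q on F^n, n ≥ 3, with non-degenerate polar form (F finite; excluding dimension 4 over the field of two elements), if U and W are subspaces on which the polar form is non-degenerate and there is a Q-preserving linear isomorphism U → W, then some element of Ω (the commutator subgroup of the orthogonal group) carries U to W. (In dimension 2 this fails: Ω can be {±1}, which fixes every line.) -/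
theorem result {F : Type*} [Field F] [Fintype F] {n : ℕ} (hn : 3 ≤ n) (h : Fintype.card F ≠ 2 ∨ n ≠ 4) (Q : QuadraticForm F (Fin n → F)) (hQ : (QuadraticMap.polarBilin Q).Nondegenerate) (U W : Submodule F (Fin n → F)) (hU : U ⊓ LinearMap.BilinForm.orthogonal (QuadraticMap.polarBilin Q) U = ⊥) (hW : W ⊓ LinearMap.BilinForm.orthogonal (QuadraticMap.polarBilin Q) W = ⊥) (e : U ≃ₗ[F] W) (he : ∀ u : U, Q (e u : Fin n → F) = Q (u : Fin n → F)) : ∃ g : ↥(Cfsg.isometryGroup F ⇑Q), g ∈ Cfsg.Omega F ⇑Q ∧ U.map (Matrix.mulVecLin ((g : Matrix.GeneralLinearGroup (Fin n) F) : Matrix (Fin n) (Fin n) F)) = W := by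
  have hE : NonExc Q := nonExc_of_card hQ (by simpa using h)
  obtain ⟨g, hg, -⟩ := exists_img_eq hQ e he
  have key : ∀ X : Submodule F (Fin n → F), X ⊓ perp Q X = ⊥ → 2 ≤ Module.finrank F X →
      ∀ c : F, ∃ v ∈ X, Q v = c := by
    intro X hX h2 c
    obtain ⟨v, hv⟩ := exists_Q_eq (nd_restrict_iff.2 hX) h2 c
    exact ⟨v, v.2, hv⟩
  obtain ⟨g', hg1, hg2⟩ := exists_Omega_img_of_refl hQ hE hg (fun c hc => by
    by_cases h2 : 2 ≤ Module.finrank F U
    · obtain ⟨v, hv, hvc⟩ := key U hU h2 c
      exact ⟨v, hvc ▸ hc, by rw [hvc], img_refl_of_mem hv⟩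
    · have h3 := finrank_perp hQ U
      simp only [Module.finrank_fintype_fun_eq_card, Fintype.card_fin] at h3
      obtain ⟨v, hv, hvc⟩ := key _ (perp_nd hQ hU) (by omega) c
      exact ⟨v, hvc ▸ hc, by rw [hvc], img_refl_of_mem_perp hv⟩)
  refine ⟨(isoEquiv Q).symm g', (mem_Omega_iff _).2 (by simpa using hg1), ?_⟩
  rw [← isoEquiv_toLinearMap, MulEquiv.apply_symm_apply]
  exact hg2

end Cfsg.Agent.S2632
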