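import Cfsg.Statements.S2633
import Cfsg.Agent.H7.Parity

set_option autoImplicit false
open Cfsg

namespace Cfsg.Agent.S2633

open Cfsg.Agent.H7

/-- Ω is transitive on totally singular subspaces of each dimension less than half the dimension: for a quadratic form Q on F^n with non-degenerate polar form (F finite; excluding dimension 4 over the field of two elements), if U and W are subspaces of the same dimension k with 2k < n on which Q vanishes, then some element of Ω (the commutator subgroup of the orthogonal group) carries U to W. -/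
theorem result {F : Type*} [Field F] [Fintype F] {n : ℕ} (h : Fintype.card F ≠ 2 ∨ n ≠ 4) (Q : QuadraticForm F (Fin n → F)) (hQ : (QuadraticMap.polarBilin Q).Nondegenerate) (U W : Submodule F (Fin n → F)) {k : ℕ} (hk : 2 * k < n) (hU : Module.finrank F U = k) (hW : Module.finrank F W = k) (hU0 : ∀ u ∈ U, Q u = 0) (hW0 : ∀ w ∈ W, Q w = 0) : ∃ g : ↥(Cfsg.isometryGroup F ⇑Q), g ∈ Cfsg.Omega F ⇑Q ∧ U.map (Matrix.mulVecLin ((g : Matrix.GeneralLinearGroup (Fin n) F) : Matrix (Fin n) (Fin n) F)) = W := by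
  have hE : NonExc Q := nonExc_of_card hQ (by simpa using h)
  suffices ∃ g' ∈ commutator (OG Q), img g' U = W by
    obtain ⟨g', hg', hg2⟩ := this
    refine ⟨(isoEquiv Q).symm g', (mem_Omega_iff _).2 (by simpa using hg'), ?_⟩
    rw [← isoEquiv_toLinearMap, MulEquiv.apply_symm_apply]
    exact hg2
  by_cases hk0 : U = ⊥
  · subst hk0
    have : W = ⊥ := by
      rw [← Submodule.finrank_eq_zero, hW, ← hU]; simp
    exact ⟨1, Subgroup.one_mem _, by rw [img_one, this]⟩
  obtain ⟨g, hg⟩ := TS.exists_img_eq hQ hU0 hW0 (hU.trans hW.symm)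
  obtain ⟨e, f, hef, hs⟩ := TS.exists_hypSys hQ hU0
  have h1 := hef.finrank_eq
  obtain ⟨z, hz, hz0⟩ := exists_nonsing (hef.nd_hperp' hQ) (by
    intro h0; rw [h0] at h1; simp at h1; omega)
  have hzU : img (refl Q z) U = U := by
    apply img_refl_of_mem_perp
    rw [← hs, mem_perp_span]
    rintro _ ⟨i, rfl⟩
    rw [B_comm]; exact (hz i).1
  by_cases hev : Even (rk g)
  · obtain ⟨c, hc, hcg⟩ := exists_chi_eq_theta hQ hE g
    obtain ⟨s, hs, hs1, hs2⟩ := TS.exists_stab_theta hQ hU0 hk0 hc
    exact exists_Omega_img hQ hE hg s hs (by simp [hs1, hev]) (hs2.trans hcg)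
  · obtain ⟨c, hc, hcg⟩ := exists_chi_eq_theta hQ hE (g * refl Q z)
    obtain ⟨s, hs, hs1, hs2⟩ := TS.exists_stab_theta hQ hU0 hk0 hc
    refine exists_Omega_img hQ hE (g := g * refl Q z) (by rw [img_mul, hzU, hg]) s hs ?_
      (hs2.trans hcg)
    rw [even_rk_mul_refl hQ g hz0]; simp [hs1, hev]

end Cfsg.Agent.S2633
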