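import Cfsg.Statements.S2634
import Cfsg.Agent.H7.Parity

set_option autoImplicit false
open Cfsg

namespace Cfsg.Agent.S2634

open Cfsg.Agent.H7

/-- Over a finite field of characteristic two, Ω (the commutator subgroup of the orthogonal group of a quadratic form Q on F^n with non-degenerate polar form; excluding dimension 4 over the field of two elements) acts transitively on the non-singular 1-spaces: for u, v with Q(u) ≠ 0 and Q(v) ≠ 0 some element of Ω carries the line through u to the line through v. -/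
theorem result {F : Type*} [Field F] [Fintype F] [CharP F 2] {n : ℕ} (h : Fintype.card F ≠ 2 ∨ n ≠ 4) (Q : QuadraticForm F (Fin n → F)) (hQ : (QuadraticMap.polarBilin Q).Nondegenerate) (u v : Fin n → F) (hu : Q u ≠ 0) (hv : Q v ≠ 0) : ∃ g : ↥(Cfsg.isometryGroup F ⇑Q), g ∈ Cfsg.Omega F ⇑Q ∧ (F ∙ ((g : Matrix.GeneralLinearGroup (Fin n) F) : Matrix (Fin n) (Fin n) F).mulVec u) = F ∙ v := by
  have hE : NonExc Q := nonExc_of_card hQ (by simpa using h)
  have h2 : (2 : F) = 0 := CharTwo.two_eq_zero
  obtain ⟨c, hc⟩ := isSquare_of_two h2 (Q v / Q u)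
  have hc0 : c ≠ 0 := by rintro rfl; simp [hu, hv] at hc
  have hu0 : u ≠ 0 := by rintro rfl; simp at hu
  have hv0 : v ≠ 0 := by rintro rfl; simp at hv
  obtain ⟨g, hg⟩ := witt_vec hQ (u := c • u) (v := v) (smul_ne_zero hc0 hu0) hv0
    (by rw [Q_smul, pow_two, ← hc]; field_simp)
  have hg' : img g (F ∙ u) = F ∙ v := by
    rw [← Submodule.span_singleton_smul_eq (IsUnit.mk0 c hc0), img, Submodule.map_span,
      Set.image_singleton, LinearEquiv.coe_coe, hg]
  obtain ⟨g', hg1, hg2⟩ := exists_Omega_img_of_refl hQ hE hg' (fun d hd =>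
    ⟨u, hu, by rw [(chi_eq_one_iff hu).2 (isSquare_of_two h2 _),
      (chi_eq_one_iff hd).2 (isSquare_of_two h2 _)],
      img_refl_of_mem (Submodule.mem_span_singleton_self u)⟩)
  refine ⟨(isoEquiv Q).symm g', (mem_Omega_iff _).2 (by simpa using hg1), ?_⟩
  rw [isoEquiv_symm_mulVec, ← hg2, img, Submodule.map_span, Set.image_singleton]
  rfl

end Cfsg.Agent.S2634
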