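import Cfsg.Statements.S2635
import Cfsg.Agent.H7.Bridge

set_option autoImplicit false
open Cfsg

namespace Cfsg.Agent.S2635

open Cfsg.Agent.H7

/-- Over a finite field of characteristic two, for a quadratic form Q on F^n with non-degenerate polar form, n ≥ 2, other than dimension 4 over the field of two elements, Ω (the commutator subgroup of the orthogonal group) is exactly the subgroup generated by the products of two reflections (orthogonal transvections) x ↦ x − Q(v)⁻¹ f(x, v) v, Q(v) ≠ 0: the products of an even number of reflections. -/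
theorem result {F : Type*} [Field F] [Fintype F] [CharP F 2] {n : ℕ} (hn : 2 ≤ n) (h : Fintype.card F ≠ 2 ∨ n ≠ 4) (Q : QuadraticForm F (Fin n → F)) (hQ : (QuadraticMap.polarBilin Q).Nondegenerate) : Cfsg.Omega F ⇑Q = Subgroup.closure {g : ↥(Cfsg.isometryGroup F ⇑Q) | ∃ u v : Fin n → F, Q u ≠ 0 ∧ Q v ≠ 0 ∧ ((g : Matrix.GeneralLinearGroup (Fin n) F) : Matrix (Fin n) (Fin n) F) = Cfsg.reflectionMatrix ⇑Q u * Cfsg.reflectionMatrix ⇑Q v} := by
  have hE : NonExc Q := nonExc_of_card hQ (by simpa using h)
  have h2 : (2 : F) = 0 := CharTwo.two_eq_zero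
  apply le_antisymm
  · intro g hg
    rw [mem_Omega_iff, mem_commutator_iff_two hQ hE h2] at hg
    obtain ⟨vs, hvs, hg'⟩ := exists_refl_list hQ hE (isoEquiv Q g)
    rw [hg', even_rk_list hQ vs hvs] at hg
    have hg2 : g = (isoEquiv Q).symm (vs.map (refl Q)).prod := by
      rw [← hg', MulEquiv.symm_apply_apply]
    rw [hg2]
    clear hg2 hg' g
    obtain ⟨k, hk⟩ := hg
    induction k generalizing vs with
    | zero =>
      have : vs = [] := List.length_eq_zero_iff.1 hk
      subst this
      simp
    | succ k ih =>
      match vs, hvs, hk with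
      | u :: v :: l, hvs, hk =>
        simp only [List.map_cons, List.prod_cons]
        rw [← mul_assoc, map_mul]
        refine Subgroup.mul_mem _ (Subgroup.subset_closure ⟨u, v, hvs u (by simp), hvs v (by simp), ?_⟩)
          (ih l (fun w hw => hvs w (by simp [hw])) (by simp at hk; omega))
        apply matrix_ext_mulVec; intro x
        rw [isoEquiv_symm_mulVec, ← Matrix.mulVec_mulVec, reflectionMatrix_mulVec,
          reflectionMatrix_mulVec, OG.mul_apply]
      | [], _, hk => simp at hk
      | [_], _, hk => simp at hk; omega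
  · rw [Subgroup.closure_le]
    rintro g ⟨u, v, hu, hv, hg⟩
    rw [SetLike.mem_coe, mem_Omega_iff, mem_commutator_iff_two hQ hE h2]
    have : isoEquiv Q g = refl Q u * refl Q v := OG.ext' fun x => by
      rw [isoEquiv_apply, hg, ← Matrix.mulVec_mulVec, reflectionMatrix_mulVec,
          reflectionMatrix_mulVec, OG.mul_apply]
    rw [this, even_rk_mul_refl hQ _ hv, rk_refl hQ hu]
    decide

end Cfsg.Agent.S2635
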