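import Cfsg.Statements.S2636
import Cfsg.Agent.H6.Fix

set_option autoImplicit false
open Cfsg

namespace Cfsg.Agent.S2636

/-- Centraliser of a field automorphism in PGL_n: let F be the field with q = q₀^r elements, σ a field automorphism of F of prime order r (so its fixed field has q₀ elements) and n ≥ 1. The invertible matrices g whose entrywise image under σ is a scalar multiple of g — those whose coset modulo scalars is fixed by σ — number (q − 1)/(q₀ − 1) · |GL_n(q₀)|; equivalently the centraliser in PGL_n(q) of the induced automorphism has the order of PGL_n(q₀). -/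
theorem result {F : Type*} [Field F] [Fintype F] {q₀ r n : ℕ} (hr : r.Prime) (hn : 1 ≤ n) (hF : Fintype.card F = q₀ ^ r) (σ : F ≃+* F) (hσ : orderOf σ = r) : Nat.card {g : GL (Fin n) F // ∃ c : F, c ≠ 0 ∧ (g : Matrix (Fin n) (Fin n) F).map σ = c • (g : Matrix (Fin n) (Fin n) F)} = (q₀ ^ r - 1) / (q₀ - 1) * ∏ i : Fin n, (q₀ ^ n - q₀ ^ (i : ℕ)) := by
  open H6 Matrix in
  have : Nonempty (Fin n) := ⟨⟨0, hn⟩⟩
  have := Fintype.ofFinite (fixF σ)
  have h0 : Nat.card (fixF σ) = q₀ := by
    have := card_fixF_pow σ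
    rw [hσ, Nat.card_eq_fintype_card (α := F), hF] at this
    exact Nat.pow_left_injective hr.ne_zero this
  obtain ⟨e, he⟩ := exists_emb_fixF σ (fixF σ) Nat.card_eq_fintype_card.symm
  have hs : Function.Injective (GeneralLinearGroup.scalar (Fin n) : Fˣ →* GL (Fin n) F) :=
    fun a b h => Units.ext (smul_left_injective F one_ne_zero
      ((coe_gl_scalar a).symm.trans ((congrArg Units.val h).trans (coe_gl_scalar b))))
  have h := card_central_mul (s := (GeneralLinearGroup.scalar (Fin n) : Fˣ →* GL (Fin n) F))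
    (j := GeneralLinearGroup.map e)
    (t := (GeneralLinearGroup.scalar (Fin n)).comp (Units.map (e : fixF σ →* F))) hs
    (fun a b h => Units.ext (Matrix.map_injective e.injective (congrArg Units.val h)))
    (hs.comp (Units.map_injective e.injective)) scalar_mem_center (fun z y => ⟨fun h => ?_,
      fun ⟨_, h1, h2⟩ => h1.symm.trans h2⟩)
    (fun x => ⟨_, _, rfl, (GeneralLinearGroup.map_scalar e x).symm⟩)
    (fun g => ∃ c : F, c ≠ 0 ∧ g.1.map σ = c • g.1) fun g => ⟨fun ⟨c, h1, h2⟩ => ?_, ?_⟩
  · rw [Nat.card_units, Nat.card_units, card_GL, Fintype.card_fin,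
      ← Nat.card_eq_fintype_card (α := fixF σ), h0, Nat.card_eq_fintype_card (α := F), hF] at h
    have h1 : 0 < q₀ - 1 := by
      have := Finite.one_lt_card (α := fixF σ)
      omega
    refine Nat.eq_of_mul_eq_mul_right h1 ?_
    rw [h, mul_right_comm, Nat.div_mul_cancel (by simpa using Nat.sub_dvd_pow_sub_pow q₀ 1 r)]
  · obtain ⟨x, rfl⟩ := (mem_center_gl_iff' y).1
      ((map_mem_center_iff e y).1 (h ▸ scalar_mem_center z))
    exact ⟨x, (h.trans (GeneralLinearGroup.map_scalar e x)).symm,
      (GeneralLinearGroup.map_scalar e x).symm⟩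
  · obtain ⟨v, hv⟩ := exists_fixed_smul (σ := σ) (g := g) (u := (Units.mk0 c h1)⁻¹)
      (Units.ext (by rw [coe_scalar_mul, coe_glField, h2, smul_smul]; simp [h1]))
    obtain ⟨y, hy⟩ := exists_map_of_fixed he hv
    exact ⟨v⁻¹, y, by rw [hy, map_inv, inv_mul_cancel_left]⟩
  · rintro ⟨z, y, rfl⟩
    refine ⟨σ z * z⁻¹, by simp, ?_⟩
    have h1 : (GeneralLinearGroup.map e y).1.map σ = _ := congrArg Units.val (glField_map he y)
    rw [coe_scalar_mul, Matrix.map_smul' _ _ _ (map_mul σ), h1, smul_smul]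
    simp

end Cfsg.Agent.S2636
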