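import Cfsg.Statements.S2637
import Cfsg.Agent.H6.Res

set_option autoImplicit false
open Cfsg

namespace Cfsg.Agent.S2637

open H6 Matrix Module Polynomial

theorem card_cent_conj {G : Type*} [Group G] {x y : G} (h : IsConj x y) :
    Nat.card (Subgroup.centralizer {x}) = Nat.card (Subgroup.centralizer {y}) := by
  obtain ⟨c, rfl⟩ := isConj_iff.1 h
  exact Nat.card_congr ((MulAut.conj c).toEquiv.subtypeEquiv fun g => by
    simp only [Subgroup.mem_centralizer_singleton_iff, MulEquiv.toEquiv_eq_coe, EquivLike.coe_coe]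
    rw [← MulAut.conj_apply, ← map_mul, ← map_mul, EmbeddingLike.apply_eq_iff_eq])

/-- Centraliser of a fixed-point-free element of order three in Sp_2m(q) when q ≡ 2 (mod 3): if x ∈ Sp_2m(F) (|F| = q, m ≥ 1) satisfies x³ = 1 and x − 1 is invertible, then its centraliser in Sp_2m(F) has the order of the unitary group GU_m(q), namely q^(m(m−1)/2) Π_(i=1)^m (q^i − (−1)^i) (x lies in the centre of a subgroup GU_m(q) of Sp_2m(q)). -/
theorem result {F : Type*} [Field F] [Fintype F] {q : ℕ} (hF : Fintype.card F = q) (hq : q % 3 = 2) {m : ℕ} (hm : 1 ≤ m) (x : Matrix.symplecticGroup (Fin m) F) (hx3 : x ^ 3 = 1) (hfpf : IsUnit ((x : Matrix (Fin m ⊕ Fin m) (Fin m ⊕ Fin m) F) - 1)) : (Nat.card ↥(Subgroup.centralizer ({x} : Set ↥(Matrix.symplecticGroup (Fin m) F))) : ℤ) = (q : ℤ) ^ (m * (m - 1) / 2) * ∏ i : Fin m, ((q : ℤ) ^ ((i : ℕ) + 1) - (-1) ^ ((i : ℕ) + 1)) := by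
  obtain ⟨p, f, hp, hf, h0⟩ := exists_prime_pow_card (F := F)
  have := Fact.mk hp
  have := Fintype.ofFinite (GaloisField p (f * 2))
  have hK : Fintype.card (GaloisField p (f * 2)) = q ^ 2 := by
    rw [← Nat.card_eq_fintype_card, GaloisField.card p _ (by omega), pow_mul, ← h0, hF]
  generalize GaloisField p (f * 2) = K, (inferInstance : Field (GaloisField p (f * 2))) = i at *
  obtain ⟨τ, _, t, hσ, hτ, h2, ht, he, htr⟩ := exists_quad_ext hK hF
  obtain ⟨k, Φ, hk, hΦ⟩ := exists_herm_symp hσ h2 ht he htr m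
  have U := guLike (n := m) hσ hτ
  have : NeZero m := ⟨by omega⟩
  obtain ⟨φ, h, hφ⟩ := exists_sp_emb U.inj (trForm t k (τ : K →+* K) (fix_alg he) 1) Φ hΦ
    fun g u v => by rw [trForm_apply, trForm_apply, ← hf_def, ← hf_def, U.isom]
  have := Fact.mk Nat.prime_three
  obtain ⟨ω, hω⟩ := exists_prime_orderOf_dvd_card' (G := normOne K q) 3 (by
    rw [card_normOne hK]; omega)
  have h3 : ω.1.1 ^ 3 = 1 := congrArg (·.1.1) (hω ▸ pow_orderOf_eq_one ω)
  have h4 : ω.1.1 ≠ 1 := fun h => by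
    rw [show ω = 1 from Subtype.ext (Units.ext h), orderOf_one] at hω
    omega
  have h5 : ω.1.1 ^ 2 + ω.1.1 + 1 = 0 := mul_left_cancel₀ (sub_ne_zero.2 h4) (by
    linear_combination h3)
  let y : GU m K q := ⟨_, (scalar_mem_GU_iff hτ ω.1).2 ω.2⟩
  have h6 : ∀ v, (φ y).1 *ᵥ Φ v = Φ (ω.1.1 • v) := fun v => (hφ y v).trans (by
    change Φ ((GeneralLinearGroup.scalar _ ω.1).1 *ᵥ v) = _
    rw [coe_gl_scalar, smul_mulVec, one_mulVec])
  have h7 : ∀ a : F, a ^ 2 + a + 1 ≠ 0 := fun a ha => by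
    have h8 : a ^ 3 = 1 := by linear_combination (a - 1) * ha
    have h9 : a ^ (q - 1) = 1 := hF ▸ FiniteField.pow_card_sub_one_eq_one a (by
      rintro rfl; simp at ha)
    rw [← Nat.div_add_mod (q - 1) 3, pow_add, pow_mul, h8, one_pow, one_mul,
      show (q - 1) % 3 = 1 by omega, pow_one] at h9
    have h10 : ((3 * (q / 3) + 2 : ℕ) : F) = 0 := by
      rw [← hq, Nat.div_add_mod, ← hF, FiniteField.cast_card_eq_zero]
    push_cast at h10
    rw [h9] at ha
    exact one_ne_zero (α := F) (by linear_combination (1 + (q / 3 : ℕ)) * ha - h10)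
  have h8 : x.1 ^ 2 + x.1 + 1 = 0 := hfpf.mul_left_cancel (by
    have : x.1 ^ 3 = 1 := congrArg Subtype.val hx3
    rw [mul_zero, ← sub_self (1 : Matrix _ _ F)]
    nth_rw 3 [← this]
    noncomm_ring)
  obtain ⟨g, h9, h10⟩ := wall_conj (σ := RingHom.id F) (fun _ => rfl) det_J_ne_zero isAlt_J.eh
    (SymplecticGroup.mem_iff'.1 x.2) (SymplecticGroup.mem_iff'.1 (φ y).2) (Or.inr (by
      rw [show x.1 * x.1 - 1 = (x.1 - 1) * -(x.1 ^ 2) by
        rw [eq_neg_of_add_eq_zero_right (a := x.1 ^ 2) (b := x.1 + 1) (by rw [← add_assoc, h8]) |>.symm]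
        noncomm_ring]
      exact hfpf.mul ((spJ F m x).isUnit.pow 2).neg))
    (isConj_of_irreducible (g := X ^ 2 + X + 1) (by simpa using h8) (ext_mulVec fun v => by
      obtain ⟨v, rfl⟩ := Φ.surjective v
      simp only [map_add, map_mul, aeval_X, map_one, add_mulVec, sq, ← mulVec_mulVec, h6,
        one_mulVec, zero_mulVec, smul_smul]
      nth_rw 3 [← one_smul K v]
      rw [← map_add, ← map_add, ← add_smul, ← add_smul, ← sq, h5, zero_smul, map_zero]) (by
      have h9 : (X ^ 2 + X + 1 : F[X]).natDegree = 2 := by compute_degree!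
      refine irreducible_of_degree_le_three_of_not_isRoot (by simp [h9]) fun a => ?_
      simpa using h7 a))
  rw [card_cent_conj (y := φ y) (isConj_iff.2 ⟨⟨g.1, SymplecticGroup.mem_iff'.2 h9⟩,
    mul_inv_eq_iff_eq_mul.2 (Subtype.ext h10)⟩)]
  have h11 : Subgroup.centralizer {φ y} = φ.range := by
    ext z
    rw [Subgroup.mem_centralizer_singleton_iff]
    refine ⟨fun hz => ?_, ?_⟩
    · have h12 : ∀ (c : K) v, Φ.symm (z.1 *ᵥ Φ (c • v)) = c • Φ.symm (z.1 *ᵥ Φ v) := fun c v => by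
        obtain ⟨a, b, rfl⟩ : ∃ a b : F, c = a • ω.1.1 + b • 1 := by
          have : Submodule.span F (Set.range ![ω.1.1, 1]) = ⊤ :=
            LinearIndependent.span_eq_top_of_card_eq_finrank' (LinearIndependent.pair_symm_iff.1
              ((LinearIndependent.pair_iff' one_ne_zero).2 fun a ha => h7 a
                ((algebraMap F K).injective (by
                  simpa [Algebra.algebraMap_eq_smul_one a, ha] using h5)))) (by simp [h2])
          obtain ⟨c, rfl⟩ := (Submodule.mem_span_range_iff_exists_fun F).1 (this.ge trivial : c ∈ _)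
          exact ⟨c 0, c 1, by simp⟩
        have h13 : z.1 *ᵥ Φ (ω.1.1 • v) = Φ (ω.1.1 • Φ.symm (z.1 *ᵥ Φ v)) := by
          rw [← h6, ← h6, mulVec_mulVec, show z.1 * (φ y).1 = (φ y).1 * z.1 from
            congrArg Subtype.val hz, Φ.apply_symm_apply, mulVec_mulVec]
        simp only [add_smul, smul_assoc, one_smul, map_add, map_smul, mulVec_add, mulVec_smul, h13,
          Φ.symm_apply_apply]
      let L : (Fin m → K) →ₗ[K] (Fin m → K) := ⟨⟨fun v => Φ.symm (z.1 *ᵥ Φ v), fun u v => by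
        simp [mulVec_add]⟩, h12⟩
      obtain ⟨w, hw⟩ := U.surj (LinearMap.toMatrix' L) fun u v => by
        simp only [LinearMap.toMatrix'_mulVec]
        refine sub_eq_zero.1 ((mul_eq_zero.1 (eq_zero_of_tr ht fun c => ?_)).resolve_left hk)
        have := spLike.isom z (Φ (c • u)) (Φ v)
        rw [hΦ, ← Φ.apply_symm_apply (_ *ᵥ Φ v), ← Φ.apply_symm_apply (_ *ᵥ Φ _), hΦ] at this
        change t (k * H6.hf τ (L (c • u)) (L v)) = _ at this
        rw [map_smul, hf_smul_left, hf_smul_left] at this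
        rw [mul_left_comm, mul_sub, mul_sub, map_sub, this, sub_self]
      refine ⟨w, Subtype.ext (ext_mulVec fun v => ?_)⟩
      obtain ⟨v, rfl⟩ := Φ.surjective v
      rw [hφ, hw, LinearMap.toMatrix'_mulVec]
      exact Φ.apply_symm_apply _
    · rintro ⟨w, rfl⟩
      rw [← map_mul, ← map_mul]
      exact congrArg φ (Subtype.ext (Subgroup.mem_center_iff.1 (scalar_mem_center ω.1) w.1))
  rw [h11, ← Nat.card_congr (MonoidHom.ofInjective h).toEquiv, U.card_eq hK, Fintype.card_fin]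
  rfl

end Cfsg.Agent.S2637
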