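import Cfsg.Statements.S2638
import Cfsg.Agent.H6.Cnt

set_option autoImplicit false
open Cfsg

namespace Cfsg.Agent.S2638

/-- If an element x of GL_n(q), n ≥ 1, has prime order r and the multiplicative order of q modulo r is n (r is a primitive prime divisor of q^n − 1, so x acts irreducibly), then the centraliser of x in GL_n(q) is cyclic of order q^n − 1 (the multiplicative group of the field with q^n elements, a Singer cycle). -/
theorem result {F : Type*} [Field F] [Fintype F] {p q : ℕ} [Fact p.Prime] [CharP F p] (hF : Fintype.card F = q) {n r : ℕ} (hn : 1 ≤ n) (hr : r.Prime) (hrp : r ≠ p) (hi : orderOf (q : ZMod r) = n) (x : GL (Fin n) F) (hx : orderOf x = r) : IsCyclic ↥(Subgroup.centralizer ({x} : Set (GL (Fin n) F))) ∧ Nat.card ↥(Subgroup.centralizer ({x} : Set (GL (Fin n) F))) = q ^ n - 1 := by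
  open H6 Matrix Polynomial in
  obtain ⟨f, -, hf⟩ := FiniteField.card F p
  have hc : p.Coprime r := (Nat.coprime_primes Fact.out hr).2 hrp.symm
  have : Fact r.Prime := ⟨hr⟩
  have h1 : minpoly F x.1 ∣ cyclotomic r F * (X - 1) := by
    rw [cyclotomic_prime_mul_X_sub_one]
    exact minpoly.dvd _ _ (aeval_X_pow_sub_one.2 (by
      rw [← Units.val_pow_eq_pow_val, ← hx, pow_orderOf_eq_one, Units.val_one]))
  obtain ⟨g, hg, h2, h3⟩ : ∃ g, Irreducible g ∧ g ∣ minpoly F x.1 ∧ g ∣ cyclotomic r F := by
    by_contra! h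
    obtain ⟨c, hc⟩ := (isCoprime_of_irreducible_dvd (fun h => cyclotomic_ne_zero r F h.2)
      h).dvd_of_dvd_mul_left h1
    have := congrArg (aeval x.1) hc
    rw [map_mul, minpoly.aeval, zero_mul, map_sub, aeval_X, map_one, sub_eq_zero] at this
    rw [show x = 1 from Units.ext this, orderOf_one] at hx
    exact hr.ne_one hx.symm
  have h4 : g.natDegree = n := by
    rw [natDegree_of_dvd_cyclotomic_of_irreducible hf hc h3 hg, ← orderOf_units,
      ZMod.coe_unitOfCoprime, ← hf, hF, hi]
  have h5 : aeval x.1 g = 0 := by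
    obtain ⟨c, hc⟩ := (associated_of_dvd_of_natDegree_le h2 (minpoly.ne_zero (isIntegral _)) (by
      simpa [h4] using natDegree_le_of_dvd (minpoly_dvd_charpoly x.1)
        (charpoly_monic _).ne_zero)).symm
    rw [← hc, map_mul, minpoly.aeval, zero_mul]
  have : Fact (Irreducible g) := ⟨hg⟩
  have := (AdjoinRoot.powerBasis hg.ne_zero).finite
  have : Finite (AdjoinRoot g) := Module.finite_of_finite F
  have h6 : Nat.card (AdjoinRoot g) = q ^ n := by
    rw [Module.natCard_eq_pow_finrank (K := F), finrank_adjoinRoot, h4, Nat.card_eq_fintype_card, hF]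
  have : Nonempty (Fin n) := ⟨⟨0, hn⟩⟩
  let ψ : AdjoinRoot g →ₐ[F] Matrix (Fin n) (Fin n) F :=
    Ideal.Quotient.liftₐ _ (aeval x.1) fun a ha => by
      obtain ⟨c, rfl⟩ := Ideal.mem_span_singleton.1 ha
      rw [map_mul, h5, zero_mul]
  have h7 : ∀ y : Matrix (Fin n) (Fin n) F, y * x.1 = x.1 * y → ∀ k, y * ψ k = ψ k * y :=
    fun y hy k => by
    obtain ⟨k, rfl⟩ := AdjoinRoot.mk_surjective k
    change y * aeval x.1 k = aeval x.1 k * y
    induction k using Polynomial.induction_on' with
    | add a b ha hb => rw [map_add, mul_add, add_mul, ha, hb]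
    | monomial m a =>
      rw [aeval_monomial, ← mul_assoc, ← Algebra.commutes, mul_assoc, mul_assoc,
        (Commute.pow_right hy m).eq]
  let v : Fin n → F := fun _ => 1
  have h8 : Function.Bijective fun k => ψ k *ᵥ v := by
    refine (Nat.bijective_iff_injective_and_card _).2 ⟨fun a b h => ?_, by
      rw [h6, Nat.card_fun, Nat.card_eq_fintype_card, hF]; simp⟩
    by_contra h'
    have h9 := congrArg (ψ (a - b)⁻¹ *ᵥ ·) (sub_eq_zero.2 h)
    simp only [← sub_mulVec, ← map_sub, mulVec_mulVec, ← map_mul,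
      inv_mul_cancel₀ (sub_ne_zero.2 h'), map_one, one_mulVec, mulVec_zero] at h9
    exact one_ne_zero (congrFun h9 ⟨0, hn⟩)
  have e : (AdjoinRoot g)ˣ ≃* Subgroup.centralizer ({x} : Set (GL (Fin n) F)) :=
    MulEquiv.ofBijective ((Units.map (ψ : AdjoinRoot g →* _)).codRestrict _ fun k =>
      Subgroup.mem_centralizer_singleton_iff.2 (Units.ext (h7 x.1 rfl k).symm))
      ⟨fun a b h => Units.ext (ψ.toRingHom.injective (congrArg (·.1.1) h)), fun y => by
        have hy := h7 y.1.1 (congrArg Units.val (Subgroup.mem_centralizer_singleton_iff.1 y.2))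
        obtain ⟨k, hk⟩ := h8.2 (y.1.1 *ᵥ v)
        have hk' : ψ k = y.1.1 := ext_mulVec fun w => by
          obtain ⟨l, rfl⟩ := h8.2 w
          simp only at hk ⊢
          rw [mulVec_mulVec, mulVec_mulVec, hy, ← map_mul, mul_comm, map_mul, ← mulVec_mulVec, hk,
            mulVec_mulVec]
        exact ⟨Units.mk0 k fun h => y.1.ne_zero (by rw [← hk', h, map_zero]),
          Subtype.ext (Units.ext hk')⟩⟩
  exact ⟨isCyclic_of_surjective e e.surjective, by
    rw [← Nat.card_congr e.toEquiv, Nat.card_units, h6]⟩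

end Cfsg.Agent.S2638
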