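import Cfsg.Statements.S2640
import Cfsg.Agent.H6.Res

set_option autoImplicit false
open Cfsg

namespace Cfsg.Agent.S2640

/-- For m even, the unitary group GU_m(q) (over the field with q² elements) embeds in the orthogonal group O⁺_2m(q) of the hyperbolic form Σ x_i y_i over the field with q elements (there is an injective homomorphism). -/
theorem result {K F : Type*} [Field K] [Fintype K] [Field F] [Fintype F] {q : ℕ} (hK : Fintype.card K = q ^ 2) (hF : Fintype.card F = q) (m : ℕ) (hm : Even m) : ∃ φ : ↥(Cfsg.GU m K q) →* ↥(Cfsg.isometryGroup F (Cfsg.quadFormPlus m F)), Function.Injective φ := by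
  open H6 Matrix Module in
  obtain ⟨τ, _, t, hσ, hτ, h2, ht, he, htr⟩ := exists_quad_ext hK hF
  have : Module.Finite F K := Module.finite_of_finrank_pos (by omega)
  obtain ⟨Q, hQ, h1⟩ := exists_herm_quad hσ ht he htr (Fin m)
  have U := guLike (n := m) hσ hτ
  obtain ⟨k, rfl⟩ := hm
  obtain ⟨l, -, hl⟩ := exists_norm_neg_one hσ
  let f : (Fin k → K) →ₗ[F] (Fin (k + k) → K) :=
    { toFun := fun v => Fin.append v (l • v)
      map_add' := fun u v => by
        ext i
        refine Fin.addCases (fun i => ?_) (fun i => ?_) i <;>
          simp only [Fin.append_left, Fin.append_right, Pi.add_apply, smul_add]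
      map_smul' := fun c v => by
        ext i
        refine Fin.addCases (fun i => ?_) (fun i => ?_) i <;>
          simp only [Fin.append_left, Fin.append_right, Pi.smul_apply, RingHom.id_apply,
            smul_comm c l] }
  obtain ⟨Φ, hΦ⟩ := H7.exists_equiv_QP hQ (m := k + k) (by rw [finrank_res h2, Fintype.card_fin])
    ⟨LinearMap.range f, by
      rintro _ ⟨v, rfl⟩
      refine (algebraMap F K).injective ?_
      rw [h1, map_zero]
      simp only [hf, sf, one_mulVec, dotProduct, Fin.sum_univ_add, f, ← Finset.sum_add_distrib]
      refine Finset.sum_eq_zero fun i _ => ?_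
      simp only [LinearMap.coe_mk, AddHom.coe_mk, Fin.append_left, Fin.append_right,
        Function.comp_apply, Pi.smul_apply, smul_eq_mul, map_mul, RingHom.coe_coe]
      linear_combination v i * τ (v i) * hl, by
      rw [LinearMap.finrank_range_of_inj fun u v h => funext fun i => by
        simpa [f] using congrFun h (Fin.castAdd k i), finrank_res h2, finrank_res h2]
      simp [two_mul]⟩
  exact exists_og_emb U.inj Q Φ hΦ fun g v => (algebraMap F K).injective (by rw [h1, h1, U.isom])

end Cfsg.Agent.S2640
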