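import Cfsg.Statements.S2641
import Cfsg.Agent.H6.Res

set_option autoImplicit false
open Cfsg

namespace Cfsg.Agent.S2641

open H6 Matrix Module

theorem card_QP {F : Type*} [Field F] [Fintype F] (k : ℕ) :
    Fintype.card F ^ (2 * k + 1) ≤ Nat.card {v // H7.QP F (k + 1) v = 0} := by
  classical
  have h : Nat.card {v // H7.QP F (k + 1) v = 0} =
      Nat.card (Σ x : Fin (k + 1) → F, {y // ∀ w ∈ F ∙ x, bf 1 w y = bf 1 w 0}) :=
    Nat.card_congr (((Equiv.sumArrowEquivProdArrow _ _ _).subtypeEquiv fun v => by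
      rw [H7.QP_apply]
      simp only [Submodule.mem_span_singleton, forall_exists_index, forall_apply_eq_imp_iff,
        sf_smul_left, sf_zero_right]
      refine ⟨fun h c => mul_eq_zero_of_right _ ?_, fun h => ?_⟩
      · simpa [bf_eq, dotProduct] using h
      · simpa [bf_eq, dotProduct] using h 1).trans (Equiv.subtypeProdEquivSigmaSubtype _))
  rw [h, Nat.card_sigma, show 2 * k + 1 = k + 1 + k by ring, pow_add]
  refine le_trans (by simp) (Finset.card_nsmul_le_sum _ _ (Fintype.card F ^ k) fun x _ => ?_)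
  rw [card_affine_perp (by simp), Nat.card_eq_fintype_card]
  refine Nat.pow_le_pow_right Fintype.card_pos ?_
  have := finrank_span_le_card (R := F) {x}
  rw [Set.toFinset_singleton, Finset.card_singleton] at this
  rw [Fintype.card_fin]
  omega

/-- For m odd, the unitary group GU_m(q) (over the field with q² elements) embeds in the orthogonal group O⁻_2m(q) of an elliptic form (Σ_(i<m−1) x_i y_i plus an anisotropic binary form) over the field with q elements (there is an injective homomorphism). -/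
theorem result {K F : Type*} [Field K] [Fintype K] [Field F] [Fintype F] {q : ℕ} (hK : Fintype.card K = q ^ 2) (hF : Fintype.card F = q) (m : ℕ) (hm : Odd m) (a b : F) (hab : ∀ z₁ z₂ : F, z₁ ^ 2 + a * z₁ * z₂ + b * z₂ ^ 2 = 0 → z₁ = 0 ∧ z₂ = 0) : ∃ φ : ↥(Cfsg.GU m K q) →* ↥(Cfsg.isometryGroup F (Cfsg.quadFormMinus (m - 1) F a b)), Function.Injective φ := by
  obtain ⟨τ, _, t, hσ, hτ, h2, ht, he, htr⟩ := exists_quad_ext hK hF
  have : Module.Finite F K := Module.finite_of_finrank_pos (by omega)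
  obtain ⟨Q, hQ, h1⟩ := exists_herm_quad hσ ht he htr (Fin m)
  have U := guLike (n := m) hσ hτ
  obtain ⟨k, rfl⟩ : ∃ k, m = k + 1 := ⟨m - 1, by have := hm.pos; omega⟩
  obtain ⟨Φ, hΦ⟩ := H7.exists_equiv_QM hQ (m := k) (by rw [finrank_res h2, Fintype.card_fin]; ring) (fun h => by
    obtain ⟨Φ, hΦ⟩ := H7.exists_equiv_QP hQ (m := k + 1)
      (by rw [finrank_res h2, Fintype.card_fin]) h
    have h3 := card_QP (F := F) k
    have h4 := (nv_formula hK hσ hτ (Finset.univ : Finset (Fin (k + 1)))).2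
    rw [Nat.card_congr (Φ.toEquiv.subtypeEquiv (q := fun w => (∀ i ∉ Finset.univ, w i = 0) ∧
      hf τ w w = 0) fun v => by simp [← hΦ, ← h1]), ← nv, hF] at h3
    rw [Finset.card_fin, hm.neg_one_pow] at h4
    have h5 : (2 : ℤ) ≤ q := by exact_mod_cast two_le_of_card_sq hK
    have h6 : (q : ℤ) * q ^ (2 * k + 1) ≤ q * nv τ (Finset.univ : Finset (Fin (k + 1))) 0 :=
      mul_le_mul_of_nonneg_left (by exact_mod_cast h3) (by omega)
    have h7 : (0 : ℤ) < q ^ (k + 1) * (q - 1) := mul_pos (by positivity) (by omega)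
    rw [h4] at h6
    have h8 : (q : ℤ) * q ^ (2 * k + 1) = q ^ (k + 1) * q ^ (k + 1) := by ring
    linarith) hab
  exact exists_og_emb U.inj Q Φ hΦ fun g v => (algebraMap F K).injective (by rw [h1, h1, U.isom])

end Cfsg.Agent.S2641
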