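import Cfsg.Statements.S2643
import Cfsg.Agent.H6.GUc

set_option autoImplicit false
open Cfsg

namespace Cfsg.Agent.S2643

/-- Regular unipotent classes of SU_n(q), n ≥ 2: the elements u of the special unitary group (isometries of Σ u_i v_i^q of determinant one over the field with q² elements) with (u − 1)^n = 0 and rank(u − 1) = n − 1 form exactly gcd(n, q + 1) conjugacy classes of SU_n(q). -/
theorem result {K : Type*} [Field K] [Fintype K] {q n : ℕ} (hK : Fintype.card K = q ^ 2) (hn : 2 ≤ n) : Nat.card {C : ConjClasses ↥(Cfsg.SU n K q) // ∃ u : ↥(Cfsg.SU n K q), ConjClasses.mk u = C ∧ (((u : GL (Fin n) K) : Matrix (Fin n) (Fin n) K) - 1) ^ n = 0 ∧ (((u : GL (Fin n) K) : Matrix (Fin n) (Fin n) K) - 1).rank = n - 1} = Nat.gcd n (q + 1) := by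
  open Matrix H6 in
  obtain ⟨τ, hσ, hτ⟩ := exists_conj_aut hK
  have : NeZero n := ⟨by omega⟩
  obtain ⟨N, hN⟩ := exists_nil_of_type (F := K) (ι := Fin n) (fun _ : Unit => n) (by simp)
  simp only [Finset.univ_unique, Finset.sum_singleton] at hN
  obtain ⟨B, hB⟩ := gu_exists_unip hσ hτ (A := N + 1) ⟨n, by
    rw [add_sub_cancel_right, ← H6.rank_eq_zero_iff, hN, Nat.sub_self]⟩
  have h2 := IsConj.rank_sub_one_pow hB
  simp only [add_sub_cancel_right, hN] at h2
  have h0 : (B.1.1 - 1) ^ n = 0 := by rw [← H6.rank_eq_zero_iff, ← h2, Nat.sub_self]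
  have h1 : (B.1.1 - 1).rank = Fintype.card (Fin n) - 1 := by simpa using (h2 1).symm
  obtain ⟨x, rfl⟩ := (su_hr hτ B).1 (Subtype.ext (Units.ext (show B.1.1.det = 1 by
    simpa using det_smul_add_nil ⟨n, h0⟩ (1 : K))))
  rw [card_split (suG K n q) suG_inj (guDet n hτ) (su_hr hτ) (guDet_surj hτ) _ x fun u => ?_]
  · rw [Nat.gcd_comm, ← card_normOne hK, ← IsCyclic.index_powMonoidHom_range]
    congr 1
    ext a
    constructor
    · rintro ⟨g, hg, rfl⟩
      obtain ⟨c, hc⟩ := exists_nil_of_comm_regular h0 h1 (g := g.1.1) (by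
        rw [comm_sub_one]
        exact congrArg (fun x : GU n K q => x.1.1) (Subgroup.mem_centralizer_singleton_iff.1 hg))
      have h2 := det_smul_add_nil hc c
      have h3 := norm_eq_one_of_nil hσ hτ g hc
      rw [add_sub_cancel, Fintype.card_fin] at h2
      exact ⟨⟨Units.mk0 c (left_ne_zero_of_mul_eq_one h3), Units.ext (by
        rw [hτ, ← pow_succ'] at h3; exact h3)⟩, Subtype.ext (Units.ext h2.symm)⟩
    · rintro ⟨c, rfl⟩
      refine ⟨⟨GeneralLinearGroup.scalar _ c, (mem_GU_iff hτ _).2 ?_⟩,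
        Subgroup.mem_centralizer_singleton_iff.2 (Subtype.ext
        (Units.ext (scalar_commute _ (fun _ => Commute.all _ _) _))), Subtype.ext (Units.ext ?_)⟩
      · have h3 : c.1.1 ^ (q + 1) = 1 := congrArg Units.val c.2
        rw [coe_gl_scalar, smul_one_eq_diagonal, diagonal_map (map_zero τ), diagonal_transpose,
          diagonal_mul_diagonal, hτ, ← pow_succ', h3, diagonal_one]
      · simp [coe_guDet]
  · refine ⟨fun h => gu_conj hσ hτ (isConj_of_unip_one h0 h.1 fun m => ?_), fun h => ?_⟩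
    · rw [← h2]
      exact ((rank_pow_of_regular h.1 (by simpa using h.2) m).trans (by simp)).symm
    · have := IsConj.rank_sub_one_pow ((jRho (GU n K q).subtype).map_isConj h)
      exact ⟨H6.rank_eq_zero_iff.1 ((this n).symm.trans ((h2 n).symm.trans (Nat.sub_self n))),
        (congrArg rank (pow_one _)).symm.trans ((h2 1).trans (this 1)).symm⟩

end Cfsg.Agent.S2643
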