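import Cfsg.Statements.S2644
import Cfsg.Agent.H6.GUc

set_option autoImplicit false
open Cfsg

namespace Cfsg.Agent.S2644

/-- In the special unitary group SU_n(q) with n ≥ 3 (isometries of Σ u_i v_i^q of determinant one over the field with q² elements), any two transvections (elements t with t − 1 of rank one and square zero) are conjugate. -/
theorem result {K : Type*} [Field K] [Fintype K] {q n : ℕ} (hK : Fintype.card K = q ^ 2) (hn : 3 ≤ n) (s t : ↥(Cfsg.SU n K q)) (hs : Cfsg.IsTransvection (((s : GL (Fin n) K) : Matrix (Fin n) (Fin n) K))) (ht : Cfsg.IsTransvection (((t : GL (Fin n) K) : Matrix (Fin n) (Fin n) K))) : IsConj s t := by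
  open Matrix H6 H6.FTPG in
  obtain ⟨τ, hσ, hτ⟩ := exists_conj_aut hK
  refine isConj_of_split (suG K n q) suG_inj (guDet n hτ) (su_hr hτ)
    (gu_conj hσ hτ (isConj_of_transvection hs.1 hs.2 ht.1 ht.2)) fun g => ?_
  obtain ⟨a, f, ha, hf, hfa, e⟩ := exists_tv_of_rank hs.1 hs.2
  have U := suLike (n := n) hσ hτ
  have h1 : IsTv (jRho (suJ K n q)) s a f := ⟨ha, hf, hfa, e⟩
  have h2 := U.toIsom.par_pf h1
  have h3 : H6.hf τ a a = 0 := U.toIsom.iso_of_isTv h1
  obtain ⟨b, hb, hb'⟩ : ∃ b, H6.hf τ b b = 1 ∧ H6.hf τ b a = 0 := by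
    by_contra hh
    have h4 : ∀ x, H6.hf τ x a = 0 → H6.hf τ x x = 0 := fun x hx => by
      by_contra h5
      obtain ⟨l, -, hl⟩ := exists_unit_smul hσ h5 one_ne_zero (map_one τ)
      exact hh ⟨_, hl, by rw [hf_smul_left, hx, mul_zero]⟩
    obtain ⟨c, hc⟩ := exists_hf_one (τ := τ) ha
    obtain ⟨y, hy, h5, h6⟩ := exists_perp2 (by simpa using hn) (pf τ 1 a) (pf τ 1 c)
    rw [pf_dot_hf] at h5 h6
    obtain ⟨l, rfl⟩ := smul_of_hf (τ := τ) (x := a) (y := y) fun u hu =>
      herm_eq_zero_of_diag hσ herm_one fun s t => h4 _ (by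
        rw [hf_add_left, hf_smul_left, hf_smul_left, hu, h5]; simp)
    rw [hf_smul_left, mul_eq_zero] at h6
    rcases h6 with rfl | h6
    · simp at hy
    · rw [hf_comm hσ h6] at hc
      exact zero_ne_one hc
  have h4 : (guDet n hτ g).1.1 * τ (guDet n hτ g).1.1 = 1 := by
    rw [hτ, ← pow_succ']
    exact congrArg Units.val (guDet n hτ g).2
  obtain ⟨z, hz⟩ := (guLike (n := n) hσ hτ).exists_urf b hb h4
  refine ⟨z, Subtype.ext (Units.ext ?_), Subtype.ext (Units.ext ?_)⟩
  · change jRho (GU n K q).subtype z * (s : GL (Fin n) K).1 =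
      (s : GL (Fin n) K).1 * jRho (GU n K q).subtype z
    rw [hz, e]
    exact tv_comm (h2.symm.dot_eq_zero' (by rwa [pf_dot_hf]))
      (by rw [smul_dotProduct, pf_dot_hf, hf_comm hσ hb', smul_zero])
  · change (jRho (GU n K q).subtype z).det = (guDet n hτ g).1.1
    rw [hz, urf, det_tv', smul_dotProduct, pf_dot_hf, hb]
    simp

end Cfsg.Agent.S2644
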