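import Cfsg.Statements.S2645
import Cfsg.Agent.H6.SS
import Cfsg.Agent.H6.Cnt

set_option autoImplicit false
open Cfsg

namespace Cfsg.Agent.S2645

/-- Number of conjugacy classes of elements of odd prime order r, r different from the characteristic, in the symplectic group Sp_2m(q): let i be the multiplicative order of q modulo r and t = (r − 1)/i. If i is odd the eigenvalue orbits pair off (Λ ≠ Λ⁻¹) and the classes correspond to the non-zero (t/2)-tuples (a_j) with 2i Σ a_j ≤ 2m, giving C(⌊m/i⌋ + t/2, t/2) − 1 classes; if i is even (Λ = Λ⁻¹) they correspond to the non-zero t-tuples with i Σ a_j ≤ 2m, giving C(⌊2m/i⌋ + t, t) − 1 classes. -/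
theorem result {F : Type*} [Field F] [Fintype F] {p q : ℕ} [Fact p.Prime] [CharP F p] (hF : Fintype.card F = q) (m r i t : ℕ) (hr : r.Prime) (hr2 : r ≠ 2) (hrp : r ≠ p) (hi : i = orderOf (q : ZMod r)) (ht : t * i = r - 1) : Nat.card {C : ConjClasses ↥(Matrix.symplecticGroup (Fin m) F) // ∃ g : Matrix.symplecticGroup (Fin m) F, ConjClasses.mk g = C ∧ orderOf g = r} = if Odd i then Nat.choose (m / i + t / 2) (t / 2) - 1 else Nat.choose (2 * m / i + t) t - 1 := by
  open H6 Matrix in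
  have : Fact r.Prime := ⟨hr⟩
  obtain ⟨h0, u, hu⟩ := exists_unit_card one_ne_zero (hF.trans (pow_one q).symm) hr hrp
  obtain ⟨L, _, _, e, φ, ζ, S⟩ := exists_spl F hr h0
  rw [← hu, orderOf_units] at hi
  have hpos := orderOf_pos u
  have hr3 := hr.two_le
  obtain ⟨w, h1, h2, h3, h4⟩ : ∃ w : (ZMod r)ˣ, (w = u ∨ w = -u) ∧ u ∈ Subgroup.zpowers w ∧
      -1 ∈ Subgroup.zpowers w ∧ orderOf w = if Odd i then 2 * i else i := by
    split_ifs with h
    · have h1 : (-u) ^ i = -1 := by rw [h.neg_pow, hi, pow_orderOf_eq_one]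
      exact ⟨-u, Or.inr rfl, ⟨(i + 1 : ℕ), by
        simp only [zpow_natCast]; rw [pow_succ, h1, neg_mul_neg, one_mul]⟩, ⟨i, by simpa using h1⟩,
        by rw [orderOf_neg_zmod hr2 u hi.symm, if_pos h]⟩
    · obtain ⟨c, hc⟩ := Nat.not_odd_iff_even.1 h
      exact ⟨u, Or.inl rfl, Subgroup.mem_zpowers u, ⟨c, by
        simpa using pow_half_eq_neg_one (c := c) (by omega)⟩, hi.symm⟩
  have key : ∀ A : Matrix (Fin m ⊕ Fin m) (Fin m ⊕ Fin m) F, A.det ≠ 0 → ∀ k,
      em e ζ r Aᵀ⁻¹ k = em e ζ r A (-k) := fun A hA k => by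
    rw [em_inv S.prim (by rwa [det_transpose]), em_transpose]
  rw [card_prime_classes (e := e) S.prim (symplecticGroup (Fin m) F).subtype Subtype.val_injective
    (Subgroup.zpowers w) (fun a b ha _ h => sp_ss_conj (congrArg Subtype.val ha) h0 h)
    (fun g => inv_zpowers fun k => by
      have h5 := S.em_frob g.1 k
      rw [hF, ← hu] at h5
      rcases h1 with rfl | rfl
      · exact h5
      have h6 := GeneralLinearGroup.det_ne_zero (spJ F m g)
      rw [Units.val_neg, neg_mul]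
      refine (key g.1 h6 _).symm.trans ((congrFun (IsConj.em_eq ?_) _).trans h5)
      refine ⟨((isUnit_iff_isUnit_det _).2 (det_J_ne_zero (κ := Fin m)).isUnit).unit⁻¹, ?_⟩
      refine SemiconjBy.units_inv_symm_left ?_
      rw [SemiconjBy, IsUnit.unit_spec]
      nth_rw 2 [← SymplecticGroup.mem_iff'.1 g.2]
      rw [mul_assoc, nonsing_inv_mul_cancel_left _ _ (by rw [det_transpose]; exact h6.isUnit)])
    fun m hm hs => ?_, Nat.card_zpowers, h4, Fintype.card_sum, Fintype.card_fin, ← two_mul]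
  · split_ifs at h4 ⊢ with h
    · have h6 := (Subgroup.zpowers w).index_mul_card
      rw [Nat.card_zpowers, h4, Nat.card_units, Nat.card_zmod, ← ht, ← mul_assoc] at h6
      rw [← Nat.eq_of_mul_eq_mul_right (hi ▸ hpos) h6, Nat.mul_div_cancel _ two_pos,
        Nat.mul_div_mul_left _ _ two_pos]
    · rw [index_zpowers _ h4 ht]
  obtain ⟨A, h5, h6⟩ := S.exists_em m (fun k => by rw [hF, ← hu, hm _ h2]) hs
  have hA : A.det ≠ 0 := ((isUnit_iff_isUnit_det A).1
    (IsUnit.of_pow_eq_one h5 hr.ne_zero)).ne_zero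
  obtain ⟨c, hc⟩ : IsConj A Aᵀ⁻¹ := isConj_of_em (e := e) S.prim h5 (by
    rw [inv_pow', ← transpose_pow, h5, transpose_one, inv_one]) (funext fun k => by
      rw [key A hA, h6, ← hm _ h3]; simp)
  obtain ⟨B, hB⟩ := sp_ss_exists h5 h0 (hr.odd_of_ne_two hr2) (GeneralLinearGroup.det_ne_zero c) (by
    rw [mul_assoc, hc.eq, mul_nonsing_inv_cancel_left _ _ (by rw [det_transpose]; exact hA.isUnit)])
  exact ⟨B, Subtype.ext (aeval_X_pow_sub_one.1 (IsConj.aeval_eq_zero hB
    (aeval_X_pow_sub_one.2 h5))), (IsConj.em_eq hB).symm.trans h6⟩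

end Cfsg.Agent.S2645
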