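import Cfsg.Statements.S2646
import Cfsg.Agent.H6.UC

set_option autoImplicit false
open Cfsg

namespace Cfsg.Agent.S2646

/-- Order of the centraliser in the general unitary group GU_n(q) of a unipotent element of given Jordan type: if u ∈ GU_n(q) (isometries of Σ u_i v_i^q over the field with q² elements) is similar to the unipotent matrix with a_i Jordan blocks of size i (all sizes at least 1), then its centraliser in GU_n(q) has order q^γ · Π_i |GU_(a_i)(q)| with γ = 2 Σ_(i<j) i a_i a_j + Σ_i (i − 1) a_i², the same exponent as in GL_n(q), where |GU_a(q)| = q^(a(a−1)/2) Π_(k=1)^a (q^k − (−1)^k). -/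
theorem result {K : Type*} [Field K] [Fintype K] {q n t : ℕ} (hK : Fintype.card K = q ^ 2) (d : Fin t → ℕ) (hd : ∀ k, 1 ≤ d k) (e : ((k : Fin t) × Fin (d k)) ≃ Fin n) (u : ↥(Cfsg.GU n K q)) (hu : IsConj (Matrix.reindex e e (Cfsg.jordanTypeMatrix d K)) ((u : GL (Fin n) K) : Matrix (Fin n) (Fin n) K)) : (Nat.card ↥(Subgroup.centralizer ({u} : Set ↥(Cfsg.GU n K q))) : ℤ) = (q : ℤ) ^ (2 * (∑ i ∈ Finset.range (Finset.univ.sup d + 1), ∑ j ∈ Finset.range (Finset.univ.sup d + 1), if i < j then i * (Finset.univ.filter (fun k : Fin t => d k = i)).card * (Finset.univ.filter (fun k : Fin t => d k = j)).card else 0) + ∑ i ∈ Finset.range (Finset.univ.sup d + 1), (i - 1) * (Finset.univ.filter (fun k : Fin t => d k = i)).card ^ 2) * ∏ i ∈ Finset.range (Finset.univ.sup d + 1), ((q : ℤ) ^ ((Finset.univ.filter (fun k : Fin t => d k = i)).card * ((Finset.univ.filter (fun k : Fin t => d k = i)).card - 1) / 2) * ∏ j : Fin (Finset.univ.filter (fun k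 : Fin t => d k = i)).card, ((q : ℤ) ^ ((j : ℕ) + 1) - (-1) ^ ((j : ℕ) + 1))) := by
  open H6 Matrix in
  obtain ⟨τ, hσ, hτ⟩ := exists_conj_aut hK
  obtain ⟨x, c, J⟩ := exists_jf hd (rank_jordan_sub_one_pow d e hu)
  have h1 : ∀ x, (τ : K →+* K) ((τ : K →+* K) x) = x := sq_of_orderOf_two hσ
  have h2 : (1 : Matrix (Fin n) (Fin n) K).det ≠ 0 := by simp
  have h3 := eh_one (ι := Fin n) h1
  have h4 := (isom_iff_adj h1 h2).1 ((mem_GU_gram hτ _).1 u.2)
  have hn : ∀ k, d k < Finset.univ.sup d + 1 :=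
    fun k => Nat.lt_succ_of_le (Finset.le_sup (f := d) (Finset.mem_univ k))
  let _ := starE h1 h2 h3 h4
  let _ := J.starS h1 h2 h3 h4 (Finset.univ.sup d + 1)
  obtain ⟨a, ha⟩ := exists_ne_of_orderOf_two hσ
  obtain ⟨j, h5, h6⟩ := card_unitary_second (J.blkHom _) (J.blkHom_surj _) (J.blkHom_nil hn)
    (fun x => funext (J.blkHom_adj h1 h2 h3 h4 _ x)) (k := ⟨a • 1, mem_cE.2 (by simp)⟩)
    (fun y => Subtype.ext (by simp)) (IsUnit.of_mul_eq_one ⟨(a - τ a)⁻¹ • 1, mem_cE.2 (by simp)⟩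
      (Subtype.ext (by
        change (a • 1 - adj (τ : K →+* K) 1 (a • 1)) * ((a - τ a)⁻¹ • 1) = (1 : Matrix _ _ K)
        rw [adj_smul_one h1 h2, ← sub_smul, smul_mul_assoc, one_mul, smul_smul]
        erw [mul_inv_cancel₀ (sub_ne_zero.2 ha.symm), one_smul])))
  rw [J.card_ker_blkHom hn, hK, ← pow_mul, mul_comm 2 (_ + _), pow_mul] at h5
  obtain rfl := Nat.pow_left_injective two_ne_zero h5
  have h7 : Nat.card (Subgroup.centralizer {u}) = Nat.card {y : cE (u.1.1 - 1) // star y * y = 1} :=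
    Nat.card_congr (Equiv.ofBijective (fun g => ⟨⟨g.1.1.1, mem_cE.2 (comm_sub_one.2 (congrArg (·.1.1)
      (Subgroup.mem_centralizer_singleton_iff.1 g.2)))⟩,
      Subtype.ext ((isom_iff_adj h1 h2).1 ((mem_GU_gram hτ _).1 g.1.2))⟩)
      ⟨fun _ _ h => Subtype.ext (Subtype.ext (Units.ext (congrArg (·.1.1) h))), fun ⟨y, hy⟩ =>
        have hy' : adj (τ : K →+* K) 1 y.1 * y.1 = 1 := congrArg Subtype.val hy
        ⟨⟨⟨⟨y.1, _, mul_eq_one_comm.1 hy', hy'⟩, (mem_GU_gram hτ _).2 ((isom_iff_adj h1 h2).2 hy')⟩,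
          Subgroup.mem_centralizer_singleton_iff.2
            (Subtype.ext (Units.ext (comm_sub_one.1 (cE_comm y))))⟩, rfl⟩⟩)
  rw [h7, h6, mul_comm, Nat.cast_mul, Nat.cast_pow, Finset.prod_range]
  congr 1
  refine (congrArg Nat.cast (Nat.card_congr ((Equiv.subtypeEquivRight fun y => funext_iff).trans
    (Equiv.subtypePiEquivPi (p := fun (i : Fin (Finset.univ.sup d + 1)) M =>
      adj (τ : K →+* K) (bG (τ : K →+* K) 1 u.1.1 d x i) M * M = 1))))).trans ?_
  rw [Nat.card_pi, Nat.cast_prod]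
  refine Finset.prod_congr rfl fun i _ => (card_isom_herm hK hσ (J.det_bG h1 h2 h3 h4 i)
    (J.eh_bG h1 h2 h3 h4 i) (by simp [← mul_pow])).trans ?_
  rw [Fintype.card_subtype]
  rfl

end Cfsg.Agent.S2646
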