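import Cfsg.Statements.S2658
import Cfsg.Agent.H7.AltD4

set_option autoImplicit false
open scoped MatrixGroups
open Cfsg

namespace Cfsg.Agent.S2658

open H7.Alt H9.Chev

/-- Alternating sections of the groups of type G₂. Let `F` be a finite field of characteristic `p` and let `G` be the Chevalley group of type G₂ over `F`. If some subgroup of `G` has a quotient isomorphic to the alternating group of degree `r`, then `r` is at most 6, or 7 in characteristic 5. (Only an upper bound is asserted.) -/
theorem result {F : Type*} [Field F] [Fintype F] (p : ℕ) [Fact p.Prime] [CharP F p]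
    (r : ℕ) (H : Subgroup ↥(Cfsg.Lie.chevG2.group F)) (K : Subgroup ↥H) [K.Normal]
    (h : Nonempty (↥H ⧸ K ≃* ↥(alternatingGroup (Fin r)))) :
    r ≤ 6 + (if p = 5 then 1 else 0) := by
  obtain ⟨φ, hφ⟩ := of_quot K h
  obtain ⟨e⟩ := (Tri.ax (F := F)).equiv (goodD4.ax F) (goodG2.ax F)
    ((Tri.d F).US Set.univ ⊓ (MulAut.conj (Tri.fold F).M).toMonoidHom.eqLocus (MonoidHom.id _))
    fun g => Iff.rfl
  obtain ⟨n, -, hn⟩ := FiniteField.card F p
  refine main_D4 p (k := 4 * n) (dvd_mul_right _ _) ((Subgroup.subtype _).comp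
    (e.symm.toMonoidHom.comp ((Subgroup.inclusion (goodG2.group_eq F).le).comp H.subtype)))
    (Subtype.val_injective.comp (e.symm.injective.comp
      ((Subgroup.inclusion_injective (goodG2.group_eq F).le).comp Subtype.val_injective))) (fun x => ?_) (fun x => ?_) φ hφ
  · rw [goodD4.group_eq]
    exact (e.symm _).2.1
  · have h1 : ∀ g : GL Lie.chevD4.Idx F,
        Matrix.GeneralLinearGroup.map (iterateFrobenius F p (4 * n)) g = g := fun g => by
      ext a b
      simp [iterateFrobenius_def, pow_mul', ← hn, FiniteField.pow_card_pow]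
    rw [tw_apply, h1]
    exact (e.symm _).2.2

end Cfsg.Agent.S2658
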