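import Cfsg.Statements.S2660
import Cfsg.Agent.H7.AltD4

set_option autoImplicit false
open scoped MatrixGroups
open Cfsg

namespace Cfsg.Agent.S2660

open H7.Alt H9.Chev Cfsg.Lie

lemma comm_x {F : Type*} [Field F] (r s : Tri.R4)
    (h : chk 28 [Tri.lx r 1 1 0, Tri.lx s 1 0 1] [Tri.lx s 1 0 1, Tri.lx r 1 1 0] = true) (t u : F) :
    (Tri.d F).x r t * (Tri.d F).x s u = (Tri.d F).x s u * (Tri.d F).x r t := by
  have := wm_eq_of_chk chevD4 t u h
  simp [wm, Tri.lm_x] at this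
  exact Units.ext this

lemma tw_sm {F : Type*} [Field F] (θ : F →+* F) (p : Tri.P4) (t : F) :
    tw θ ((Tri.d F).x ((Tri.d F).sm p) t) = (Tri.d F).x ((Tri.d F).sm (Tri.π p)) (θ t) ∧
    tw θ ((Tri.d F).x ((Tri.d F).neg ((Tri.d F).sm p)) t) =
      (Tri.d F).x ((Tri.d F).neg ((Tri.d F).sm (Tri.π p))) (θ t) := by
  rw [tw_apply, tw_apply, goodD4.map_x, goodD4.map_x]
  exact Tri.M_sm p (θ t)

lemma le_fix {F : Type*} [Field F] (θ : F →+* F) (q : ℕ) (h1 : ∀ t, θ t = t ^ q)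
    (h3 : ∀ t : F, t ^ q ^ 3 = t) :
    twistedD4 F q ≤ chevD4.group F ⊓ (tw θ).eqLocus (MonoidHom.id _) := by
  have e2 : ∀ t, θ (t ^ q) = t ^ q ^ 2 := fun t => by rw [h1, ← pow_mul, pow_two]
  have e3 : ∀ t, θ (t ^ q ^ 2) = t := fun t => by rw [h1, ← pow_mul, ← pow_succ, h3]
  have one : ∀ (r : Tri.R4) (r' : ℕ) (t : F) (g : GL chevD4.Idx F), r' = r.1 →
      g.1 = chevD4.wordMat F [(r', t)] → g = (Tri.d F).x r t := fun r _ t g e hg => Units.ext (by
    rw [hg, e, goodD4.x_val]; simp [ChevalleyDatum.wordMat])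
  have three : ∀ (r s u : Tri.R4) (r' s' u' : ℕ) (a b c : F) (g : GL chevD4.Idx F),
      (r' = r.1 ∧ s' = s.1 ∧ u' = u.1) → g.1 = chevD4.wordMat F [(r', a), (s', b), (u', c)] →
      g = (Tri.d F).x r a * (Tri.d F).x s b * (Tri.d F).x u c := fun r s u _ _ _ a b c g e hg => Units.ext (by
    rw [hg, e.1, e.2.1, e.2.2, Units.val_mul, Units.val_mul, goodD4.x_val, goodD4.x_val, goodD4.x_val]
    simp [ChevalleyDatum.wordMat, mul_assoc])
  rw [twistedD4, ChevalleyDatum.genSubgroup, Subgroup.closure_le]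
  rintro g ⟨w, ⟨t, ht, r, hr, rfl⟩ | ⟨t, rs, hrs, rfl⟩, hg⟩
  · simp only [List.mem_cons, List.not_mem_nil, or_false] at hr
    rcases hr with rfl | rfl
    · rw [one ((Tri.d ℚ).sm Tri.p1) _ t g (by decide +kernel) hg]
      exact ⟨goodD4.x_mem F _ _, (tw_sm θ Tri.p1 t).1.trans (by rw [h1, ht]; rfl)⟩
    · rw [one ((Tri.d ℚ).neg ((Tri.d ℚ).sm Tri.p1)) _ t g (by decide +kernel) hg]
      exact ⟨goodD4.x_mem F _ _, (tw_sm θ Tri.p1 t).2.trans (by rw [h1, ht]; rfl)⟩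
  · simp only [List.mem_cons, List.not_mem_nil, or_false] at hrs
    rcases hrs with rfl | rfl
    · rw [three ((Tri.d ℚ).sm Tri.p0) ((Tri.d ℚ).sm Tri.p2) ((Tri.d ℚ).sm Tri.p3) _ _ _ _ _ _ g
        (by decide +kernel) hg]
      refine ⟨mul_mem (mul_mem (goodD4.x_mem F _ _) (goodD4.x_mem F _ _)) (goodD4.x_mem F _ _), ?_⟩
      show tw θ _ = _
      rw [MonoidHom.id_apply, map_mul, map_mul]
      erw [(tw_sm θ _ _).1, (tw_sm θ _ _).1, (tw_sm θ _ _).1]
      rw [e2, e3, h1, comm_x ((Tri.d ℚ).sm Tri.p0) ((Tri.d ℚ).sm Tri.p2) (by decide +kernel),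
        mul_assoc, mul_assoc,
        comm_x ((Tri.d ℚ).sm Tri.p0) ((Tri.d ℚ).sm Tri.p3) (by decide +kernel)]
      rfl
    · rw [three ((Tri.d ℚ).neg ((Tri.d ℚ).sm Tri.p0)) ((Tri.d ℚ).neg ((Tri.d ℚ).sm Tri.p2))
        ((Tri.d ℚ).neg ((Tri.d ℚ).sm Tri.p3)) _ _ _ _ _ _ g (by decide +kernel) hg]
      refine ⟨mul_mem (mul_mem (goodD4.x_mem F _ _) (goodD4.x_mem F _ _)) (goodD4.x_mem F _ _), ?_⟩
      show tw θ _ = _
      rw [MonoidHom.id_apply, map_mul, map_mul]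
      erw [(tw_sm θ _ _).2, (tw_sm θ _ _).2, (tw_sm θ _ _).2]
      rw [e2, e3, h1, comm_x ((Tri.d ℚ).neg ((Tri.d ℚ).sm Tri.p0))
          ((Tri.d ℚ).neg ((Tri.d ℚ).sm Tri.p2)) (by decide +kernel), mul_assoc, mul_assoc,
        comm_x ((Tri.d ℚ).neg ((Tri.d ℚ).sm Tri.p0)) ((Tri.d ℚ).neg ((Tri.d ℚ).sm Tri.p3))
          (by decide +kernel)]
      rfl

/-- Alternating sections of the triality-twisted groups ³D₄. Let `q = p^a` be a prime power and `K` a field with `q³` elements, and let `G` be the twisted group ³D₄(q) realised over `K`. If some subgroup of `G` has a quotient isomorphic to the alternating group of degree `r`, then `r` is at most 6, or 7 in characteristic 5. (Only an upper bound is asserted.) -/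
theorem result {K : Type*} [Field K] [Fintype K] (p a : ℕ) [Fact p.Prime] [CharP K p]
    (ha : 1 ≤ a) (hK : Fintype.card K = (p ^ a) ^ 3) (r : ℕ) (H : Subgroup ↥(Cfsg.Lie.twistedD4 K (p ^ a))) (N : Subgroup ↥H) [N.Normal]
    (h : Nonempty (↥H ⧸ N ≃* ↥(alternatingGroup (Fin r)))) :
    r ≤ 6 + (if p = 5 then 1 else 0) := by
  obtain ⟨φ, hφ⟩ := of_quot N h
  have h3 : ∀ t : K, t ^ (p ^ a) ^ 3 = t := fun t => by rw [← hK, FiniteField.pow_card]
  have := le_fix (iterateFrobenius K p (4 * a)) (p ^ a) (fun t => by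
    rw [iterateFrobenius_def, pow_mul', pow_succ, pow_mul, h3]) h3
  exact main_D4 p (k := 4 * a) (dvd_mul_right _ _) ((Subgroup.subtype _).comp H.subtype)
    (Subtype.val_injective.comp Subtype.val_injective) (fun x => (this x.1.2).1)
    (fun x => (this x.1.2).2) φ hφ

end Cfsg.Agent.S2660
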