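import Cfsg.Statements.S2661
import Cfsg.Agent.H7.AltRee

set_option autoImplicit false
open scoped MatrixGroups
open Cfsg

namespace Cfsg.Agent.S2661

open H7.Alt

/-- Alternating sections of the large Ree groups ²F₄. Let `m ≥ 1`, let `K` be a field with `2^(2m+1)` elements and let `G` be the large Ree group ²F₄(2^(2m+1)) realised over `K`. If some subgroup of `G` has a quotient isomorphic to the alternating group of degree `r`, then `r ≤ 6`. (Only an upper bound is asserted.) -/
theorem result {K : Type*} [Field K] [Fintype K] {m : ℕ} (hm : 1 ≤ m)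
    (hK : Fintype.card K = 2 ^ (2 * m + 1)) (r : ℕ) (H : Subgroup ↥(Cfsg.Lie.twistedF4 K (2 ^ m))) (N : Subgroup ↥H) [N.Normal]
    (h : Nonempty (↥H ⧸ N ≃* ↥(alternatingGroup (Fin r)))) :
    r ≤ 6 := by
  obtain ⟨φ, hφ⟩ := of_quot N h
  haveI : CharP K 2 := by
    obtain ⟨p, hp⟩ := CharP.exists K
    obtain ⟨n, hp', hn⟩ := FiniteField.card K p
    have : p = 2 := (Nat.prime_dvd_prime_iff_eq hp' Nat.prime_two).mp
      (hp'.dvd_of_dvd_pow (n := 2 * m + 1) (by rw [← hK, hn]; exact dvd_pow_self p n.ne_zero))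
    rwa [← this]
  have h3 : ∀ t : K, t ^ 2 ^ (2 * m + 1) = t := fun t => by rw [← hK, FiniteField.pow_card]
  have := twisted_le (θ := iterateFrobenius K 2 (3 * m + 2)) (e := 2 ^ m) (fun t => by
    rw [iterateFrobenius_def, show 2 ^ (3 * m + 2) = 2 ^ (2 * m + 1) * (2 * 2 ^ m) by ring, pow_mul,
      h3]) (fun t => by rw [show 2 * 2 ^ m * 2 ^ m = 2 ^ (2 * m + 1) by ring, h3])
  exact main_Ree m ((Subgroup.subtype _).comp H.subtype)
    (Subtype.val_injective.comp Subtype.val_injective) (fun x => this x.1.2) φ hφ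

end Cfsg.Agent.S2661
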