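import Cfsg.Statements.S2665
import Cfsg.Agent.H6.Galois

set_option autoImplicit false
open scoped MatrixGroups
open Cfsg

namespace Cfsg.Agent.S2665

open Polynomial Matrix

theorem exists_fixed {K W : Type*} [Field K] [IsAlgClosed K] [AddCommGroup W] [Module K W]
    [Module.Finite K W] {σ : K →+* K} {q : ℕ} (hq : 2 ≤ q) (hσ : ∀ x, σ x = x ^ q)
    (τ : W →ₛₗ[σ] W) (hτ : Function.Injective τ) {v : W} (hv : v ≠ 0) : ∃ w, w ≠ 0 ∧ τ w = w := by
  classical
  have h1 : ∃ m, ∃ a : ℕ → K, ∑ i ∈ Finset.range m, a i • τ^[i] v = τ^[m] v := by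
    obtain ⟨m, hm⟩ := monotone_stabilizes_iff_noetherian.2 (inferInstanceAs (IsNoetherian K W))
      ⟨fun m => Submodule.span K ((fun i => τ^[i] v) '' Finset.range m), fun a b h =>
        Submodule.span_mono (Set.image_mono (by simpa using h))⟩
    refine ⟨m, (Submodule.mem_span_image_finset_iff_exists_fun' K).1 ?_⟩
    exact (hm (m + 1) m.le_succ).ge (Submodule.subset_span ⟨m, by simp, rfl⟩)
  obtain ⟨a, ha⟩ := Nat.find_spec h1
  have hmin := @Nat.find_min _ _ h1
  obtain ⟨k, hk⟩ : ∃ k, Nat.find h1 = k + 1 := Nat.exists_eq_succ_of_ne_zero fun h => by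
    rw [h] at ha
    exact hv (by simpa using ha.symm)
  rw [hk] at ha hmin
  let P : ℕ → K[X] := fun i => i.rec (C (a 0) * X ^ q) fun i s => s ^ q + C (a (i + 1)) * X ^ q
  have h2 : ∀ i, X ^ q ∣ P i ∧ (P i = 0 → ∀ j ≤ i, a j = 0) := fun i => by
    induction i with
    | zero => exact ⟨Dvd.intro_left _ rfl, fun h j hj => by simpa [P, Nat.le_zero.1 hj] using h⟩
    | succ i ih =>
      refine ⟨dvd_add (ih.1.pow (by omega)) (Dvd.intro_left _ rfl), fun h => ?_⟩
      change P i ^ q + C (a (i + 1)) * X ^ q = 0 at h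
      have h3 : a (i + 1) = 0 := by
        have := congrArg (coeff · q) h
        have h4 : X ^ (q + 1) ∣ P i ^ q := (pow_dvd_pow X (show q + 1 ≤ q * q by nlinarith)).trans
          (by rw [pow_mul]; exact pow_dvd_pow_of_dvd ih.1 q)
        simpa [X_pow_dvd_iff.1 h4 q (by omega)] using this
      intro j hj
      rcases hj.eq_or_lt with rfl | hj
      · exact h3
      · exact ih.2 (pow_eq_zero_iff (n := q) (by omega) |>.1 (by simpa [h3] using h)) j (by omega)
  obtain ⟨y, hy0, hy⟩ : ∃ y, y ≠ 0 ∧ (P k).eval y = y := by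
    obtain ⟨r, hr⟩ := (pow_dvd_pow X hq).trans (h2 k).1
    have h3 : r ≠ 0 := fun h => hv ((hτ.iterate (k + 1)) (by
      rw [← ha, Function.iterate_fixed (map_zero τ)]
      exact Finset.sum_eq_zero fun i hi => by
        rw [(h2 k).2 (by rw [hr, h, mul_zero]) i (by simpa [Nat.lt_succ_iff] using hi), zero_smul]))
    obtain ⟨y, hy⟩ := IsAlgClosed.exists_root (X * r - 1) (degree_ne_of_natDegree_ne (n := 0) (by
      rw [← C_1, natDegree_sub_C, natDegree_X_mul h3]; omega))
    refine ⟨y, by rintro rfl; simp at hy, ?_⟩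
    simp only [IsRoot, eval_sub, eval_mul, eval_X, eval_one] at hy
    rw [hr, eval_mul, eval_pow, eval_X]
    linear_combination y * hy
  refine ⟨∑ i ∈ Finset.range (k + 1), (P i).eval y • τ^[i] v, fun h => hmin k.lt_succ_self
    ⟨fun i => -y⁻¹ * (P i).eval y, ?_⟩, ?_⟩
  · rw [Finset.sum_range_succ, hy, add_eq_zero_iff_eq_neg] at h
    simp only [mul_smul, ← Finset.smul_sum]
    rw [h, neg_smul, smul_neg, neg_neg, inv_smul_smul₀ hy0]
  · simp only [map_sum, map_smulₛₗ, hσ, ← Function.iterate_succ_apply' τ]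
    rw [Finset.sum_range_succ, hy, Nat.succ_eq_add_one, ← ha, Finset.smul_sum,
      Finset.sum_range_succ', Finset.sum_range_succ', ← add_assoc, ← Finset.sum_add_distrib]
    have h3 : ∀ i, P (i + 1) = P i ^ q + C (a (i + 1)) * X ^ q := fun _ => rfl
    have h4 : P 0 = C (a 0) * X ^ q := rfl
    simp only [h3, h4, eval_add, eval_mul, eval_pow, eval_C, eval_X, add_smul, smul_smul,
      mul_comm (y ^ q)]

/-- The Lang–Steinberg Theorem for the general linear group. Let `K` be an algebraically closed field of prime characteristic `p`, let `q = p^f` with `f ≥ 1`, and let `σ` be the endomorphism of GL_n(K) raising every matrix entry to the `q`-th power. Then every element `g` of GL_n(K) can be written `g = x · σ(x)⁻¹` for some `x` in GL_n(K): the map `x ↦ x σ(x)⁻¹` is surjective. -/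
theorem result {K : Type*} [Field K] [IsAlgClosed K] (p : ℕ) [Fact p.Prime] [CharP K p]
    (f : ℕ) (hf : 1 ≤ f) (n : ℕ) (g : GL (Fin n) K) :
    ∃ x : GL (Fin n) K, g = x * (Matrix.GeneralLinearGroup.map (iterateFrobenius K p f) x)⁻¹ := by
  have hq : 2 ≤ p ^ f := Nat.one_lt_pow (by omega) (Fact.out : p.Prime).one_lt
  set σ := iterateFrobenius K p f
  have hσ : ∀ x, σ x = x ^ p ^ f := fun _ => rfl
  let τ : (Fin n → K) →ₛₗ[σ] (Fin n → K) :=
    { toFun := fun v => g.1 *ᵥ (σ ∘ v)
      map_add' := fun u v => by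
        rw [← mulVec_add]; congr 1; ext; simp
      map_smul' := fun c v => by
        rw [← mulVec_smul]; congr 1; ext; simp }
  have hτ : Function.Injective τ := fun u v h => σ.injective.comp_left (by
    simpa [τ] using congrArg (g⁻¹.1 *ᵥ ·) h)
  set U := Submodule.span K {v | τ v = v} with hU
  have h1 : ∀ u ∈ U, τ u ∈ U ∧ (∃ w ∈ U, τ w = u) ∧ ∃ w ∈ U, τ w - w = u := fun u hu => by
    obtain ⟨m, c, e, rfl⟩ := Submodule.mem_span_set'.1 hu
    have h2 : ∀ c : Fin m → K, ∑ i, c i • (e i).1 ∈ U := fun c =>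
      sum_mem fun i _ => U.smul_mem _ (Submodule.subset_span (e i).2)
    have h3 : ∀ c : Fin m → K, τ (∑ i, c i • (e i).1) = ∑ i, c i ^ p ^ f • (e i).1 := fun c => by
      rw [map_sum]
      exact Finset.sum_congr rfl fun i _ => by rw [map_smulₛₗ, (e i).2, hσ]
    choose a ha using fun i => IsAlgClosed.exists_pow_nat_eq (c i) (n := p ^ f) (by omega)
    choose b hb using fun i => IsAlgClosed.exists_root (X ^ p ^ f - X - C (c i))
      (degree_ne_of_natDegree_ne (n := 0) (by
        rw [natDegree_sub_C, natDegree_sub_eq_left_of_natDegree_lt] <;>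
          simp only [natDegree_X_pow, natDegree_X] <;> omega))
    refine ⟨h3 c ▸ h2 _, ⟨_, h2 a, by simp only [h3, ha]⟩, _, h2 b, ?_⟩
    rw [h3, ← Finset.sum_sub_distrib]
    exact Finset.sum_congr rfl fun i _ => by
      rw [← sub_smul, show b i ^ p ^ f - b i = c i by simpa [sub_eq_zero] using hb i]
  obtain ⟨x, hx⟩ := H6.exists_gl_cols_of_span (W := {v | τ v = v}) (by
    by_contra h
    obtain ⟨v, -, hv⟩ := SetLike.exists_of_lt (lt_top_iff_ne_top.2 h)
    obtain ⟨w, h2, h3⟩ := exists_fixed hq hσ (U.mapQ U τ fun u hu => (h1 u hu).1)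
      (LinearMap.ker_eq_bot.1 (by
        refine Submodule.ker_liftQ_eq_bot _ _ _ fun u hu => ?_
        obtain ⟨w, h4, h5⟩ := (h1 _ ((Submodule.Quotient.mk_eq_zero _).1 hu)).2.1
        exact hτ h5 ▸ h4)) (mt (Submodule.Quotient.mk_eq_zero U).1 hv)
    obtain ⟨w, rfl⟩ := Submodule.Quotient.mk_surjective _ w
    obtain ⟨u, h4, h5⟩ := (h1 _ ((Submodule.Quotient.eq _).1 h3)).2.2
    refine h2 ((Submodule.Quotient.mk_eq_zero _).2 ?_)
    have : w - u ∈ U := Submodule.subset_span (show τ (w - u) = _ by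
      rw [map_sub]; linear_combination (exp := 1) -h5)
    simpa using add_mem this h4)
  exact ⟨x, eq_mul_inv_of_mul_eq (Units.ext (Matrix.ext fun i j => congrFun (hx j) i))⟩

end Cfsg.Agent.S2665
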