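import Cfsg.Statements.S2669
import Cfsg.Agent.H6.Shintani

set_option autoImplicit false
open Cfsg

namespace Cfsg.Agent.S2669

/-- Shintani descent preserves numbers of fixed points on coset spaces (abstract form). Let `σ` be an automorphism of a group `X` and `e ≥ 1`; write `G` for the fixed points of `σᵉ` and `H` for the fixed points of `σ`, and assume `G` is finite. Let `Y` be a `σ`-stable subgroup of `X` on which the maps `a ↦ a σ(a)⁻¹` and `a ↦ a σᵉ(a)⁻¹` are surjective (as for a closed connected `σ`-stable subgroup of an algebraic group). Let `g ∈ G`, let `a ∈ X` satisfy `g = a σ(a)⁻¹` and put `x = σᵉ(a)⁻¹ a` (the Shintani image, an element of `H`). The element `g σ` of the semidirect product acts on the cosets of `Y ∩ G` in `G` by `k (Y ∩ G) ↦ g σ(k) (Y ∩ G)`, fixing that coset exactly when `k⁻¹ g σ(k) ∈ Y`; and `x` fixes the coset `h (Y ∩ H)` of `H`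 exactly when `h⁻¹ x h ∈ Y`. Then the two numbers of fixed cosets agree; in cross-multiplied form, `#{k ∈ G : k⁻¹ g σ(k) ∈ Y} · |Y ∩ H| = #{h ∈ H : h⁻¹ x h ∈ Y} · |Y ∩ G|`. -/
theorem result {X : Type*} [Group X] (σ : MulAut X) (e : ℕ) (he : 1 ≤ e)
    [Finite ↥((MulEquiv.toMonoidHom (σ ^ e)).eqLocus (MonoidHom.id X))]
    (Y : Subgroup X) (hY : ∀ y : X, y ∈ Y ↔ σ y ∈ Y)
    (hYL : ∀ y ∈ Y, ∃ a ∈ Y, y = a * (σ a)⁻¹) (hYLe : ∀ y ∈ Y, ∃ a ∈ Y, y = a * ((σ ^ e) a)⁻¹)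
    (g : X) (hg : g ∈ (MulEquiv.toMonoidHom (σ ^ e)).eqLocus (MonoidHom.id X)) (a : X) (ha : g = a * (σ a)⁻¹) :
    Nat.card {k : ↥((MulEquiv.toMonoidHom (σ ^ e)).eqLocus (MonoidHom.id X)) // (k : X)⁻¹ * g * σ k ∈ Y} *
        Nat.card ↥(Y ⊓ (MulEquiv.toMonoidHom σ).eqLocus (MonoidHom.id X)) =
      Nat.card {h : ↥((MulEquiv.toMonoidHom σ).eqLocus (MonoidHom.id X)) // (h : X)⁻¹ * (((σ ^ e) a)⁻¹ * a) * h ∈ Y} *
        Nat.card ↥(Y ⊓ (MulEquiv.toMonoidHom (σ ^ e)).eqLocus (MonoidHom.id X)) := by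
  subst ha
  have hx := H6.shin_fixed hg
  have hYe : ∀ (i : ℕ) y, y ∈ Y → (σ ^ i) y ∈ Y := fun i => by
    induction i with
    | zero => exact fun _ h => h
    | succ i ih => exact fun y h => by rw [pow_succ, MulAut.mul_apply]; exact ih _ ((hY y).1 h)
  let R : {k : ↥((MulEquiv.toMonoidHom (σ ^ e)).eqLocus (MonoidHom.id X)) //
      (k : X)⁻¹ * (a * (σ a)⁻¹) * σ k ∈ Y} →
      {h : ↥((MulEquiv.toMonoidHom σ).eqLocus (MonoidHom.id X)) //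
        (h : X)⁻¹ * (((σ ^ e) a)⁻¹ * a) * h ∈ Y} → Prop := fun k h => k.1.1⁻¹ * a * h.1.1 ∈ Y
  rw [← H6.card_rel R, H6.card_rel_swap, H6.card_rel fun h k => R k h]
  · rintro ⟨⟨h, h1⟩, h2⟩
    have h1' : σ h = h := h1
    obtain ⟨c, hc, e1⟩ := hYLe _ (Y.inv_mem h2)
    have e2 : (σ ^ e) (a * h * c) = a * h * c := by
      rw [map_mul, map_mul, H6.pow_fixed h1', ← inv_inv ((σ ^ e) c), ← inv_mul_eq_iff_eq_mul.2 e1]
      group
    have e3 : (a * h * c)⁻¹ * (a * (σ a)⁻¹) * σ (a * h * c) = c⁻¹ * σ c := by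
      rw [map_mul, map_mul, h1']; group
    refine ⟨⟨fun k => ⟨(a * h * c)⁻¹ * k.1.1.1, ?_, Subgroup.mul_mem _ (Subgroup.inv_mem _ e2) k.1.1.2⟩,
      fun y => ⟨⟨⟨a * h * c * y.1, Subgroup.mul_mem _ e2 y.2.2⟩, ?_⟩, ?_⟩, fun k => by ext; simp only; group,
      fun y => by ext; simp only; group⟩⟩
    · have : (a * h * c)⁻¹ * k.1.1.1 = c⁻¹ * (k.1.1.1⁻¹ * a * h)⁻¹ := by group
      rw [this]
      exact Y.mul_mem (Y.inv_mem hc) (Y.inv_mem k.2)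
    · have : (a * h * c * y.1)⁻¹ * (a * (σ a)⁻¹) * σ (a * h * c * y.1) =
          y.1⁻¹ * (c⁻¹ * σ c) * σ y.1 := by rw [← e3, map_mul σ _ y.1]; group
      rw [this]
      exact Y.mul_mem (Y.mul_mem (Y.inv_mem y.2.1) (Y.mul_mem (Y.inv_mem hc) ((hY _).1 hc)))
        ((hY _).1 y.2.1)
    · change (a * h * c * y.1)⁻¹ * a * h ∈ Y
      rw [show (a * h * c * y.1)⁻¹ * a * h = y.1⁻¹ * c⁻¹ by group]
      exact Y.mul_mem (Y.inv_mem y.2.1) (Y.inv_mem hc)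
  · rintro ⟨⟨k, h1⟩, h2⟩
    have h1' : (σ ^ e) k = k := h1
    obtain ⟨c, hc, e1⟩ := hYL _ h2
    have e2 : σ (a⁻¹ * k * c) = a⁻¹ * k * c := by
      rw [map_mul, map_mul, map_inv]
      calc (σ a)⁻¹ * σ k * σ c = a⁻¹ * k * (k⁻¹ * (a * (σ a)⁻¹) * σ k) * σ c := by group
        _ = _ := by rw [e1]; group
    have e3 : (a⁻¹ * k * c)⁻¹ * (((σ ^ e) a)⁻¹ * a) * (a⁻¹ * k * c) = ((σ ^ e) c)⁻¹ * c := by
      nth_rw 1 [← H6.pow_fixed e2 e]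
      rw [map_mul, map_mul, map_inv, h1']
      group
    refine ⟨⟨fun h => ⟨(a⁻¹ * k * c)⁻¹ * h.1.1.1, ?_, Subgroup.mul_mem _ (Subgroup.inv_mem _ e2) h.1.1.2⟩,
      fun y => ⟨⟨⟨a⁻¹ * k * c * y.1, Subgroup.mul_mem _ e2 y.2.2⟩, ?_⟩, ?_⟩, fun k => by ext; simp only; group,
      fun y => by ext; simp only; group⟩⟩
    · have : (a⁻¹ * k * c)⁻¹ * h.1.1.1 = c⁻¹ * (k⁻¹ * a * h.1.1.1) := by group
      rw [this]
      exact Y.mul_mem (Y.inv_mem hc) h.2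
    · have : (a⁻¹ * k * c * y.1)⁻¹ * (((σ ^ e) a)⁻¹ * a) * (a⁻¹ * k * c * y.1) =
          y.1⁻¹ * (((σ ^ e) c)⁻¹ * c) * y.1 := by rw [← e3]; group
      rw [this]
      exact Y.mul_mem (Y.mul_mem (Y.inv_mem y.2.1) (Y.mul_mem (Y.inv_mem (hYe _ _ hc)) hc)) y.2.1
    · change k⁻¹ * a * (a⁻¹ * k * c * y.1) ∈ Y
      rw [show k⁻¹ * a * (a⁻¹ * k * c * y.1) = c * y.1 by group]
      exact Y.mul_mem hc y.2.1

end Cfsg.Agent.S2669
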