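import Cfsg.Statements.S2671
import Cfsg.Agent.H6.Cnt
import Cfsg.Agent.H6.GUc

set_option autoImplicit false
open Cfsg

namespace Cfsg.Agent.S2671

/-- Number of conjugacy classes of elements of odd prime order r in the general unitary group GU_n(q), for r not dividing q(q + 1): let i be the multiplicative order of q modulo r, b = i if i is odd and b = i/2 if i is even, and s = (r − 1)/b. If i ≢ 2 (mod 4) the eigenvalue orbits pair off into dual pairs of totally isotropic blocks and there are C(⌊n/(2b)⌋ + s/2, s/2) − 1 classes; if i ≡ 2 (mod 4) each orbit gives a non-degenerate block of dimension i/2 and there are C(⌊2n/i⌋ + s, s) − 1 classes. -/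
theorem result {K : Type*} [Field K] [Fintype K] {p q n r i b s : ℕ} [Fact p.Prime] [CharP K p] (hK : Fintype.card K = q ^ 2) (hr : r.Prime) (hr2 : r ≠ 2) (hrp : r ≠ p) (hi : i = orderOf (q : ZMod r)) (hi2 : i ≠ 2) (hb : b = if Odd i then i else i / 2) (hs : s * b = r - 1) : Nat.card {C : ConjClasses ↥(Cfsg.GU n K q) // ∃ g : ↥(Cfsg.GU n K q), ConjClasses.mk g = C ∧ orderOf g = r} = if i % 4 = 2 then Nat.choose (2 * n / i + s) s - 1 else Nat.choose (n / (2 * b) + s / 2) (s / 2) - 1 := by
  open H6 Matrix in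
  have : Fact r.Prime := ⟨hr⟩
  obtain ⟨τ, hσ, hτ⟩ := exists_conj_aut hK
  obtain ⟨h0, u, hu⟩ := exists_unit_card two_ne_zero hK hr hrp
  obtain ⟨L, _, _, e, φ, ζ, S⟩ := exists_spl K hr h0
  have : CharP L p := charP_of_injective_ringHom e.injective p
  obtain ⟨f, hf⟩ : ∃ f, q = p ^ f := by
    obtain ⟨f, hp, hf⟩ := FiniteField.card K p
    obtain ⟨g, -, hg⟩ := (Nat.dvd_prime_pow hp).1 (hf ▸ hK ▸ dvd_pow_self q two_ne_zero)
    exact ⟨g, hg⟩
  have key : ∀ A : Matrix (Fin n) (Fin n) K, A.det ≠ 0 → ∀ k,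
      em e ζ r ((A.map τ)ᵀ)⁻¹ ((-u).1 * k) = em e ζ r A k := fun A hA k => by
    rw [em_inv S.prim (by
      rw [det_transpose]
      exact (RingHom.map_det (τ : K →+* K) A).symm.trans_ne ((_root_.map_ne_zero _).2 hA)),
      em_transpose, Units.val_neg, neg_mul, neg_neg, hu]
    have := em_map (e := e) (a := q) S.prim (iterateFrobenius L p f) (τ : K →+* K) (fun x => by
      simp [hτ, iterateFrobenius_def, hf]) (by rw [iterateFrobenius_def, hf]) A k
    exact this
  rw [← hu, orderOf_units] at hi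
  have ho := orderOf_neg_zmod hr2 u hi.symm
  rw [card_prime_classes (e := e) S.prim (jRho (GU n K q).subtype) (guLike hσ hτ).inj
    (Subgroup.zpowers (-u)) (fun a b _ _ h => gu_conj hσ hτ h)
    (fun g => inv_zpowers fun k => by
      have := key g.1.1 (GeneralLinearGroup.det_ne_zero _) k
      rwa [gu_inv_eq hτ] at this) fun m hm hs => ?_, Nat.card_zpowers, Fintype.card_fin]
  · have hpos := orderOf_pos u
    have hr3 := hr.two_le
    by_cases h4 : i % 4 = 2
    · have h5 : ¬ Odd i := by rw [Nat.odd_iff]; omega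
      rw [if_neg h5, if_pos h4] at ho
      rw [if_neg h5] at hb
      rw [if_pos h4, index_zpowers _ ho (hb ▸ hs), ho]
      obtain ⟨c, rfl⟩ : ∃ c, i = 2 * c := ⟨i / 2, by omega⟩
      rw [Nat.mul_div_mul_left _ _ two_pos, Nat.mul_div_cancel_left _ two_pos]
    · have h5 : orderOf (-u) = 2 * b := by
        rw [ho, hb]
        split_ifs with h
        · rfl
        · rw [Nat.not_odd_iff_even, Nat.even_iff] at h
          omega
      have h6 := (Subgroup.zpowers (-u)).index_mul_card
      rw [Nat.card_zpowers, h5, Nat.card_units, Nat.card_zmod, ← hs, ← mul_assoc] at h6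
      have h7 := Nat.eq_of_mul_eq_mul_right (Nat.pos_of_ne_zero fun h => by
        rw [h] at hs; omega) h6
      rw [if_neg h4, h5, ← h7, Nat.mul_div_cancel _ two_pos]
  obtain ⟨A, h1, h2⟩ := S.exists_em m (fun k => by
    have := hm _ (pow_mem (Subgroup.mem_zpowers (-u)) 2) k
    rwa [neg_sq, Units.val_pow_eq_pow_val, hu, ← Nat.cast_pow, ← hK] at this) hs
  have hA : A.det ≠ 0 := ((isUnit_iff_isUnit_det A).1
    (IsUnit.of_pow_eq_one h1 hr.ne_zero)).ne_zero
  obtain ⟨B, hB⟩ := gu_exists hσ hτ hA (isConj_of_em (e := e) S.prim h1 (by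
      rw [inv_pow', ← transpose_pow]
      erw [← RingHom.mapMatrix_apply (τ : K →+* K), ← map_pow, h1, map_one, transpose_one, inv_one])
    (funext fun k => by
      obtain ⟨k, rfl⟩ := (-u).mulLeft.surjective k
      rw [Units.mulLeft_apply, key A hA, h2, hm _ (Subgroup.mem_zpowers _)]))
  exact ⟨B, Subtype.ext (Units.ext (aeval_X_pow_sub_one.1 (IsConj.aeval_eq_zero hB
    (aeval_X_pow_sub_one.2 h1)))), (IsConj.em_eq hB).symm.trans h2⟩

end Cfsg.Agent.S2671
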