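import Cfsg.Statements.S2672
import Cfsg.Agent.H6.Pgl
import Cfsg.Agent.H6.GUc

set_option autoImplicit false
open Cfsg

namespace Cfsg.Agent.S2672

/-- Number of conjugacy classes of elements of odd prime order r in PGU_n(q) = GU_n(q)/scalars (n ≥ 3) when r divides q + 1: as in the linear case with q − 1 replaced by q + 1, the classes correspond to the rotation orbits on r-tuples of eigenvalue multiplicities summing to n with every entry < n, plus r − 1 further classes when r divides n; in all (C(n+r−1, r−1) − r − [r ∣ n])/r + r·[r ∣ n]. -/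
theorem result {K : Type*} [Field K] [Fintype K] {q n r : ℕ} (hK : Fintype.card K = q ^ 2) (hn : 3 ≤ n) (hr : r.Prime) (hr2 : r ≠ 2) (hrq : r ∣ q + 1) : Nat.card {C : ConjClasses (↥(Cfsg.GU n K q) ⧸ Subgroup.center ↥(Cfsg.GU n K q)) // ∃ g : ↥(Cfsg.GU n K q) ⧸ Subgroup.center ↥(Cfsg.GU n K q), ConjClasses.mk g = C ∧ orderOf g = r} = (Nat.choose (n + r - 1) (r - 1) - r - (if r ∣ n then 1 else 0)) / r + r * (if r ∣ n then 1 else 0) := by
  open H6 Matrix Polynomial in
  have : Fact r.Prime := ⟨hr⟩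
  have : NeZero n := ⟨by omega⟩
  obtain ⟨τ, hσ, hτ⟩ := exists_conj_aut hK
  have hq : (q : ZMod r) = -1 := by
    have := (ZMod.natCast_eq_zero_iff _ _).2 hrq
    rwa [Nat.cast_add, Nat.cast_one, add_eq_zero_iff_eq_neg] at this
  have hq1 : 1 < q := by
    have := Fintype.one_lt_card (α := K)
    rw [hK] at this
    exact (Nat.one_lt_pow_iff two_ne_zero).1 this
  obtain ⟨p, hp⟩ := CharP.exists K
  have := Fact.mk (CharP.char_is_prime K p)
  obtain ⟨f, hf⟩ : ∃ f, q = p ^ f := by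
    obtain ⟨f, hp, hf⟩ := FiniteField.card K p
    obtain ⟨g, -, hg⟩ := (Nat.dvd_prime_pow hp).1 (hf ▸ hK ▸ dvd_pow_self q two_ne_zero)
    exact ⟨g, hg⟩
  obtain ⟨L, _, _, e, φ, ζ, S⟩ := exists_spl K hr fun h0 => by
    obtain ⟨c, hc⟩ := hrq
    have h1 := congrArg (Nat.cast : ℕ → K) hc
    have h2 : (q : K) ^ 2 = 0 := by rw [← Nat.cast_pow, ← hK, FiniteField.cast_card_eq_zero]
    simp [h0, pow_eq_zero_iff two_ne_zero |>.1 h2] at h1
  have : CharP L p := charP_of_injective_ringHom e.injective p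
  have hinv : ∀ {A : Matrix (Fin n) (Fin n) K} {c : K}, c ^ (q + 1) = 1 → A ^ r = c • 1 →
      ((A.map τ)ᵀ)⁻¹ ^ r = c • 1 := fun {A c} hc h => by
    rw [inv_pow', ← transpose_pow]
    erw [← RingHom.mapMatrix_apply (τ : K →+* K), ← map_pow, h]
    refine inv_eq_left_inv ?_
    rw [smul_mul_assoc, one_mul]
    ext i j
    by_cases h : i = j
    · simp [h, one_apply, hτ, ← pow_succ', hc]
    · simp [h, Ne.symm h]
  have := card_proj_classes (e := e) S.prim (jRho (GU n K q).subtype) (guLike hσ hτ).inj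
    (normOne K q) (by rwa [card_normOne hK]) (fun g hg => ?_)
    (fun c => ⟨⟨_, (scalar_mem_GU_iff hτ c.1).2 c.2⟩, coe_gl_scalar c.1⟩) (fun c d hd => ?_)
    (fun a b h => gu_conj hσ hτ h) (fun m hm => ?_) fun h c hc => ?_
  · rwa [Fintype.card_fin] at this
  · have h1 : suD K n q g = 1 := ((eq_indAut_iff _ _ _).2 fun s s' h => by
      rw [suJ_inj (h.trans (mul_inv_eq_iff_eq_mul.2 (congrArg Subtype.val
        (Subgroup.mem_center_iff.1 hg ⟨_, suJ_mem_GU s⟩)).symm))]
      rfl).symm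
    obtain ⟨u, hu⟩ := (mem_center_gl_iff' _).1 ((suD_eq_one_iff hσ hτ (by omega) g).1 h1)
    exact ⟨⟨u, (scalar_mem_GU_iff (n := n) hτ u).1 (hu ▸ g.2)⟩,
      (congrArg Units.val hu).trans (coe_gl_scalar u)⟩
  · have hd0 : d ≠ 0 := fun h => c.1.ne_zero (by rw [← hd, h, zero_pow hr.ne_zero])
    refine ⟨⟨Units.mk0 d hd0, Units.ext ?_⟩, Subtype.ext (Units.ext hd)⟩
    have h1 : (d ^ (q + 1)) ^ r = 1 := by
      rw [← pow_mul, mul_comm, pow_mul, hd]
      exact congrArg Units.val c.2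
    have h2 : (d ^ (q + 1)) ^ (q - 1) = 1 := by
      rw [← pow_mul, ← FiniteField.pow_card_sub_one_eq_one d hd0, hK, ← Nat.sq_sub_sq, one_pow]
    have h3 : r.Coprime (q - 1) := (Nat.Prime.coprime_iff_not_dvd hr).2 fun h => hr2 <|
      (Nat.prime_dvd_prime_iff_eq hr Nat.prime_two).1 (by
        have := Nat.dvd_sub hrq h
        rwa [show q + 1 - (q - 1) = 2 by omega] at this)
    have h4 : (d ^ (q + 1)) ^ r.gcd (q - 1) = 1 := pow_gcd_eq_one.2 ⟨h1, h2⟩
    rw [h3, pow_one] at h4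
    simpa using h4
  · obtain ⟨A, h1, h2⟩ := S.exists_em m (by simp [hK, hq]) hm
    have hA : A.det ≠ 0 := ((isUnit_iff_isUnit_det A).1
      (IsUnit.of_pow_eq_one h1 hr.ne_zero)).ne_zero
    obtain ⟨B, hB⟩ := gu_exists hσ hτ hA (isConj_of_em (e := e) S.prim h1
      ((hinv (one_pow _) (h1.trans (one_smul _ _).symm)).trans (one_smul _ _))
      (_root_.funext fun k => by
        rw [em_inv S.prim (by
          rw [det_transpose]
          exact (RingHom.map_det (τ : K →+* K) A).symm.trans_ne ((_root_.map_ne_zero _).2 hA)),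
          em_transpose]
        have := em_map (e := e) (a := q) S.prim (iterateFrobenius L p f) (τ : K →+* K) (fun x => by
          simp [hτ, iterateFrobenius_def, hf]) (by rw [iterateFrobenius_def, hf]) A k
        rw [hq, neg_one_mul] at this
        exact this.symm))
    exact ⟨B, Subtype.ext (Units.ext (aeval_X_pow_sub_one.1 (IsConj.aeval_eq_zero hB
      (aeval_X_pow_sub_one.2 h1)))), (IsConj.em_eq hB).symm.trans h2⟩
  · obtain ⟨A, hA⟩ := exists_aeval_eq_zero (ι := Fin n) hc.ne_zero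
      (by rwa [natDegree_X_pow_sub_C])
    have hA' := aeval_X_pow_sub_C.1 hA
    have hd : A.det ≠ 0 := ((isUnit_iff_isUnit_det A).1 ((isUnit_pow_iff hr.ne_zero).1
      (hA' ▸ coe_gl_scalar (ι := Fin n) c.1 ▸ Units.isUnit _))).ne_zero
    obtain ⟨B, hB⟩ := gu_exists hσ hτ hd (isConj_of_irreducible hA
      (aeval_X_pow_sub_C.2 (hinv (congrArg Units.val c.2) hA')) hc)
    exact ⟨B, aeval_X_pow_sub_C.1 (IsConj.aeval_eq_zero hB hA)⟩

end Cfsg.Agent.S2672
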