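import Cfsg.Statements.S2673
import Cfsg.Agent.H7.SsO

set_option autoImplicit false
open Cfsg

namespace Cfsg.Agent.S2673

open H7

/-- Number of conjugacy classes of elements of odd prime order r ≠ p in the orthogonal group O_(2m+1)(q) of x_0² + Σ x_j y_j, q odd: with i the multiplicative order of q mod r and t = (r − 1)/i, there are C(⌊m/i⌋ + t/2, t/2) − 1 classes if i is odd (dual pairs of totally singular i-blocks) and C(⌊(2m+1)/i⌋ + t, t) − 1 if i is even (elliptic i-blocks). -/
theorem result {F : Type*} [Field F] [Fintype F] {p q : ℕ} [Fact p.Prime] [CharP F p] (hF : Fintype.card F = q) (hq : Odd q) (m r i t : ℕ) (hr : r.Prime) (hr2 : r ≠ 2) (hrp : r ≠ p) (hi : i = orderOf (q : ZMod r)) (ht : t * i = r - 1) : Nat.card {C : ConjClasses ↥(Cfsg.isometryGroup F (Cfsg.quadFormOdd m F)) // ∃ g : ↥(Cfsg.isometryGroup F (Cfsg.quadFormOdd m F)), ConjClasses.mk g = C ∧ orderOf g = r} = if Odd i then Nat.choose (m / i + t / 2) (t / 2) - 1 else Nat.choose ((2 * m + 1) / i + t) t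 - 1 := by
  obtain ⟨h0, u, hu⟩ := H6.exists_unit_card one_ne_zero (hF.trans (pow_one q).symm) hr hrp
  have : Fact r.Prime := ⟨hr⟩
  rw [← hu, orderOf_units] at hi
  exact card_O_classes_odd (Q := QO F m) (odd_card_two_ne_zero (hF ▸ hq)) (nd_QO (odd_card_two_ne_zero (hF ▸ hq)))
    hr2 h0 (hu.trans (by rw [hF])) hi ht (by simp; omega)

end Cfsg.Agent.S2673
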