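import Cfsg.Statements.S2676
import Cfsg.Agent.H6.SpU

set_option autoImplicit false
open Classical
open Cfsg

namespace Cfsg.Agent.S2676

/-- Number of conjugacy classes of elements of order p in Sp_2m(q), q a power of the odd prime p: the classes correspond to the signed partitions of 2m — partitions with all parts at most p in which every odd part has even multiplicity, each even part size that occurs carrying a sign — other than the all-ones partition; so the count is the sum over such partitions of 2^(number of distinct even parts), minus one. -/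
theorem result {F : Type*} [Field F] [Fintype F] {p : ℕ} [Fact p.Prime] [CharP F p] (hp : p ≠ 2) (m : ℕ) : Nat.card {C : ConjClasses ↥(Matrix.symplecticGroup (Fin m) F) // ∃ g : Matrix.symplecticGroup (Fin m) F, ConjClasses.mk g = C ∧ orderOf g = p} = (∑ μ ∈ Finset.univ.filter (fun μ : Nat.Partition (2 * m) => (∀ a ∈ μ.parts, a ≤ p) ∧ ∀ j : ℕ, Odd j → Even (μ.parts.count j)), 2 ^ ((μ.parts.toFinset.filter (fun j : ℕ => Even j)).card)) - 1 := by
  open H6 Matrix in
  classical
  have two : (2 : F) ≠ 0 := fun h => hp ((Nat.prime_dvd_prime_iff_eq Fact.out Nat.prime_two).1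
    ((CharP.cast_eq_zero_iff F p 2).1 h))
  have hp1 : 1 ≤ p := (Fact.out : p.Prime).one_le
  have h0 := fun u : symplecticGroup (Fin m) F =>
    orderOf_eq_char_iff (symplecticGroup (Fin m) F).subtype Subtype.val_injective p u
  rw [card_sp_unip two (fun μ => (∀ a ∈ μ.parts, a ≤ p) ∧ ¬ ∀ a ∈ μ.parts, a ≤ 1) _
    (fun u hu => ⟨p, ((h0 u).1 hu).1⟩) fun u μ h => by
      rw [h0, ← sum_sub_eq_zero_iff, ← sum_sub_eq_zero_iff, ← h, ← h, H6.rank_eq_zero_iff,
        H6.rank_eq_zero_iff, pow_one]
      rfl]
  let o : Nat.Partition (2 * m) := ⟨Multiset.replicate (2 * m) 1, by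
    simp +contextual [Multiset.mem_replicate], by simp⟩
  have ho : ∀ μ : Nat.Partition (2 * m), (∀ a ∈ μ.parts, a ≤ 1) ↔ μ = o := fun μ =>
    ⟨fun h => by
      have h1 : μ.parts = Multiset.replicate μ.parts.card 1 :=
        Multiset.eq_replicate_card.2 fun a ha => le_antisymm (h a ha) (μ.parts_pos ha)
      have h2 := μ.parts_sum
      rw [h1, Multiset.sum_replicate, smul_eq_mul, mul_one] at h2
      exact Nat.Partition.ext (h1.trans (by rw [h2])),
    fun h a ha => (Multiset.eq_of_mem_replicate (h ▸ ha : a ∈ o.parts)).le⟩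
  symm
  rw [← Finset.add_sum_erase _ _ (a := o) (by
    simp only [Finset.mem_filter, Finset.mem_univ, true_and, o]
    refine ⟨fun a ha => (Multiset.eq_of_mem_replicate ha).trans_le hp1, fun j _ => ?_⟩
    rw [Multiset.count_replicate]
    split_ifs <;> simp)]
  have : o.parts.toFinset.filter Even = ∅ := Finset.filter_eq_empty_iff.2 fun a ha => by
    rw [Multiset.eq_of_mem_replicate (Multiset.mem_toFinset.1 ha)]; simp
  rw [this, Finset.card_empty, pow_zero, Nat.add_sub_cancel_left]
  exact Finset.sum_congr (Finset.ext fun μ => by simp [ho, -Nat.not_even_iff_odd]; tauto) fun _ _ => rfl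

end Cfsg.Agent.S2676
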