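import Cfsg.Statements.S2677
import Cfsg.Agent.H6.Fix

set_option autoImplicit false
open Cfsg

namespace Cfsg.Agent.S2677

/-- Centraliser of a field automorphism of odd prime order in PGU_n(q): let q = q₀^r with r an odd prime, K the field with q² elements and σ a field automorphism of K of order r (fixed field of order q₀²). The elements g of GU_n(q) whose entrywise image under σ is a scalar multiple of g — those whose coset modulo the q + 1 unitary scalars is fixed by σ — number (q + 1)/(q₀ + 1) · |GU_n(q₀)|; equivalently the centraliser in PGU_n(q) of the induced automorphism has the order of PGU_n(q₀). -/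
theorem result {K : Type*} [Field K] [Fintype K] {q₀ q r n : ℕ} (hr : r.Prime) (hr2 : r ≠ 2) (hn : 1 ≤ n) (hq : q = q₀ ^ r) (hK : Fintype.card K = q ^ 2) (σ : K ≃+* K) (hσ : orderOf σ = r) : (Nat.card {g : ↥(Cfsg.GU n K q) // ∃ c : K, c ≠ 0 ∧ ((g : GL (Fin n) K) : Matrix (Fin n) (Fin n) K).map σ = c • ((g : GL (Fin n) K) : Matrix (Fin n) (Fin n) K)} : ℤ) = ((q + 1) / (q₀ + 1) : ℕ) * ((q₀ : ℤ) ^ (n * (n - 1) / 2) * ∏ i : Fin n, ((q₀ : ℤ) ^ ((i : ℕ) + 1) - (-1) ^ ((i : ℕ) + 1))) := by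
  open H6 Matrix in
  have : NeZero n := ⟨by omega⟩
  obtain ⟨τ, hτ2, hτ⟩ := exists_conj_aut hK
  obtain ⟨l, f, hl, -, hq'⟩ := exists_prime_pow_of_sq hK
  have hodd := hr.odd_of_ne_two hr2
  obtain ⟨h1, hc, h3⟩ := exists_subfield_data hl hq' hK hτ hσ hodd
  have := Fintype.ofFinite (fixF σ)
  rw [Nat.card_eq_fintype_card] at hc
  obtain ⟨e, τ₀, he, hσ₀, hτ₀, hcomm⟩ := h3 (fixF σ) hc
  obtain rfl : q₀ = l ^ (f / r) := Nat.pow_left_injective hr.ne_zero (by
    simp only
    rw [← hq, hq', ← pow_mul, Nat.div_mul_cancel h1])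
  generalize l ^ (f / r) = q₀ at *
  have hs : Function.Injective (GeneralLinearGroup.scalar (Fin n) : Kˣ →* GL (Fin n) K) :=
    fun a b h => Units.ext (smul_left_injective K one_ne_zero
      ((coe_gl_scalar a).symm.trans ((congrArg Units.val h).trans (coe_gl_scalar b))))
  let s : normOne K q →* GU n K q := ((GeneralLinearGroup.scalar (Fin n)).comp
    (normOne K q).subtype).codRestrict _ fun u => (scalar_mem_GU_iff hτ u.1).2 u.2
  let s₀ : normOne (fixF σ) q₀ →* GU n (fixF σ) q₀ := ((GeneralLinearGroup.scalar (Fin n)).comp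
    (normOne _ q₀).subtype).codRestrict _ fun u => (scalar_mem_GU_iff hτ₀ u.1).2 u.2
  have hj : Function.Injective (guMap n hτ hτ₀ hcomm) := fun a b h => Subtype.ext
    (Units.ext (Matrix.map_injective e.injective (congrArg (·.1.1) h)))
  have h := card_central_mul (s := s) (j := guMap n hτ hτ₀ hcomm)
    (t := (guMap n hτ hτ₀ hcomm).comp s₀) (fun a b h => Subtype.ext (hs (congrArg (·.1) h))) hj
    (hj.comp fun a b h => Subtype.ext (Units.ext (smul_left_injective (fixF σ)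
      (one_ne_zero (α := Matrix (Fin n) (Fin n) (fixF σ))) ((coe_gl_scalar a.1).symm.trans ((congrArg (·.1.1) h).trans (coe_gl_scalar b.1))))))
    (fun z => Subgroup.mem_center_iff.2 fun g =>
      Subtype.ext (Subgroup.mem_center_iff.1 (scalar_mem_center z.1) g.1))
    (fun z y => ⟨fun h => ?_, fun ⟨_, h1, h2⟩ => h1.symm.trans h2⟩)
    (fun x => ⟨⟨Units.map (e : fixF σ →* K) x.1, (scalar_mem_GU_iff (n := n) hτ _).1 (by
      rw [← GeneralLinearGroup.map_scalar]
      exact (guMap n hτ hτ₀ hcomm (s₀ x)).2)⟩, _,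
      Subtype.ext (GeneralLinearGroup.map_scalar e x.1), rfl⟩)
    (fun g => ∃ c : K, c ≠ 0 ∧ g.1.1.map σ = c • g.1.1) fun g => ⟨fun ⟨c, h1, h2⟩ => ?_, ?_⟩
  · have h := congrArg (Nat.cast : ℕ → ℤ) h
    rw [card_normOne hK, card_normOne hc, Nat.cast_mul, Nat.cast_mul, (guLike hσ₀ hτ₀).card_eq hc,
      Fintype.card_fin] at h
    refine mul_right_cancel₀ (b := ((q₀ + 1 : ℕ) : ℤ)) (by positivity) ?_
    rw [h, mul_right_comm, ← Nat.cast_mul, Nat.div_mul_cancel (by
      simpa [hq] using Odd.nat_add_dvd_pow_add_pow q₀ 1 hodd)]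
    rfl
  · have h' : _ = GeneralLinearGroup.map e y.1 := congrArg (·.1) h
    obtain ⟨x, hx⟩ := (mem_center_gl_iff' y.1).1
      ((map_mem_center_iff e y.1).1 (h' ▸ scalar_mem_center z.1))
    have h2 : s₀ ⟨x, (scalar_mem_GU_iff (n := n) hτ₀ x).1 (hx ▸ y.2)⟩ = y := Subtype.ext hx.symm
    exact ⟨_, (congrArg _ h2).trans h.symm, congrArg (guMap n hτ hτ₀ hcomm) h2⟩
  · obtain ⟨v, hv⟩ := exists_fixed_smul (σ := σ) (g := g.1) (u := (Units.mk0 c h1)⁻¹)
      (Units.ext (by rw [coe_scalar_mul, coe_glField, h2, smul_smul]; simp [h1]))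
    obtain ⟨k, hk⟩ := exists_map_of_fixed he hv
    have hk' : k.1.map e = (v : K) • g.1.1 := by
      rw [← coe_scalar_mul, ← hk]; rfl
    have h1 : (k.1ᵀ * k.1.map τ₀).map e = ((v : K) * τ v) • 1 := by
      rw [map_gram hcomm, hk', transpose_smul, Matrix.map_smul' _ _ _ (map_mul τ), smul_mul_assoc,
        mul_smul_comm, smul_smul, (mem_GU_iff hτ _).1 g.2]
    obtain ⟨w, hw⟩ := exists_GU_of_gram hσ₀ hτ₀ (g := k) (c := (k.1ᵀ * k.1.map τ₀) 0 0) (by
      apply Matrix.map_injective e.injective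
      have h2 := congrFun (congrFun h1 0) 0
      simp only [map_apply, Matrix.smul_apply, one_apply_eq, smul_eq_mul, mul_one] at h2
      simp only
      rw [h1, Matrix.map_smul' _ _ _ (map_mul e), Matrix.map_one _ (map_zero e) (map_one e), h2])
    have h4 : (g * (guMap n hτ hτ₀ hcomm ⟨_, hw⟩)⁻¹).1 =
        GeneralLinearGroup.scalar (Fin n) (Units.map e w * v)⁻¹ := by
      rw [Subgroup.coe_mul, Subgroup.coe_inv, coe_guMap, map_mul, hk, GeneralLinearGroup.map_scalar,
        ← mul_assoc, ← map_mul, _root_.mul_inv_rev, mul_inv_cancel_left, map_inv]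
    exact ⟨⟨_, (scalar_mem_GU_iff (n := n) hτ _).1 (h4 ▸ Subtype.prop _)⟩, _,
      mul_inv_eq_iff_eq_mul.1 (Subtype.ext h4)⟩
  · rintro ⟨z, y, rfl⟩
    refine ⟨σ z.1 * z.1⁻¹, by simp, ?_⟩
    have h1 : (GeneralLinearGroup.map e y.1).1.map σ = _ := congrArg Units.val (glField_map he y.1)
    change (GeneralLinearGroup.scalar _ z.1 * GeneralLinearGroup.map e y.1).1.map σ =
      _ • (GeneralLinearGroup.scalar _ z.1 * GeneralLinearGroup.map e y.1).1
    rw [coe_scalar_mul, Matrix.map_smul' _ _ _ (map_mul σ), h1, smul_smul]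
    simp

end Cfsg.Agent.S2677
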