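import Cfsg.Statements.S2678
import Cfsg.Agent.H6.Res

set_option autoImplicit false
open Cfsg

namespace Cfsg.Agent.S2678

/-- Field-extension embedding of symplectic groups: for a field K with q² elements and a field F with q elements there is an injective homomorphism Sp_2a(K) → Sp_4a(F). -/
theorem result {K F : Type*} [Field K] [Fintype K] [Field F] [Fintype F] {q : ℕ} (hK : Fintype.card K = q ^ 2) (hF : Fintype.card F = q) (a : ℕ) : ∃ φ : ↥(Matrix.symplecticGroup (Fin a) K) →* ↥(Matrix.symplecticGroup (Fin (2 * a)) F), Function.Injective φ := by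
  open H6 Matrix in
  obtain ⟨τ, _, t, -, -, h2, ht, -, -⟩ := exists_quad_ext hK hF
  have U := spLike (F := K) (m := a)
  have h0 : ∀ x, (RingEquiv.refl K : K →+* K) (algebraMap F K x) = algebraMap F K x := fun _ => rfl
  obtain ⟨Φ, hΦ⟩ := exists_symp_equiv (κ := Fin (2 * a))
    (trForm t 1 (RingEquiv.refl K : K →+* K) h0 (J (Fin a) K))
    (fun v => by rw [trForm_apply, bf_refl, U.alt, mul_zero, map_zero])
    (trForm_nondeg ht one_ne_zero _ U.det) (by rw [finrank_res h2]; simp [two_mul])
  obtain ⟨φ, h, -⟩ := exists_sp_emb U.inj _ Φ hΦ fun g u v => by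
    rw [trForm_apply, trForm_apply, bf_refl, bf_refl, U.isom]
  exact ⟨φ, h⟩

end Cfsg.Agent.S2678
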