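import Cfsg.Statements.S2679
import Cfsg.Agent.H7.OutB
import Cfsg.Agent.H6.Res

set_option autoImplicit false
open Cfsg

namespace Cfsg.Agent.S2679

open H7

/-- An elliptic orthogonal group embeds in the hyperbolic orthogonal group of the same dimension over the quadratic extension: for a field F with q elements and a field K with q² elements there is an injective homomorphism from O⁻_2m(F) (isometries of Σ_(j<m−1) x_j y_j + z₁² + a z₁z₂ + c z₂², binary part anisotropic) to O⁺_2m(K) (isometries of Σ_(j<m) x_j y_j over K). -/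
theorem result {F K : Type*} [Field F] [Fintype F] [Field K] [Fintype K] {q : ℕ} (hF : Fintype.card F = q) (hK : Fintype.card K = q ^ 2) {m : ℕ} (hm : 1 ≤ m) (a c : F) (hac : ∀ z₁ z₂ : F, z₁ ^ 2 + a * z₁ * z₂ + c * z₂ ^ 2 = 0 → z₁ = 0 ∧ z₂ = 0) : ∃ φ : ↥(Cfsg.isometryGroup F (Cfsg.quadFormMinus (m - 1) F a c)) →* ↥(Cfsg.isometryGroup K (Cfsg.quadFormPlus m K)), Function.Injective φ := by
  obtain ⟨-, _, -, -, -, h2, -⟩ := H6.exists_quad_ext hK hF
  have X := ext_QM (algebraMap F K) (m - 1) a c
  obtain ⟨t, ht⟩ := exists_root_of_even (F := F) (K := K) (by rw [h2]) a c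
  have hd : algebraMap F K a ^ 2 - 4 * algebraMap F K c ≠ 0 := by
    have := (map_ne_zero (algebraMap F K)).2 (disc_ne_zero_of_aniso hac)
    simpa [map_ofNat] using this
  obtain ⟨φ, hφ⟩ := exists_equiv_QP (nd_QM (m := m - 1) hd) (m := m) (by rw [finrank_QM]; omega)
    (plusType_QM_of_root ht)
  refine ⟨((OG.congr φ hφ).symm.trans (isoEquiv _).symm).toMonoidHom.comp
    (X.EO.comp (isoEquiv (QM F (m - 1) a c)).toMonoidHom), ((OG.congr φ hφ).symm.trans (isoEquiv _).symm).injective.comp
    (Function.Injective.comp (g := X.EO) (fun g h e => OG.ext' fun v => X.injective ?_)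
      (isoEquiv (QM F (m - 1) a c)).injective)⟩
  rw [← X.EO_j, e, X.EO_j]

end Cfsg.Agent.S2679
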