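import Cfsg.Statements.S2681
import Cfsg.Agent.H6.Inv2

set_option autoImplicit false
open Cfsg

namespace Cfsg.Agent.S2681

/-- Centraliser order of an involution t of Sp_2m(q), q even, with s = rank(t − 1) even and f(v, tv) = 0 for every v, f the symplectic form (type a_s): |C(t)| = q^(2ms − (3s² − s)/2) · |Sp_s(q)| · |Sp_(2m−2s)(q)|. -/
theorem result {F : Type*} [Field F] [Fintype F] [CharP F 2] {q : ℕ} (hF : Fintype.card F = q) {m s : ℕ} (t : Matrix.symplecticGroup (Fin m) F) (ht : t ^ 2 = 1) (ht1 : t ≠ 1) (hs : ((t : Matrix (Fin m ⊕ Fin m) (Fin m ⊕ Fin m) F) - 1).rank = s) (heven : Even s) (halt : ∀ v : Fin m ⊕ Fin m → F, Cfsg.sympForm m F v ((t : Matrix (Fin m ⊕ Fin m) (Fin m ⊕ Fin m) F).mulVec v) = 0) : Nat.card ↥(Subgroup.centralizer ({t} : Set ↥(Matrix.symplecticGroup (Fin m) F))) = q ^ (2 * m * s - (3 * s ^ 2 - s) / 2) * ((q : ℕ) ^ ((s / 2) ^ 2) * ∏ i : Fin (s / 2), (q ^ (2 * ((i : ℕ) + 1)) -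 1)) * ((q : ℕ) ^ ((m - s) ^ 2) * ∏ i : Fin (m - s), (q ^ (2 * ((i : ℕ) + 1)) - 1)) := by
  have hc : 2 * m = Fintype.card (Fin m ⊕ Fin m) := by simp [two_mul]
  have h1 := H6.spLike.inv_le ht hc hs
  rw [H6.spLike.card_cent_a ht hc hs fun v => H6.spLike.comm (by
    have := halt v
    erw [Matrix.sub_mulVec, Matrix.one_mulVec, H6.sf_sub_right, H6.isAlt_J, sub_zero]
    exact this), Nat.card_eq_fintype_card, hF, ← mul_assoc, mul_comm _ (q ^ _)]
  congr 3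
  obtain ⟨j, rfl⟩ := Nat.exists_eq_add_of_le h1
  have h2 : 2 * (s + 1).choose 2 = s ^ 2 + s := by
    rw [Nat.choose_two_right, Nat.mul_div_cancel' (Nat.even_mul_pred_self _).two_dvd]
    simp; ring
  have h3 : 2 * (s + j) * s = 2 * s * j + 2 * s ^ 2 := by ring
  have h4 : s ≤ s ^ 2 := by nlinarith
  rw [Nat.add_sub_cancel_left]
  omega

end Cfsg.Agent.S2681
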