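import Cfsg.Statements.S2697
import Cfsg.Agent.H6.FieldPSL

set_option autoImplicit false
open Cfsg

namespace Cfsg.Agent.S2697

/-- Let T = PSL_n(F) be simple over a finite field (n ≥ 2; |F| ≥ 4 when n = 2) and let x be a field automorphism or a graph-field automorphism of T of prime order r. Then an element y of the coset Inndiag(T)·x (that is, y = δ x with δ in the inner-diagonal group, the image of PGL_n(F)) has order r if and only if y is conjugate to x by an element of Inndiag(T). -/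
theorem result {F : Type*} [Field F] [Fintype F] {p f : ℕ} [Fact p.Prime] (hF : Fintype.card F = p ^ f) (hf : 1 ≤ f) {n : ℕ} (hn : 2 ≤ n) (hs : n = 2 → 4 ≤ Fintype.card F) (x δ : MulAut (Matrix.ProjectiveSpecialLinearGroup (Fin n) F)) (hx : Cfsg.IsFieldAutClassPSL x ∨ Cfsg.IsGraphFieldAutClassPSL x) {r : ℕ} (hr : r.Prime) (hxr : orderOf x = r) (hδ : δ ∈ Cfsg.inndiagPSL n F) :
    orderOf (δ * x) = r ↔ Cfsg.IsConjUnder (Cfsg.inndiagPSL n F) x (δ * x) := by
  have h2 : 2 ≤ Fintype.card (Fin n) := by simpa using hn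
  have := H6.slD_range_normal (F := F) hn
  rw [H6.inndiagPSL_eq] at hδ ⊢
  rcases hx with ⟨α, σ, hσ, hα⟩ | ⟨h3, α, φ, γ, σ, hσ, hφ, hγ, hα⟩
  · rw [H6.isStdFieldAutPSL_iff] at hα
    have ho : orderOf σ = r := by rw [← H6.orderOf_slΦ h2, ← hα, H6.orderOf_conj', hxr]
    exact H6.order_iff_conj _ hα _ (H6.slΦ_conj σ) hxr hδ (H6.sl_lang_field h2 ho)
  · rw [H6.isStdFieldAutPSL_iff] at hφ
    rw [H6.isInverseTransposeAutPSL_iff] at hγ
    subst hφ hγ
    obtain ⟨rfl, ho⟩ := H6.orderOf_of_slΦI (ι := Fin n) (by simpa using h3) hσ hr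
      (by rw [← hα, H6.orderOf_conj', hxr])
    exact H6.order_iff_conj _ hα _ (H6.slΦI_conj σ) hxr hδ (H6.sl_lang_graphField h2 ho)

end Cfsg.Agent.S2697
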