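import Cfsg.Statements.S2702
import Cfsg.Agent.H6.GrL
import Cfsg.Agent.H6.Cyc

set_option autoImplicit false
open Cfsg

namespace Cfsg.Agent.S2702

/-- Let T = PSL_n(F) over the field with q = p^f elements, n ≥ 3, G = Inndiag(T) the image of PGL_n(F), and γ an involutory graph automorphism of T. The G-class of γ is the union of exactly c T-classes, where: if n is even and q is odd, c = gcd(n/2, q − 1) when C_G(γ) is isomorphic to the projective conformal symplectic group PGSp_n(F) (symplectic type) and c = gcd(n, q − 1)/2 otherwise; and c = gcd(n, q − 1) when n is odd or q is even. -/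
theorem result {F : Type*} [Field F] [Fintype F] {p f : ℕ} [Fact p.Prime] (hF : Fintype.card F = p ^ f) (hf : 1 ≤ f) {n : ℕ} (hn : 3 ≤ n) (γ : MulAut (Matrix.ProjectiveSpecialLinearGroup (Fin n) F)) (hγ : Cfsg.IsGraphAutClassPSL γ) (hγ2 : orderOf γ = 2) :
    ((Even n ∧ Odd p ∧ Nonempty (↥(Cfsg.inndiagPSL n F ⊓ Subgroup.centralizer {γ}) ≃* Cfsg.PGSp (n / 2) F)) → Cfsg.splitClassCount (Cfsg.inndiagPSL n F) (Cfsg.Inn (Matrix.ProjectiveSpecialLinearGroup (Fin n) F)) γ = Nat.gcd (n / 2) (p ^ f - 1)) ∧ ((Even n ∧ Odd p ∧ ¬ Nonempty (↥(Cfsg.inndiagPSL n F ⊓ Subgroup.centralizer {γ}) ≃* Cfsg.PGSp (n / 2) F)) → Cfsg.splitClassCount (Cfsg.inndiagPSL n F) (Cfsg.Inn (Matrix.ProjectiveSpecialLinearGroup (Fin n) F)) γ = Nat.gcd n (p ^ f - 1) / 2) ∧ (¬ (Even n ∧ Odd p) → Cfsg.splitClassCount (Cfsg.inndiagPSL n F) (Cfsg.Inn (Matrix.ProjectiveSpecialLinearGroup (Fin n) F)) γ = Nat.gcd n (p ^ f - 1)) := by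
  open H6 Matrix in
  have hp := (Fact.out : p.Prime)
  have hO : Odd p ↔ Odd (Fintype.card F) := by rw [hF, Nat.odd_pow_iff (by omega)]
  have hc : Nat.card Fˣ = p ^ f - 1 := by rw [Nat.card_units, Nat.card_eq_fintype_card, hF]
  have : Nonempty (Fin n) := ⟨⟨0, by omega⟩⟩
  have := (grL hn).split (j := MonoidHom.id Fˣ) (δ := GeneralLinearGroup.det) (n := n) (O := Odd p)
    Function.injective_id
    GeneralLinearGroup.det_surjective (fun _ => rfl) (fun x => ⟨1, x, trivial, by simp⟩)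
    (fun v c h _ => ⟨v ^ 2 * Units.mk0 c h, by simp⟩) (fun _ => trivial)
    (fun v c h _ => ⟨v * Units.mk0 c h, by simp⟩) (by simp) (by omega)
    (hO.trans ⟨two_ne_zero_of_odd, fun h => by
      classical exact Nat.odd_iff.2 (FiniteField.odd_card_of_char_ne_two fun h' => h (by
        simpa [h'] using ringChar.Nat.cast_ringChar (R := F)))⟩)
    (fun h => by rw [hc, ← hF]; exact Nat.Odd.sub_odd (hO.1 h) odd_one) ⟨hγ, hγ2⟩
  rwa [← inn_psl_eq, ← inndiagPSL_eq, hc] at this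

end Cfsg.Agent.S2702
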