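import Cfsg.Statements.S2704
import Cfsg.Agent.H6.FieldPSL

set_option autoImplicit false
open Cfsg

namespace Cfsg.Agent.S2704

/-- Let T = PSL_n(F) over the field F with p^f elements, n ≥ 3, and G = Inndiag(T) the image of PGL_n(F). If x is an involutory graph-field automorphism of T then f is even; x is G-conjugate to every other involutory graph-field automorphism; C_G(x) is isomorphic to the projective general unitary group PGU_n(q₀) with q₀² = p^f, realised over F itself through the Hermitian form Σ uᵢ vᵢ^{q₀}; and the G-class of x is the union of exactly gcd(n, q₀ − 1) T-classes. -/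
theorem result {F : Type*} [Field F] [Fintype F] {p f : ℕ} [Fact p.Prime] (hF : Fintype.card F = p ^ f) (hf : 1 ≤ f) {n : ℕ} (hn : 3 ≤ n) (x : MulAut (Matrix.ProjectiveSpecialLinearGroup (Fin n) F)) (hx : Cfsg.IsGraphFieldAutClassPSL x) (hx2 : orderOf x = 2) :
    Even f ∧ (∀ y : MulAut (Matrix.ProjectiveSpecialLinearGroup (Fin n) F), Cfsg.IsGraphFieldAutClassPSL y → orderOf y = 2 → Cfsg.IsConjUnder (Cfsg.inndiagPSL n F) x y) ∧ Nonempty (↥(Cfsg.inndiagPSL n F ⊓ Subgroup.centralizer {x}) ≃* Cfsg.PGU n F (p ^ (f / 2))) ∧ Cfsg.splitClassCount (Cfsg.inndiagPSL n F) (Cfsg.Inn (Matrix.ProjectiveSpecialLinearGroup (Fin n) F)) x = Nat.gcd n (p ^ (f / 2) - 1) := by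
  have h2 : 2 ≤ Fintype.card (Fin n) := by simp; omega
  have h3 : 3 ≤ Fintype.card (Fin n) := by simpa using hn
  have : NeZero n := ⟨by omega⟩
  have := H6.slD_range_normal (F := F) (show 2 ≤ n by omega)
  have hfin := H6.ringAut_finite (F := F)
  have hcyc := H6.ringAut_isCyclic (F := F)
  rw [H6.inndiagPSL_eq]
  have key : ∀ y : MulAut (Matrix.ProjectiveSpecialLinearGroup (Fin n) F),
      Cfsg.IsGraphFieldAutClassPSL y → orderOf y = 2 → ∃ σ α, orderOf σ = 2 ∧
        α * y * α⁻¹ = H6.slΦ (Fin n) F σ * H6.slI (Fin n) F ∧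
        IsConjUnder (H6.slD (Fin n) F).range (H6.slΦ (Fin n) F σ * H6.slI (Fin n) F) y := by
    rintro y ⟨-, α, φ, γ, σ, hσ, hφ, hγ, hα⟩ hy
    rw [H6.isStdFieldAutPSL_iff] at hφ
    rw [H6.isInverseTransposeAutPSL_iff] at hγ
    subst hφ hγ
    obtain ⟨-, ho⟩ := H6.orderOf_of_slΦI h3 hσ Nat.prime_two (by rw [← hα, H6.orderOf_conj', hy])
    refine ⟨σ, α, ho, hα, ?_⟩
    have := H6.isConjUnder_of_graphField (show 2 ≤ n by omega) σ α⁻¹
    rwa [← hα, show α⁻¹ * (α * y * α⁻¹) * α⁻¹⁻¹ = y by group, hα] at this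
  obtain ⟨σ, α, ho, hα, hc⟩ := key x hx hx2
  obtain ⟨hrf, -⟩ := H6.card_fixF (Fact.out : p.Prime) hF σ ho
  have hq : Fintype.card F = (p ^ (f / 2)) ^ 2 := by rw [← pow_mul, Nat.div_mul_cancel hrf, hF]
  have hτ := H6.eq_pow_of_orderOf_two hq ho
  have hfix : ∀ y : GU n F (p ^ (f / 2)), (H6.glField (Fin n) F σ * H6.glIT (Fin n) F)
      ((GU n F (p ^ (f / 2))).subtype y) = (GU n F (p ^ (f / 2))).subtype y :=
    fun y => (H6.mem_GU_iff' hτ _).1 y.2
  refine ⟨even_iff_two_dvd.2 hrf, fun y hy hy2 => ?_, ?_, ?_⟩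
  · obtain ⟨σ', -, ho', -, hc'⟩ := key y hy hy2
    rw [← H6.eq_of_orderOf_two ho ho'] at hc'
    exact H6.isConjUnder_trans (H6.isConjUnder_symm hc) hc'
  · obtain ⟨e1⟩ := H6.centralizer_conj_equiv (H6.slD (Fin n) F).range α x
    rw [hα] at e1
    obtain ⟨e2⟩ := H6.centralizer_equiv_of_lang _ _ (H6.slΦI_conj σ)
      (GU n F (p ^ (f / 2))).subtype ((Geo.scalars (Fin n) F).subgroupOf _) hfix
      (H6.sl_surj_graphField (by omega) ho hτ)
      (fun y => (H6.slD_eq_one_iff h2 _).trans (H6.mem_scalars_iff_center _).symm)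
    exact ⟨e1.trans e2⟩
  · rw [← H6.splitClassCount_conj _ _ α, hα, H6.inn_psl_eq,
      H6.splitClassCount_of_lang _ _ (H6.slΦI_conj σ) _ hfix
        (H6.sl_surj_graphField (by omega) ho hτ) _ Matrix.GeneralLinearGroup.det_surjective,
      H6.slD_ker h2, H6.center_map_det, Fintype.card_fin]
    refine H6.index_pow_sup n ?_ _ (H6.det_GU_range hτ)
    classical
    rw [Nat.card_eq_fintype_card, Fintype.card_units, hq, mul_comm, ← Nat.sq_sub_sq, one_pow]

end Cfsg.Agent.S2704
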