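import Cfsg.Statements.S2705
import Cfsg.Agent.H6.PSUAut

set_option autoImplicit false
open Cfsg

namespace Cfsg.Agent.S2705

/-- Let T = PSU_n(q) be simple (n ≥ 3, (n, q) ≠ (3, 2), q = p^f), realised over the field F with q² elements, G = Inndiag(T) the image of PGU_n(q) in Aut(T), and x a field automorphism of T (conjugate to a standard field automorphism of odd order) of odd prime order r. Then r divides f; C_G(x) is isomorphic to PGU_n(q₀) with q₀ = p^(f/r), realised over a field F₀ with q₀² elements; and the G-class of x is the union of exactly gcd(n, (q + 1)/(q₀ + 1)) T-classes. -/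
theorem result {F : Type*} [Field F] [Fintype F] {p f q : ℕ} [Fact p.Prime] (hq : q = p ^ f) (hf : 1 ≤ f) (hF : Fintype.card F = q ^ 2) {n : ℕ} (hn : 3 ≤ n) (hs : ¬ (n = 3 ∧ q = 2)) (x : MulAut (Cfsg.PSU n F q)) (hx : Cfsg.IsFieldAutClassPSU x) {r : ℕ} (hr : r.Prime) (hro : Odd r) (hxr : orderOf x = r) (F₀ : Type*) [Field F₀] [Fintype F₀] (hF₀ : Fintype.card F₀ = p ^ (2 * (f / r))) :
    r ∣ f ∧ Nonempty (↥(Cfsg.inndiagPSU n F q ⊓ Subgroup.centralizer {x}) ≃* Cfsg.PGU n F₀ (p ^ (f / r))) ∧ Cfsg.splitClassCount (Cfsg.inndiagPSU n F q) (Cfsg.Inn (Cfsg.PSU n F q)) x = Nat.gcd n ((q + 1) / (p ^ (f / r) + 1)) := by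
  obtain ⟨τ, hσ, hτ⟩ := H6.exists_conj_aut hF
  have : NeZero n := ⟨by omega⟩
  have := H6.suD_range_normal hσ hτ hn
  rw [H6.inndiagPSU_eq]
  obtain ⟨α, φ, σ, -, -, hφ, hα⟩ := hx
  rw [H6.isFieldAutPSUOf_iff] at hφ
  subst hφ
  have ho : orderOf σ = r := by
    rw [← orderOf_injective _ (H6.suΦ_injective hσ hτ hn), ← hα, H6.orderOf_conj', hxr]
  obtain ⟨hrf, h1, h2⟩ := H6.exists_subfield_data (Fact.out : p.Prime) hq hF hτ ho hro
  obtain ⟨e, τ₀, he, h3, h4, h5⟩ := h2 F₀ (by rw [hF₀, ← pow_mul, mul_comm])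
  refine ⟨hrf, ?_, ?_⟩
  · obtain ⟨e1⟩ := H6.centralizer_conj_equiv (H6.suD F n q).range α x
    rw [hα] at e1
    obtain ⟨e2⟩ := H6.centralizer_equiv_of_lang _ _ (H6.suΦ_conj σ) (H6.guMap n hτ h4 h5)
      ((Geo.scalars (Fin n) F₀).subgroupOf _) (H6.guField_guMap hτ h4 h5 he)
      (H6.su_surj_field hσ hτ h3 h4 h5 he (by omega))
      (fun y => (H6.suD_eq_one_iff hσ hτ (by omega) _).trans
        ((H6.map_mem_center_iff e _).trans (H6.mem_scalars_iff_center _).symm))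
    exact ⟨e1.trans e2⟩
  · rw [← H6.splitClassCount_conj _ _ α, hα, H6.inn_psu_eq hτ,
      H6.splitClassCount_of_lang _ _ (H6.suΦ_conj σ) _ (H6.guField_guMap hτ h4 h5 he)
        (H6.su_surj_field hσ hτ h3 h4 h5 he (by omega)) _ (H6.guDet_surj hτ),
      H6.suD_ker_map hσ hτ (by omega)]
    refine H6.index_pow_sup n ?_ _ (H6.guDet_guMap_range hτ h4 h5 he h1)
    rw [H6.card_normOne hF, Nat.div_mul_cancel]
    have := hro.nat_add_dvd_pow_add_pow (p ^ (f / r)) 1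
    rwa [one_pow, ← pow_mul, Nat.div_mul_cancel hrf, ← hq] at this

end Cfsg.Agent.S2705
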