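import Cfsg.Statements.S2711
import Cfsg.Agent.H6.PSUAut

set_option autoImplicit false
open Cfsg

namespace Cfsg.Agent.S2711

/-- Let T = PSU_n(q) be simple (n ≥ 3, (n,q) ≠ (3,2)), realised over the field F with q² elements, and let x be a field automorphism of T (conjugate to a standard field automorphism of odd order) of prime order r. Then an element y of the coset Inndiag(T)·x (y = δ x with δ in the image of PGU_n(q)) has order r if and only if y is conjugate to x by an element of Inndiag(T). (T has no graph-field automorphisms.) -/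
theorem result {F : Type*} [Field F] [Fintype F] {p f q : ℕ} [Fact p.Prime] (hq : q = p ^ f) (hf : 1 ≤ f) (hF : Fintype.card F = q ^ 2) {n : ℕ} (hn : 3 ≤ n) (hs : ¬ (n = 3 ∧ q = 2)) (x δ : MulAut (Cfsg.PSU n F q)) (hx : Cfsg.IsFieldAutClassPSU x) {r : ℕ} (hr : r.Prime) (hxr : orderOf x = r) (hδ : δ ∈ Cfsg.inndiagPSU n F q) :
    orderOf (δ * x) = r ↔ Cfsg.IsConjUnder (Cfsg.inndiagPSU n F q) x (δ * x) := by
  obtain ⟨τ, hσ, hτ⟩ := H6.exists_conj_aut hF
  have := H6.suD_range_normal hσ hτ hn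
  rw [H6.inndiagPSU_eq] at hδ ⊢
  obtain ⟨α, φ, σ, -, hodd, hφ, hα⟩ := hx
  rw [H6.isFieldAutPSUOf_iff] at hφ
  subst hφ
  have ho : orderOf σ = r := by
    rw [← orderOf_injective _ (H6.suΦ_injective hσ hτ hn), ← hα, H6.orderOf_conj', hxr]
  rw [ho] at hodd
  obtain ⟨-, h1, h2⟩ := H6.exists_subfield_data (Fact.out : p.Prime) hq hF hτ ho hodd
  have := Fintype.ofFinite (H6.fixF σ)
  obtain ⟨e, τ₀, he, h3, h4, h5⟩ := h2 (H6.fixF σ) (by rw [← h1, Nat.card_eq_fintype_card])
  exact H6.order_iff_conj _ hα _ (H6.suΦ_conj σ) hxr hδ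
    (H6.su_lang_field hσ hτ h3 h5 he (by omega) ho hodd)

end Cfsg.Agent.S2711
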