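import Cfsg.Statements.S2712
import Cfsg.Agent.H6.PSpAut

set_option autoImplicit false
open Cfsg

namespace Cfsg.Agent.S2712

/-- Let T = PSp_{2m}(F) be simple over the field F with p^f elements (m ≥ 2, (2m, |F|) ≠ (4, 2)), G = Inndiag(T) the image of the projective conformal symplectic group PGSp_{2m}(F), and x a field automorphism of T of prime order r. Then r divides f; C_G(x) is isomorphic to PGSp_{2m}(F₀) for a field F₀ with p^(f/r) elements; and the G-class of x is the union of exactly gcd(gcd(2, p^f − 1), r) T-classes. -/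
theorem result {F : Type*} [Field F] [Fintype F] {p f : ℕ} [Fact p.Prime] (hF : Fintype.card F = p ^ f) (hf : 1 ≤ f) {m : ℕ} (hm : 2 ≤ m) (hs : m = 2 → 3 ≤ Fintype.card F) (x : MulAut (Cfsg.PSp m F)) (hx : Cfsg.IsFieldAutClassPSp x) {r : ℕ} (hr : r.Prime) (hxr : orderOf x = r) (F₀ : Type*) [Field F₀] [Fintype F₀] (hF₀ : Fintype.card F₀ = p ^ (f / r)) :
    r ∣ f ∧ Nonempty (↥(Cfsg.inndiagPSp m F ⊓ Subgroup.centralizer {x}) ≃* Cfsg.PGSp m F₀) ∧ Cfsg.splitClassCount (Cfsg.inndiagPSp m F) (Cfsg.Inn (Cfsg.PSp m F)) x = Nat.gcd (Nat.gcd 2 (p ^ f - 1)) r := by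
  have : NeZero m := ⟨by omega⟩
  have := H6.spD_range_normal (F := F) hm
  rw [H6.inndiagPSp_eq]
  obtain ⟨α, σ, -, hα⟩ := hx
  rw [H6.isStdFieldAutPSp_iff] at hα
  have ho : orderOf σ = r := by
    rw [← orderOf_injective _ (H6.spΦ_injective (m := m)), ← hα, H6.orderOf_conj', hxr]
  obtain ⟨hrf, hc⟩ := H6.card_fixF (Fact.out : p.Prime) hF σ ho
  obtain ⟨e, he⟩ := H6.exists_emb_fixF σ F₀ (hF₀.trans hc.symm)
  refine ⟨hrf, ?_, ?_⟩
  · obtain ⟨e1⟩ := H6.centralizer_conj_equiv (H6.spD F m).range α x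
    rw [hα] at e1
    obtain ⟨e2⟩ := H6.centralizer_equiv_of_lang _ _ (H6.spΦ_conj σ) (H6.gspMap m e)
      ((Geo.scalars (Fin m ⊕ Fin m) F₀).subgroupOf _) (H6.gspField_gspMap he)
      (H6.sp_surj_field he)
      (fun y => (H6.spD_eq_one_iff _).trans
        ((H6.map_mem_center_iff e _).trans (H6.mem_scalars_iff_center _).symm))
    exact ⟨e1.trans e2⟩
  · rw [← H6.splitClassCount_conj _ _ α, hα, H6.inn_psp_eq,
      H6.splitClassCount_of_lang _ _ (H6.spΦ_conj σ) _ (H6.gspField_gspMap he)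
        (H6.sp_surj_field he) _ H6.gspMul_surj, H6.spD_ker_map,
      H6.index_pow_sup 2 (H6.card_units_eq_div_mul Fact.out hF hrf) _
        (fun u => by rw [H6.gspMul_gspMap_range he, hc])]
    have h1 := H6.gcd_two_geom (a := p ^ (f / r)) (r := r) (hF₀ ▸ Fintype.one_lt_card) hr.one_le
    rwa [← pow_mul, Nat.div_mul_cancel hrf] at h1

end Cfsg.Agent.S2712
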