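import Cfsg.Statements.S2714
import Cfsg.Agent.H7.DescB

set_option autoImplicit false
open Cfsg

namespace Cfsg.Agent.S2714

open H7

/-- Let T = Ω_{2m+1}(F) (m ≥ 3, |F| = p^f odd; realised as PΩ of the form x₀² + Σ xᵢ yᵢ), G = Inndiag(T) the image of the conformal orthogonal group in Aut(T), and x a field automorphism of T of prime order r. Then r divides f; C_G(x) is isomorphic to Inndiag(Ω_{2m+1}(F₀)) for a field F₀ with p^(f/r) elements; and the G-class of x is a single T-class when r is odd and the union of exactly two T-classes when r = 2. -/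
theorem result {F : Type*} [Field F] [Fintype F] {p f : ℕ} [Fact p.Prime] (hF : Fintype.card F = p ^ f) (hf : 1 ≤ f) (hodd : Odd (Fintype.card F)) {m : ℕ} (hm : 3 ≤ m) (x : MulAut (Cfsg.POmega F (Cfsg.quadFormOdd m F))) (hx : Cfsg.IsFieldAutClassPOmega (Cfsg.quadFormOdd m F) x) {r : ℕ} (hr : r.Prime) (hxr : orderOf x = r) (F₀ : Type*) [Field F₀] [Fintype F₀] (hF₀ : Fintype.card F₀ = p ^ (f / r)) :
    r ∣ f ∧ Nonempty (↥(Cfsg.inndiagPOmegaOdd m F ⊓ Subgroup.centralizer {x}) ≃* ↥(Cfsg.inndiagPOmegaOdd m F₀)) ∧ (Odd r → Cfsg.splitClassCount (Cfsg.inndiagPOmegaOdd m F) (Cfsg.Inn (Cfsg.POmega F (Cfsg.quadFormOdd m F))) x = 1) ∧ (r = 2 → Cfsg.splitClassCount (Cfsg.inndiagPOmegaOdd m F) (Cfsg.Inn (Cfsg.POmega F (Cfsg.quadFormOdd m F))) x = 2) := by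
  have h2 := odd_card_two_ne_zero hodd
  have hQ := nd_QO (m := m) h2
  have ho : Odd (Module.finrank F (Unit ⊕ (Fin m ⊕ Fin m) → F)) := by rw [finrank_QO]; simp
  obtain ⟨γ, h1, rfl⟩ := exists_of_fieldClass_surj (std_QO m) (actP_surjective_QO h2 hm) hx
  have ha := ker_actP hQ (by simp; omega)
  have hσ := orderOf_σ_eq ha hr hxr h1
  obtain ⟨hrf, hc⟩ := H6.card_fixF (Fact.out : p.Prime) hF γ.σ hσ
  obtain ⟨e, he⟩ := H6.exists_emb_fixF γ.σ F₀ (hF₀.trans hc.symm)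
  have h2' := mt (two_eq_zero_iff_of_hom e).2 h2
  obtain ⟨μ, Q₀, j, l, h⟩ := exists_fx' hQ hσ (pow_mem_ZS ha hxr) he
  obtain ⟨ψ, c, hc0, hψ⟩ := exists_sim_of_odd h2' (nd_QO (m := m) h2') (h.X.nd hQ)
    (by rw [finrank_QO]; simp) (by simp)
  have h' := h.comp ψ hc0 hψ
  have e1 : actP (QO F m) γ = actP (QO F m) (SS.sc _ μ * γ) := by rw [map_mul, actP_sc, one_mul]
  have h3 := h'.split_odd_dim ha h2 hQ ho (by simp; omega)
  rw [← inn_eq_KS, ← e1, SS.mul_σ, SS.sc_σ, one_mul, hσ] at h3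
  rw [inndiagOdd_eq, inndiagOdd_eq]
  refine ⟨hrf, ?_, fun h4 => h3.trans (if_pos h4), fun h4 => h3.trans (if_neg (by simp [h4]))⟩
  rw [e1]
  exact h'.centralizer_equiv ha le_rfl (le_sup_right.trans KS_le_GO) le_rfl hQ
    (fun g => iff_of_true (h'.X.E_mem_GO g) g.2) (ker_actP (nd_QO h2') (by simp; omega))

end Cfsg.Agent.S2714
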