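import Cfsg.Statements.S2715
import Cfsg.Agent.H7.OutTri
import Cfsg.Agent.H7.DescB

set_option autoImplicit false
open Cfsg

namespace Cfsg.Agent.S2715

open H7

/-- Let T = PΩ⁺_{2m}(F) (m ≥ 4, |F| = p^f; the form Σ xᵢ yᵢ), G = Inndiag(T) the image of the class-preserving similarities in Aut(T), and x a field automorphism of T of prime order r. Then r divides f; C_G(x) is isomorphic to Inndiag(PΩ⁺_{2m}(F₀)) for a field F₀ with p^(f/r) elements; and the G-class of x is the union of exactly c T-classes, where c = 1 if r is odd or p = 2, and otherwise (r = 2, p odd) c = 2 when m is odd and p^(f/2) ≡ 1 (mod 4), and c = 4 in the remaining cases. -/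
theorem result {F : Type*} [Field F] [Fintype F] {p f : ℕ} [Fact p.Prime] (hF : Fintype.card F = p ^ f) (hf : 1 ≤ f) {m : ℕ} (hm : 4 ≤ m) (x : MulAut (Cfsg.POmega F (Cfsg.quadFormPlus m F))) (hx : Cfsg.IsFieldAutClassPOmega (Cfsg.quadFormPlus m F) x) {r : ℕ} (hr : r.Prime) (hxr : orderOf x = r) (F₀ : Type*) [Field F₀] [Fintype F₀] (hF₀ : Fintype.card F₀ = p ^ (f / r)) :
    r ∣ f ∧ Nonempty (↥(Cfsg.inndiagPOmegaPlus m F ⊓ Subgroup.centralizer {x}) ≃* ↥(Cfsg.inndiagPOmegaPlus m F₀)) ∧ ((Odd r ∨ p = 2) → Cfsg.splitClassCount (Cfsg.inndiagPOmegaPlus m F) (Cfsg.Inn (Cfsg.POmega F (Cfsg.quadFormPlus m F))) x = 1) ∧ ((r = 2 ∧ p ≠ 2 ∧ Odd m ∧ p ^ (f / 2) % 4 = 1) → Cfsg.splitClassCount (Cfsg.inndiagPOmegaPlus m F) (Cfsg.Inn (Cfsg.POmega F (Cfsg.quadFormPlus m F))) x = 2) ∧ ((r = 2 ∧ p ≠ 2 ∧ ¬ (Odd m ∧ p ^ (f / 2) % 4 = 1)) → Cfsg.splitClassCount (Cfsg.inndiagPOmegaPlus m F) (Cfsg.Inn (Cfsg.POmega F (Cfsg.quadFormPlus m F))) x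 = 4) := by
  have hQ := nd_QP (F := F) m
  have hE := nonExc_of_finrank hQ (by simp; omega)
  have hev : Even (Module.finrank F (Fin m ⊕ Fin m → F)) := by simp
  have : Nonempty (Fin m) := ⟨⟨0, by omega⟩⟩
  obtain ⟨α, σ, h1, h2⟩ := exists_of_fieldClass (std_QP m) hx
  have ha := ker_actP hQ (by simp; omega)
  have hxr' : orderOf (actP (QP F m) (SS.std σ (std_QP m σ))) = r := by
    rw [← h2, ← hxr]; exact (MulAut.conj α).orderOf_eq x
  have hσ : orderOf σ = r := orderOf_σ_eq ha hr hxr' h1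
  obtain ⟨hrf, hc⟩ := H6.card_fixF (Fact.out : p.Prime) hF σ hσ
  obtain ⟨e, he⟩ := H6.exists_emb_fixF σ F₀ (hF₀.trans hc.symm)
  have h := fx_std (ext_QP e m) (std_QP m σ) he
  have hN := normal_DS_QP (F := F) hm
  rw [inndiagPlus_eq (by omega), inndiagPlus_eq (by omega)]
  have e0 := (H6.splitClassCount_conj ((DS (QP F m)).map (actP (QP F m)))
    (Cfsg.Inn (Cfsg.POmega F ⇑(QP F m))) α x).symm
  rw [h2] at e0
  have key : r = 2 → p ≠ 2 → Cfsg.splitClassCount ((DS (QP F m)).map (actP _))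
      (Cfsg.Inn (Cfsg.POmega F (Cfsg.quadFormPlus m F))) (actP (QP F m) (SS.std σ (std_QP m σ))) =
      if Odd m ∧ p ^ (f / 2) % 4 = 1 then 2 else 4 := fun hr2 hp => by
    subst hr2
    have hodd := odd_card_of_ne_two hF hp
    have hodd' := odd_card_of_ne_two hF₀ hp
    have h3 := h.split_even_two ha (odd_card_two_ne_zero hodd) hQ (finrank_QP F m) (by omega) hσ
      (disc_QP_eq_one hodd fun h4 => by
        obtain ⟨k, rfl⟩ := hrf
        have h6 := h4.2
        rw [hF, mul_comm, pow_mul, Nat.pow_mod] at h6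
        have := Nat.mod_lt (p ^ k) (show 0 < 4 by omega)
        generalize p ^ k % 4 = x at *
        interval_cases x <;> simp at h6)
    rw [← inn_eq_KS] at h3
    refine h3.trans ((@if_congr _ _ _ (_) _ _ _ _ _ ?_ rfl rfl).trans (ite_not _ _ _))
    rw [iff_true_intro (plusType_QP m), ← hF₀]
    rcases chi_neg_one_eq rfl hodd' with ⟨h4, h5⟩ | ⟨h4, h5⟩
    · rcases Nat.even_or_odd m with h6 | h6
      · simp [h5, h6.neg_one_pow, Nat.not_odd_iff_even.2 h6]
      · simp [h4, h5, h6.neg_one_pow, h6]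
    · simp [h4, h5]
  refine ⟨hrf, ?_, fun hp => ?_, fun h3 => e0.trans ((key h3.1 h3.2.1).trans (if_pos h3.2.2)),
    fun h3 => e0.trans ((key h3.1 h3.2.1).trans (if_neg h3.2.2))⟩
  · obtain ⟨e1⟩ := H6.centralizer_conj_equiv ((DS (QP F m)).map (actP (QP F m))) α x
    rw [h2] at e1
    exact (h.centralizer_equiv ha DS_le_GO (le_sup_right.trans (KS_le_DS hQ hE hev))
      DS_le_GO hQ (h.X.E_mem_DS_iff hQ (by simp; omega) hev)
      (ker_actP (nd_QP m) (by simp; omega))).map (@MulEquiv.trans _ _ _ (_) (_) (_) e1)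
  · have h3 := h.split_even_odd ha hQ (finrank_QP F m) (by omega)
      (hp.imp (fun h4 => hσ ▸ h4) fun h4 => two_eq_zero_of_card (h4 ▸ hF))
    rw [← inn_eq_KS] at h3
    exact e0.trans h3

end Cfsg.Agent.S2715
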