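import Cfsg.Statements.S2716
import Cfsg.Agent.H7.DescB

set_option autoImplicit false
open Cfsg

namespace Cfsg.Agent.S2716

open H7

/-- Let T = PΩ⁻_{2m+2}(F) (m ≥ 3, |F| = p^f; the form Σ xᵢ yᵢ + z₁² + a z₁ z₂ + b z₂² with anisotropic binary part), G = Inndiag(T), and x a field automorphism of T of prime order r. Then r is odd and divides f; C_G(x) is isomorphic to Inndiag(PΩ⁻_{2m+2}(F₀)) for a field F₀ with p^(f/r) elements and some anisotropic binary part over F₀; and the G-class of x is a single T-class. -/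
theorem result {F : Type*} [Field F] [Fintype F] {p f : ℕ} [Fact p.Prime] (hF : Fintype.card F = p ^ f) (hf : 1 ≤ f) {m : ℕ} (hm : 3 ≤ m) (a b : F) (hab : (∀ z₁ z₂ : F, z₁ ^ 2 + a * z₁ * z₂ + b * z₂ ^ 2 = 0 → z₁ = 0 ∧ z₂ = 0)) (x : MulAut (Cfsg.POmega F (Cfsg.quadFormMinus m F a b))) (hx : Cfsg.IsFieldAutClassPOmegaMinus m x) {r : ℕ} (hr : r.Prime) (hxr : orderOf x = r) (F₀ : Type*) [Field F₀] [Fintype F₀] (hF₀ : Fintype.card F₀ = p ^ (f / r)) :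
    Odd r ∧ r ∣ f ∧ (∃ a₀ b₀ : F₀, (∀ z₁ z₂ : F₀, z₁ ^ 2 + a₀ * z₁ * z₂ + b₀ * z₂ ^ 2 = 0 → z₁ = 0 ∧ z₂ = 0) ∧ Nonempty (↥(Cfsg.inndiagPOmegaMinus m F a b ⊓ Subgroup.centralizer {x}) ≃* ↥(Cfsg.inndiagPOmegaMinus m F₀ a₀ b₀))) ∧ Cfsg.splitClassCount (Cfsg.inndiagPOmegaMinus m F a b) (Cfsg.Inn (Cfsg.POmega F (Cfsg.quadFormMinus m F a b))) x = 1 := by
  have hQ := nd_QM (m := m) (disc_ne_zero_of_aniso hab)
  have hE := nonExc_QM (m := m) hab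
  have hev : Even (Module.finrank F ((Fin m ⊕ Fin m) ⊕ Fin 2 → F)) := by rw [finrank_QM]; simp
  obtain ⟨γ, h1, rfl⟩ := exists_of_fieldClassMinus hm hab hx
  have ha := ker_actP hQ (by simp; omega)
  have hσ := orderOf_σ_eq ha hr hxr h1
  obtain ⟨hrf, hc⟩ := H6.card_fixF (Fact.out : p.Prime) hF γ.σ hσ
  obtain ⟨e, he⟩ := H6.exists_emb_fixF γ.σ F₀ (hF₀.trans hc.symm)
  obtain ⟨μ, Q₀, j, l, h⟩ := exists_fx' hQ hσ (pow_mem_ZS ha hxr) he
  have hσ' : orderOf (SS.sc _ μ * γ).σ = r := by simpa using hσ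
  have ho : Odd r := Nat.not_even_iff_odd.1 fun h3 =>
    not_plusType_QM hab (h.plusType_of_even hQ hev (hσ' ▸ h3))
  obtain ⟨ζ, hζ, φ, hφ⟩ := exists_equiv_QM_one (h.X.nd hQ) (m := m) (by simp; ring)
    fun h3 => not_plusType_QM hab (h.X.plusType (h.X.nd hQ) h3)
  have h' := h.comp φ one_ne_zero (Q₁ := QM F₀ m 1 ζ) (by simpa using hφ)
  have e1 : actP (QM F m a b) γ = actP (QM F m a b) (SS.sc _ μ * γ) := by
    rw [map_mul, actP_sc, one_mul]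
  have h3 := h'.split_even_odd ha hQ (finrank_QM F m) (by omega) (Or.inl (hσ' ▸ ho))
  rw [← inn_eq_KS, ← e1] at h3
  rw [inndiagMinus_eq hab (by omega)]
  refine ⟨ho, hrf, ⟨1, ζ, aniso_of_no_root hζ, ?_⟩, h3⟩
  rw [inndiagMinus_eq (aniso_of_no_root hζ) (by omega), e1]
  exact h'.centralizer_equiv ha DS_le_GO (le_sup_right.trans (KS_le_DS hQ hE hev)) DS_le_GO hQ
    (h'.X.E_mem_DS_iff hQ (by simp; omega) hev) (ker_actP (h'.X.nd hQ) (by simp; omega))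

end Cfsg.Agent.S2716
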