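import Cfsg.Statements.S2717
import Cfsg.Agent.H7.DescB

set_option autoImplicit false
open Cfsg

namespace Cfsg.Agent.S2717

open H7

/-- Let T = PΩ⁺_{2m}(F) with m ≥ 5 (dimension 2m ≠ 8) and |F| = p^f, G = Inndiag(T), and x an involutory graph-field automorphism of T. Then f is even; any two involutory graph-field automorphisms of T are G-conjugate; C_G(x) is isomorphic to Inndiag(PΩ⁻_{2m}(F₀)) for a field F₀ with p^(f/2) elements (some anisotropic binary part over F₀); and the G-class of x is the union of exactly c T-classes with c = 1 if p = 2, c = 4 if p is odd, m is odd and p^(f/2) ≡ 1 (mod 4), and c = 2 otherwise. -/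
theorem result {F : Type*} [Field F] [Fintype F] {p f : ℕ} [Fact p.Prime] (hF : Fintype.card F = p ^ f) (hf : 1 ≤ f) {m : ℕ} (hm : 5 ≤ m) (x : MulAut (Cfsg.POmega F (Cfsg.quadFormPlus m F))) (hx : Cfsg.IsGraphFieldAutClassPOmegaPlus m x) (hx2 : orderOf x = 2) (F₀ : Type*) [Field F₀] [Fintype F₀] (hF₀ : Fintype.card F₀ = p ^ (f / 2)) :
    Even f ∧ (∀ y : MulAut (Cfsg.POmega F (Cfsg.quadFormPlus m F)), Cfsg.IsGraphFieldAutClassPOmegaPlus m y → orderOf y = 2 → Cfsg.IsConjUnder (Cfsg.inndiagPOmegaPlus m F) x y) ∧ (∃ a₀ b₀ : F₀, (∀ z₁ z₂ : F₀, z₁ ^ 2 + a₀ * z₁ * z₂ + b₀ * z₂ ^ 2 = 0 → z₁ = 0 ∧ z₂ = 0) ∧ Nonempty (↥(Cfsg.inndiagPOmegaPlus m F ⊓ Subgroup.centralizer {x}) ≃* ↥(Cfsg.inndiagPOmegaMinus (m - 1) F₀ a₀ b₀))) ∧ (p = 2 → Cfsg.splitClassCount (Cfsg.inndiagPOmegaPlus m F) (Cfsg.Inn (Cfsg.POmega F (Cfsg.quadFormPlus m F))) x = 1) ∧ ((p ≠ 2 ∧ Odd m ∧ p ^ (f / 2) % 4 = 1) → Cfsg.splitClassCount (Cfsg.inndiagPOmegaPlus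 m F) (Cfsg.Inn (Cfsg.POmega F (Cfsg.quadFormPlus m F))) x = 4) ∧ ((p ≠ 2 ∧ ¬ (Odd m ∧ p ^ (f / 2) % 4 = 1)) → Cfsg.splitClassCount (Cfsg.inndiagPOmegaPlus m F) (Cfsg.Inn (Cfsg.POmega F (Cfsg.quadFormPlus m F))) x = 2) := by
  have hQ := nd_QP (F := F) m
  have hE := nonExc_of_finrank hQ (by simp; omega)
  have hev : Even (Module.finrank F (Fin m ⊕ Fin m → F)) := by simp
  have : Nonempty (Fin m) := ⟨⟨0, by omega⟩⟩
  obtain ⟨γ, h1, hcl, rfl⟩ := exists_of_graphFieldClass_surj hm hx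
  have ha := ker_actP hQ (by simp; omega)
  have hσ := orderOf_σ_eq ha Nat.prime_two hx2 h1
  obtain ⟨hrf, hc⟩ := H6.card_fixF (Fact.out : p.Prime) hF γ.σ hσ
  obtain ⟨e, he⟩ := H6.exists_emb_fixF γ.σ F₀ (hF₀.trans hc.symm)
  obtain ⟨μ, Q₀, j, l, h⟩ := exists_fx' hQ hσ (pow_mem_ZS ha hx2) he
  have hσ' : orderOf (SS.sc _ μ * γ).σ = 2 := by simpa using hσ
  obtain ⟨ζ, hζ, φ, hφ⟩ := exists_equiv_QM_one (h.X.nd hQ) (m := m - 1) (by simp; omega)
    fun h3 => hcl ((cls_mul_iff (sc_mem_DS hev μ)).1 ((h.cls_iff hQ hE hev).2 h3))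
  have h' := h.comp φ one_ne_zero (Q₁ := QM F₀ (m - 1) 1 ζ) (by simpa using hφ)
  have e1 : actP (QP F m) γ = actP (QP F m) (SS.sc _ μ * γ) := by
    rw [map_mul, actP_sc, one_mul]
  rw [inndiagPlus_eq (by omega)]
  have key : p ≠ 2 → Cfsg.splitClassCount ((DS (QP F m)).map (actP _))
      (Cfsg.Inn (Cfsg.POmega F (Cfsg.quadFormPlus m F))) (actP (QP F m) γ) =
      if Odd m ∧ p ^ (f / 2) % 4 = 1 then 4 else 2 := fun hp => by
    have hodd := odd_card_of_ne_two hF hp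
    have hodd' := odd_card_of_ne_two hF₀ hp
    have h3 := h'.split_even_two ha (odd_card_two_ne_zero hodd) hQ (finrank_QP F m) (by omega) hσ'
      (disc_QP_eq_one hodd fun h4 => by
        obtain ⟨k, rfl⟩ := hrf
        have h6 := h4.2
        rw [hF, mul_comm, pow_mul, Nat.pow_mod] at h6
        have := Nat.mod_lt (p ^ k) (show 0 < 4 by omega)
        generalize p ^ k % 4 = x at *
        interval_cases x <;> simp at h6)
    rw [← inn_eq_KS, ← e1] at h3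
    refine h3.trans (@if_congr _ _ _ (_) _ _ _ _ _ ?_ rfl rfl)
    rw [iff_false_intro (not_plusType_QM (aniso_of_no_root hζ)), ← hF₀]
    rcases chi_neg_one_eq rfl hodd' with ⟨h4, h5⟩ | ⟨h4, h5⟩
    · rcases Nat.even_or_odd m with h6 | h6
      · simp [h5, h6.neg_one_pow, Nat.not_odd_iff_even.2 h6]
      · simp [h4, h5, h6.neg_one_pow, h6]
    · simp [h4, h5]
  refine ⟨even_iff_two_dvd.2 hrf, fun y hy hy2 => ?_, ⟨1, ζ, aniso_of_no_root hζ, ?_⟩, fun hp => ?_,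
    fun h3 => (key h3.1).trans (if_pos h3.2), fun h3 => (key h3.1).trans (if_neg h3.2)⟩
  · obtain ⟨γ', h3, hcl', rfl⟩ := exists_of_graphFieldClass_surj hm hy
    have := H6.ringAut_isCyclic (F := F)
    have := H6.ringAut_finite (F := F)
    exact isConjUnder_even hQ (H6.eq_of_orderOf_two hσ (orderOf_σ_eq ha Nat.prime_two hy2 h3)) hσ
      (pow_mem_ZS ha hx2) (pow_mem_ZS ha hy2) ha hE hev (by simp; omega) (iff_of_false hcl hcl')
  · rw [inndiagMinus_eq (aniso_of_no_root hζ) (by omega), e1]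
    exact h'.centralizer_equiv ha DS_le_GO (le_sup_right.trans (KS_le_DS hQ hE hev)) DS_le_GO hQ
      (h'.X.E_mem_DS_iff hQ (by simp; omega) hev) (ker_actP (h'.X.nd hQ) (by simp; omega))
  · subst hp
    have h3 := h'.split_even_odd ha hQ (finrank_QP F m) (by omega) (Or.inr (two_eq_zero_of_card hF))
    rwa [← inn_eq_KS, ← e1] at h3

end Cfsg.Agent.S2717
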