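import Cfsg.Statements.S2718
import Cfsg.Agent.H7.Graph
import Cfsg.Agent.H7.DescB

set_option autoImplicit false
open Cfsg

namespace Cfsg.Agent.S2718

open H7

/-- Let T = PΩ⁺_{2m}(F) with m ≥ 4 and |F| = q odd, G = Inndiag(T), and γ an involutory graph automorphism of T induced by a similarity (one interchanging the two classes of maximal totally singular subspaces). Then the G-class of γ is either a single T-class or the union of exactly two T-classes, and it is the union of two unless m is odd and q ≡ 3 (mod 4). -/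
theorem result {F : Type*} [Field F] [Fintype F] (hodd : Odd (Fintype.card F)) {m : ℕ} (hm : 4 ≤ m) (γ : MulAut (Cfsg.POmega F (Cfsg.quadFormPlus m F))) (hγ : Cfsg.IsSimilarityGraphAutPOmegaPlus m γ) (hγ2 : orderOf γ = 2) :
    (Cfsg.splitClassCount (Cfsg.inndiagPOmegaPlus m F) (Cfsg.Inn (Cfsg.POmega F (Cfsg.quadFormPlus m F))) γ = 1 ∨ Cfsg.splitClassCount (Cfsg.inndiagPOmegaPlus m F) (Cfsg.Inn (Cfsg.POmega F (Cfsg.quadFormPlus m F))) γ = 2) ∧ (¬ (Odd m ∧ Fintype.card F % 4 = 3) → Cfsg.splitClassCount (Cfsg.inndiagPOmegaPlus m F) (Cfsg.Inn (Cfsg.POmega F (Cfsg.quadFormPlus m F))) γ = 2) := by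
  have hQ := nd_QP (F := F) m
  have h2 := odd_card_two_ne_zero hodd
  have hE := nonExc_of_two hQ h2
  have hev : Even (Module.finrank F (Fin m ⊕ Fin m → F)) := by simp
  have ha := ker_actP hQ (by simp; omega)
  obtain ⟨A, ⟨c, hc⟩, h1, h3⟩ := hγ
  have h4 := hasMat_ofPair (Q := QP F m) A (RingEquiv.refl F) c hc
  obtain rfl := (h4.isInduced_iff γ).1 h3
  replace h1 := mt (h4.preserves_iff hQ hE (plusType_QP m) rfl).2 h1
  have h5 := split_graph h2 hQ (finrank_QP F m) hm ha rfl h1 (by rw [← pow_two]; exact pow_mem_ZS ha hγ2)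
  rw [← inn_eq_KS, ← inndiagPlus_eq (by omega)] at h5
  exact ⟨h5.1, fun h => h5.2 (Or.inl (disc_QP_eq_one hodd h))⟩

end Cfsg.Agent.S2718
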