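import Cfsg.Statements.S2719
import Cfsg.Agent.H7.Graph
import Cfsg.Agent.H7.DescB

set_option autoImplicit false
open Cfsg

namespace Cfsg.Agent.S2719

open H7

/-- Let T = PΩ⁻_{2m+2}(F) with m ≥ 3 and |F| = q odd (form with anisotropic binary part z₁² + a z₁ z₂ + b z₂²), G = Inndiag(T), and γ an involutory graph automorphism of T (an automorphism in the image of the semisimilarity group, not inner-diagonal, of order 2). Then the G-class of γ is either a single T-class or the union of exactly two T-classes, and it is the union of two unless m is even and q ≡ 1 (mod 4). -/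
theorem result {F : Type*} [Field F] [Fintype F] (hodd : Odd (Fintype.card F)) {m : ℕ} (hm : 3 ≤ m) (a b : F) (hab : (∀ z₁ z₂ : F, z₁ ^ 2 + a * z₁ * z₂ + b * z₂ ^ 2 = 0 → z₁ = 0 ∧ z₂ = 0)) (γ : MulAut (Cfsg.POmega F (Cfsg.quadFormMinus m F a b))) (hγ : Cfsg.IsGraphAutClassPOmegaMinus m a b γ) (hγ2 : orderOf γ = 2) :
    (Cfsg.splitClassCount (Cfsg.inndiagPOmegaMinus m F a b) (Cfsg.Inn (Cfsg.POmega F (Cfsg.quadFormMinus m F a b))) γ = 1 ∨ Cfsg.splitClassCount (Cfsg.inndiagPOmegaMinus m F a b) (Cfsg.Inn (Cfsg.POmega F (Cfsg.quadFormMinus m F a b))) γ = 2) ∧ (¬ (Even m ∧ Fintype.card F % 4 = 1) → Cfsg.splitClassCount (Cfsg.inndiagPOmegaMinus m F a b) (Cfsg.Inn (Cfsg.POmega F (Cfsg.quadFormMinus m F a b))) γ = 2) := by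
  have hQ := nd_QM (m := m) (disc_ne_zero_of_aniso hab)
  have h2 := odd_card_two_ne_zero hodd
  have hev : Even (Module.finrank F ((Fin m ⊕ Fin m) ⊕ Fin 2 → F)) := by rw [finrank_QM]; simp
  have ha := ker_actP hQ (by simp; omega)
  obtain ⟨g, rfl⟩ := actP_surjective_QM hm hab γ
  have h1 : g ∉ DS (QM F m a b) := fun h => hγ.2.1 (inndiagMinus_eq (m := m) hab (by omega) ▸ ⟨g, h, rfl⟩)
  have h3 : g.σ = 1 := by
    by_contra h3
    have hσ := orderOf_σ_eq ha Nat.prime_two hγ2 h3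
    obtain ⟨μ, Q₀, j, l, h⟩ := exists_fx' hQ hσ (pow_mem_ZS ha hγ2) (he_fixF g.σ)
    exact not_plusType_QM hab (h.plusType_of_even hQ hev (by simp [hσ]))
  have h5 := split_graph h2 hQ (finrank_QM F m) (by omega) ha h3 h1 (by rw [← pow_two]; exact pow_mem_ZS ha hγ2)
  rw [← inn_eq_KS, ← inndiagMinus_eq hab (by omega)] at h5
  refine ⟨h5.1, fun h => h5.2 ?_⟩
  rw [disc_QM_eq_one_iff hodd hab, Nat.even_add_one]
  obtain ⟨k, hk⟩ := hodd
  by_cases h6 : Even m
  · exact Or.inl ⟨h6, by have := mt (And.intro h6) h; omega⟩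
  · exact Or.inr h6

end Cfsg.Agent.S2719
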