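import Cfsg.Statements.S2723
import Cfsg.Agent.H7.OutB

set_option autoImplicit false
open Cfsg

namespace Cfsg.Agent.S2723

open H7

/-- Let T = PΩ⁺_{2m}(F) with m ≥ 4 and |F| = q odd. The image of the special orthogonal group in Aut(T) contains the inner automorphism group T with index 1 (they coincide) when m is odd and q ≡ 3 (mod 4), and with index 2 otherwise (the index is 2 exactly when the discriminant of the form is a square). -/
theorem result {F : Type*} [Field F] [Fintype F] (hodd : Odd (Fintype.card F)) {m : ℕ} (hm : 4 ≤ m) :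
    ((Odd m ∧ Fintype.card F % 4 = 3) → (Cfsg.Inn (Cfsg.POmega F (Cfsg.quadFormPlus m F))).relIndex (Cfsg.psoAut F (Cfsg.quadFormPlus m F)) = 1) ∧ (¬ (Odd m ∧ Fintype.card F % 4 = 3) → (Cfsg.Inn (Cfsg.POmega F (Cfsg.quadFormPlus m F))).relIndex (Cfsg.psoAut F (Cfsg.quadFormPlus m F)) = 2) := by
  have h := relIndex_inn (nd_QP (F := F) m) (by simp; omega) ((SOG _).map (SS.ofO _))
  rw [← psoAut_eq, card_SOG_map (odd_card_two_ne_zero hodd) (nd_QP m) (finrank_QP F m)
    (by omega)] at h
  exact ⟨fun h1 => h.trans (by simp [(disc_QP_eq_neg_iff hodd m).2 h1]),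
    fun h1 => h.trans (by simp [disc_QP_eq_one hodd h1])⟩

end Cfsg.Agent.S2723
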