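import Cfsg.Statements.S2724
import Cfsg.Agent.H7.OutB

set_option autoImplicit false
open Cfsg

namespace Cfsg.Agent.S2724

open H7

/-- Let T = PΩ⁺_{2m}(F) with m ≥ 4 and |F| = q odd. The image G̃ of the conformal orthogonal group in Aut(T), taken modulo the inner automorphism group T, is elementary abelian of order 4 when m is odd and q ≡ 3 (mod 4), and dihedral of order 8 otherwise. -/
theorem result {F : Type*} [Field F] [Fintype F] (hodd : Odd (Fintype.card F)) {m : ℕ} (hm : 4 ≤ m) :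
    ((Odd m ∧ Fintype.card F % 4 = 3) → (∃ φ : ↥(Cfsg.pgoAut F (Cfsg.quadFormPlus m F)) →* Multiplicative (ZMod 2 × ZMod 2), Function.Surjective φ ∧ φ.ker = (Cfsg.Inn (Cfsg.POmega F (Cfsg.quadFormPlus m F))).subgroupOf (Cfsg.pgoAut F (Cfsg.quadFormPlus m F)))) ∧ (¬ (Odd m ∧ Fintype.card F % 4 = 3) → (∃ φ : ↥(Cfsg.pgoAut F (Cfsg.quadFormPlus m F)) →* DihedralGroup 4, Function.Surjective φ ∧ φ.ker = (Cfsg.Inn (Cfsg.POmega F (Cfsg.quadFormPlus m F))).subgroupOf (Cfsg.pgoAut F (Cfsg.quadFormPlus m F)))) := by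
  have h2 := odd_card_two_ne_zero hodd
  have e : Cfsg.pgoAut F (Cfsg.quadFormPlus m F) = _ := pgoAut_eq (Q := QP F m)
  rw [e]
  exact ⟨fun h1 => exists_hom_inn (nd_QP m) (by simp; omega) _ (equiv_GO_klein h2 (nd_QP m)
      (finrank_QP F m) (by omega) ((disc_QP_eq_neg_iff hodd m).2 h1)),
    fun h1 => exists_hom_inn (nd_QP m) (by simp; omega) _ (equiv_GO_d8 h2 (nd_QP m)
      (finrank_QP F m) (by omega) (disc_QP_eq_one hodd h1))⟩

end Cfsg.Agent.S2724
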