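import Cfsg.Statements.S2727
import Cfsg.Agent.H7.OutB

set_option autoImplicit false
open Cfsg

namespace Cfsg.Agent.S2727

open H7

/-- Let T = PΩ⁻_{2m+2}(F) with m ≥ 3 and |F| = q odd (form with anisotropic binary part). The image of the special orthogonal group in Aut(T) contains the inner automorphism group T with index 2 when m is even and q ≡ 3 (mod 4), and coincides with it otherwise (the index is 2 exactly when the discriminant of the form is a square). -/
theorem result {F : Type*} [Field F] [Fintype F] (hodd : Odd (Fintype.card F)) {m : ℕ} (hm : 3 ≤ m) (a b : F) (hab : (∀ z₁ z₂ : F, z₁ ^ 2 + a * z₁ * z₂ + b * z₂ ^ 2 = 0 → z₁ = 0 ∧ z₂ = 0)) :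
    ((Even m ∧ Fintype.card F % 4 = 3) → (Cfsg.Inn (Cfsg.POmega F (Cfsg.quadFormMinus m F a b))).relIndex (Cfsg.psoAut F (Cfsg.quadFormMinus m F a b)) = 2) ∧ (¬ (Even m ∧ Fintype.card F % 4 = 3) → (Cfsg.Inn (Cfsg.POmega F (Cfsg.quadFormMinus m F a b))).relIndex (Cfsg.psoAut F (Cfsg.quadFormMinus m F a b)) = 1) := by
  have hQ := nd_QM (m := m) (disc_ne_zero_of_aniso hab)
  have h := relIndex_inn hQ (by simp; omega) ((SOG _).map (SS.ofO _))
  rw [← psoAut_eq, card_SOG_map (odd_card_two_ne_zero hodd) hQ (finrank_QM F m) (by omega)] at h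
  exact ⟨fun h1 => h.trans (by simp [(disc_QM_eq_one_iff hodd hab).2 h1]),
    fun h1 => h.trans (by simp [disc_QM_eq_neg hodd hab h1])⟩

end Cfsg.Agent.S2727
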