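import Cfsg.Statements.S2734
import Cfsg.Agent.H9.ChevTri

set_option autoImplicit false
open Cfsg

namespace Cfsg.Agent.S2734

open Cfsg.Agent.H9

open Subgroup Chev Chev.Tri Cfsg.Lie


/-- In the Chevalley group of type D₄ over a finite field F (the matrix group generated by the root elements), a graph automorphism attached to a symmetry π of the Dynkin diagram (sending each fundamental root element x_p(t) to x_{π(p)}(t) and each x_{−p}(t) to x_{−π(p)}(t)) that has order 3 — a standard triality graph automorphism, π being a 3-cycle of the three outer nodes — has fixed-point subgroup isomorphic to the Chevalley group of type G₂ over F. -/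
theorem result {F : Type*} [Field F] [Fintype F] (τ : MulAut ↥(Cfsg.Lie.chevD4.group F)) (hτ : Cfsg.Lie.chevD4.IsGraphAut τ) (hτ3 : orderOf τ = 3) :
    Nonempty (↥(MonoidHom.eqLocus τ.toMonoidHom (MonoidHom.id ↥(Cfsg.Lie.chevD4.group F))) ≃* ↥(Cfsg.Lie.chevG2.group F)) := by
  obtain ⟨σ, hσ, h⟩ := hτ
  have hs : ∀ p : P4, chevD4.simple p = ((d F).sm p).1 :=
    (by decide +kernel : ∀ p : P4, chevD4.simple p = ((d ℚ).sm p).1)
  have hn : ∀ p : P4, chevD4.neg (chevD4.simple p) = ((d F).neg ((d F).sm p)).1 :=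
    (by decide +kernel : ∀ p : P4, chevD4.neg (chevD4.simple p) = ((d ℚ).neg ((d ℚ).sm p)).1)
  have he : ∀ (c : ℕ) (i j : P4), chevD4.graphExp c i j = 1 := fun c i j => by
    simp [ChevalleyDatum.graphExp, (by decide +kernel : ∀ j : P4, chevD4.isLong (chevD4.simple j) = false) j]
  have h1 : ∀ p t, τ ⟨_, goodD4.x_mem F ((d F).sm p) t⟩ = ⟨_, goodD4.x_mem F ((d F).sm (σ p)) t⟩ :=
    fun p t => Subtype.ext (Units.ext (by
      have := (h ⟨_, goodD4.x_mem F ((d F).sm p) t⟩ p t).1 (by rw [hs]; exact goodD4.x_val F _ t)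
      rw [he, pow_one, hs] at this
      exact this.trans (goodD4.x_val F _ t).symm))
  have h2 : ∀ p t, τ ⟨_, goodD4.x_mem F ((d F).neg ((d F).sm p)) t⟩ =
      ⟨_, goodD4.x_mem F ((d F).neg ((d F).sm (σ p))) t⟩ :=
    fun p t => Subtype.ext (Units.ext (by
      have := (h ⟨_, goodD4.x_mem F ((d F).neg ((d F).sm p)) t⟩ p t).2
        (by rw [hn]; exact goodD4.x_val F _ t)
      rw [he, pow_one, hn] at this
      exact this.trans (goodD4.x_val F _ t).symm))
  have key : ∀ g : chevD4.group F, τ g = g ↔ (fold F).M * g * (fold F).M⁻¹ = g := by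
    rcases (by unfold ChevalleyDatum.IsDiagramSymmetry; decide +kernel :
      ∀ σ : Equiv.Perm P4, chevD4.IsDiagramSymmetry σ →
        (∀ i, σ (σ i) = i) ∨ (∀ i, σ i = π i) ∨ ∀ i, σ i = π (π i)) σ hσ with e | e | e
    · have := hom_ext (τ * τ).toMonoidHom (MonoidHom.id _)
        (fun p t => by change τ (τ _) = _; rw [h1, h1]; simp only [e]; rfl)
        (fun p t => by change τ (τ _) = _; rw [h2, h2]; simp only [e]; rfl)
      have h3 : τ ^ 2 = 1 := by rw [sq]; ext1 x; exact DFunLike.congr_fun this x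
      have := orderOf_dvd_of_pow_eq_one h3
      rw [hτ3] at this; omega
    · have := hom_ext ((chevD4.group F).subtype.comp τ.toMonoidHom)
        ((MulAut.conj (fold F).M).toMonoidHom.comp (chevD4.group F).subtype)
        (fun p t => (congrArg Subtype.val (h1 p t)).trans (by rw [e]; exact (M_sm p t).1.symm))
        (fun p t => (congrArg Subtype.val (h2 p t)).trans (by rw [e]; exact (M_sm p t).2.symm))
      intro g
      rw [Subtype.ext_iff, show (τ g).1 = (fold F).M * g.1 * (fold F).M⁻¹ from DFunLike.congr_fun this g]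
    · have := hom_ext ((chevD4.group F).subtype.comp τ.toMonoidHom)
        ((MulAut.conj ((fold F).M * (fold F).M)).toMonoidHom.comp (chevD4.group F).subtype)
        (fun p t => (congrArg Subtype.val (h1 p t)).trans (by
          rw [e]; dsimp only; rw [← (M_sm _ t).1, ← (M_sm p t).1]; simp [mul_assoc]))
        (fun p t => (congrArg Subtype.val (h2 p t)).trans (by
          rw [e]; dsimp only; rw [← (M_sm _ t).2, ← (M_sm p t).2]; simp [mul_assoc]))
      intro g
      rw [Subtype.ext_iff, show (τ g).1 = ((fold F).M * (fold F).M) * g.1 * ((fold F).M * (fold F).M)⁻¹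
        from DFunLike.congr_fun this g, eq_inv_of_mul_eq_one_left M_cube, inv_inv, mul_assoc, inv_mul_eq_iff_eq_mul, mul_inv_eq_iff_eq_mul, eq_comm]
  obtain ⟨e⟩ := (ax (F := F)).equiv (goodD4.ax F) (goodG2.ax F)
    ((τ.toMonoidHom.eqLocus (MonoidHom.id _)).map (chevD4.group F).subtype) fun g =>
      ⟨by rintro ⟨g, hg, rfl⟩; exact ⟨(goodD4.group_eq F).le g.2, (key g).1 hg⟩, fun hg =>
        ⟨⟨g, (goodD4.group_eq F).ge hg.1⟩, (key _).2 hg.2, rfl⟩⟩
  exact ⟨(equivMapOfInjective _ _ (chevD4.group F).subtype_injective).trans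
    (e.trans (MulEquiv.subgroupCongr (goodG2.group_eq F).symm))⟩

end Cfsg.Agent.S2734
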