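import Cfsg.Statements.S2735
import Cfsg.Agent.H7.DescB

set_option autoImplicit false
open Cfsg

namespace Cfsg.Agent.S2735

open H7

/-- Let T = Ω_{2m+1}(F) (m ≥ 3, |F| odd) and x a field automorphism of T of prime order r. Then an element y of the coset Inndiag(T)·x (y = δ x with δ induced by a similarity of the form) has order r if and only if y is conjugate to x by an element of Inndiag(T). (T has no graph or graph-field automorphisms.) -/
theorem result {F : Type*} [Field F] [Fintype F] (hodd : Odd (Fintype.card F)) {m : ℕ} (hm : 3 ≤ m) (x δ : MulAut (Cfsg.POmega F (Cfsg.quadFormOdd m F))) (hx : Cfsg.IsFieldAutClassPOmega (Cfsg.quadFormOdd m F) x) {r : ℕ} (hr : r.Prime) (hxr : orderOf x = r) (hδ : δ ∈ Cfsg.inndiagPOmegaOdd m F) :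
    orderOf (δ * x) = r ↔ Cfsg.IsConjUnder (Cfsg.inndiagPOmegaOdd m F) x (δ * x) := by
  have h2 := odd_card_two_ne_zero hodd
  obtain ⟨γ, h1, rfl⟩ := exists_of_fieldClass_surj (std_QO m) (actP_surjective_QO h2 hm) hx
  rw [inndiagOdd_eq] at hδ ⊢
  exact order_iff_conj_odd (ker_actP (nd_QO h2) (by simp; omega)) (nd_QO h2) h2
    (by rw [finrank_QO]; simp) hr hxr h1 hδ

end Cfsg.Agent.S2735
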