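import Cfsg.Statements.S2736
import Cfsg.Agent.H7.DescB

set_option autoImplicit false
open Cfsg

namespace Cfsg.Agent.S2736

open H7

/-- Let T = PΩ⁺_{2m}(F) with m ≥ 5 (dimension ≠ 8) and x a field automorphism or a graph-field automorphism of T of prime order r. Then an element y of the coset Inndiag(T)·x (y = δ x with δ induced by a class-preserving similarity) has order r if and only if y is conjugate to x by an element of Inndiag(T). -/
theorem result {F : Type*} [Field F] [Fintype F] {m : ℕ} (hm : 5 ≤ m) (x δ : MulAut (Cfsg.POmega F (Cfsg.quadFormPlus m F))) (hx : Cfsg.IsFieldAutClassPOmega (Cfsg.quadFormPlus m F) x ∨ Cfsg.IsGraphFieldAutClassPOmegaPlus m x) {r : ℕ} (hr : r.Prime) (hxr : orderOf x = r) (hδ : δ ∈ Cfsg.inndiagPOmegaPlus m F) :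
    orderOf (δ * x) = r ↔ Cfsg.IsConjUnder (Cfsg.inndiagPOmegaPlus m F) x (δ * x) := by
  obtain ⟨γ, h1, rfl⟩ : ∃ γ : SS (QP F m), γ.σ ≠ 1 ∧ x = actP _ γ := by
    rcases hx with hx | hx
    · exact exists_of_fieldClass_surj (std_QP m) (actP_surjective_QP hm) hx
    · obtain ⟨γ, h1, -, h2⟩ := exists_of_graphFieldClass_surj hm hx
      exact ⟨γ, h1, h2⟩
  rw [inndiagPlus_eq (by omega)] at hδ ⊢
  exact order_iff_conj_even (ker_actP (nd_QP m) (by simp; omega)) (nd_QP m)
    (nonExc_of_finrank (nd_QP m) (by simp; omega)) (by simp) (by simp; omega) hr hxr h1 hδ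

end Cfsg.Agent.S2736
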