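import Cfsg.Statements.S2738
import Cfsg.Agent.H4.L34

set_option autoImplicit false
open Cfsg

set_option maxRecDepth 100000

namespace Cfsg.Agent.S2738

open Cfsg.Agent.H4


/-- The special linear group SL(3, 4) has centre of order 3 and does not split over it: no subgroup is a complement to the centre (so SL(3, 4) is a non-split central extension of PSL(3, 4) by a group of order 3). -/
theorem result (F : Type*) [Field F] [Fintype F] (hF : Fintype.card F = 4) : Nat.card ↥(Subgroup.center (Matrix.SpecialLinearGroup (Fin 3) F)) = 3 ∧ ¬ ∃ K : Subgroup (Matrix.SpecialLinearGroup (Fin 3) F), Subgroup.IsComplement' (Subgroup.center (Matrix.SpecialLinearGroup (Fin 3) F)) K := by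
  refine ⟨card_center_SL34 hF, fun ⟨L, hL⟩ => ?_⟩
  obtain ⟨K⟩ := nonempty_f4FC hF
  obtain ⟨a, ha⟩ := K.sl3_vt (0x13124, 0xf125) (by decide +kernel)
  obtain ⟨b, hb⟩ := K.sl3_vt (0x219f7, 0x5eda) (by decide +kernel)
  have h1 := (K.slcg 3).rep_cm ha hb
  have h2 := (QuotientGroup.eq_one_iff _).mp ((K.pslcg 3 [1, 2, 3]).eq_one (K.kpcg_rep h1)
    (show l34cg.isOne (l34cg.cm (0x13124, 0xf125) (0x219f7, 0x5eda)) = true by decide +kernel))
  have h3 := Subgroup.disjoint_def.mp hL.disjoint h2 (commutator_mem_of_isComplement_center hL a b)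
  have h4 := K.cg_complete 3 _ (FC.slHom_injective 3 F) _ _ _ _ h1 (K.slcg 3).rep_one
    (by rw [h3, mul_one])
  exact absurd h4 (show ¬ (f4Ops.cg 4 2 3).isOne ((f4Ops.cg 4 2 3).mul
    (l34cg.cm (0x13124, 0xf125) (0x219f7, 0x5eda)) l34cg.one) = true by decide +kernel)

end Cfsg.Agent.S2738
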