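import Cfsg.Statements.S2739
import Cfsg.Agent.H4.L34

set_option autoImplicit false
open scoped Pointwise
open Cfsg

set_option maxRecDepth 100000

namespace Cfsg.Agent.S2739

open Cfsg.Agent.H4

theorem exists_gen {G : Type*} [Group G] (X : Subgroup G) (h : Nat.card X = 3) :
    ∃ x : G, orderOf x = 3 ∧ Subgroup.zpowers x = X := by
  have : Finite X := Nat.finite_of_card_ne_zero (by omega)
  have := Fact.mk Nat.prime_three
  obtain ⟨x, hx⟩ := exists_prime_orderOf_dvd_card' (G := X) 3 h.symm.dvd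
  rw [← Subgroup.orderOf_coe] at hx
  exact ⟨x, hx, Subgroup.eq_of_le_of_card_ge (Subgroup.zpowers_le.mpr x.2)
    (by rw [Nat.card_zpowers, hx, h])⟩


/-- In the projective special linear group PSL(3, 4) all subgroups of order 3 are conjugate. -/
theorem result (F : Type*) [Field F] [Fintype F] (hF : Fintype.card F = 4) (X Y : Subgroup (Matrix.ProjectiveSpecialLinearGroup (Fin 3) F)) (hX : Nat.card ↥X = 3) (hY : Nat.card ↥Y = 3) : ∃ g : Matrix.ProjectiveSpecialLinearGroup (Fin 3) F, MulAut.conj g • X = Y := by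
  obtain ⟨a, ha⟩ := exists_order_three_L34 hF
  obtain ⟨x, h1, rfl⟩ := exists_gen X hX
  obtain ⟨y, h2, rfl⟩ := exists_gen Y hY
  obtain ⟨g, rfl⟩ := isConj_iff.mp ((ha x h1).trans (ha y h2).symm)
  exact ⟨g, MonoidHom.map_zpowers _ x⟩

end Cfsg.Agent.S2739
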