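import Cfsg.Statements.S4416
import Cfsg.Agent.H2.Extra

set_option autoImplicit false
open Cfsg

namespace Cfsg.Agent.S4416

open Subgroup Cfsg.Agent.H2
open scoped commutatorElement Pointwise


/-- Classification of extraspecial 2-groups in intrinsic form. An extraspecial 2-group has order 2^(2m+1) for some m ≥ 1, and the number of its elements squaring to the identity is either 2^(2m) + 2^m or 2^(2m) − 2^m; two extraspecial 2-groups of the same order with the same number of such elements are isomorphic. (The two cases are the central products of m dihedral groups of order 8, and of m − 1 dihedral groups with one quaternion group.) -/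
theorem result (E : Type*) [Group E] [Finite E] (hE : Cfsg.IsExtraspecial 2 E) :
    (∃ m : ℕ, 1 ≤ m ∧ Nat.card E = 2 ^ (2 * m + 1) ∧
      (Nat.card {x : E // x ^ 2 = 1} = 2 ^ (2 * m) + 2 ^ m ∨ Nat.card {x : E // x ^ 2 = 1} = 2 ^ (2 * m) - 2 ^ m)) ∧
    ∀ (E' : Type*) [Group E'] [Finite E'], Cfsg.IsExtraspecial 2 E' → Nat.card E' = Nat.card E →
      Nat.card {x : E' // x ^ 2 = 1} = Nat.card {x : E // x ^ 2 = 1} → Nonempty (E ≃* E') := by
  obtain ⟨z, h, x, hx⟩ := exists_ES_of_isExtraspecial hE
  obtain ⟨m, h1, h2⟩ := ES.exists_card_nsq _ E z le_rfl h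
  refine ⟨⟨m, ?_, h1, h2.imp_right fun h2 => Nat.eq_sub_of_add_eq h2⟩, fun E' _ _ hE' hc hN => ?_⟩
  · by_contra hm
    rw [show m = 0 by omega] at h1
    exact hx (h.forall_mem_iff.mpr h1 x)
  · obtain ⟨z', h', -⟩ := exists_ES_of_isExtraspecial hE'
    obtain ⟨e, -⟩ := ES.exists_equiv_of_nsq _ E E' _ _ le_rfl h h' hc.symm hN.symm
    exact ⟨e⟩

end Cfsg.Agent.S4416
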