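import Cfsg.Statements.S4422
import Cfsg.Agent.H2.PGroup
import Mathlib.FieldTheory.Finite.Basic

set_option autoImplicit false
open Cfsg

namespace Cfsg.Agent.S4422

open Subgroup Cfsg.Agent.H2
open scoped commutatorElement Pointwise


/-- Primitive divisors of `q^e - 1` are congruent to 1 modulo `e`. Let `q ≥ 2` and `e ≥ 1` be natural numbers and let `m` be a divisor of `q^e - 1` that is coprime to `q^i - 1` for every `1 ≤ i < e` (so `m` divides the primitive part of `q^e - 1`, the largest such divisor). Then `m ≡ 1 (mod e)`. -/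
theorem result (q e m : ℕ) (hq : 2 ≤ q) (he : 1 ≤ e)
    (hm : m ∣ q ^ e - 1) (hcop : ∀ i : ℕ, 1 ≤ i → i < e → Nat.Coprime m (q ^ i - 1)) :
    m % e = 1 % e := by
  have h1 : 1 ≤ q ^ e := Nat.one_le_pow _ _ (by omega)
  have h0 : q ^ e - 1 ≠ 0 := by
    have := Nat.one_lt_pow (n := e) (a := q) (by omega) (by omega)
    omega
  induction m using induction_on_primes with
  | zero => exact absurd (Nat.eq_zero_of_zero_dvd hm) h0
  | one => rfl
  | prime_mul r a hr ih =>
    have := Fact.mk hr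
    have h2 := ih (dvd_of_mul_left_dvd hm) fun i h1 h2 => (hcop i h1 h2).coprime_mul_left
    have h3 : ∀ i, (q : ZMod r) ^ i = 1 ↔ r ∣ q ^ i - 1 := fun i => by
      rw [← ZMod.natCast_eq_zero_iff, Nat.cast_sub (Nat.one_le_pow _ _ (by omega)), sub_eq_zero]
      simp
    have h4 := (h3 e).mpr (dvd_of_mul_right_dvd hm)
    have h5 : orderOf (q : ZMod r) = e := (orderOf_eq_iff (by omega)).mpr ⟨h4, fun i hi hi0 h =>
      hr.one_lt.ne' ((hcop i hi0 hi).coprime_mul_right.eq_one_of_dvd ((h3 i).mp h))⟩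
    have h6 : e ∣ r - 1 := h5 ▸ ZMod.orderOf_dvd_card_sub_one (fun h => by
      rw [h, zero_pow (by omega)] at h4
      exact zero_ne_one h4)
    have h7 : r ≡ 1 [MOD e] := ((Nat.modEq_iff_dvd' hr.one_le).mpr h6).symm
    exact h7.mul h2

end Cfsg.Agent.S4422
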