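import Cfsg.Statements.S4423


set_option autoImplicit false
open Cfsg

namespace Cfsg.Agent.S4423

open Polynomial

noncomputable def Φ (q e : ℕ) : ℕ := ((cyclotomic e ℤ).eval (q : ℤ)).natAbs

lemma cast_Φ {q : ℕ} (hq : 2 ≤ q) (e : ℕ) : (Φ q e : ℤ) = (cyclotomic e ℤ).eval (q : ℤ) :=
  Int.natAbs_of_nonneg (cyclotomic_nonneg e (by exact_mod_cast (by omega : 1 ≤ q)))

lemma real_Φ {q : ℕ} (hq : 2 ≤ q) (e : ℕ) : (Φ q e : ℝ) = (cyclotomic e ℝ).eval (q : ℝ) := by
  have := cyclotomic.eval_apply (q : ℤ) e (algebraMap ℤ ℝ)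
  rw [← cast_Φ hq] at this
  simpa using this.symm

lemma prim {q r k d : ℕ} (hq : 2 ≤ q) [Fact r.Prime] (hd : ¬ r ∣ d) (h : r ∣ Φ q (r ^ k * d)) :
    IsPrimitiveRoot (q : ZMod r) d := by
  haveI : NeZero (d : ZMod r) := ⟨fun h => hd ((ZMod.natCast_eq_zero_iff d r).mp h)⟩
  rw [← isRoot_cyclotomic_prime_pow_mul_iff_of_charP (p := r) (k := k), IsRoot.def]
  have := cyclotomic.eval_apply (q : ℤ) (r ^ k * d) (algebraMap ℤ (ZMod r))
  rw [← cast_Φ hq] at this
  simpa [(ZMod.natCast_eq_zero_iff _ r).mpr h] using this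

lemma lemA {q r e i : ℕ} (hq : 2 ≤ q) (hr : r.Prime) (h : r ∣ Φ q e) (he : ¬ r ∣ e) (h1 : 1 ≤ i)
    (h2 : i < e) : ¬ r ∣ q ^ i - 1 := by
  haveI := Fact.mk hr
  have := prim (k := 0) hq he (by simpa using h)
  intro h3
  apply this.pow_ne_one_of_pos_of_lt (by omega) h2
  have h4 := (ZMod.natCast_eq_zero_iff _ r).mpr h3
  rw [Nat.cast_sub (Nat.one_le_pow _ _ (by omega))] at h4
  simpa [sub_eq_zero] using h4

lemma lemB1 {q r s e : ℕ} (hq : 2 ≤ q) (he : e ≠ 0) (hr : r.Prime) (hs : s.Prime) (h : r ∣ Φ q e)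
    (h2 : s ∣ e) : s ≤ r := by
  haveI := Fact.mk hr
  obtain ⟨k, d, hd, rfl⟩ := Nat.exists_eq_pow_mul_and_not_dvd he r hr.ne_one
  have h3 := prim hq hd h
  rcases (Nat.Prime.dvd_mul hs).mp h2 with h4 | h4
  · exact ((Nat.prime_dvd_prime_iff_eq hs hr).mp (hs.dvd_of_dvd_pow h4)).le
  · have h5 : d ∣ r - 1 := h3.dvd_of_pow_eq_one _
      (ZMod.pow_card_sub_one_eq_one (h3.ne_zero (by rintro rfl; simp at he)))
    have := Nat.le_of_dvd (by have := hr.two_le; omega) (h4.trans h5)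
    omega

lemma lemB2 {q r e : ℕ} (hq : 2 ≤ q) (he : 3 ≤ e) (hr : r.Prime) (h : r ∣ Φ q e)
    (h2 : r ∣ e) : ¬ r ^ 2 ∣ Φ q e := by
  haveI := Fact.mk hr
  obtain ⟨f, rfl⟩ := h2
  have hf : f ≠ 0 := by rintro rfl; simp at he
  obtain ⟨k, d, hd, hk⟩ := Nat.exists_eq_pow_mul_and_not_dvd hf r hr.ne_one
  have h3 := prim (k := k + 1) hq hd (by rwa [pow_succ', mul_assoc, ← hk])
  have h4 : ((q : ZMod r)) ^ f = 1 := by rw [hk, mul_comm, pow_mul, h3.pow_eq_one, one_pow]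
  have h5 : (r : ℤ) ∣ (q : ℤ) ^ f - 1 := by
    rw [← ZMod.intCast_zmod_eq_zero_iff_dvd]; simp [h4]
  have h6 : f ∈ (r * f).properDivisors := by
    rw [Nat.mem_properDivisors]
    exact ⟨dvd_mul_left _ _, by have := hr.two_le; have := Nat.pos_of_ne_zero hf; nlinarith⟩
  have h7 := eval_dvd (x := (q : ℤ)) (X_pow_sub_one_mul_cyclotomic_dvd_X_pow_sub_one_of_dvd ℤ h6)
  simp only [eval_mul, eval_sub, eval_pow, eval_X, eval_one, ← cast_Φ hq] at h7
  have h8 : (q : ℤ) ^ f - 1 ≠ 0 := by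
    have : (1 : ℤ) < (q : ℤ) ^ f := one_lt_pow₀ (by exact_mod_cast (by omega : 1 < q)) hf
    omega
  rw [mul_comm r f, pow_mul, ← mul_geom_sum ((q : ℤ) ^ f), mul_dvd_mul_iff_left h8, mul_comm f r] at h7
  intro h9
  have h10 : (r : ℤ) ^ 2 ∣ ∑ i ∈ Finset.range r, ((q : ℤ) ^ f) ^ i :=
    (by exact_mod_cast h9 : (r : ℤ) ^ 2 ∣ Φ q (r * f)).trans h7
  obtain ⟨t, ht⟩ := h5
  rcases hr.eq_two_or_odd' with rfl | hodd
  · have h11 : d ∣ 1 := h3.dvd_of_pow_eq_one _
      (ZMod.pow_card_sub_one_eq_one (h3.ne_zero (by rintro rfl; simp at hd)))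
    obtain rfl := Nat.dvd_one.mp h11
    obtain ⟨k, rfl⟩ : ∃ j, k = j + 1 := ⟨k - 1, by rcases k with _ | k <;> simp at hk ⊢; omega⟩
    rw [hk, mul_one, pow_succ 2 k, pow_mul] at h10 ht
    generalize (q : ℤ) ^ 2 ^ k = y at h10 ht
    simp only [Finset.sum_range_succ, Finset.range_zero, Finset.sum_empty] at h10
    obtain ⟨u, hu⟩ := h10
    rcases Int.even_or_odd' y with ⟨z, rfl | rfl⟩
    · push_cast at ht; ring_nf at ht; omega
    · push_cast at hu; ring_nf at hu; omega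
  · have h11 := odd_sq_dvd_geom_sum₂_sub (1 : ℤ) t hodd
    rw [show (1 : ℤ) + r * t = q ^ f by linarith] at h11
    simp only [one_pow, mul_one] at h11
    have h12 := (dvd_sub h10 h11)
    rw [sub_sub_cancel, pow_two] at h12
    have h13 : (r : ℤ) ∣ 1 := (mul_dvd_mul_iff_left (a := (r : ℤ)) (by exact_mod_cast hr.ne_zero)).mp (by rwa [mul_one])
    exact hr.one_lt.ne' (by exact_mod_cast Int.eq_one_of_dvd_one (by positivity) h13)

lemma main {q e : ℕ} (hq : 2 ≤ q) (he : 3 ≤ e) (h : e * (3 * e + 1) ≤ Φ q e) :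
    ∃ m : ℕ, m ∣ q ^ e - 1 ∧ (∀ i : ℕ, 1 ≤ i → i < e → Nat.Coprime m (q ^ i - 1)) ∧ 3 * e + 1 ≤ m := by
  obtain ⟨m, h1, h2, h3⟩ : ∃ m, m ∣ Φ q e ∧ Φ q e ≤ e * m ∧ ∀ s, s.Prime → s ∣ m → ¬ s ∣ e := by
    by_cases h4 : ∃ r, r.Prime ∧ r ∣ Φ q e ∧ r ∣ e
    · obtain ⟨r, hr, ⟨m, hm⟩, h5⟩ := h4
      refine ⟨m, ⟨r, by rw [hm, mul_comm]⟩, hm ▸ Nat.mul_le_mul_right _ (Nat.le_of_dvd (by omega) h5),
        fun s hs h6 h7 => ?_⟩
      have h8 : s ∣ Φ q e := hm ▸ h6.mul_left _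
      obtain rfl : s = r := le_antisymm (lemB1 hq (by omega) hr hs ⟨m, hm⟩ h7)
        (lemB1 hq (by omega) hs hr h8 h5)
      exact lemB2 hq he hs h8 h7 (by rw [hm, pow_two]; exact Nat.mul_dvd_mul_left _ h6)
    · exact ⟨_, dvd_rfl, Nat.le_mul_of_pos_left _ (by omega), fun s hs h5 h6 => h4 ⟨s, hs, h5, h6⟩⟩
  refine ⟨m, h1.trans ?_, fun i h4 h5 => ?_, Nat.le_of_mul_le_mul_left (h.trans h2) (by omega)⟩
  · have := eval_dvd (x := (q : ℤ)) (cyclotomic.dvd_X_pow_sub_one e ℤ)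
    simp only [eval_sub, eval_pow, eval_X, eval_one, ← cast_Φ hq] at this
    rw [← Int.natCast_dvd_natCast, Nat.cast_sub (Nat.one_le_pow _ _ (by omega))]
    simpa using this
  · by_contra h6
    obtain ⟨s, hs, h7, h8⟩ := Nat.Prime.not_coprime_iff_dvd.mp h6
    exact lemA hq hs (h7.trans h1) (h3 s hs h7) h4 h5 h8

lemma low {q : ℕ} (hq : 2 ≤ q) (e : ℕ) : (q - 1) ^ e.totient ≤ Φ q e := by
  have := sub_one_pow_totient_le_cyclotomic_eval (q := (q : ℝ)) (by exact_mod_cast (by omega : 1 < q)) e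
  rw [← real_Φ hq] at this
  rw [← Nat.cast_le (α := ℝ), Nat.cast_pow, Nat.cast_sub (by omega), Nat.cast_one]
  exact this

lemma high {q : ℕ} (hq : 2 ≤ q) (e : ℕ) : Φ q e ≤ (q + 1) ^ e.totient := by
  have := cyclotomic_eval_le_add_one_pow_totient (q := (q : ℝ)) (by exact_mod_cast (by omega : 1 < q)) e
  rw [← real_Φ hq] at this
  exact_mod_cast this

lemma pow_ineq (r : ℕ) : 2 ^ (r + 2) ≤ (2 ^ (r + 2) - 1) ^ 2 ∧ 9 * 2 ^ (r + 2) ≤ (2 ^ (r + 3) - 1) ^ 2 := by
  obtain ⟨x, hx⟩ : ∃ x, 2 ^ r = x + 1 := ⟨2 ^ r - 1, by have := Nat.one_le_two_pow (n := r); omega⟩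
  rw [pow_add, pow_add, hx, show (x + 1) * 2 ^ 2 - 1 = 4 * x + 3 by omega,
    show (x + 1) * 2 ^ 3 - 1 = 8 * x + 7 by omega]
  constructor <;> nlinarith

lemma low2 {q e : ℕ} (hq : 2 ≤ q) (he : 3 ≤ e) : 2 ^ e.totient ≤ Φ q e ^ 2 := by
  rcases hq.eq_or_lt with rfl | hq3
  · obtain ⟨r, hr, ⟨f, rfl⟩, h⟩ : ∃ r, r.Prime ∧ r ∣ e ∧ (r ∣ e / r ∨ 3 ≤ r) := by
      obtain ⟨k, m, hm, rfl⟩ := Nat.exists_eq_two_pow_mul_odd (by omega : e ≠ 0)
      by_cases h1 : m = 1
      · subst h1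
        rcases k with _ | _ | k
        · simp at he
        · simp at he
        · exact ⟨2, Nat.prime_two, ⟨2 ^ (k + 1), by ring⟩, .inl ⟨2 ^ k, by
            rw [Nat.div_eq_iff_eq_mul_left (by norm_num) ⟨2 ^ (k + 1), by ring⟩]; ring⟩⟩
      · obtain ⟨r, hr, h2⟩ := Nat.exists_prime_and_dvd h1
        refine ⟨r, hr, h2.mul_left _, .inr ?_⟩
        have := hr.two_le
        have : r ≠ 2 := by rintro rfl; exact (Nat.not_even_iff_odd.mpr hm) (even_iff_two_dvd.mpr h2)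
        omega
    rw [Nat.mul_div_cancel_left _ hr.pos] at h
    have h2r : 2 ≤ 2 ^ r := Nat.le_self_pow hr.ne_zero 2
    have h0 := low h2r f
    by_cases h1 : r ∣ f
    · have h2 := congrArg (eval (2 : ℤ)) (cyclotomic_expand_eq_cyclotomic hr h1 ℤ)
      have h3 : Φ (2 ^ r) f = Φ 2 (r * f) := by
        rw [Φ, Φ, mul_comm r f]; congr 1; simpa using h2
      obtain ⟨r, rfl⟩ := Nat.exists_eq_add_of_le' hr.two_le
      rw [← h3, Nat.totient_mul_of_prime_of_dvd hr h1, pow_mul]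
      refine (Nat.pow_le_pow_left (pow_ineq r).1 _).trans ?_
      rw [← pow_mul, mul_comm, pow_mul]
      exact Nat.pow_le_pow_left h0 _
    · have h2 := congrArg (eval (2 : ℤ)) (cyclotomic_expand_eq_cyclotomic_mul hr h1 ℤ)
      have h3 : Φ (2 ^ r) f = Φ 2 (r * f) * Φ 2 f := by
        rw [Φ, Φ, Φ, mul_comm r f, ← Int.natAbs_mul]; congr 1; simpa using h2
      obtain ⟨r, rfl⟩ := Nat.exists_eq_add_of_le' (h.resolve_left h1)
      rw [Nat.totient_mul_of_prime_of_not_dvd hr h1, pow_mul]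
      have h4 := Nat.pow_le_pow_left (pow_ineq r).2 f.totient
      have h5 := Nat.pow_le_pow_left (h0.trans (h3.trans_le (Nat.mul_le_mul_left _ (high le_rfl f)))) 2
      rw [← pow_mul, mul_comm 2, mul_pow] at h4
      rw [← pow_mul, mul_pow, ← pow_mul (2 + 1), mul_comm _ 2, pow_mul (2 + 1), mul_comm 2,
        mul_comm (_ ^ 2)] at h5
      exact Nat.le_of_mul_le_mul_left (h4.trans h5) (by positivity)
  · refine (Nat.pow_le_pow_left (by omega) _).trans ((low hq e).trans (Nat.le_self_pow (by norm_num) _))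

lemma tot (n : ℕ) : n ≤ (if Even n then 2 else 1) * n.totient ^ 2 := by
  induction n using Nat.recOnPosPrimePosCoprime with
  | prime_pow p k hp hk =>
    obtain ⟨k, rfl⟩ := Nat.exists_eq_add_of_le' hk
    rw [Nat.totient_prime_pow_succ hp, pow_succ]
    have h1 : 1 ≤ p ^ k := Nat.one_le_pow _ _ hp.pos
    rcases hp.eq_two_or_odd' with rfl | h
    · rw [if_pos (by simp)]; simp only [Nat.add_one_sub_one, mul_one]; nlinarith
    · rw [if_neg (Nat.not_even_iff_odd.mpr (h.pow.mul h))]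
      obtain ⟨j, rfl⟩ := h
      have : 1 ≤ j := by have := hp.two_le; omega
      simp only [Nat.add_one_sub_one, one_mul, mul_pow]
      exact Nat.mul_le_mul (by nlinarith) (by nlinarith)
  | zero => simp
  | one => simp
  | coprime a b ha hb hab iha ihb =>
    rw [Nat.totient_mul hab]
    refine (Nat.mul_le_mul iha ihb).trans (le_of_eq ?_)
    by_cases h1 : Even a <;> by_cases h2 : Even b
    · exact absurd (Nat.eq_one_of_dvd_coprimes hab h1.two_dvd h2.two_dvd) (by norm_num)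
    all_goals simp [h1, h2, Nat.even_mul]; ring

lemma big (n : ℕ) : (2 * (n + 54) ^ 2 * (3 * (2 * (n + 54) ^ 2) + 1)) ^ 2 ≤ 2 ^ (n + 54) := by
  have : 169 * (n + 54) ^ 8 ≤ 2 ^ (n + 54) := by
    induction n with
    | zero => norm_num
    | succ n ih =>
      have h1 : (54 * (n + 1 + 54)) ^ 8 ≤ (55 * (n + 54)) ^ 8 := Nat.pow_le_pow_left (by omega) _
      rw [mul_pow, mul_pow] at h1
      rw [show n + 1 + 54 = n + 54 + 1 by ring] at h1 ⊢
      rw [pow_succ 2]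
      generalize 2 ^ (n + 54) = a, (n + 54) ^ 8 = b, (n + 54 + 1) ^ 8 = c at *
      omega
  refine le_trans ?_ this
  rw [show 169 * (n + 54) ^ 8 = (13 * (n + 54) ^ 4) ^ 2 by ring]
  refine Nat.pow_le_pow_left ?_ _
  have h2 : 2 ≤ (n + 54) ^ 2 := le_trans (by omega) (Nat.le_self_pow (by norm_num) _)
  generalize hx : (n + 54) ^ 2 = x at h2 ⊢
  rw [show (n + 54) ^ 4 = x ^ 2 by rw [← hx]; ring]
  nlinarith

noncomputable def cnt (e n : ℕ) : ℕ → ℕ := Nat.rec (motive := fun _ => ℕ → ℕ) (fun a => a) (fun n ih a =>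
  Bool.rec (ih a) (ih (Nat.succ a)) (Nat.beq (Nat.gcd e n) 1)) n

lemma cnt_eq (e n a : ℕ) : cnt e n a = ((Finset.range n).filter e.Coprime).card + a := by
  induction n generalizing a with
  | zero => simp [cnt]
  | succ n ih =>
    have : cnt e (n + 1) a = Bool.rec (cnt e n a) (cnt e n (a + 1)) (Nat.beq (Nat.gcd e n) 1) := rfl
    rw [this, Finset.range_add_one, Finset.filter_insert, ih, ih]
    split_ifs with h
    · rw [Finset.card_insert_of_notMem (by simp), show Nat.beq (Nat.gcd e n) 1 = true from Nat.beq_eq ▸ h]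
      simp only; omega
    · rw [Bool.eq_false_iff.mpr (fun h' => h (Nat.eq_of_beq_eq_true h'))]

lemma cnt_tot (e : ℕ) : cnt e e 0 = e.totient := cnt_eq _ _ _

noncomputable def all (f : ℕ → Bool) (n : ℕ) : Bool := Nat.rec true (fun n ih => Bool.rec false ih (f n)) n

lemma all_spec {f : ℕ → Bool} {n : ℕ} (h : all f n = true) : ∀ i < n, f i = true := by
  induction n with
  | zero => simp
  | succ n ih =>
    have h' : (Bool.rec false (all f n) (f n) : Bool) = true := h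
    intro i hi
    cases h1 : f n
    · rw [h1] at h'; cases h'
    · rw [h1] at h'
      rcases Nat.lt_succ_iff_lt_or_eq.mp hi with h2 | rfl
      exacts [ih h' i h2, h1]

noncomputable def P (q n : ℕ) : ℕ := Nat.rec 1 (fun n ih => (q ^ (n + 1) - 1) * ih) n

lemma P_eq (q n : ℕ) : P q n = ∏ i ∈ Finset.range n, (q ^ (i + 1) - 1) := by
  induction n with
  | zero => rfl
  | succ n ih => rw [Finset.prod_range_succ_comm, ← ih]; rfl

def E : List (ℕ × ℕ) := [(2, 6), (2, 4), (2, 10), (2, 12), (2, 18), (3, 4), (3, 6), (5, 6), (2, 3), (2, 8), (2, 20), (4, 3), (4, 6)]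

lemma c1 : all (fun a => all (fun b => Nat.ble 54 (cnt (100 * a + b + 300) 300 0)) 100) 54 = true := by
  decide +kernel

lemma c2 : all (fun e => decide (3 ≤ e → e * (3 * e + 1) ≤ 11 ^ cnt e e 0)) 300 = true := by
  decide +kernel

lemma c3 : all (fun e => decide (e < 3 ∨ 54 ≤ cnt e e 0) || all (fun q => decide (q < 2 ∨ (q, e) ∈ E) ||
    decide (((q ^ e - 1) / (q ^ e - 1).gcd (P q (e - 1) ^ 2)).Coprime (P q (e - 1)) ∧
      3 * e + 1 ≤ (q ^ e - 1) / (q ^ e - 1).gcd (P q (e - 1) ^ 2))) 12) 300 = true := by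
  decide +kernel

lemma c4 : ∀ x ∈ E, ∃ b ∈ Finset.Icc 1 (2 * x.2 + 1), x.1 ^ x.2 - 1 ∣ b * P x.1 (x.2 - 1) ^ 2 := by
  decide +kernel

/-- Size of the primitive part of `q^e - 1`. For a prime power `q` and `e ≥ 3`, call a divisor of `q^e - 1` primitive when it is coprime to `q^i - 1` for every `1 ≤ i < e`; the primitive part is the largest primitive divisor. Apart from thirteen exceptional pairs, the primitive part is at least `3e + 1`: there is a primitive divisor `m ≥ 3e + 1` unless `(q, e)` is `(2, 6)` (where every primitive divisor is 1), one of `(2,4), (2,10), (2,12), (2,18), (3,4), (3,6), (5,6)` (where the primitive part is exactly `e + 1`), or one of `(2,3), (2,8), (2,20), (4,3), (4,6)` (where it is exactly `2e + 1`). The statement asserts the existence of a primitive divisor `m ≥ 3e + 1` outside the thirteen pairs, and that every primitive divisor is at most `2e + 1` for the thirteen pairs. -/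
theorem result (q e : ℕ) (hq : IsPrimePow q) (he : 3 ≤ e) :
    ((q, e) ∉ [(2, 6), (2, 4), (2, 10), (2, 12), (2, 18), (3, 4), (3, 6), (5, 6), (2, 3), (2, 8), (2, 20), (4, 3), (4, 6)] →
      ∃ m : ℕ, m ∣ q ^ e - 1 ∧ (∀ i : ℕ, 1 ≤ i → i < e → Nat.Coprime m (q ^ i - 1)) ∧ 3 * e + 1 ≤ m) ∧
    ((q, e) ∈ [(2, 6), (2, 4), (2, 10), (2, 12), (2, 18), (3, 4), (3, 6), (5, 6), (2, 3), (2, 8), (2, 20), (4, 3), (4, 6)] →
      ∀ m : ℕ, m ∣ q ^ e - 1 → (∀ i : ℕ, 1 ≤ i → i < e → Nat.Coprime m (q ^ i - 1)) → m ≤ 2 * e + 1) := by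
  have h2 := hq.two_le
  refine ⟨fun h => ?_, fun h m h1 h3 => ?_⟩
  · have ht : e ≤ 2 * e.totient ^ 2 := (tot e).trans (Nat.mul_le_mul_right _ (by split_ifs <;> omega))
    by_cases h4 : e.totient < 54
    · have h5 : e < 300 := by
        by_contra h5
        have h6 := all_spec (all_spec c1 ((e - 300) / 100) (by have : e ≤ 5618 := (by nlinarith); omega))
          ((e - 300) % 100) (Nat.mod_lt _ (by norm_num))
        rw [Nat.ble_eq, Nat.div_add_mod, Nat.sub_add_cancel (not_lt.mp h5), cnt_eq] at h6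
        have h7 : ((Finset.range 300).filter e.Coprime).card ≤ e.totient :=
          Finset.card_le_card (Finset.filter_subset_filter _ (Finset.range_mono (by omega)))
        omega
      by_cases h6 : q < 12
      · have h7 := all_spec c3 e h5
        rw [Bool.or_eq_true, decide_eq_true_eq, cnt_tot] at h7
        have h8 := all_spec (h7.resolve_left (by omega)) q h6
        rw [Bool.or_eq_true, decide_eq_true_eq, decide_eq_true_eq] at h8
        obtain ⟨h9, h10⟩ := h8.resolve_left (fun h9 => h9.elim (by omega) h)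
        refine ⟨_, Nat.div_dvd_of_dvd (Nat.gcd_dvd_left _ _), fun i h11 h12 =>
          h9.coprime_dvd_right ?_, h10⟩
        obtain ⟨i, rfl⟩ := Nat.exists_eq_add_of_le' h11
        rw [P_eq]
        exact Finset.dvd_prod_of_mem (fun i => q ^ (i + 1) - 1) (Finset.mem_range.mpr (by omega))
      · have h7 := of_decide_eq_true (all_spec c2 e h5) he
        rw [cnt_tot] at h7
        exact main h2 he (h7.trans ((Nat.pow_le_pow_left (by omega) _).trans (low h2 e)))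
    · obtain ⟨n, hn⟩ := Nat.exists_eq_add_of_le' (not_lt.mp h4)
      refine main h2 he ((Nat.pow_le_pow_iff_left (n := 2) (by norm_num)).mp (le_trans ?_ (low2 h2 he)))
      rw [hn] at ht ⊢
      exact (Nat.pow_le_pow_left (Nat.mul_le_mul ht (by omega)) _).trans (big n)
  · obtain ⟨b, hb, h4⟩ := c4 _ h
    rw [Finset.mem_Icc] at hb
    have h5 : m.Coprime (P q (e - 1) ^ 2) := by
      rw [P_eq]
      exact (Nat.Coprime.prod_right fun i hi =>
        h3 _ (by omega) (by have := Finset.mem_range.mp hi; omega)).pow_right 2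
    exact (Nat.le_of_dvd hb.1 (h5.dvd_of_dvd_mul_right (h1.trans h4))).trans hb.2

end Cfsg.Agent.S4423
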