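import Cfsg.Statements.S5014
import Cfsg.Agent.H8.RankOne

set_option autoImplicit false
open Cfsg

namespace Cfsg.Agent.S5014

open Cfsg.Agent.H8

/-- Let X = ⟨A, B⟩ be a rank one group with unipotent subgroups A and B and let Ω be the set of conjugates of A under X. Then Ω has at least three members, X acts doubly transitively on Ω by conjugation (any two ordered pairs of distinct members are carried to one another by a single element of X), and A acts regularly on Ω with A removed: for C, D in Ω different from A there is exactly one element of A conjugating C to D. -/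
theorem result {G : Type*} [Group G] {A B : Subgroup G} (h : Cfsg.IsRankOnePair A B) :
    (∃ C₁ ∈ Cfsg.unipotentSubgroups A B, ∃ C₂ ∈ Cfsg.unipotentSubgroups A B, ∃ C₃ ∈ Cfsg.unipotentSubgroups A B,
      C₁ ≠ C₂ ∧ C₁ ≠ C₃ ∧ C₂ ≠ C₃) ∧
    (∀ C₁ ∈ Cfsg.unipotentSubgroups A B, ∀ C₂ ∈ Cfsg.unipotentSubgroups A B, ∀ D₁ ∈ Cfsg.unipotentSubgroups A B,
      ∀ D₂ ∈ Cfsg.unipotentSubgroups A B, C₁ ≠ C₂ → D₁ ≠ D₂ →
        ∃ x ∈ A ⊔ B, Cfsg.conjBy C₁ x = D₁ ∧ Cfsg.conjBy C₂ x = D₂) ∧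
    (∀ C ∈ Cfsg.unipotentSubgroups A B, ∀ D ∈ Cfsg.unipotentSubgroups A B, C ≠ A → D ≠ A →
      ∃! a : G, a ∈ A ∧ Cfsg.conjBy C a = D) := by
  refine ⟨?_, ?_, ?_⟩
  · obtain ⟨a, ha, ha1⟩ := RO.exists_left h
    exact ⟨A, RO.left_mem_omega, B, RO.right_mem_omega h, a • B, RO.smul_right_mem_omega h ha,
      h.ne, (RO.smul_ne_left h ha).symm, (RO.smul_ne_right h ha ha1).symm⟩
  · intro C₁ hC₁ C₂ hC₂ D₁ hD₁ D₂ hD₂ hC hD
    obtain ⟨x, hx, rfl, rfl⟩ := RO.exists_smul_pair h hC₁ hC₂ hC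
    obtain ⟨y, hy, rfl, rfl⟩ := RO.exists_smul_pair h hD₁ hD₂ hD
    exact ⟨y * x⁻¹, Subgroup.mul_mem _ hy (Subgroup.inv_mem _ hx), by simp [conjBy_eq, mul_smul],
      by simp [conjBy_eq, mul_smul]⟩
  · intro C hC D hD hCA hDA
    obtain ⟨a, ha, e⟩ := RO.exists_smul_eq h hC hD hCA hDA
    refine ⟨a, ⟨ha, e⟩, ?_⟩
    rintro a' ⟨ha', e'⟩
    exact RO.smul_inj (RO.of_mem_omega h RO.left_mem_omega hC hCA.symm) ha' ha (e'.trans e.symm)

end Cfsg.Agent.S5014
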