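import Cfsg.Statements.S5015
import Cfsg.Agent.H8.RankOne

set_option autoImplicit false
open Cfsg

namespace Cfsg.Agent.S5015

open Cfsg.Agent.H8

/-- Let a group Y act doubly transitively on a set Ω with at least three points, and suppose that the stabilizer of a point α contains a nilpotent subgroup A, normalized by that stabilizer, which acts regularly on the points other than α. Then for any y in Y moving α, the subgroups A and y A y⁻¹ are the unipotent subgroups of a rank one group, and the normal closure of A in Y (the subgroup generated by all conjugates of A) is generated by A and y A y⁻¹ alone. -/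
theorem result {Y Ω : Type*} [Group Y] [MulAction Y Ω]
    (h2 : MulAction.IsMultiplyPretransitive Y Ω 2) (hΩ : 3 ≤ ENat.card Ω) (α : Ω) (A : Subgroup Y)
    (hA : A ≤ MulAction.stabilizer Y α) (hAn : ∀ y ∈ MulAction.stabilizer Y α, Cfsg.conjBy A y = A)
    (hnil : Group.IsNilpotent A) (hreg : ∀ β γ : Ω, β ≠ α → γ ≠ α → ∃! a : Y, a ∈ A ∧ a • β = γ)
    (y : Y) (hy : y ∉ MulAction.stabilizer Y α) :
    Cfsg.IsRankOnePair A (Cfsg.conjBy A y) ∧ Subgroup.normalClosure (A : Set Y) = A ⊔ Cfsg.conjBy A y := by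
  classical
  have hAn' : ∀ z : Y, z • α = α → z • A = A := fun z hz => hAn z hz
  -- `z • A` only depends on `z • α`
  have hdep : ∀ z w : Y, z • α = w • α → z • A = w • A := by
    intro z w e
    have : (w⁻¹ * z) • α = α := by rw [mul_smul, e]; simp
    have := hAn' _ this
    rw [mul_smul, inv_smul_eq_iff] at this
    exact this
  have hAfix : ∀ a ∈ A, a • α = α := fun a ha => hA ha
  have hfree : ∀ a ∈ A, ∀ β : Ω, β ≠ α → a • β = β → a = 1 := by
    intro a ha β hβ e
    exact (hreg β β hβ hβ).unique ⟨ha, e⟩ ⟨A.one_mem, by simp⟩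
  have hyα : y • α ≠ α := hy
  -- a third point
  have h3 : ∀ β : Ω, ∃ γ : Ω, γ ≠ α ∧ γ ≠ β := by
    intro β
    by_contra hh
    push Not at hh
    have : (Set.univ : Set Ω) ⊆ {α, β} := by
      intro γ _
      by_cases h1 : γ = α
      · left; exact h1
      · right; exact hh γ h1
    have h1 := Set.encard_le_encard this
    rw [Set.encard_univ] at h1
    have h2 : ({α, β} : Set Ω).encard ≤ 2 := by
      calc ({α, β} : Set Ω).encard ≤ ({β} : Set Ω).encard + 1 := Set.encard_insert_le _ _
        _ = 2 := by rw [Set.encard_singleton]; rfl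
    have := hΩ.trans (h1.trans h2)
    exact absurd this (by decide)
  -- the general condition
  have cond : ∀ z w : Y, z • α ≠ w • α → RankOneCondition (z • A) (w • A) := by
    intro z w hzw
    rw [cond_iff]
    intro a0 ha0 ha1
    obtain ⟨a, ha, rfl⟩ := mem_smul_iff'.1 ha0
    have ha1' : a ≠ 1 := by rintro rfl; simp at ha1
    have h1 : (w⁻¹ * z) • α ≠ α := by
      intro e; apply hzw; rw [mul_smul, inv_smul_eq_iff] at e; exact e
    have h1' : (z⁻¹ * w) • α ≠ α := by
      intro e; apply hzw; rw [mul_smul, inv_smul_eq_iff] at e; exact e.symm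
    have h2 : (w⁻¹ * (z * a * z⁻¹) * w) • α ≠ α := by
      intro e
      apply ha1'
      apply hfree a ha _ h1'
      have : (z⁻¹ * w) • (w⁻¹ * (z * a * z⁻¹) * w) • α = (z⁻¹ * w) • α := by rw [e]
      rw [← mul_smul] at this
      rw [← mul_smul, ← this]
      congr 1; group
    obtain ⟨b, ⟨hb, e⟩, -⟩ := hreg _ _ h1 h2
    refine ⟨w * b * w⁻¹, conj_mem_smul hb w, ?_, ?_⟩
    · intro hb1
      have hb1' : b = 1 := by
        have : b = w⁻¹ * (w * b * w⁻¹) * w := by group
        rw [this, hb1]; simp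
      rw [hb1', one_smul] at e
      apply h1'
      have e2 : (a⁻¹ * z⁻¹ * w) • (w⁻¹ * z) • α = (a⁻¹ * z⁻¹ * w) • (w⁻¹ * (z * a * z⁻¹) * w) • α := by
        rw [e]
      rw [← mul_smul, ← mul_smul] at e2
      have e3 : a⁻¹ * z⁻¹ * w * (w⁻¹ * (z * a * z⁻¹) * w) = z⁻¹ * w := by group
      have e4 : a⁻¹ * z⁻¹ * w * (w⁻¹ * z) = a⁻¹ := by group
      rw [e3, e4, hAfix _ (A.inv_mem ha)] at e2
      exact e2.symm
    · rw [← mul_smul, ← mul_smul]
      apply hdep
      have : w • b • (w⁻¹ * z) • α = w • (w⁻¹ * (z * a * z⁻¹) * w) • α := by rw [e]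
      rw [← mul_smul, ← mul_smul, ← mul_smul] at this
      convert this using 2 <;> group
  have hne : A ≠ y • A := by
    intro e
    obtain ⟨γ, hγ1, hγ2⟩ := h3 (y • α)
    obtain ⟨a, ⟨ha, e'⟩, -⟩ := hreg _ _ hyα hγ1
    rw [e, mem_smul_iff] at ha
    have := hAfix _ ha
    apply hγ2
    rw [← e', mul_smul, mul_smul, inv_smul_eq_iff] at *
    exact this
  have hro : IsRankOnePair A (y • A) := by
    refine ⟨hne, hnil, isNilpotent_smul y hnil, ?_, ?_⟩
    · simpa using cond 1 y (by simpa using hyα.symm)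
    · simpa using cond y 1 (by simpa using hyα)
  refine ⟨hro, le_antisymm ?_ (sup_le Subgroup.le_normalClosure ?_)⟩
  · rw [Subgroup.normalClosure, Subgroup.closure_le]
    intro x hx
    obtain ⟨a, ha, hc⟩ := Group.mem_conjugatesOfSet_iff.1 hx
    obtain ⟨z, rfl⟩ := isConj_iff.1 hc
    have hz : z • A ≤ A ⊔ y • A := by
      by_cases hz : z • α = α
      · rw [hAn' z hz]; exact le_sup_left
      · obtain ⟨a', ⟨ha', e⟩, -⟩ := hreg _ _ hyα hz
        rw [← mul_smul] at e
        rw [← hdep _ _ e, mul_smul]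
        exact smul_le_of_mem (Subgroup.mem_sup_left ha') le_sup_right
    exact hz (conj_mem_smul ha z)
  · rw [conjBy_eq]
    have := smul_mono' y (Subgroup.le_normalClosure (H := A))
    rwa [smul_eq_of_normal y (Subgroup.normalClosure (A : Set Y))] at this

end Cfsg.Agent.S5015
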