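import Cfsg.Statements.S5017
import Cfsg.Agent.H8.RankOne

set_option autoImplicit false
open Cfsg

namespace Cfsg.Agent.S5017

open Cfsg.Agent.H8

/-- Let X be a rank one group with unipotent subgroups A and B and N a normal subgroup of X. Then either X = N A or N lies in the centre of X. Consequently a perfect rank one group is quasisimple. -/
theorem result {X : Type*} [Group X] {A B : Subgroup X} (h : Cfsg.IsRankOneGroup X A B) :
    (∀ N : Subgroup X, N.Normal → N ⊔ A = ⊤ ∨ N ≤ Subgroup.center X) ∧
    (Group.IsPerfect X → Cfsg.IsQuasisimple X) := by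
  refine ⟨fun N hN => RO.normal_dichotomy_top h.2 h.1 N, fun hp => ⟨hp, ?_⟩⟩
  have hnt : Nontrivial (X ⧸ Subgroup.center X) := by
    rw [QuotientGroup.nontrivial_iff]
    intro hc
    apply RO.not_cm h.2
    intro a _ b _
    have : a ∈ Subgroup.center X := by rw [hc]; trivial
    exact (Subgroup.mem_center_iff.1 this b).symm
  refine ⟨fun N hN => ?_⟩
  let K := N.comap (QuotientGroup.mk' (Subgroup.center X))
  rcases RO.normal_dichotomy_top h.2 h.1 K with h1 | h1
  · right
    have hK : K = ⊤ := by
      have hnil := h.2.nilpotent_left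
      have hsurj : Function.Surjective ((QuotientGroup.mk' K).comp A.subtype) := by
        intro q
        obtain ⟨x, rfl⟩ := QuotientGroup.mk'_surjective K q
        have hx : x ∈ K ⊔ A := by rw [h1]; trivial
        obtain ⟨k, hk, a, ha, rfl⟩ := (mem_sup_of_normalizes (fun a _ => smul_eq_of_normal a K)).1 hx
        refine ⟨⟨a, ha⟩, ?_⟩
        simp [(QuotientGroup.eq_one_iff k).2 hk]
      have hq : Group.IsNilpotent (X ⧸ K) := Group.nilpotent_of_surjective _ hsurj
      by_contra hne
      have : Nontrivial (X ⧸ K) := QuotientGroup.nontrivial_iff.2 hne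
      exact Group.IsPerfect.not_isNilpotent (G := X ⧸ K) hq
    rw [← Subgroup.map_comap_eq_self_of_surjective (QuotientGroup.mk'_surjective _) N]
    change K.map _ = ⊤
    rw [hK, ← MonoidHom.range_eq_map, MonoidHom.range_eq_top]
    exact QuotientGroup.mk'_surjective _
  · left
    rw [Subgroup.eq_bot_iff_forall]
    intro q hq
    obtain ⟨x, rfl⟩ := QuotientGroup.mk'_surjective _ q
    exact (QuotientGroup.eq_one_iff x).2 (h1 hq)

end Cfsg.Agent.S5017
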