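import Cfsg.Statements.S5018
import Cfsg.Agent.H8.RankOne

set_option autoImplicit false
open Cfsg

namespace Cfsg.Agent.S5018

open Cfsg.Agent.H8

/-- A rank one group is not nilpotent, and its second centre equals its centre. -/
theorem result {X : Type*} [Group X] {A B : Subgroup X} (h : Cfsg.IsRankOneGroup X A B) :
    Subgroup.upperCentralSeries X 2 = Subgroup.center X ∧ ¬ Group.IsNilpotent X := by
  have key : Subgroup.upperCentralSeries X 2 = Subgroup.center X := by
    refine le_antisymm ?_ ?_
    · rcases RO.normal_dichotomy_top h.2 h.1 (Subgroup.upperCentralSeries X 2) with h1 | h1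
      · exfalso
        obtain ⟨x, -, e⟩ := RO.exists_smul_eq_right h.2
        have hx : x ∈ Subgroup.upperCentralSeries X 2 ⊔ A := by rw [h1]; trivial
        obtain ⟨z, hz, a, ha, rfl⟩ := (mem_sup_of_normalizes (fun a _ => smul_eq_of_normal a _)).1 hx
        rw [mul_smul, smul_eq_of_mem ha] at e
        obtain ⟨b, hb, hb1⟩ := RO.exists_right h.2
        apply hb1
        apply RO.eq_one_of_smul_eq' h.2 hb
        rw [e] at hb
        obtain ⟨a', ha', rfl⟩ := mem_smul_iff'.1 hb
        have hc := Subgroup.mem_upperCentralSeries_succ_iff.1 hz a'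
        rw [Subgroup.upperCentralSeries_one] at hc
        have : z * a' * z⁻¹ = (z * a' * z⁻¹ * a'⁻¹) * a' := by group
        rw [this, mul_smul, smul_eq_of_mem ha']
        exact smul_eq_of_commute (fun y _ => (Subgroup.mem_center_iff.1 hc y).symm)
      · exact h1
    · rw [← Subgroup.upperCentralSeries_one]
      exact Subgroup.upperCentralSeries_mono X (by norm_num)
  refine ⟨key, fun hn => ?_⟩
  have := Subgroup.upperCentralSeries.eq_top (G := X) (a := 1) (b := 2) (by norm_num)
    (by rw [key, Subgroup.upperCentralSeries_one])
  rw [Subgroup.upperCentralSeries_one] at this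
  apply RO.not_cm h.2
  intro a _ b _
  have : a ∈ Subgroup.center X := by rw [this]; trivial
  exact (Subgroup.mem_center_iff.1 this b).symm

end Cfsg.Agent.S5018
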