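import Cfsg.Statements.S5020
import Cfsg.Agent.H8.SL2b
import Cfsg.Agent.S5017
import Cfsg.Agent.L.Subnormal

set_option autoImplicit false
open Cfsg

namespace Cfsg.Agent.S5020

open Cfsg.Agent.H8

theorem eq_zpowers {X : Type*} [Group X] {A : Subgroup X} {p : ℕ} (hp : p.Prime)
    (hA : Nat.card A = p) {a : X} (ha : a ∈ A) (ha1 : a ≠ 1) : A = Subgroup.zpowers a := by
  haveI := Fact.mk hp
  have := zpowers_eq_top_of_prime_card hA (g := ⟨a, ha⟩) (by simpa using ha1)
  have h2 := congrArg (Subgroup.map A.subtype) this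
  rw [MonoidHom.map_zpowers, ← MonoidHom.range_eq_map, Subgroup.range_subtype] at h2
  exact h2.symm

theorem small {X : Type*} [Group X] {A B : Subgroup X} (h : Cfsg.IsRankOneGroup X A B)
    (hs : Cfsg.IsSpecialRankOnePair A B) (hab : Cfsg.HasAbelianUnipotents A B) (p : ℕ)
    [hp : Fact p.Prime] (hA : Nat.card A = p) :
    ∃ φ : Matrix.SpecialLinearGroup (Fin 2) (ZMod p) →* X, φ.ker ≤ Subgroup.center _ ∧
      φ.range = ⊤ := by
  obtain ⟨a, ha, ha1⟩ := RO.exists_left h.2
  have hap : a ^ p = 1 := by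
    have := pow_card_eq_one' (x := (⟨a, ha⟩ : A))
    rw [hA] at this
    exact congrArg Subtype.val this
  obtain ⟨φ, hk, -, -, hr⟩ := SP.exists_hom_prime hs (cm_self_iff.2 hab.1) ha ha1 hap
  refine ⟨φ, hk, ?_⟩
  obtain ⟨hb, hb1, -⟩ := SP.pb_spec h.2 ha ha1
  have hB : Nat.card B = p := by
    obtain ⟨x, -, e⟩ := RO.exists_smul_eq_right h.2
    rw [e, nat_card_smul, hA]
  rw [hr, eq_top_iff, ← h.1, sup_le_iff]
  constructor
  · rw [eq_zpowers hp.out hA ha ha1, Subgroup.zpowers_le]
    exact Subgroup.subset_closure (by simp)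
  · refine (eq_zpowers hp.out hB hb hb1).le.trans ?_
    rw [Subgroup.zpowers_le]
    exact Subgroup.subset_closure (by simp)

/-- Let X be a special rank one group with abelian unipotent subgroups A and B, and H = N(A) ∩ N(B) its diagonal subgroup. Then either A has at most three elements and X is isomorphic to SL₂(2), SL₂(3) or PSL₂(3); or X = X' A with the commutator subgroup X' quasisimple and the commutator subgroup ⁅A, H⁆ having more than three elements. -/
theorem result {X : Type*} [Group X] {A B : Subgroup X} (h : Cfsg.IsRankOneGroup X A B)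
    (hs : Cfsg.IsSpecialRankOnePair A B) (hab : Cfsg.HasAbelianUnipotents A B) :
    (ENat.card A ≤ 3 ∧ (Nonempty (X ≃* Matrix.SpecialLinearGroup (Fin 2) (ZMod 2)) ∨
        Nonempty (X ≃* Matrix.SpecialLinearGroup (Fin 2) (ZMod 3)) ∨
        Nonempty (X ≃* Matrix.ProjectiveSpecialLinearGroup (Fin 2) (ZMod 3)))) ∨
    (commutator X ⊔ A = ⊤ ∧ Cfsg.IsQuasisimple (commutator X) ∧
      3 < ENat.card ↥(⁅A, Cfsg.rankOneDiagonal A B⁆ : Subgroup X)) := by
  have hA : Cm A A := cm_self_iff.2 hab.1
  by_cases h3 : ENat.card A ≤ 3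
  · left
    refine ⟨h3, ?_⟩
    have hfin : Finite A := by
      rw [← ENat.card_lt_top]
      exact h3.trans_lt (by decide)
    have h1 : 1 < Nat.card A := (Subgroup.one_lt_card_iff_ne_bot A).2 (RO.left_ne_bot h.2)
    have h4 : Nat.card A ≤ 3 := by
      rw [ENat.card_eq_coe_natCard] at h3
      exact_mod_cast h3
    have : Nat.card A = 2 ∨ Nat.card A = 3 := by omega
    rcases this with h2 | h2
    · left
      obtain ⟨φ, hk, hr⟩ := small h hs hab 2 h2
      have : φ.ker = ⊥ := by
        rw [Subgroup.eq_bot_iff_forall]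
        intro z hz
        rcases mem_center_SL2 (hk hz) with e | e
        · exact e
        · rw [e]; decide
      exact ⟨(MulEquiv.ofBijective φ ⟨(MonoidHom.ker_eq_bot_iff φ).1 this,
        MonoidHom.range_eq_top.1 hr⟩).symm⟩
    · right
      haveI := Fact.mk Nat.prime_three
      obtain ⟨φ, hk, hr⟩ := small h hs hab 3 h2
      have e : X ≃* φ.range := Subgroup.topEquiv.symm.trans (MulEquiv.subgroupCongr hr.symm)
      rcases range_iso_of_ker_le_center φ hk with ⟨⟨f⟩⟩ | ⟨⟨f⟩⟩
      · exact Or.inl ⟨e.trans f⟩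
      · exact Or.inr ⟨e.trans f⟩
  · right
    push Not at h3
    have hp := SP.perfect hs hA h3
    rw [h.1] at hp
    have hc : commutator X = ⊤ := hp
    refine ⟨by rw [hc, top_sup_eq], ?_, by rwa [SP.commutator_diagonal_eq hs hA h3]⟩
    rw [hc]
    exact L.qs_of_equiv ((S5017.result h).2 ⟨hc⟩) Subgroup.topEquiv.symm

end Cfsg.Agent.S5020
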