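import Cfsg.Statements.S5021
import Cfsg.Agent.H8.Special

set_option autoImplicit false
open Cfsg

namespace Cfsg.Agent.S5021

open Cfsg.Agent.H8

/-- In a special rank one group with abelian unipotent subgroups A and B, either A is an elementary abelian p-group for some prime p, or A is torsion-free and divisible (every element of A has an n-th root in A for every positive n). -/
theorem result {X : Type*} [Group X] {A B : Subgroup X} (h : Cfsg.IsRankOneGroup X A B)
    (hs : Cfsg.IsSpecialRankOnePair A B) (hab : Cfsg.HasAbelianUnipotents A B) :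
    (∃ p : ℕ, p.Prime ∧ Cfsg.IsElementaryAbelian p A) ∨
    ((∀ a ∈ A, a ≠ 1 → ¬ IsOfFinOrder a) ∧ ∀ a ∈ A, ∀ n : ℕ, 0 < n → ∃ c ∈ A, c ^ n = a) := by
  have hA : Cm A A := cm_self_iff.2 hab.1
  by_cases hfin : ∀ a ∈ A, a ≠ 1 → ¬ IsOfFinOrder a
  · right
    refine ⟨hfin, fun a ha n hn => ?_⟩
    by_cases ha1 : a = 1
    · exact ⟨1, A.one_mem, by simp [ha1]⟩
    have han : a ^ n ≠ 1 := fun e => hfin a ha ha1 (isOfFinOrder_iff_pow_eq_one.2 ⟨n, hn, e⟩)
    refine ⟨_, A.inv_mem (SP.tau_mem hs.1 (SP.mu_swap hs ha ha1) (A.pow_mem ha n) han), ?_⟩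
    rw [inv_pow, SP.tau_mu_pow hs hA n a ha han, inv_inv]
  left
  push Not at hfin
  obtain ⟨a0, ha0, ha01, hfo⟩ := hfin
  obtain ⟨p, hp, hdvd⟩ := Nat.exists_prime_and_dvd (n := orderOf a0) (by simpa using ha01)
  have hord : orderOf (a0 ^ (orderOf a0 / p)) = p :=
    orderOf_pow_orderOf_div hfo.orderOf_pos.ne' hdvd
  set a := a0 ^ (orderOf a0 / p) with ha_def
  have ha : a ∈ A := A.pow_mem ha0 _
  have ha1 : a ≠ 1 := by
    intro e; rw [e, orderOf_one] at hord; exact hp.one_lt.ne hord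
  have hap : a ^ p = 1 := by rw [← hord]; exact pow_orderOf_eq_one a
  refine ⟨p, hp, hab.1, fun b hb => ?_⟩
  by_contra hbp
  have hc : Commute a b := hA a ha b hb
  have := SP.pow_inj hs hA hb (A.mul_mem ha hb) hbp (by rw [hc.mul_pow, hap, one_mul])
  exact ha1 (by simpa using this)

end Cfsg.Agent.S5021
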