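import Cfsg.Statements.S5023
import Cfsg.Agent.H8.Quad

set_option autoImplicit false
open Cfsg

namespace Cfsg.Agent.S5023

open Cfsg.Agent.H8

/-- Let X be a rank one group with unipotent subgroups A and B that acts faithfully on an abelian group V (written additively) with A acting quadratically: a' • (a • v − v) = a • v − v for all a, a' in A and v in V. Then A is either torsion-free or an elementary abelian p-group for some prime p. -/
theorem result {X : Type*} [Group X] {A B : Subgroup X} (h : Cfsg.IsRankOneGroup X A B)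
    {V : Type*} [AddCommGroup V] [DistribMulAction X V] (hf : ∀ x : X, (∀ v : V, x • v = v) → x = 1)
    (hq : ∀ a ∈ A, ∀ a' ∈ A, ∀ v : V, a' • (a • v - v) = a • v - v) :
    (∀ a ∈ A, a ≠ 1 → ¬ IsOfFinOrder a) ∨ ∃ p : ℕ, p.Prime ∧ Cfsg.IsElementaryAbelian p A := by
  let ρ := DistribMulAction.toAddMonoidEnd X V
  have hinj : ∀ x y : X, ρ x = ρ y → x = y := by
    intro x y e
    have : x⁻¹ * y = 1 := by
      apply hf
      intro v
      have : x • v = y • v := DFunLike.congr_fun e v
      rw [mul_smul, ← this, inv_smul_smul]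
    rwa [inv_mul_eq_one] at this
  have hQ : Quad ρ A := by
    intro a ha a' ha'
    ext n
    have := hq a' ha' a ha n
    change a • (a' • n - n) - (a' • n - n) = 0
    rw [this, sub_self]
  rcases quad_dichotomy h.2 h.1 hQ with h1 | h1
  · exfalso
    apply RO.not_cm h.2
    intro a _ b _
    apply hinj
    have e1 := h1 a b
    have e2 := h1 b a
    have : ρ a * ρ b - ρ b * ρ a = (ρ a - 1) * (ρ b - 1) - (ρ b - 1) * (ρ a - 1) := by noncomm_ring
    rw [e1, e2, sub_self, sub_eq_zero] at this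
    rw [map_mul, map_mul, this]
  by_cases hfin : ∀ a ∈ A, a ≠ 1 → ¬ IsOfFinOrder a
  · exact Or.inl hfin
  right
  push Not at hfin
  obtain ⟨a0, ha0, ha01, hfo⟩ := hfin
  obtain ⟨p, hp, hdvd⟩ := Nat.exists_prime_and_dvd (n := orderOf a0) (by simpa using ha01)
  have hord : orderOf (a0 ^ (orderOf a0 / p)) = p :=
    orderOf_pow_orderOf_div hfo.orderOf_pos.ne' hdvd
  set a := a0 ^ (orderOf a0 / p) with ha_def
  have ha : a ∈ A := A.pow_mem ha0 _
  have ha1 : a ≠ 1 := by
    intro e; rw [e, orderOf_one] at hord; exact hp.one_lt.ne hord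
  have hap : a ^ p = 1 := by rw [← hord]; exact pow_orderOf_eq_one a
  have hα : p • (ρ a - 1) = 0 := by rw [← hQ.pow ha, hap]; simp
  obtain ⟨b, hb, -, e⟩ := RO.exists_b h.2 ha ha1
  refine ⟨p, hp, ⟨⟨fun x y => ?_⟩⟩, fun a' ha' => ?_⟩
  · apply Subtype.ext
    apply hinj
    have e1 := hQ.mul x.2 y.2
    have e2 := hQ.mul y.2 x.2
    rw [add_comm, ← e2, sub_left_inj] at e1
    exact e1
  · have hk : a' ^ p ∈ commKer ρ := by
      refine mem_commKer_of h.1 (fun a'' ha'' => hQ _ (A.pow_mem ha' p) _ ha'') (fun b' hb' => ?_)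
      rw [hQ.pow ha', smul_mul_assoc, (quad_rel h.2 hQ ha hb e ha' hb').2, ← smul_mul_assoc,
        ← mul_smul_comm, hα]
      simp
    exact RO.eq_one_of_commute h.2 (A.pow_mem ha' p)
      (fun y _ => (Subgroup.mem_center_iff.1 (h1 hk) y).symm)

end Cfsg.Agent.S5023
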