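import Cfsg.Statements.S5024
import Cfsg.Agent.H8.Root

set_option autoImplicit false
open Cfsg

namespace Cfsg.Agent.S5024

open Cfsg.Agent.H8

/-- Let S be a set of abstract root subgroups of G, A and C members of S, B a rank one partner of A in S and D a rank one partner of C in S. If the rank one group ⟨A, B⟩ is contained in ⟨C, D⟩ then the two coincide, and C and D are conjugates of A inside ⟨A, B⟩. -/
theorem result {G : Type*} [Group G] {S : Set (Subgroup G)} (hS : Cfsg.IsRootSubgroupSet S)
    {A B C D : Subgroup G} (hA : A ∈ S) (hC : C ∈ S) (hB : B ∈ Cfsg.rankOnePartners S A) (hD : D ∈ Cfsg.rankOnePartners S C)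
    (hle : A ⊔ B ≤ C ⊔ D) : A ⊔ B = C ⊔ D ∧ C ∈ Cfsg.unipotentSubgroups A B ∧ D ∈ Cfsg.unipotentSubgroups A B := by
  have key : ∀ {A B : Subgroup G}, A ∈ S → IsRankOnePair A B → A ≤ C ⊔ D → B ≤ C ⊔ D →
      A ∈ unipotentSubgroups C D := by
    intro A B hA hr hAle hBle
    by_contra hn
    have hfix : ∀ a ∈ A, ∀ E ∈ unipotentSubgroups C D, a • E = E := by
      intro a ha E hE
      have hES := RS.omega_subset hS hC hE
      have hE' := RO.smul_mem_omega hE (hAle ha)
      by_contra hne
      have hr' : IsRankOnePair E A := RS.ro_of_not_cm_smul hS hES hA ha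
        (RO.not_cm (RO.of_mem_omega hD.2 hE hE' (Ne.symm hne)))
      apply hn
      rw [← RO.omega_of_mem_omega hD.2 hE hE' (Ne.symm hne),
        RO.omega_of_mem_omega hr' RO.left_mem_omega (RO.smul_left_mem_omega ha) (Ne.symm hne)]
      exact RO.right_mem_omega hr'
    exact RO.not_cm hr (fun a ha b hb => RO.commute_of_fix_omega hD.2 (hfix a ha) b (hBle hb))
  have h1 := key hA hB.2 (le_sup_left.trans hle) (le_sup_right.trans hle)
  have h2 := key hB.1 (RO.symm hB.2) (le_sup_right.trans hle) (le_sup_left.trans hle)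
  rw [RO.omega_of_mem_omega hD.2 h1 h2 hB.2.ne]
  exact ⟨RO.sup_of_mem_omega hD.2 h1 h2 hB.2.ne, RO.left_mem_omega, RO.right_mem_omega hD.2⟩

end Cfsg.Agent.S5024
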