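import Cfsg.Statements.S5026
import Cfsg.Agent.H8.Root

set_option autoImplicit false
open Cfsg

namespace Cfsg.Agent.S5026

open Cfsg.Agent.H8

/-- Let S be a degenerate set of abstract root subgroups of G (a set of abstract transvection groups) and let a, b be commuting non-identity elements of members of S with a b ≠ 1. Then the members of S centralizing a b are exactly those centralizing both a and b. -/
theorem result {G : Type*} [Group G] {S : Set (Subgroup G)} (hS : Cfsg.IsRootSubgroupSet S) (hdeg : Cfsg.IsDegenerateRootSet S)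
    {a b : G} (ha : a ∈ Cfsg.rootElements S) (hb : b ∈ Cfsg.rootElements S) (hab : a * b = b * a) (hab1 : a * b ≠ 1) :
    Cfsg.centralizingMembers S (Subgroup.zpowers (a * b)) =
      Cfsg.centralizingMembers S (Subgroup.zpowers a) ∩ Cfsg.centralizingMembers S (Subgroup.zpowers b) := by
  have hz : ∀ (C : Subgroup G) (x : G), C ≤ Subgroup.centralizer (Subgroup.zpowers x : Set G) ↔
      ∀ c ∈ C, x * c = c * x := by
    intro C x
    rw [← cm_iff_le_centralizer]
    refine ⟨fun h c hc => (h c hc x (Subgroup.mem_zpowers x)).symm, fun h c hc y hy => ?_⟩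
    obtain ⟨n, rfl⟩ := Subgroup.mem_zpowers_iff.1 hy
    exact ((Commute.zpow_left (h c hc) n).symm)
  obtain ⟨ha1, A, hA, haA⟩ := ha
  obtain ⟨hb1, B, hB, hbB⟩ := hb
  ext C
  simp only [centralizingMembers, Set.mem_inter_iff, Set.mem_ofPred_eq, hz]
  constructor
  · rintro ⟨hC, h⟩
    have key : ∀ c ∈ C, a * c = c * a := by
      by_contra hn
      have hr : IsRankOnePair A C := by
        rcases RS.tri hS hA hC with h1 | h1 | h1
        · exact absurd (h1 a haA) hn
        · exact h1
        · exact absurd h1 (hdeg _ hA _ hC)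
      have e : b⁻¹ • C = a • C := by
        rw [inv_smul_eq_iff, ← mul_smul, ← hab, smul_eq_of_commute h]
      have h1 := (RS.mem_omega_of_smul_eq hS hC hB hr haA ha1 (B.inv_mem hbB) e).2
      have h2 : b • A = A := (RS.eq_of_mem hS hC (RS.smul_mem hS hA b) hr haA ha1 (by
        rw [mem_smul_iff, mul_assoc, hab]; simpa using haA)).symm
      have h3 := RO.eq_of_mem_omega_of_smul hr h1 RO.left_mem_omega hb1 hbB h2
      exact hab1 (RO.eq_one_of_commute hr (A.mul_mem haA (h3 ▸ hbB)) h)
    refine ⟨⟨hC, key⟩, hC, fun c hc => ?_⟩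
    calc b * c = a⁻¹ * (a * b * c) := by group
      _ = a⁻¹ * (c * a) * b := by rw [h c hc]; group
      _ = _ := by rw [← key c hc]; group
  · rintro ⟨⟨hC, h1⟩, -, h2⟩
    exact ⟨hC, fun c hc => by rw [mul_assoc, h2 c hc, ← mul_assoc, h1 c hc, mul_assoc]⟩

end Cfsg.Agent.S5026
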