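import Cfsg.Statements.S5027
import Cfsg.Agent.H8.Root2

set_option autoImplicit false
open Cfsg

namespace Cfsg.Agent.S5027

open Cfsg.Agent.H8

/-- Let S be a set of abstract root subgroups of G such that every member of S has a rank one partner in S (the graph of rank one pairs on S has no isolated vertex). Then the second centre of G equals its centre. -/
theorem result {G : Type*} [Group G] {S : Set (Subgroup G)} (hS : Cfsg.IsRootSubgroupSet S)
    (hF : ∀ A ∈ S, ¬ Cfsg.IsIsolatedIn (Cfsg.FAdj S) S A) : Subgroup.upperCentralSeries G 2 = Subgroup.center G := by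
  refine le_antisymm (fun z hz => ?_) ?_
  · refine RS.mem_center_of_members hS (fun A hA a ha => ?_)
    obtain ⟨B, hB, hr⟩ := (not_isolated_iff hA).1 (hF A hA)
    by_cases ha1 : a = 1
    · simp [ha1]
    have hc := Subgroup.mem_upperCentralSeries_succ_iff.1 hz a
    rw [Subgroup.upperCentralSeries_one, Subgroup.mem_center_iff] at hc
    have e : z * a * z⁻¹ * a⁻¹ * a = z * a * z⁻¹ := by group
    have := RS.central_translate hS hB (RS.smul_mem hS hA z) hr hA ha ha1
      (z := z * a * z⁻¹ * a⁻¹) (fun x _ => (hc x).symm) (fun x _ => (hc x).symm)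
      (by rw [e]; exact conj_mem_smul ha z) (by rw [e]; intro e; apply ha1; simpa using e)
    calc z * a = (z * a * z⁻¹ * a⁻¹) * (a * z) := by group
      _ = _ := by rw [this, one_mul]
  · rw [← Subgroup.upperCentralSeries_one]
    exact Subgroup.upperCentralSeries_mono G (by norm_num)

end Cfsg.Agent.S5027
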