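import Cfsg.Statements.S5029
import Cfsg.Agent.H8.Root

set_option autoImplicit false
open Cfsg

namespace Cfsg.Agent.S5029

open Cfsg.Agent.H8

/-- Let S be a set of abstract root subgroups of G, A ∈ S having a rank one partner in S, and B ∈ S with C = ⁅A, B⁆ ∈ S. Then the members of S contained in AC are the conjugates of A by elements of B together with C, they partition AC, the members of S inside AC partition AC so that A is a line partner of C, and for every non-identity a ∈ A the map b ↦ a⁻¹ b⁻¹ a b is an isomorphism from B onto C. -/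
theorem result {G : Type*} [Group G] {S : Set (Subgroup G)} (hS : Cfsg.IsRootSubgroupSet S)
    {A B : Subgroup G} (hA : ¬ Cfsg.IsIsolatedIn (Cfsg.FAdj S) S A) (hAS : A ∈ S) (hB : B ∈ S) (hC : ⁅A, B⁆ ∈ S) :
    Cfsg.membersIn S (A ⊔ ⁅A, B⁆) = (fun b : G => Cfsg.conjBy A b) '' (B : Set G) ∪ {⁅A, B⁆} ∧
    Cfsg.IsSubgroupPartition (A ⊔ ⁅A, B⁆) (Cfsg.membersIn S (A ⊔ ⁅A, B⁆)) ∧
    A ∈ Cfsg.linePartners S ⁅A, B⁆ ∧
    ∀ a ∈ A, a ≠ 1 → ∃ φ : ↥B ≃* ↥⁅A, B⁆, ∀ b : ↥B, (φ b : G) = a⁻¹ * (b : G)⁻¹ * a * b := by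
  have hN := (not_isolated_iff hAS).1 hA
  have h := RS.cc_of_mem hS hAS hB hC
  refine ⟨?_, RS.partition_cc hS hAS hN h, linePartners_symm hAS (RS.line_commutator hS hAS hN h),
    fun a ha ha1 => ?_⟩
  · ext E
    rw [RS.mem_line_cc hS hAS hN h]
    simp only [Set.mem_union, Set.mem_image, SetLike.mem_coe, Set.mem_singleton_iff, conjBy_eq]
    exact or_congr_left ⟨fun ⟨b, hb, e⟩ => ⟨b, hb, e.symm⟩, fun ⟨b, hb, e⟩ => ⟨b, hb, e.symm⟩⟩
  · have hB' := RS.cm_self hS hB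
    let f : B →* ↥⁅A, B⁆ := MonoidHom.mk' (fun b => ⟨a⁻¹ * (b : G)⁻¹ * a * b, by
      simpa using comm_mem (A.inv_mem ha) (B.inv_mem b.2)⟩) (fun b b' => by
        apply Subtype.ext
        have := CC.comm_mul_right h (A.inv_mem ha) (B.inv_mem b.2) (B.inv_mem b'.2)
        simp only [inv_inv, mul_inv_rev] at this
        simp only [Subgroup.coe_mul, mul_inv_rev]
        rw [← this, hB' _ b.2 _ b'.2, hB' _ (B.inv_mem b'.2) _ (B.inv_mem b.2)])
    refine ⟨MulEquiv.ofBijective f ⟨fun b b' e => ?_, fun c => ?_⟩, fun b => rfl⟩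
    · have e' : a⁻¹ * (b : G)⁻¹ * a * b = a⁻¹ * (b' : G)⁻¹ * a * b' := congrArg Subtype.val e
      have := RS.cc_inj' hS hAS hN h (A.inv_mem ha) (by simpa using ha1) (B.inv_mem b.2)
        (B.inv_mem b'.2) (by simpa using e')
      exact Subtype.ext (inv_injective this)
    · obtain ⟨b, hb, e⟩ := CC.exists_right h (A.inv_mem ha) (by simpa using ha1) c.2
      refine ⟨⟨b⁻¹, B.inv_mem hb⟩, Subtype.ext ?_⟩
      rw [e]
      simp [f]

end Cfsg.Agent.S5029
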