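import Cfsg.Statements.S5030
import Cfsg.Agent.H8.Root2

set_option autoImplicit false
open Cfsg

namespace Cfsg.Agent.S5030

open Cfsg.Agent.H8

theorem step_mem {R : Type*} [Group R] {A B C : Subgroup R} (htop : A ⊔ B ⊔ C = ⊤) {n : ℕ} {x : R}
    (hA : ∀ a ∈ A, x * a * x⁻¹ * a⁻¹ ∈ Subgroup.upperCentralSeries R n)
    (hB : ∀ a ∈ B, x * a * x⁻¹ * a⁻¹ ∈ Subgroup.upperCentralSeries R n)
    (hC : ∀ a ∈ C, x * a * x⁻¹ * a⁻¹ ∈ Subgroup.upperCentralSeries R n) :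
    x ∈ Subgroup.upperCentralSeries R (n + 1) := by
  rw [Subgroup.mem_upperCentralSeries_succ_iff]
  intro y
  let Z := Subgroup.upperCentralSeries R n
  let K : Subgroup R := (Subgroup.centralizer {(QuotientGroup.mk' Z x)}).comap (QuotientGroup.mk' Z)
  have hK : ∀ y, y ∈ K ↔ x * y * x⁻¹ * y⁻¹ ∈ Z := by
    intro y
    simp only [K, Subgroup.mem_comap, Subgroup.mem_centralizer_singleton_iff]
    rw [← QuotientGroup.eq_one_iff, eq_comm, ← commutatorElement_eq_one_iff_mul_comm]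
    rfl
  have : A ⊔ B ⊔ C ≤ K :=
    sup_le (sup_le (fun a ha => (hK a).2 (hA a ha)) (fun a ha => (hK a).2 (hB a ha)))
      (fun a ha => (hK a).2 (hC a ha))
  exact (hK y).1 (this (by rw [htop]; trivial))

theorem not_ro_aux {G : Type*} [Group G] {S : Set (Subgroup G)} (hS : Cfsg.IsRootSubgroupSet S)
    {A B C : Subgroup G} (hA : A ∈ S) (hB : B ∈ S) (hC : C ∈ S) (h1 : RootCommutatorCase S A B)
    (h2 : RootCommutatorCase S C B) (hAC : Cm A C) {b : G} (hb : b ∈ B) (hb1 : b ≠ 1) :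
    ¬ IsRankOnePair A (b • C) := by
  intro hr
  obtain ⟨e, he, he1⟩ := RS.exists_ne_one hS h2.1
  obtain ⟨c, hc, rfl⟩ := CC.exists_left h2 hb hb1 he
  have hc1 : c ≠ 1 := by rintro rfl; simp at he1
  have hcm : Cm C (b • C) := RS.cm_smul_of_not_ro hS hC hB (RS.not_ro_of_cc hS hB h2) hb
  have e : c⁻¹ * (b * c * b⁻¹) = b * c * b⁻¹ * c⁻¹ := hcm _ (C.inv_mem hc) _ (conj_mem_smul hc b)
  have := RS.central_translate hS hA h2.1 (RO.symm hr) (RS.smul_mem hS hC b) (conj_mem_smul hc b)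
    (z := c⁻¹) (by intro e; apply hc1; simpa using e) (hcm _ (C.inv_mem hc))
    (hAC.symm _ (C.inv_mem hc)) (by rw [e]; exact he) (by rw [e]; exact he1)
  exact hc1 (by simpa using this)

theorem class_two {G : Type*} [Group G] {S : Set (Subgroup G)} (hS : Cfsg.IsRootSubgroupSet S)
    {A B : Subgroup G} (hA : A ∈ S) (hB : B ∈ S) (h : RootCommutatorCase S A B) :
    ⁅A ⊔ B, A ⊔ B⁆ ≤ ⁅A, B⁆ := by
  -- work modulo the central subgroup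
  have key : ∀ x ∈ A ⊔ B, ∀ y ∈ A ⊔ B, x * y * x⁻¹ * y⁻¹ ∈ ⁅A, B⁆ := by
    have hc := CC.cm_sup h
    have step : ∀ y ∈ A ⊔ B, (∀ a ∈ A, a * y * a⁻¹ * y⁻¹ ∈ ⁅A, B⁆) →
        (∀ a ∈ B, a * y * a⁻¹ * y⁻¹ ∈ ⁅A, B⁆) → ∀ x ∈ A ⊔ B, x * y * x⁻¹ * y⁻¹ ∈ ⁅A, B⁆ := by
      intro y _ h1 h2 x hx
      rw [Subgroup.sup_eq_closure] at hx
      induction hx using Subgroup.closure_induction with
      | mem z hz => rcases hz with hz | hz; exacts [h1 z hz, h2 z hz]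
      | one => simp
      | mul z w hz _ iz iw =>
        rw [← Subgroup.sup_eq_closure] at hz
        have : z * w * y * (z * w)⁻¹ * y⁻¹ = (w * y * w⁻¹ * y⁻¹) * (z * y * z⁻¹ * y⁻¹) := by
          calc z * w * y * (z * w)⁻¹ * y⁻¹ = (z * (w * y * w⁻¹ * y⁻¹)) * (y * z⁻¹ * y⁻¹) := by group
            _ = _ := by rw [← hc _ iw z hz]; group
        rw [this]; exact Subgroup.mul_mem _ iw iz
      | inv z hz iz =>
        rw [← Subgroup.sup_eq_closure] at hz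
        have : z⁻¹ * y * z⁻¹⁻¹ * y⁻¹ = (z * y * z⁻¹ * y⁻¹)⁻¹ := by
          calc z⁻¹ * y * z⁻¹⁻¹ * y⁻¹ = z⁻¹ * ((z * y * z⁻¹ * y⁻¹)⁻¹ * z) := by group
            _ = _ := by rw [hc _ (Subgroup.inv_mem _ iz) z hz]; group
        rw [this]; exact Subgroup.inv_mem _ iz
    have hA' : ∀ a ∈ A, ∀ x ∈ A ⊔ B, x * a * x⁻¹ * a⁻¹ ∈ ⁅A, B⁆ := fun a ha =>
      step a (Subgroup.mem_sup_left ha)
        (fun a' ha' => by rw [RS.cm_self hS hA a' ha' a ha]; simp) (fun b hb => comm_mem' ha hb)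
    have hB' : ∀ a ∈ B, ∀ x ∈ A ⊔ B, x * a * x⁻¹ * a⁻¹ ∈ ⁅A, B⁆ := fun a ha =>
      step a (Subgroup.mem_sup_right ha) (fun b hb => comm_mem hb ha)
        (fun a' ha' => by rw [RS.cm_self hS hB a' ha' a ha]; simp)
    intro x hx y hy
    refine step y hy (fun a ha => ?_) (fun a ha => ?_) x hx
    · have := Subgroup.inv_mem _ (hA' a ha y hy)
      simpa [mul_assoc] using this
    · have := Subgroup.inv_mem _ (hB' a ha y hy)
      simpa [mul_assoc] using this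
  exact commutator_le'.2 key

/-- Let S be a set of abstract root subgroups of G and A, B, C ∈ S with ⁅A, B⁆ ∈ S and ⁅B, C⁆ ∈ S, where A and C are different and commute. For a non-identity b ∈ B put X = ⟨A, b⁻¹ C b⟩ and Y = ⟨b⁻¹ A b, C⟩ and R = ⟨A, B, C⟩. Then X and Y are either both abelian or both nilpotent of class exactly two; X and Y commute elementwise; XY is normal in R with R = (XY) B; and R is nilpotent. -/
theorem result {G : Type*} [Group G] {S : Set (Subgroup G)} (hS : Cfsg.IsRootSubgroupSet S)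
    {A B C : Subgroup G} (hA : A ∈ S) (hB : B ∈ S) (hC : C ∈ S) (hAB : ⁅A, B⁆ ∈ S) (hBC : ⁅B, C⁆ ∈ S)
    (hAC : C ∈ Cfsg.commutingPartners S A)
    {b : G} (hb : b ∈ B) (hb1 : b ≠ 1) :
    ((IsMulCommutative ↥(A ⊔ Cfsg.conjBy C b⁻¹) ∧ IsMulCommutative ↥(Cfsg.conjBy A b⁻¹ ⊔ C)) ∨
      ((¬ IsMulCommutative ↥(A ⊔ Cfsg.conjBy C b⁻¹) ∧
          ⁅⁅A ⊔ Cfsg.conjBy C b⁻¹, A ⊔ Cfsg.conjBy C b⁻¹⁆, A ⊔ Cfsg.conjBy C b⁻¹⁆ = ⊥) ∧
        (¬ IsMulCommutative ↥(Cfsg.conjBy A b⁻¹ ⊔ C) ∧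
          ⁅⁅Cfsg.conjBy A b⁻¹ ⊔ C, Cfsg.conjBy A b⁻¹ ⊔ C⁆, Cfsg.conjBy A b⁻¹ ⊔ C⁆ = ⊥))) ∧
    ⁅A ⊔ Cfsg.conjBy C b⁻¹, Cfsg.conjBy A b⁻¹ ⊔ C⁆ = ⊥ ∧
    (∀ r ∈ A ⊔ B ⊔ C, Cfsg.conjBy ((A ⊔ Cfsg.conjBy C b⁻¹) ⊔ (Cfsg.conjBy A b⁻¹ ⊔ C)) r =
      (A ⊔ Cfsg.conjBy C b⁻¹) ⊔ (Cfsg.conjBy A b⁻¹ ⊔ C)) ∧
    ((A ⊔ Cfsg.conjBy C b⁻¹) ⊔ (Cfsg.conjBy A b⁻¹ ⊔ C)) ⊔ B = A ⊔ B ⊔ C ∧
    Group.IsNilpotent ↥(A ⊔ B ⊔ C) := by
  simp only [conjBy_eq]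
  have h1 := RS.cc_of_mem hS hA hB hAB
  have h2 := CC.symm (RS.cc_of_mem hS hB hC hBC)
  have hac : Cm A C := cm_iff.2 hAC.2.2
  have hb' := B.inv_mem hb
  have hb1' : b⁻¹ ≠ 1 := by simpa using hb1
  have cA : ∀ b ∈ B, Cm A (b • A) := fun b hb =>
    RS.cm_smul_of_not_ro hS hA hB (RS.not_ro_of_cc hS hB h1) hb
  have cC : ∀ b ∈ B, Cm C (b • C) := fun b hb =>
    RS.cm_smul_of_not_ro hS hC hB (RS.not_ro_of_cc hS hB h2) hb
  have hAA := RS.cm_self hS hA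
  have hCC := RS.cm_self hS hC
  have hBB := RS.cm_self hS hB
  have comm_iff : Cm A (b⁻¹ • C) ↔ Cm (b⁻¹ • A) C := by
    have k : ∀ {A C : Subgroup G}, RootCommutatorCase S C B → Cm A C → Cm A (b⁻¹ • C) →
        Cm (b⁻¹ • A) C := by
      intro A C h2 hac h
      have := hac.sup_right h
      rw [CC.sup_smul h2 hb' hb1'] at this
      rw [cm_smul_left_iff, inv_inv]
      exact this.mono le_rfl (smul_le_sup_commutator hb)
    exact ⟨k h2 hac, fun h => (k h1 hac.symm h.symm).symm⟩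
  have hXY : Cm (A ⊔ b⁻¹ • C) (b⁻¹ • A ⊔ C) :=
    ((cA _ hb').sup_right hac).sup_left ((hac.symm.smul _).sup_right (cC _ hb').symm)
  have hN : A ⊔ b⁻¹ • C ⊔ (b⁻¹ • A ⊔ C) = (A ⊔ ⁅A, B⁆) ⊔ (C ⊔ ⁅C, B⁆) := by
    rw [← CC.sup_smul h1 hb' hb1', ← CC.sup_smul h2 hb' hb1']
    simp only [sup_assoc, sup_comm, sup_left_comm]
  have tX := RS.tri hS hA (RS.smul_mem hS hC b⁻¹)
  have tY := RS.tri hS (RS.smul_mem hS hA b⁻¹) hC
  have nX := not_ro_aux hS hA hB hC h1 h2 hac hb' hb1'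
  have nY : ¬ IsRankOnePair (b⁻¹ • A) C := fun h =>
    not_ro_aux hS hC hB hA h2 h1 hac.symm hb' hb1' (RO.symm h)
  have ab : ∀ {P Q : Subgroup G}, P ∈ S → Q ∈ S → (IsMulCommutative ↥(P ⊔ Q) ↔ Cm P Q) := by
    intro P Q hP hQ
    rw [← cm_self_iff]
    exact ⟨fun h => h.mono le_sup_left le_sup_right, fun h =>
      ((RS.cm_self hS hP).sup_right h).sup_left (h.symm.sup_right (RS.cm_self hS hQ))⟩
  have c2 : ∀ {P Q : Subgroup G}, P ∈ S → Q ∈ S → RootCommutatorCase S P Q →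
      ⁅⁅P ⊔ Q, P ⊔ Q⁆, P ⊔ Q⁆ = ⊥ := fun hP hQ h =>
    cm_iff.1 ((CC.cm_sup h).mono (class_two hS hP hQ h) le_rfl)
  have hbC := RS.smul_mem hS hC b⁻¹
  have hbA := RS.smul_mem hS hA b⁻¹
  refine ⟨?_, cm_iff.1 hXY, ?_, ?_, ?_⟩
  · rw [ab hA hbC, ab hbA hC]
    by_cases hc : Cm A (b⁻¹ • C)
    · exact Or.inl ⟨hc, comm_iff.1 hc⟩
    · have hc' := fun h => hc (comm_iff.2 h)
      exact Or.inr ⟨⟨hc, c2 hA hbC ((tX.resolve_left hc).resolve_left nX)⟩,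
        ⟨hc', c2 hbA hC ((tY.resolve_left hc').resolve_left nY)⟩⟩
  · refine smul_eq_of_sup (smul_eq_of_sup (fun a ha => smul_eq_of_mem ?_) (fun x hx => ?_))
      (fun c hc => smul_eq_of_mem ?_)
    · exact Subgroup.mem_sup_left (Subgroup.mem_sup_left ha)
    · rw [hN, smul_sup', CC.smul_sup_eq h1 hx, CC.smul_sup_eq h2 hx]
    · exact Subgroup.mem_sup_right (Subgroup.mem_sup_right hc)
  · refine le_antisymm (sup_le (sup_le (sup_le ?_ ?_) (sup_le ?_ ?_)) ?_) (sup_le (sup_le ?_ ?_) ?_)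
    · exact le_sup_left.trans le_sup_left
    · exact smul_le_of_mem (Subgroup.mem_sup_left (Subgroup.mem_sup_right hb')) le_sup_right
    · exact smul_le_of_mem (Subgroup.mem_sup_left (Subgroup.mem_sup_right hb'))
        (le_sup_left.trans le_sup_left)
    · exact le_sup_right
    · exact le_sup_right.trans le_sup_left
    · exact (le_sup_left.trans le_sup_left).trans le_sup_left
    · exact le_sup_right
    · exact (le_sup_right.trans le_sup_right).trans le_sup_left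
  · -- commutators of elements of `N = XY` are central in `N`
    set N := A ⊔ b⁻¹ • C ⊔ (b⁻¹ • A ⊔ C) with hNdef
    have cX : ∀ x ∈ A ⊔ b⁻¹ • C, ∀ y ∈ A ⊔ b⁻¹ • C, ∀ z ∈ A ⊔ b⁻¹ • C,
        x * y * x⁻¹ * y⁻¹ * z = z * (x * y * x⁻¹ * y⁻¹) := by
      intro x hx y hy z hz
      rcases tX with h | h | h
      · have := cm_self_iff.2 ((ab hA hbC).2 h)
        rw [this x hx y hy]; group
      · exact absurd h nX
      · exact CC.cm_sup h _ (class_two hS hA hbC h (comm_mem hx hy)) z hz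
    have cY : ∀ x ∈ b⁻¹ • A ⊔ C, ∀ y ∈ b⁻¹ • A ⊔ C, ∀ z ∈ b⁻¹ • A ⊔ C,
        x * y * x⁻¹ * y⁻¹ * z = z * (x * y * x⁻¹ * y⁻¹) := by
      intro x hx y hy z hz
      rcases tY with h | h | h
      · have := cm_self_iff.2 ((ab hbA hC).2 h)
        rw [this x hx y hy]; group
      · exact absurd h nY
      · exact CC.cm_sup h _ (class_two hS hbA hC h (comm_mem hx hy)) z hz
    have cN : ∀ x ∈ N, ∀ y ∈ N, ∀ z ∈ N, x * y * x⁻¹ * y⁻¹ * z = z * (x * y * x⁻¹ * y⁻¹) := by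
      intro x hx y hy
      obtain ⟨x1, hx1, x2, hx2, rfl⟩ := (mem_sup_of_cm hXY).1 hx
      obtain ⟨y1, hy1, y2, hy2, rfl⟩ := (mem_sup_of_cm hXY).1 hy
      have e : x1 * x2 * (y1 * y2) * (x1 * x2)⁻¹ * (y1 * y2)⁻¹ =
          (x1 * y1 * x1⁻¹ * y1⁻¹) * (x2 * y2 * x2⁻¹ * y2⁻¹) := by
        have m2 : x2 * y2 * x2⁻¹ ∈ b⁻¹ • A ⊔ C :=
          Subgroup.mul_mem _ (Subgroup.mul_mem _ hx2 hy2) (Subgroup.inv_mem _ hx2)
        have k1 := hXY y1 hy1 x2 hx2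
        have k2 := hXY _ (Subgroup.inv_mem _ hx1) _ m2
        have k3 := hXY _ (Subgroup.inv_mem _ hy1) _ (Subgroup.mul_mem _ m2 (Subgroup.inv_mem _ hy2))
        calc x1 * x2 * (y1 * y2) * (x1 * x2)⁻¹ * (y1 * y2)⁻¹
            = x1 * (x2 * y1) * y2 * x2⁻¹ * x1⁻¹ * y2⁻¹ * y1⁻¹ := by group
          _ = x1 * y1 * ((x2 * y2 * x2⁻¹) * x1⁻¹) * y2⁻¹ * y1⁻¹ := by rw [← k1]; group
          _ = x1 * y1 * x1⁻¹ * ((x2 * y2 * x2⁻¹ * y2⁻¹) * y1⁻¹) := by rw [← k2]; group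
          _ = _ := by rw [← k3]; group
      rw [e]
      have m1 : x1 * y1 * x1⁻¹ * y1⁻¹ ∈ A ⊔ b⁻¹ • C := Subgroup.mul_mem _ (Subgroup.mul_mem _
        (Subgroup.mul_mem _ hx1 hy1) (Subgroup.inv_mem _ hx1)) (Subgroup.inv_mem _ hy1)
      have m2 : x2 * y2 * x2⁻¹ * y2⁻¹ ∈ b⁻¹ • A ⊔ C := Subgroup.mul_mem _ (Subgroup.mul_mem _
        (Subgroup.mul_mem _ hx2 hy2) (Subgroup.inv_mem _ hx2)) (Subgroup.inv_mem _ hy2)
      refine commute_sup (fun z hz => ?_) (fun z hz => ?_)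
      · rw [mul_assoc (x1 * y1 * x1⁻¹ * y1⁻¹), ← hXY z hz _ m2, ← mul_assoc, cX _ hx1 _ hy1 z hz,
          mul_assoc]
      · rw [mul_assoc (x1 * y1 * x1⁻¹ * y1⁻¹), cY _ hx2 _ hy2 z hz, ← mul_assoc, hXY _ m1 z hz,
          mul_assoc]
    have hAN : A ≤ N := le_sup_left.trans le_sup_left
    have hCN : C ≤ N := le_sup_right.trans le_sup_right
    have hDN : ⁅A, B⁆ ≤ N := by rw [hN]; exact le_sup_right.trans le_sup_left
    have hEN : ⁅C, B⁆ ≤ N := by rw [hN]; exact le_sup_right.trans le_sup_right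
    set R := A ⊔ B ⊔ C with hR
    have hAR : A ≤ R := le_sup_left.trans le_sup_left
    have hBR : B ≤ R := le_sup_right.trans le_sup_left
    have hCR : C ≤ R := le_sup_right
    have hDR : ⁅A, B⁆ ≤ R := (Subgroup.commutator_le_sup _ _).trans (sup_le hAR hBR)
    have hER : ⁅C, B⁆ ≤ R := (Subgroup.commutator_le_sup _ _).trans (sup_le hCR hBR)
    have htop : A.subgroupOf R ⊔ B.subgroupOf R ⊔ C.subgroupOf R = ⊤ := by
      rw [← Subgroup.subgroupOf_sup hAR hBR, ← Subgroup.subgroupOf_sup (sup_le hAR hBR) hCR]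
      exact Subgroup.subgroupOf_self _
    -- a predicate version of membership in the upper central series
    let Z : ℕ → G → Prop := fun n x => ∃ hx : x ∈ R, (⟨x, hx⟩ : R) ∈ Subgroup.upperCentralSeries R n
    have Zone : ∀ n, Z n 1 := fun n => ⟨R.one_mem, Subgroup.one_mem _⟩
    have Zinv : ∀ n x, Z n x → Z n x⁻¹ := fun n x ⟨hx, h⟩ => ⟨R.inv_mem hx, Subgroup.inv_mem _ h⟩
    have Zstep : ∀ n, ∀ x ∈ R, (∀ a ∈ A, Z n (x * a * x⁻¹ * a⁻¹)) →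
        (∀ a ∈ B, Z n (x * a * x⁻¹ * a⁻¹)) → (∀ a ∈ C, Z n (x * a * x⁻¹ * a⁻¹)) → Z (n + 1) x := by
      intro n x hx k1 k2 k3
      exact ⟨hx, step_mem htop (fun a ha => (k1 a ha).2) (fun a ha => (k2 a ha).2)
        (fun a ha => (k3 a ha).2)⟩
    have cR : ∀ x ∈ R, ∀ y ∈ R, x * y * x⁻¹ * y⁻¹ ∈ R := fun x hx y hy =>
      R.mul_mem (R.mul_mem (R.mul_mem hx hy) (R.inv_mem hx)) (R.inv_mem hy)
    have triv : ∀ n (x y : G), x * y = y * x → Z n (x * y * x⁻¹ * y⁻¹) := by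
      intro n x y e
      rw [e]; simpa using Zone n
    have z1 : ∀ d ∈ ⁅A, B⁆, ∀ e ∈ ⁅C, B⁆, Z 1 (d * e * d⁻¹ * e⁻¹) := by
      intro d hd e he
      refine Zstep 0 _ (cR _ (hDR hd) _ (hER he))
        (fun a ha => triv _ _ _ (cN _ (hDN hd) _ (hEN he) _ (hAN ha))) (fun y hy => triv _ _ _ ?_)
        (fun a ha => triv _ _ _ (cN _ (hDN hd) _ (hEN he) _ (hCN ha)))
      have k1 : Commute d y := CC.cm_right h1 d hd y hy
      have k2 : Commute e y := CC.cm_right h2 e he y hy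
      exact (((k1.mul_left k2).mul_left k1.inv_left).mul_left k2.inv_left)
    have z2gen : ∀ {P D E : Subgroup G}, P ≤ N → D ≤ N → E ≤ N → P ≤ R → E ≤ R →
        (∀ p ∈ P, ∀ y ∈ B, y * p * y⁻¹ * p⁻¹ ∈ D) → Cm E B →
        (∀ d ∈ D, ∀ e ∈ E, Z 1 (d * e * d⁻¹ * e⁻¹)) →
        ∀ p ∈ P, ∀ e ∈ E, Z 2 (p * e * p⁻¹ * e⁻¹) := by
      intro P D E hP hD hE hPR hER hPB hEB hz p hp e he
      refine Zstep 1 _ (cR _ (hPR hp) _ (hER he))
        (fun a ha => triv _ _ _ (cN _ (hP hp) _ (hE he) _ (hAN ha))) (fun y hy => ?_)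
        (fun a ha => triv _ _ _ (cN _ (hP hp) _ (hE he) _ (hCN ha)))
      have hd := hPB p hp y hy
      set d := y * p * y⁻¹ * p⁻¹ with hd_def
      have k1 : y * (p * e * p⁻¹ * e⁻¹) * y⁻¹ =
          (p * e * p⁻¹ * e⁻¹) * (d * e * d⁻¹ * e⁻¹) := by
        have f1 : y * p * y⁻¹ = d * p := by rw [hd_def]; group
        have f2 := hEB e he y hy
        have f3 := cN _ (hP hp) _ (hE he) _ (hD hd)
        calc y * (p * e * p⁻¹ * e⁻¹) * y⁻¹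
            = (y * p * y⁻¹) * (y * e) * y⁻¹ * (y * p * y⁻¹)⁻¹ * ((y * e) * y⁻¹)⁻¹ := by group
          _ = (d * (p * e * p⁻¹ * e⁻¹)) * e * d⁻¹ * e⁻¹ := by rw [f1, ← f2]; group
          _ = _ := by rw [← f3]; group
      have k2 : p * e * p⁻¹ * e⁻¹ * y * (p * e * p⁻¹ * e⁻¹)⁻¹ * y⁻¹ = (d * e * d⁻¹ * e⁻¹)⁻¹ := by
        have f4 := cN _ (hP hp) _ (hE he) _ (N.inv_mem (N.mul_mem (N.mul_mem (N.mul_mem (hD hd)
          (hE he)) (N.inv_mem (hD hd))) (N.inv_mem (hE he))))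
        calc p * e * p⁻¹ * e⁻¹ * y * (p * e * p⁻¹ * e⁻¹)⁻¹ * y⁻¹
            = (p * e * p⁻¹ * e⁻¹) * (y * (p * e * p⁻¹ * e⁻¹) * y⁻¹)⁻¹ := by group
          _ = (p * e * p⁻¹ * e⁻¹) * (d * e * d⁻¹ * e⁻¹)⁻¹ * (p * e * p⁻¹ * e⁻¹)⁻¹ := by
            rw [k1]; group
          _ = _ := by rw [f4]; group
      rw [k2]; exact Zinv _ _ (hz d hd e he)
    have swap : ∀ n (x y : G), Z n (x * y * x⁻¹ * y⁻¹) → Z n (y * x * y⁻¹ * x⁻¹) := by
      intro n x y h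
      have := Zinv _ _ h
      simpa [mul_assoc] using this
    have z2a : ∀ p ∈ A, ∀ e ∈ ⁅C, B⁆, Z 2 (p * e * p⁻¹ * e⁻¹) :=
      z2gen hAN hDN hEN hAR hER (fun p hp y hy => comm_mem' hp hy) (CC.cm_right h2) z1
    have z2c : ∀ p ∈ C, ∀ e ∈ ⁅A, B⁆, Z 2 (p * e * p⁻¹ * e⁻¹) :=
      z2gen hCN hEN hDN hCR hDR (fun p hp y hy => comm_mem' hp hy) (CC.cm_right h1)
        (fun d hd e he => swap _ _ _ (z1 e he d hd))
    have z3d : ∀ d ∈ ⁅A, B⁆, Z 3 d := fun d hd =>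
      Zstep 2 _ (hDR hd) (fun a ha => triv _ _ _ (CC.cm_left h1 d hd a ha))
        (fun a ha => triv _ _ _ (CC.cm_right h1 d hd a ha)) (fun c hc => swap _ _ _ (z2c c hc d hd))
    have z3e : ∀ d ∈ ⁅C, B⁆, Z 3 d := fun d hd =>
      Zstep 2 _ (hER hd) (fun c hc => swap _ _ _ (z2a c hc d hd))
        (fun a ha => triv _ _ _ (CC.cm_right h2 d hd a ha))
        (fun a ha => triv _ _ _ (CC.cm_left h2 d hd a ha))
    have z4a : ∀ a ∈ A, Z 4 a := fun a ha =>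
      Zstep 3 _ (hAR ha) (fun x hx => triv _ _ _ (hAA a ha x hx))
        (fun x hx => z3d _ (comm_mem ha hx)) (fun x hx => triv _ _ _ (hac a ha x hx))
    have z4c : ∀ a ∈ C, Z 4 a := fun a ha =>
      Zstep 3 _ (hCR ha) (fun x hx => triv _ _ _ (hac.symm a ha x hx))
        (fun x hx => z3e _ (comm_mem ha hx)) (fun x hx => triv _ _ _ (hCC a ha x hx))
    have z4b : ∀ a ∈ B, Z 4 a := fun a ha =>
      Zstep 3 _ (hBR ha) (fun x hx => z3d _ (comm_mem' hx ha))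
        (fun x hx => triv _ _ _ (hBB a ha x hx)) (fun x hx => z3e _ (comm_mem' hx ha))
    refine ⟨⟨4, ?_⟩⟩
    rw [eq_top_iff, ← htop]
    exact sup_le (sup_le (fun a ha => (z4a a ha).2) (fun a ha => (z4b a ha).2))
      (fun a ha => (z4c a ha).2)

end Cfsg.Agent.S5030
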