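import Cfsg.Statements.S5033
import Cfsg.Agent.H8.Special
import Cfsg.Agent.H8.Root3
import Cfsg.Agent.L.Subnormal

set_option autoImplicit false
open Cfsg

namespace Cfsg.Agent.S5033

open Cfsg.Agent.H8

theorem comm_le {G : Type*} [Group G] {N A D P Q : Subgroup G} [N.Normal] (hP : P ≤ N ⊔ A)
    (hQ : Q ≤ N ⊔ D) (h : Cm A D) : ⁅P, Q⁆ ≤ N := by
  have e : ∀ {A P : Subgroup G}, P ≤ N ⊔ A →
      P.map (QuotientGroup.mk' N) ≤ A.map (QuotientGroup.mk' N) := by
    intro A P hP
    refine (Subgroup.map_mono hP).trans ?_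
    rw [Subgroup.map_sup, (Subgroup.map_eq_bot_iff _).2 (by rw [QuotientGroup.ker_mk']), bot_sup_eq]
  have := Subgroup.commutator_mono (e hP) (e hQ)
  rw [← Subgroup.map_commutator, ← Subgroup.map_commutator, cm_iff.1 h, Subgroup.map_bot,
    le_bot_iff, Subgroup.map_eq_bot_iff, QuotientGroup.ker_mk'] at this
  exact this

/-- Quasisimplicity criterion for groups generated by abstract root subgroups. Let S be a set of abstract root subgroups of G with more than one member such that: the graph of rank one pairs on S is connected; no two different members of S have the same set of commuting members of S; if S is degenerate then every member of S has more than three elements; and every rank one pair in S is special. Then for every A ∈ S one has G = G' A with A ∩ G' ≠ 1, and the commutator subgroup G' is quasisimple. Moreover G is perfect if S is non-degenerate, or if some rank one pair A, B in S generates a perfect group. -/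
theorem result {G : Type*} [Group G] {S : Set (Subgroup G)} (hS : Cfsg.IsRootSubgroupSet S) (h2 : ∃ A ∈ S, ∃ B ∈ S, A ≠ B)
    (h1 : Cfsg.IsConnectedFamily (Cfsg.FAdj S) S)
    (h2' : ∀ A ∈ S, ∀ C ∈ S, A ≠ C → Cfsg.centralizingMembers S A ≠ Cfsg.centralizingMembers S C)
    (h3 : Cfsg.IsDegenerateRootSet S → ∀ A ∈ S, 3 < ENat.card A)
    (h4 : ∀ A ∈ S, ∀ B ∈ Cfsg.rankOnePartners S A, Cfsg.IsSpecialRankOnePair A B) :
    (∀ A ∈ S, commutator G ⊔ A = ⊤ ∧ A ⊓ commutator G ≠ ⊥) ∧ Cfsg.IsQuasisimple ↥(commutator G) ∧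
    (Cfsg.IsNondegenerateRootSet S → commutator G = ⊤) ∧
    ((∃ A ∈ S, ∃ B ∈ Cfsg.rankOnePartners S A, Group.IsPerfect ↥(A ⊔ B)) → commutator G = ⊤) := by
  have hNI : ∀ A ∈ S, NI S A := by
    intro A hA
    obtain ⟨P, hP, Q, hQ, hne⟩ := h2
    by_cases e : P = A
    · exact Reach.ni (h1 A hA Q hQ) (by rw [← e]; exact hne.symm)
    · exact Reach.ni (h1 A hA P hP) e
  have hcl : IsRootSubgroupClass S := by
    obtain ⟨P, hP, -⟩ := h2
    exact ⟨hS, ⟨P, hP⟩, fun A hA B hB => Reach.exists_smul (h1 A hA B hB)⟩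
  have hK : ∀ N : Subgroup G, N.Normal → ∀ A ∈ S, A ≤ N → N = ⊤ := by
    intro N hN A hA hle
    refine RS.le_of_members hS (fun B hB => ?_)
    obtain ⟨g, rfl⟩ := Reach.exists_smul (h1 A hA B hB)
    rw [← smul_eq_of_normal g N]
    exact smul_mono' g hle
  have hdeg : IsDegenerateRootSet S → ∀ A ∈ S, ∀ B ∈ S, IsRankOnePair A B →
      A ≤ ⁅A ⊔ B, A ⊔ B⁆ := fun hd A hA B hB hr =>
    SP.le_commutator (h4 A hA B ⟨hB, hr⟩) (RS.cm_self hS hA) (h3 hd A hA)
  have hperf : commutator G = ⊤ := by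
    by_cases hd : IsDegenerateRootSet S
    · obtain ⟨A, hA, -⟩ := h2
      obtain ⟨B, hB, hr⟩ := hNI A hA
      exact hK _ inferInstance A hA
        ((hdeg hd A hA B hB hr).trans (Subgroup.commutator_mono le_top le_top))
    · simp only [IsDegenerateRootSet, not_forall, not_not] at hd
      obtain ⟨E, -, F, -, h⟩ := hd
      exact hK _ inferInstance _ h.1 (Subgroup.commutator_mono le_top le_top)
  have hR1 : ∀ N : Subgroup G, N.Normal → ∀ A ∈ S, ∀ B ∈ S, IsRankOnePair A B → B ≤ N ⊔ A →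
      N = ⊤ := by
    intro N hN A hA B hB hr hle
    by_cases hd : IsDegenerateRootSet S
    · have : A ⊔ B ≤ N ⊔ A := sup_le le_sup_right hle
      exact hK N hN A hA ((hdeg hd A hA B hB hr).trans (comm_le this this (RS.cm_self hS hA)))
    · simp only [IsDegenerateRootSet, not_forall, not_not] at hd
      obtain ⟨E, hE, F, hF, h⟩ := hd
      have hnd : IsNondegenerateRootSet S :=
        ⟨⟨E, hE, _, h.1, RS.ne_commutator hS h, cm_iff.1 (CC.cm_left h).symm⟩,
          ⟨A, hA, B, hB, hr⟩, ⟨E, hE, F, hF, h⟩⟩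
      obtain ⟨C, hC, hcc, -⟩ := RS.exists_line_cc hcl hnd hA hB hr
      exact hK N hN _ hcc.1 (comm_le hle le_sup_right (mem_linePartners_iff.1 hC).2.2.1)
  have hR : ∀ N : Subgroup G, N.Normal → ∀ A ∈ S, ∀ B ∈ S, ¬ Cm A B → ⁅A, B⁆ ≤ N → N = ⊤ := by
    intro N hN A hA B hB hn hle
    rcases RS.tri hS hA hB with h | h | h
    · exact absurd h hn
    · obtain ⟨a, ha, ha1⟩ := RO.exists_left h
      refine hR1 N hN B hB _ (RS.smul_mem hS hB a) (RO.pair_smul h ha ha1) ?_
      refine (smul_le_sup_commutator ha).trans ?_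
      rw [sup_comm, Subgroup.commutator_comm]
      exact sup_le_sup_right hle _
    · exact hK N hN _ h.1 hle
  have hnorm : ∀ N : Subgroup G, N.Normal → N = ⊤ ∨ N ≤ Subgroup.center G := by
    intro N hN
    by_cases hn : ∀ n ∈ N, ∀ A ∈ S, n • A = A
    · right
      intro n hnN
      refine RS.mem_center_of_members hS (fun A hA => ?_)
      obtain ⟨B, hB, hr⟩ := hNI A hA
      exact RO.commute_of_normalizes hr (fun k hk => hn k hk A hA) (fun k hk => hn k hk B hB)
        (fun a _ => smul_eq_of_normal a N) n hnN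
    left
    push Not at hn
    obtain ⟨n, hnN, A, hA, hne⟩ := hn
    have key : ∀ n ∈ N, ∀ A ∈ S, ∀ D ∈ S, Cm A D → ¬ Cm (n • A) D → N = ⊤ := by
      intro n hnN A hA D hD c1 c2
      exact hR N hN _ (RS.smul_mem hS hA n) D hD c2
        (comm_le (smul_le_of_mem (Subgroup.mem_sup_left hnN) le_sup_right) le_sup_right c1)
    by_contra hN'
    apply h2' A hA _ (RS.smul_mem hS hA n) hne.symm
    ext D
    constructor
    · rintro ⟨hD, h⟩
      refine ⟨hD, cm_iff_le_centralizer.1 ?_⟩
      by_contra hc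
      exact hN' (key n hnN A hA D hD (cm_iff_le_centralizer.2 h).symm (fun h => hc h.symm))
    · rintro ⟨hD, h⟩
      refine ⟨hD, cm_iff_le_centralizer.1 ?_⟩
      by_contra hc
      exact hN' (key n⁻¹ (N.inv_mem hnN) _ (RS.smul_mem hS hA n) D hD
        (cm_iff_le_centralizer.2 h).symm (fun h => hc (by simpa using h.symm)))
  refine ⟨fun A hA => ?_, ?_, fun _ => hperf, fun _ => hperf⟩
  · rw [hperf, top_sup_eq, inf_top_eq]
    exact ⟨rfl, hS.ne_bot A hA⟩
  · rw [hperf]
    refine L.qs_of_equiv (L.isQuasisimple_iff.2 ⟨⟨hperf⟩, ?_, hnorm⟩) Subgroup.topEquiv.symm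
    obtain ⟨A, hA, -⟩ := h2
    obtain ⟨a, -, ha1⟩ := RS.exists_ne_one hS hA
    exact ⟨a, 1, ha1⟩

end Cfsg.Agent.S5033
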