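import Cfsg.Statements.S5035
import Cfsg.Agent.H8.Root3

set_option autoImplicit false
open Cfsg

namespace Cfsg.Agent.S5035

open Cfsg.Agent.H8

theorem map_ro {G H : Type*} [Group G] [Group H] (f : G →* H) {A B : Subgroup G}
    (h : IsRankOnePair A B) : A.map f = B.map f ∨ IsRankOnePair (A.map f) (B.map f) := by
  have key : ∀ {A B : Subgroup G}, IsRankOnePair A B → B ≤ (f.ker ⊓ (A ⊔ B)) ⊔ A →
      B.map f ≤ A.map f := by
    intro A B _ hle
    refine (Subgroup.map_mono hle).trans ?_
    rw [Subgroup.map_sup]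
    refine sup_le ?_ le_rfl
    rintro _ ⟨x, hx, rfl⟩
    rw [show f x = 1 from hx.1]; exact Subgroup.one_mem _
  have hn : ∀ x ∈ A ⊔ B, x • (f.ker ⊓ (A ⊔ B)) = f.ker ⊓ (A ⊔ B) := fun x hx => by
    rw [smul_inf', smul_eq_of_normal, smul_eq_of_mem hx]
  have hcase : Cm (f.ker ⊓ (A ⊔ B)) (A ⊔ B) → IsRankOnePair (A.map f) (B.map f) := by
    intro hc
    have inj : ∀ {A B : Subgroup G}, IsRankOnePair A B → Cm (f.ker ⊓ (A ⊔ B)) (A ⊔ B) →
        ∀ a ∈ A, f a = 1 → a = 1 := fun h hc a ha e =>
      RO.eq_one_of_commute h ha (fun b hb =>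
        hc a ⟨e, Subgroup.mem_sup_left ha⟩ b (Subgroup.mem_sup_right hb))
    have cond : ∀ {A B : Subgroup G}, IsRankOnePair A B → Cm (f.ker ⊓ (A ⊔ B)) (A ⊔ B) →
        RankOneCondition (A.map f) (B.map f) := by
      intro A B h hc
      rw [cond_iff]
      rintro _ ⟨a, ha, rfl⟩ ha1
      obtain ⟨b, hb, hb1, e⟩ := RO.exists_b h ha (by rintro rfl; simp at ha1)
      refine ⟨f b, ⟨b, hb, rfl⟩, fun e => hb1 (inj (RO.symm h) (by rwa [sup_comm]) b hb e), ?_⟩
      rw [← map_smul', ← map_smul', e]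
    refine ⟨fun e => ?_, ?_, ?_, cond h hc, cond (RO.symm h) (by rwa [sup_comm])⟩
    · obtain ⟨b, hb, hb1⟩ := RO.exists_right h
      have : f b ∈ A.map f := e ▸ ⟨b, hb, rfl⟩
      obtain ⟨a, ha, e1⟩ := this
      have hk : b * a⁻¹ ∈ f.ker ⊓ (A ⊔ B) := ⟨by simp [e1], Subgroup.mul_mem _
        (Subgroup.mem_sup_right hb) (Subgroup.mem_sup_left (A.inv_mem ha))⟩
      apply hb1
      apply RO.eq_one_of_smul_eq' h hb
      have : b = (b * a⁻¹) * a := by group
      rw [this, mul_smul, smul_eq_of_mem ha]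
      exact smul_eq_of_commute (fun x hx => hc _ hk x (Subgroup.mem_sup_left hx))
    · have := h.nilpotent_left
      exact Group.nilpotent_of_surjective _ (f.subgroupMap_surjective A)
    · have := h.nilpotent_right
      exact Group.nilpotent_of_surjective _ (f.subgroupMap_surjective B)
  rcases RO.normal_dichotomy h inf_le_right hn with h1 | h1
  · rcases RO.normal_dichotomy (RO.symm h) (K := f.ker ⊓ (A ⊔ B))
      (by rw [sup_comm]; exact inf_le_right) (by rwa [sup_comm B A]) with h2 | h2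
    · exact Or.inl (le_antisymm (key (RO.symm h) (by rwa [sup_comm B A])) (key h h1))
    · exact Or.inr (hcase (by rwa [sup_comm B A] at h2))
  · exact Or.inr (hcase h1)

/-- Let S be a set of abstract root subgroups of G whose graph of rank one pairs is connected, and f a homomorphism from G onto a group H. Then either the images of the members of S form a set of abstract root subgroups of H whose graph of rank one pairs is again connected, or H equals the image of a member of S. -/
theorem result {G H : Type*} [Group G] [Group H] {S : Set (Subgroup G)} (hS : Cfsg.IsRootSubgroupSet S)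
    (hc : Cfsg.IsConnectedFamily (Cfsg.FAdj S) S) (f : G →* H) (hf : Function.Surjective f) :
    (Cfsg.IsRootSubgroupSet ((fun A : Subgroup G => A.map f) '' S) ∧
      Cfsg.IsConnectedFamily (Cfsg.FAdj ((fun A : Subgroup G => A.map f) '' S)) ((fun A : Subgroup G => A.map f) '' S)) ∨
    ∃ A ∈ S, A.map f = ⊤ := by
  by_cases hb : ∃ A ∈ S, A.map f = ⊥
  · right
    obtain ⟨A, hA, e⟩ := hb
    refine ⟨A, hA, ?_⟩
    have : f.ker = ⊤ := RS.le_of_members hS (fun B hB => by
      obtain ⟨g, rfl⟩ := Reach.exists_smul (hc A hA B hB)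
      rw [← Subgroup.map_eq_bot_iff, map_smul', e, smul_bot'])
    rw [eq_top_iff]
    intro y _
    obtain ⟨x, rfl⟩ := hf y
    have hx : x ∈ f.ker := by rw [this]; trivial
    rw [show f x = 1 from hx]; exact Subgroup.one_mem _
  left
  push Not at hb
  have hcomm : ∀ A ∈ S, IsMulCommutative (A.map f) := fun A hA => by
    have := hS.commutative A hA
    infer_instance
  refine ⟨⟨?_, ?_, ?_, ?_, ?_⟩, ?_⟩
  · rintro _ ⟨A, hA, rfl⟩; exact hcomm A hA
  · rintro _ ⟨A, hA, rfl⟩; exact hb A hA
  · rw [iSup_image, ← Subgroup.map_top_of_surjective f hf, ← hS.generates]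
    simp only [Subgroup.map_iSup]
  · rintro _ ⟨A, hA, rfl⟩ y
    obtain ⟨x, rfl⟩ := hf y
    exact ⟨x • A, RS.smul_mem hS hA x, map_smul' f x A⟩
  · rintro _ ⟨A, hA, rfl⟩ _ ⟨B, hB, rfl⟩
    dsimp only
    rcases hS.pair A hA B hB with h | h | h
    · left; rw [← Subgroup.map_commutator, h, Subgroup.map_bot]
    · rcases map_ro f h with h | h
      · left; rw [← h, Subgroup.commutator_self_eq_bot_iff]; exact hcomm A hA
      · exact Or.inr (Or.inl h)
    · right; right
      refine ⟨⟨_, h.1, Subgroup.map_commutator _ _ _⟩, ?_, ?_, ?_⟩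
      · rw [← Subgroup.map_commutator, ← Subgroup.map_sup]
        rintro _ ⟨c, hc, rfl⟩ _ ⟨x, hx, rfl⟩
        rw [← map_mul, ← map_mul, h.2.1 c hc x hx]
      · rintro _ ⟨a, ha, rfl⟩ ha1
        rw [← Subgroup.map_commutator, ← h.2.2.1 a ha (by rintro rfl; simp at ha1),
          MonoidHom.map_closure, Subgroup.coe_map, Set.image_image, Set.image_image]
        simp
      · rintro _ ⟨a, ha, rfl⟩ ha1
        rw [← Subgroup.map_commutator, ← h.2.2.2 a ha (by rintro rfl; simp at ha1),
          MonoidHom.map_closure, Subgroup.coe_map, Set.image_image, Set.image_image]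
        simp
  · rintro _ ⟨A, hA, rfl⟩ _ ⟨B, hB, rfl⟩
    have := hc A hA B hB
    clear hB
    induction this with
    | refl => exact Relation.ReflTransGen.refl
    | tail _ h2 ih =>
      rcases map_ro f h2.2.2 with h | h
      · dsimp only at ih ⊢; rw [← h]; exact ih
      · exact ih.tail ⟨⟨_, h2.1, rfl⟩, ⟨_, h2.2.1, rfl⟩, h⟩

end Cfsg.Agent.S5035
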