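import Cfsg.Statements.S5036
import Cfsg.Agent.H8.Root3

set_option autoImplicit false
open Cfsg

namespace Cfsg.Agent.S5036

open Cfsg.Agent.H8

/-- Let S be a set of abstract root subgroups of G, A, B ∈ S with C = ⁅A, B⁆ ∈ S, and D ∈ S with ⁅D, C⁆ = A. Put X = ⟨B, D⟩ and N = AC. Then B, D form a rank one pair; the conjugates of A under X are the conjugates of C under X, namely the conjugates of A by elements of B together with C, equally the conjugates of C by elements of D together with A, and they partition N; and the centralizer of N in X is central in X. -/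
theorem result {G : Type*} [Group G] {S : Set (Subgroup G)} (hS : Cfsg.IsRootSubgroupSet S)
    {A B D : Subgroup G} (hA : A ∈ S) (hB : B ∈ S) (hC : ⁅A, B⁆ ∈ S) (hD : D ∈ S) (hDC : ⁅D, ⁅A, B⁆⁆ = A) :
    Cfsg.IsRankOnePair B D ∧
    {E | ∃ x ∈ B ⊔ D, E = Cfsg.conjBy A x} = {E | ∃ x ∈ B ⊔ D, E = Cfsg.conjBy ⁅A, B⁆ x} ∧
    {E | ∃ x ∈ B ⊔ D, E = Cfsg.conjBy A x} = (fun b : G => Cfsg.conjBy A b) '' (B : Set G) ∪ {⁅A, B⁆} ∧
    {E | ∃ x ∈ B ⊔ D, E = Cfsg.conjBy A x} = (fun d : G => Cfsg.conjBy ⁅A, B⁆ d) '' (D : Set G) ∪ {A} ∧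
    Cfsg.IsSubgroupPartition (A ⊔ ⁅A, B⁆) {E | ∃ x ∈ B ⊔ D, E = Cfsg.conjBy A x} ∧
    ∀ x ∈ (B ⊔ D) ⊓ Subgroup.centralizer ((A ⊔ ⁅A, B⁆ : Subgroup G) : Set G), ∀ y ∈ B ⊔ D, x * y = y * x := by
  simp only [conjBy_eq]
  have h1 := RS.cc_of_mem hS hA hB hC
  have h2 := RS.cc_of_mem hS hD hC (by rw [hDC]; exact hA)
  have hr := RS.ro_of_opposite hS hB hD h1 h2 hDC
  have hAD : Cm A D := by have := CC.cm_left h2; rwa [hDC] at this
  have hCB := CC.cm_right h1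
  have opp := fun {b d : G} (hb : b ∈ B) (hd : d ∈ D) (e : d • B = b • D) =>
    RS.opposite_smul hS hA hB hD h1 h2 hDC hb hd e
  have eq12 : (fun b : G => b • A) '' (B : Set G) ∪ {⁅A, B⁆} =
      (fun d : G => d • ⁅A, B⁆) '' (D : Set G) ∪ {A} := by
    ext E
    simp only [Set.mem_union, Set.mem_image, SetLike.mem_coe, Set.mem_singleton_iff]
    constructor
    · rintro (⟨b, hb, rfl⟩ | rfl)
      · by_cases hb1 : b = 1
        · right; simp [hb1]
        · obtain ⟨d, hd, -, e⟩ := RO.exists_b hr hb hb1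
          exact Or.inl ⟨d, hd, opp hb hd e⟩
      · exact Or.inl ⟨1, D.one_mem, by simp⟩
    · rintro (⟨d, hd, rfl⟩ | rfl)
      · by_cases hd1 : d = 1
        · right; simp [hd1]
        · obtain ⟨b, hb, -, e⟩ := RO.exists_a hr hd hd1
          exact Or.inl ⟨b, hb, (opp hb hd e).symm⟩
      · exact Or.inl ⟨1, B.one_mem, by simp⟩
  obtain ⟨x₀, hx₀, e₀⟩ := RS.opposite_conj hS hA hB hD h1 h2 hDC
  have eq3 : {E | ∃ x ∈ B ⊔ D, E = x • A} = (fun b : G => b • A) '' (B : Set G) ∪ {⁅A, B⁆} := by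
    ext E
    constructor
    · rintro ⟨x, hx, rfl⟩
      refine smul_mem_of_sup (P := (fun b : G => b • A) '' (B : Set G) ∪ {⁅A, B⁆}) ?_ ?_ x hx A
        (Or.inl ⟨1, B.one_mem, by simp⟩)
      · rintro b hb E (⟨b', hb', rfl⟩ | rfl)
        · exact Or.inl ⟨b * b', B.mul_mem hb hb', mul_smul _ _ _⟩
        · exact Or.inr (hCB.smul_eq' hb)
      · rw [eq12]
        rintro b hb E (⟨b', hb', rfl⟩ | rfl)
        · exact Or.inl ⟨b * b', D.mul_mem hb hb', mul_smul _ _ _⟩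
        · exact Or.inr (hAD.smul_eq' hb)
    · rintro (⟨b, hb, rfl⟩ | rfl)
      · exact ⟨b, Subgroup.mem_sup_left hb, rfl⟩
      · exact ⟨x₀, hx₀, e₀⟩
  have nN : ∀ y ∈ B ⊔ D, y • (A ⊔ ⁅A, B⁆) = A ⊔ ⁅A, B⁆ :=
    smul_eq_of_sup (fun y hy => CC.smul_sup_eq h1 hy) (fun y hy => by
      have := CC.smul_sup_eq (CC.symm h2) hy
      rwa [Subgroup.commutator_comm _ D, hDC, sup_comm] at this)
  refine ⟨hr, ?_, eq3, eq3.trans eq12, ⟨?_, ?_, ?_⟩, ?_⟩
  · ext E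
    constructor
    · rintro ⟨x, hx, rfl⟩
      exact ⟨x * x₀⁻¹, Subgroup.mul_mem _ hx (Subgroup.inv_mem _ hx₀), by
        rw [e₀, mul_smul, inv_smul_smul]⟩
    · rintro ⟨x, hx, rfl⟩
      exact ⟨x * x₀, Subgroup.mul_mem _ hx hx₀, by rw [e₀, mul_smul]⟩
  · rintro _ ⟨x, hx, rfl⟩
    rw [← nN x hx]; exact smul_mono' x le_sup_left
  · intro x hx hx1
    rw [eq3]
    obtain ⟨a, ha, c, hc, rfl⟩ := (mem_sup_of_cm (CC.cm_left h1).symm).1 hx
    by_cases ha1 : a = 1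
    · exact ⟨_, Or.inr rfl, by simpa [ha1] using hc⟩
    · obtain ⟨b, hb, e⟩ := RS.exists_mem_smul_cc h1 ha ha1 hc
      exact ⟨_, Or.inl ⟨b, hb, rfl⟩, e ▸ conj_mem_smul ha b⟩
  · rintro _ ⟨x, hx, rfl⟩ _ ⟨y, hy, rfl⟩ hne
    rw [Subgroup.eq_bot_iff_forall]
    rintro z ⟨hz1, hz2⟩
    have hz1 : z ∈ x • A := hz1
    have hz2 : z ∈ y • A := hz2
    have hmem : (x⁻¹ * y) • A ∈ {E | ∃ x ∈ B ⊔ D, E = x • A} :=
      ⟨_, Subgroup.mul_mem _ (Subgroup.inv_mem _ hx) hy, rfl⟩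
    have hz3 : x⁻¹ * z * x ∈ (x⁻¹ * y) • A := by
      rw [mul_smul]; exact conj_mem_inv_smul hz2 x
    rw [mem_smul_iff] at hz1
    suffices x⁻¹ * z * x = 1 by
      have e : z = x * (x⁻¹ * z * x) * x⁻¹ := by group
      rw [e, this]; simp
    rw [eq3] at hmem
    rcases hmem with ⟨b, hb, e⟩ | e
    · have e : b • A = (x⁻¹ * y) • A := e
      have hb1 : b ≠ 1 := by
        rintro rfl
        apply hne
        rw [one_smul, mul_smul, eq_inv_smul_iff] at e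
        exact e
      rw [← e] at hz3
      have k1 : ∀ d ∈ D, x⁻¹ * z * x * d = d * (x⁻¹ * z * x) := hAD _ hz1
      have k2 : ∀ d ∈ b • D, x⁻¹ * z * x * d = d * (x⁻¹ * z * x) := hAD.smul b _ hz3
      have k3 := commute_sup k1 k2
      rw [RO.sup_smul hr hb hb1] at k3
      exact CC.eq_one_of_commute hS h1 hz1 (fun y hy => k3 y (Subgroup.mem_sup_left hy))
    · have e : (x⁻¹ * y) • A = ⁅A, B⁆ := e
      exact RS.eq_one_of_mem_commutator hS h1 hz1 (e ▸ hz3)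
  · have hn : ∀ x ∈ B ⊔ D,
        x • ((B ⊔ D) ⊓ Subgroup.centralizer ((A ⊔ ⁅A, B⁆ : Subgroup G) : Set G)) =
        (B ⊔ D) ⊓ Subgroup.centralizer ((A ⊔ ⁅A, B⁆ : Subgroup G) : Set G) := by
      refine smul_eq_of_forall_le (A := B ⊔ D) (fun x hx => ?_)
      rw [smul_inf', smul_eq_of_mem hx]
      refine inf_le_inf_left _ ?_
      rw [← cm_iff_le_centralizer, ← nN x hx, cm_smul_iff, nN x hx, cm_iff_le_centralizer]
    rcases RO.normal_dichotomy hr inf_le_left hn with h | h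
    · exfalso
      refine CC.not_cm hS h2 (Cm.mono (Cm.sup_left ?_ hCB.symm) h le_rfl)
      exact (cm_iff_le_centralizer.2 inf_le_right).mono le_rfl le_sup_right
    · exact h

end Cfsg.Agent.S5036
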