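import Cfsg.Statements.S5037
import Cfsg.Agent.H8.Root3

set_option autoImplicit false
open Cfsg

namespace Cfsg.Agent.S5037

open Cfsg.Agent.H8

/-- Let S be a class of abstract root subgroups of G that is either degenerate or non-degenerate (so either the commutator case never occurs, or all three cases occur), and A ≠ C members of S. If every member of S commuting with A commutes with C, then A and C have the same commuting members of S; and if every rank one partner of A is a rank one partner of C, then A and C commute and have the same rank one partners. -/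
theorem result {G : Type*} [Group G] {S : Set (Subgroup G)} (hS : Cfsg.IsRootSubgroupClass S)
    (hdn : Cfsg.IsDegenerateRootSet S ∨ Cfsg.IsNondegenerateRootSet S)
    {A C : Subgroup G} (hA : A ∈ S) (hC : C ∈ S) (hAC : A ≠ C) :
    (Cfsg.centralizingMembers S A ⊆ Cfsg.centralizingMembers S C →
      Cfsg.centralizingMembers S A = Cfsg.centralizingMembers S C) ∧
    (Cfsg.rankOnePartners S A ⊆ Cfsg.rankOnePartners S C →
      ⁅A, C⁆ = ⊥ ∧ Cfsg.rankOnePartners S A = Cfsg.rankOnePartners S C) := by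
  have hN : ∀ B ∈ S, NI S B := by
    intro B hB
    rcases hdn with hd | hnd
    · by_contra hn
      have hall : ∀ P ∈ S, ∀ Q ∈ S, Cm P Q := by
        intro P hP Q hQ
        rcases RS.tri hS.1 hP hQ with h | h | h
        · exact h
        · exact absurd (RS.ni_of_class hS hP ⟨Q, hQ, h⟩ hB) hn
        · exact absurd h (hd P hP Q hQ)
      obtain ⟨g, rfl⟩ := hS.2.2 A hA C hC
      apply hAC
      refine (smul_eq_of_commute (fun a ha => ?_)).symm
      exact Subgroup.mem_center_iff.1
        (RS.mem_center_of_members hS.1 (fun P hP => hall A hA P hP a ha)) g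
    · exact RS.ni_of_nondeg hS hnd hB
  have hcm : ∀ P Q, P ∈ centralizingMembers S Q ↔ P ∈ S ∧ Cm P Q := fun P Q => by
    rw [cm_iff_le_centralizer]; rfl
  constructor
  · intro h
    have hac : Cm A C := ((hcm _ _).1 (h ((hcm _ _).2 ⟨hA, RS.cm_self hS.1 hA⟩))).2
    obtain ⟨B, hB, hr⟩ := hN C hC
    have hrA : IsRankOnePair A B := by
      rcases RS.tri hS.1 hA hB with h1 | h1 | h1
      · exact absurd ((hcm _ _).1 (h ((hcm _ _).2 ⟨hB, h1.symm⟩))).2 (RO.not_cm (RO.symm hr))
      · exact h1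
      · exfalso
        have h2 := ((hcm _ _).1 (h ((hcm _ _).2 ⟨h1.1, CC.cm_left h1⟩))).2
        obtain ⟨d, hd, hd1⟩ := RS.exists_ne_one hS.1 h1.1
        have hl := RS.line_commutator hS.1 hB ⟨C, hC, RO.symm hr⟩ (CC.symm h1)
        rw [Subgroup.commutator_comm] at hl
        exact hd1 (RS.line_not_commute hS.1 hB hl hC (RO.symm hr) (Subgroup.mem_sup_right hd)
          (h2 d hd))
    obtain ⟨g, e1, e2⟩ := RS.exists_swap hrA hr hac hAC
    refine le_antisymm h (fun P hP => ?_)
    rw [hcm] at hP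
    have := (hcm _ _).1 (h ((hcm _ _).2 ⟨RS.smul_mem hS.1 hP.1 g⁻¹,
      by rw [← cm_smul_right_iff, e1]; exact hP.2⟩))
    rw [← cm_smul_right_iff, e2] at this
    exact (hcm _ _).2 ⟨hP.1, this.2⟩
  · intro h
    have hac : Cm A C := by
      rcases RS.tri hS.1 hA hC with h1 | h1 | h1
      · exact h1
      · exact absurd rfl (h ⟨hC, h1⟩).2.ne
      exfalso
      obtain ⟨B, hB, hr⟩ := hN _ h1.1
      -- find a rank one partner of both `A` and `D = [A, C]`
      have : ∃ B ∈ S, IsRankOnePair A B ∧ IsRankOnePair ⁅A, C⁆ B := by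
        by_cases h2 : IsRankOnePair A B
        · exact ⟨B, hB, h2, hr⟩
        obtain ⟨c, hc, hc1⟩ := RS.exists_ne_one hS.1 hC
        by_cases h3 : IsRankOnePair (c • A) B
        · refine ⟨c⁻¹ • B, RS.smul_mem hS.1 hB _, by simpa using RO.smul h3 c⁻¹,
            RO.smul_right hr ((CC.cm_right h1).smul_eq' (C.inv_mem hc))⟩
        exfalso
        obtain ⟨d, hd, hd1⟩ := RS.exists_ne_one hS.1 h1.1
        obtain ⟨a, ha, rfl⟩ := CC.exists_left h1 hc hc1 hd
        exact hd1 (RS.mul_eq_one_of_not_ro hS.1 (RS.smul_mem hS.1 hA c) hB hA h3 h2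
          (conj_mem_smul ha c) (A.inv_mem ha) hr hd)
      obtain ⟨B, hB, hrA, hrD⟩ := this
      have hl := RS.line_commutator hS.1 hC (hN C hC) (CC.symm h1)
      obtain ⟨E, hE, -, hcc⟩ := RS.exists_cc_in_line hS.1 hC hl hB (h ⟨hB, hrA⟩).2
      apply RS.not_ro_of_cc hS.1 hE.1 hcc
      rcases (RS.mem_line_cc hS.1 hC (hN C hC) (CC.symm h1)).1 hE with ⟨a, ha, rfl⟩ | rfl
      · have := (h ⟨RS.smul_mem hS.1 hB a⁻¹, RO.smul_right hrA (smul_eq_of_mem (A.inv_mem ha))⟩).2
        simpa using RO.symm (RO.smul this a)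
      · rw [Subgroup.commutator_comm]; exact RO.symm hrD
    refine ⟨cm_iff.1 hac, le_antisymm h (fun P hP => ?_)⟩
    obtain ⟨B, hB, hr⟩ := hN A hA
    obtain ⟨g, e1, e2⟩ := RS.exists_swap hr (h ⟨hB, hr⟩).2 hac hAC
    have := h ⟨RS.smul_mem hS.1 hP.1 g⁻¹, by
      rw [← RO.smul_iff g, e1, smul_inv_smul]; exact hP.2⟩
    have := RO.smul this.2 g
    rw [e2, smul_inv_smul] at this
    exact ⟨hP.1, this⟩

end Cfsg.Agent.S5037
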