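import Cfsg.Statements.S5039
import Cfsg.Agent.H8.SL2b
import Cfsg.Agent.H8.Root3

set_option autoImplicit false
universe u
open Cfsg

namespace Cfsg.Agent.S5039

open Cfsg.Agent.H8

theorem exists_two {G : Type*} [Group G] {C : Subgroup G} (h : 3 < ENat.card C) :
    ∃ c ∈ C, ∃ c' ∈ C, c ≠ 1 ∧ c' ≠ 1 ∧ c ≠ c' := by
  by_contra hh
  push Not at hh
  have : ∃ c : G, (C : Set G) ⊆ {1, c} := by
    by_cases hb : C = ⊥
    · exact ⟨1, by simp [hb]⟩
    obtain ⟨c, hc, hc1⟩ := exists_ne_one_of_ne_bot hb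
    refine ⟨c, fun x hx => ?_⟩
    by_cases hx1 : x = 1
    · exact Or.inl hx1
    · exact Or.inr (hh x hx c hc hx1 hc1)
  obtain ⟨c, hc⟩ := this
  have h1 := Set.encard_le_encard hc
  have h2 : ({1, c} : Set G).encard ≤ 3 := by
    refine (Set.encard_insert_le _ _).trans ?_
    rw [Set.encard_singleton]; decide
  exact absurd (h1.trans h2) (not_le.2 h)

theorem degenerate {G : Type*} [Group G] {S : Set (Subgroup G)} (hS : IsRootSubgroupClass S)
    (hd : IsDegenerateRootSet S) {A B : Subgroup G} (hA : A ∈ S) (hB : B ∈ S)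
    (hr : IsRankOnePair A B) (h3 : 3 < ENat.card A) (hW : ∃ C ∈ S, C ≠ A ∧ Cm A C) :
    IsSpecialRankOnePair A B := by
  have tri : ∀ P ∈ S, ∀ Q ∈ S, ¬ Cm P Q → IsRankOnePair P Q := by
    intro P hP Q hQ hn
    rcases RS.tri hS.1 hP hQ with h | h | h
    · exact absurd h hn
    · exact h
    · exact absurd h (hd P hP Q hQ)
  by_cases h0 : ∃ C ∈ S, C ≠ A ∧ Cm A C ∧ ¬ Cm C B
  · obtain ⟨C, hC, hne, h1, h2⟩ := h0
    exact RS.special_of_triangle hr (tri C hC B hB h2) h1 hne.symm
  exfalso
  push Not at h0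
  have h0' : ∀ g : G, g • A = A → ∀ C ∈ S, C ≠ A → Cm A C → Cm C (g • B) := by
    intro g hg C hC hne hc
    have hg' : g⁻¹ • A = A := by rw [inv_smul_eq_iff, hg]
    rw [cm_smul_right_iff]
    refine h0 _ (RS.smul_mem hS.1 hC _) ?_ ?_
    · rw [Ne, inv_smul_eq_iff, hg]; exact hne
    · rw [← hg']; exact hc.smul _
  obtain ⟨C, hC, hne, hAC, D, hD, hCD, hAD⟩ : ∃ C ∈ S, C ≠ A ∧ Cm A C ∧
      ∃ D ∈ S, IsRankOnePair C D ∧ IsRankOnePair A D := by
    by_contra hh
    push Not at hh
    obtain ⟨C, hC, hne, hAC⟩ := hW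
    obtain ⟨g, hg⟩ := hS.2.2 C hC A hA
    have hre : Reach S C A := by
      rw [hg]; exact RS.reach_smul hS.1 hC (RS.ni_of_class hS hA ⟨B, hB, hr⟩ hC) g
    have key : ∀ P, Reach S C P → P ∈ S ∧ P ≠ A ∧ Cm A P := by
      intro P hP
      induction hP with
      | refl => exact ⟨hC, hne, hAC⟩
      | @tail P Q _ h2 ih =>
        refine ⟨h2.2.1, ?_, ?_⟩
        · rintro rfl
          exact RO.not_cm h2.2.2 ih.2.2.symm
        · by_contra hn
          exact hh P ih.1 ih.2.1 ih.2.2 Q h2.2.1 h2.2.2 (tri A hA Q h2.2.1 hn)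
    exact (key A hre).2.1 rfl
  have hsp := RS.special_of_triangle hAD hCD hAC hne.symm
  have hC3 : 3 < ENat.card C := by
    obtain ⟨g, rfl⟩ := hS.2.2 A hA C hC
    rwa [conjBy_eq, enat_card_smul]
  have hAA := RS.cm_self hS.1 hA
  have key : Cm A (rankOneDiagonal A D) := by
    intro a ha h hh
    obtain ⟨c, hc, hc1, hn⟩ : ∃ c ∈ C, c ≠ 1 ∧ ¬ Cm D ((a * c) • D) := by
      obtain ⟨c, hc, c', hc', h1, h2, h3⟩ := exists_two hC3
      by_contra hh
      push Not at hh
      have e1 := hh c hc h1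
      have e2 := hh c' hc' h2
      rw [mul_smul, cm_smul_right_iff] at e1 e2
      exact h3 (RS.chi_unique hA hAD hCD hAC (A.inv_mem ha) hc hc' e1 e2)
    set E := (a * c) • D with hE
    have hES : E ∈ S := RS.smul_mem hS.1 hD _
    have hDE := tri D hD E hES hn
    have hacA : (a * c) • A = A := by rw [mul_smul, hAC.smul_eq' hc, smul_eq_of_mem ha]
    have hAE : IsRankOnePair A E := RO.smul_right hAD hacA
    obtain ⟨-, -, -, a1, ha1, -, -, -, hcm⟩ := RS.cm_smul_smul hCD hAD hAC.symm hc hc1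
    have haa : a * a1 ≠ 1 := by
      intro e
      apply hn
      rw [hE, mul_smul, cm_smul_right_iff, ← eq_inv_of_mul_eq_one_right e]
      exact hcm.symm
    obtain ⟨d, hd, -, e⟩ := RO.exists_b hAD (A.mul_mem ha ha1) haa
    have hAF : Cm A (d⁻¹ • E) := by
      rw [cm_smul_right_iff, inv_inv, e, hE, mul_smul, mul_smul, cm_smul_iff]
      exact hcm.symm
    have hFo : d⁻¹ • E ∈ unipotentSubgroups D E := RO.smul_right_mem_omega hDE (D.inv_mem hd)
    set F := d⁻¹ • E with hF
    have hFD : F ≠ D := by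
      intro e; rw [e] at hAF; exact RO.not_cm hAD hAF
    have hFE : F ≠ E := by
      intro e; rw [e] at hAF; exact RO.not_cm hAE hAF
    have hFD' := RO.of_mem_omega hDE hFo RO.left_mem_omega hFD
    have eo := RO.omega_of_mem_omega hDE hFo RO.left_mem_omega hFD
    obtain ⟨f, hf, ef⟩ := RO.exists_smul_eq hFD' (RO.right_mem_omega hFD')
      (by rw [eo]; exact RO.right_mem_omega hDE) hFD.symm hFE.symm
    have hFA : F ≠ A := by
      intro e
      rw [e] at hf
      have : (a⁻¹ * f) • D = c • D := by rw [mul_smul, ef, hE, mul_smul, inv_smul_smul]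
      exact hc1 (RS.grid_inj hAD hCD hAC hne.symm (A.mul_mem (A.inv_mem ha) hf) hc this).2
    have hFS : F ∈ S := RS.smul_mem hS.1 hES _
    set z := f⁻¹ * (a * c) with hz
    have hzD : z • D = D := by rw [hz, mul_smul, ← hE, ← ef, inv_smul_smul]
    have hzA : ∀ x ∈ A, z * x = x * z := by
      intro x hx
      have c1 : Commute x f := hAF x hx f hf
      have c2 : Commute x a := hAA x hx a ha
      have c3 : Commute x c := hAC x hx c hc
      exact (c1.inv_right.mul_right (c2.mul_right c3)).symm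
    have hzX := commute_sup hzA (RO.commute_right_of_commute_left hAD hzA hzD)
    have hzB : ∀ g : G, g • A = A → z • g • B = a • g • B := by
      intro g hg
      have c1 : Commute a f := hAF a ha f hf
      rw [hz, ← mul_assoc, ← c1.inv_right.eq, mul_smul, mul_smul,
        (h0' g hg C hC hne hAC).smul_eq hc, (h0' g hg F hFS hFA hAF).smul_eq (F.inv_mem hf)]
    have hhA : h • A = A := smul_eq_iff_mem_normalizer.2 hh.1.2
    have hhA' : h⁻¹ • A = A := by rw [inv_smul_eq_iff, hhA]
    have m : h * a * h⁻¹ ∈ A := hhA ▸ conj_mem_smul ha h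
    have : (h * a * h⁻¹) • B = a • B := by
      have e1 := hzB 1 (one_smul _ _)
      rw [one_smul] at e1
      rw [mul_smul, mul_smul, ← hzB _ hhA', ← e1, ← mul_smul, ← hzX h hh.1.1, ← mul_smul]
      simp
    have := RO.smul_inj hr m ha this
    calc a * h = (h * a * h⁻¹) * h := by rw [this]
      _ = h * a := by group
  have := SP.commutator_diagonal_eq hsp hAA h3
  rw [cm_iff.1 key] at this
  exact hS.1.ne_bot A hA this.symm

/-- Let S be a class of abstract root subgroups of G containing two different commuting members. Suppose that, in case S is degenerate and every element of every member of S has order at most 3, the following holds: for every A ∈ S and every rank one partner B of A there are subgroups A₀ ≤ A and B₀ ≤ B generating an image of SL₂(k) with central kernel, k a field with at least four elements, A₀ and B₀ being the images of the unitriangular subgroups. Then every rank one pair A, B in S is special. -/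
theorem result {G : Type u} [Group G] {S : Set (Subgroup G)} (hS : Cfsg.IsRootSubgroupClass S)
    (hcomm : ∃ A ∈ S, ∃ C ∈ S, A ≠ C ∧ ⁅A, C⁆ = ⊥)
    (hH : Cfsg.IsDegenerateRootSet S → (∀ A ∈ S, ∀ a ∈ A, 0 < orderOf a ∧ orderOf a ≤ 3) →
      ∀ A ∈ S, ∀ B ∈ Cfsg.rankOnePartners S A, ∃ A₀ B₀ : Subgroup G, A₀ ≤ A ∧ B₀ ≤ B ∧
        ∃ (k : Type u) (_ : Field k), 3 < ENat.card k ∧ Cfsg.IsPSL2PairOver k A₀ B₀)
    {A B : Subgroup G} (hA : A ∈ S) (hB : B ∈ Cfsg.rankOnePartners S A) : Cfsg.IsSpecialRankOnePair A B := by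
  obtain ⟨hB, hr⟩ := hB
  by_cases hd : IsDegenerateRootSet S
  · refine degenerate hS hd hA hB hr ?_ ?_
    · by_cases ho : ∀ A ∈ S, ∀ a ∈ A, 0 < orderOf a ∧ orderOf a ≤ 3
      · obtain ⟨A₀, B₀, h1, -, k, _, hk, φ, -, hker, e, -⟩ := hH hd ho A hA B ⟨hB, hr⟩
        refine hk.trans_le (ENat.card_le_card_of_injective (f := fun t : k =>
          (⟨φ (uX t), h1 (e ▸ Subgroup.mem_map_of_mem φ (mem_upper_iff.2 ⟨t, rfl⟩))⟩ : A)) ?_)
        intro s t hst
        have hz : uX (s - t) ∈ φ.ker := by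
          rw [MonoidHom.mem_ker, sub_eq_add_neg, uX_add, uX_neg, map_mul, map_inv, mul_inv_eq_one]
          exact congrArg Subtype.val hst
        rw [← sub_eq_zero]
        rcases mem_center_SL2 (hker hz) with e | e
        · simpa using congrFun (congrFun (congrArg Subtype.val e) 0) 1
        · simpa using congrFun (congrFun (congrArg Subtype.val e) 0) 1
      · push Not at ho
        obtain ⟨A', hA', a, ha, h⟩ := ho
        obtain ⟨g, rfl⟩ := hS.2.2 A' hA' A hA
        rw [conjBy_eq, enat_card_smul]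
        have := ENat.card_le_card_of_injective (f := fun i : Fin 4 =>
          (⟨a ^ (i : ℕ), A'.pow_mem ha _⟩ : A')) (by
          intro i j hij
          have e : a ^ (i : ℕ) = a ^ (j : ℕ) := congrArg Subtype.val hij
          rw [pow_eq_pow_iff_modEq] at e
          apply Fin.ext
          by_cases h0 : orderOf a = 0
          · rwa [h0, Nat.modEq_zero_iff] at e
          · have := h (Nat.pos_of_ne_zero h0)
            exact Nat.ModEq.eq_of_lt_of_lt e (by omega) (by omega))
        refine lt_of_lt_of_le ?_ this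
        simp; decide
    · obtain ⟨P, hP, Q, hQ, hne, hc⟩ := hcomm
      obtain ⟨g, rfl⟩ := hS.2.2 P hP A hA
      exact ⟨g • Q, RS.smul_mem hS.1 hQ g, by simpa [conjBy_eq] using hne.symm,
        (cm_iff.2 hc).smul g⟩
  · simp only [IsDegenerateRootSet, not_forall, not_not] at hd
    obtain ⟨E, hE, F, hF, h⟩ := hd
    exact RS.special_of_nondeg hS ⟨hcomm, ⟨A, hA, B, hB, hr⟩, ⟨E, hE, F, hF, h⟩⟩ hA hB hr

end Cfsg.Agent.S5039
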