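import Cfsg.Statements.S5040
import Cfsg.Agent.H8.Root3

set_option autoImplicit false
open Cfsg

namespace Cfsg.Agent.S5040

open Cfsg.Agent.H8

/-- Let S be a non-degenerate class of abstract root subgroups of G and Δ a weak TI-subset of S. Then the members of Δ commute with one another elementwise. -/
theorem result {G : Type*} [Group G] {S : Set (Subgroup G)} (hS : Cfsg.IsRootSubgroupClass S) (hnd : Cfsg.IsNondegenerateRootSet S)
    {Δ : Set (Subgroup G)} (hΔ : Cfsg.IsWeakTISubset S Δ) : Cfsg.IsAbelianFamily Δ := by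
  have hF : ∀ A ∈ S, NI S A := fun A hA => RS.ni_of_nondeg hS hnd hA
  obtain ⟨hsub, -, hne, hti⟩ := hΔ
  -- members commuting with a member of `Δ` normalize `Δ`
  have hnorm : ∀ A ∈ Δ, ∀ E ∈ S, Cm E A → ∀ e ∈ E, ∀ C ∈ Δ, e • C ∈ Δ := by
    intro A hA E hE hc e he C hC
    by_cases he1 : e = 1
    · simpa [he1] using hC
    rcases hti e ⟨he1, E, hE, he⟩ with h | h
    · rw [← h]; exact ⟨C, hC, rfl⟩
    · exact absurd hA (Set.disjoint_left.1 h ⟨A, hA, hc.smul_eq he⟩)
  have noro : ∀ A ∈ Δ, ∀ B ∈ Δ, ¬ IsRankOnePair A B := by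
    intro A hA B hB hr
    apply hne
    refine le_antisymm hsub (fun C hC => ?_)
    obtain ⟨g, rfl⟩ := hS.2.2 A (hsub hA) C hC
    have hg : g ∈ (⨆ C ∈ linePartners S A, C) ⊔ B := by
      rw [RS.generated_by_line hS hnd (hsub hA) (hsub hB) hr]; trivial
    refine smul_mem_of_sup (smul_mem_of_biSup (fun E hE => ?_)) ?_ g hg A hA
    · exact hnorm A hA E (mem_linePartners_iff.1 hE).1 (mem_linePartners_iff.1 hE).2.2.1.symm
    · exact hnorm B hB B (hsub hB) (RS.cm_self hS.1 (hsub hB))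
  intro A hA B hB
  rcases RS.tri hS.1 (hsub hA) (hsub hB) with h | h | h
  · exact h
  · exact absurd h (noro A hA B hB)
  exfalso
  obtain ⟨F, hFS, hcc, e⟩ := RS.exists_cc_of_line hS.1 hF (hsub hA)
    (RS.line_commutator hS.1 (hsub hA) (hF A (hsub hA)) h)
  have hr := RS.ro_of_opposite hS.1 (hsub hB) hFS h (CC.symm hcc)
    (by rw [Subgroup.commutator_comm, e])
  obtain ⟨x, hx, ex⟩ := RO.exists_smul_eq_right hr
  have hFA : Cm F A := by have := CC.cm_right hcc; rw [e] at this; exact this.symm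
  have := smul_mem_of_sup (hnorm B hB B (hsub hB) (RS.cm_self hS.1 (hsub hB)))
    (hnorm A hA F hFS hFA) x hx B hB
  exact noro B hB F (ex ▸ this) hr

end Cfsg.Agent.S5040
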