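import Cfsg.Statements.S5043
import Cfsg.Agent.H8.LinTv

set_option autoImplicit false
open Matrix
open Cfsg

namespace Cfsg.Agent.S5043

open Cfsg.Agent.H8

open Matrix Cfsg.Agent.H6 in
theorem set_eq (k : Type*) [Field k] (n : ℕ) :
    {A : Subgroup (Matrix.SpecialLinearGroup (Fin (n + 3)) k) |
        ∃ g : Matrix.SpecialLinearGroup (Fin (n + 3)) k,
          A = Cfsg.conjBy (Subgroup.closure {t : Matrix.SpecialLinearGroup (Fin (n + 3)) k |
            ∃ c : k, (t : Matrix (Fin (n + 3)) (Fin (n + 3)) k) = Matrix.transvection 0 1 c}) g} =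
      Lq k (slRho (Fin (n + 3)) k) '' slFam (Fin (n + 3)) k := by
  have e : Subgroup.closure {t : Matrix.SpecialLinearGroup (Fin (n + 3)) k |
      ∃ c : k, (t : Matrix (Fin (n + 3)) (Fin (n + 3)) k) = Matrix.transvection 0 1 c} =
      Lq k (slRho (Fin (n + 3)) k) (single 0 1 1) := by
    unfold Lq
    congr 1
    ext t
    simp [transvection, smul_single]
  have h01 : single (0 : Fin (n + 3)) 1 (1 : k) ∈ slFam (Fin (n + 3)) k :=
    single_mem_slFam zero_ne_one
  rw [e]
  ext A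
  constructor
  · rintro ⟨g, rfl⟩
    exact sl_fam.smul_mem ⟨_, h01, rfl⟩ g
  · rintro ⟨s, hs, rfl⟩
    exact (sl_conn h01 hs).exists_smul

/-- Let k be a field and n a natural number. In SL_{n+3}(k) (so in every dimension at least 3) the conjugates of the root subgroup of elementary transvections 1 + c E₁₂ (c ∈ k) — that is, the groups of transvections attached to an incident point–hyperplane pair — form a non-degenerate class of abstract k-root subgroups of SL_{n+3}(k) whose graph of rank one pairs is connected. -/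
theorem result (k : Type*) [Field k] (n : ℕ) :
    Cfsg.IsRootSubgroupClass {A : Subgroup (Matrix.SpecialLinearGroup (Fin (n + 3)) k) |
        ∃ g : Matrix.SpecialLinearGroup (Fin (n + 3)) k,
          A = Cfsg.conjBy (Subgroup.closure {t : Matrix.SpecialLinearGroup (Fin (n + 3)) k |
            ∃ c : k, (t : Matrix (Fin (n + 3)) (Fin (n + 3)) k) = Matrix.transvection 0 1 c}) g} ∧
    Cfsg.IsNondegenerateRootSet {A : Subgroup (Matrix.SpecialLinearGroup (Fin (n + 3)) k) |
        ∃ g : Matrix.SpecialLinearGroup (Fin (n + 3)) k,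
          A = Cfsg.conjBy (Subgroup.closure {t : Matrix.SpecialLinearGroup (Fin (n + 3)) k |
            ∃ c : k, (t : Matrix (Fin (n + 3)) (Fin (n + 3)) k) = Matrix.transvection 0 1 c}) g} ∧
    Cfsg.IsKRootSubgroupSet k {A : Subgroup (Matrix.SpecialLinearGroup (Fin (n + 3)) k) |
        ∃ g : Matrix.SpecialLinearGroup (Fin (n + 3)) k,
          A = Cfsg.conjBy (Subgroup.closure {t : Matrix.SpecialLinearGroup (Fin (n + 3)) k |
            ∃ c : k, (t : Matrix (Fin (n + 3)) (Fin (n + 3)) k) = Matrix.transvection 0 1 c}) g} ∧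
    Cfsg.IsConnectedFamily (Cfsg.FAdj {A : Subgroup (Matrix.SpecialLinearGroup (Fin (n + 3)) k) |
        ∃ g : Matrix.SpecialLinearGroup (Fin (n + 3)) k,
          A = Cfsg.conjBy (Subgroup.closure {t : Matrix.SpecialLinearGroup (Fin (n + 3)) k |
            ∃ c : k, (t : Matrix (Fin (n + 3)) (Fin (n + 3)) k) = Matrix.transvection 0 1 c}) g})
      {A : Subgroup (Matrix.SpecialLinearGroup (Fin (n + 3)) k) |
        ∃ g : Matrix.SpecialLinearGroup (Fin (n + 3)) k,
          A = Cfsg.conjBy (Subgroup.closure {t : Matrix.SpecialLinearGroup (Fin (n + 3)) k |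
            ∃ c : k, (t : Matrix (Fin (n + 3)) (Fin (n + 3)) k) = Matrix.transvection 0 1 c}) g} := by
  rw [set_eq]
  have h02 : (0 : Fin (n + 3)) ≠ 2 := by
    simp [Fin.ext_iff, Nat.mod_eq_of_lt (show 2 < n + 3 by omega)]
  have h12 : (1 : Fin (n + 3)) ≠ 2 := by
    simp [Fin.ext_iff, Nat.mod_eq_of_lt (show 2 < n + 3 by omega)]
  have h01 : (0 : Fin (n + 3)) ≠ 1 := zero_ne_one
  have m01 := single_mem_slFam (F := k) h01
  have m02 := single_mem_slFam (F := k) h02
  have m12 := single_mem_slFam (F := k) h12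
  have m10 := single_mem_slFam (F := k) h01.symm
  refine ⟨sl_fam.class_of_conn sl_gen ⟨_, m01⟩ fun s hs t ht => sl_conn hs ht,
    ⟨⟨_, ⟨_, m01, rfl⟩, _, ⟨_, m02, rfl⟩, fun e => ?_, cm_iff.1 ((sl_fam.cm_iff m01 m02).2 ?_)⟩,
    ⟨_, ⟨_, m01, rfl⟩, _, ⟨_, m10, rfl⟩, sl_fam.ro m01 m10 one_ne_zero ?_ ?_⟩,
    ⟨_, ⟨_, m01, rfl⟩, _, ⟨_, m12, rfl⟩, sl_fam.cc m01 m12 ?_ ?_ ?_⟩⟩, sl_fam.kroot sl_gen, ?_⟩
  · obtain ⟨g, hg⟩ := sl_fam.full _ m01 1
    have h1 := (mem_Lq (sl_fam.sq _ m01)).2 ⟨1, hg⟩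
    rw [e] at h1
    obtain ⟨c, hc⟩ := (mem_Lq (sl_fam.sq _ m02)).1 h1
    have := congrFun (congrFun (hg.symm.trans hc) 0) 1
    simp [h12.symm] at this
  · rw [single_mul_single_of_ne _ _ _ _ h01.symm, single_mul_single_of_ne _ _ _ _ h02.symm]
  · simp [single_mul_single_same]
  · simp [single_mul_single_same]
  · rw [single_mul_single_same, single_mul_single_of_ne _ _ _ _ h02.symm]
  · rw [single_mul_single_of_ne _ _ _ _ h02.symm, zero_mul]
  · rw [single_mul_single_same, single_mul_single_of_ne _ _ _ _ h02.symm, sub_zero, mul_one]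
    exact m02
  · rintro _ ⟨s, hs, rfl⟩ _ ⟨t, ht, rfl⟩
    exact sl_conn hs ht

end Cfsg.Agent.S5043
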