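import Cfsg.Statements.S5045
import Cfsg.Agent.H8.RI2

set_option autoImplicit false
open Cfsg

namespace Cfsg.Agent.S5045

open Cfsg.Agent.H8

open RI

/-- Let G be a finite group generated by a set D of root involutions, and W the set of members of D whose product with every other member of D has even order or is trivial (the isolated vertices of the odd-order-product graph on D). Then W is conjugation-invariant and generates a normal 2-subgroup of G meeting D in exactly W; the commutator of two members of D lying in different connected components of that graph, each with more than one member, lies in the subgroup generated by W; and for a in such a component, every member of D commuting with a, different from a and with product with a in D, lies in that component or in W. -/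
theorem result {G : Type*} [Group G] [Finite G] {D : Set G} (hD : Cfsg.IsRootInvolutionSet D) :
    (∀ w ∈ {w | Cfsg.IsIsolatedElem (Cfsg.OddAdj D) D w}, ∀ g : G, g * w * g⁻¹ ∈ {w | Cfsg.IsIsolatedElem (Cfsg.OddAdj D) D w}) ∧
    (Subgroup.closure {w | Cfsg.IsIsolatedElem (Cfsg.OddAdj D) D w}).Normal ∧
    IsPGroup 2 ↥(Subgroup.closure {w | Cfsg.IsIsolatedElem (Cfsg.OddAdj D) D w}) ∧
    (Subgroup.closure {w | Cfsg.IsIsolatedElem (Cfsg.OddAdj D) D w} : Set G) ∩ D = {w | Cfsg.IsIsolatedElem (Cfsg.OddAdj D) D w} ∧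
    (∀ a ∈ D, ∀ b ∈ D, (∃ a' ∈ Cfsg.elemComponentOf (Cfsg.OddAdj D) D a, a' ≠ a) →
      (∃ b' ∈ Cfsg.elemComponentOf (Cfsg.OddAdj D) D b, b' ≠ b) →
      Cfsg.elemComponentOf (Cfsg.OddAdj D) D a ≠ Cfsg.elemComponentOf (Cfsg.OddAdj D) D b →
        a * b * a⁻¹ * b⁻¹ ∈ Subgroup.closure {w | Cfsg.IsIsolatedElem (Cfsg.OddAdj D) D w}) ∧
    (∀ a ∈ D, (∃ a' ∈ Cfsg.elemComponentOf (Cfsg.OddAdj D) D a, a' ≠ a) →
      Cfsg.productPartners D a ⊆ Cfsg.elemComponentOf (Cfsg.OddAdj D) D a ∪ {w | Cfsg.IsIsolatedElem (Cfsg.OddAdj D) D w}) := by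
  have hW : ∀ w ∈ {w | IsIsolatedElem (OddAdj D) D w}, ∀ g : G,
      g * w * g⁻¹ ∈ {w | IsIsolatedElem (OddAdj D) D w} := by
    intro w hw g
    rw [Set.mem_setOf_eq, iso_iff] at hw ⊢
    refine ⟨hD.conj_mem w hw.1 g, fun b hb ho => ?_⟩
    obtain ⟨x, hx, h⟩ := NI.conj hD ⟨b, hb, ho⟩ g⁻¹
    exact hw.2 x hx (by simpa only [mul_assoc, inv_mul_cancel_left, inv_inv, inv_mul_cancel,
      mul_one] using h)
  have hN := H3.normal_closure_of_conj_mem (fun g d hd => hW d hd g)
  have hP := isPGroup_closure hD (T := {w | IsIsolatedElem (OddAdj D) D w}) (fun _ h => h.1)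
    (fun a ha b hb => by simpa only [inv_eq hD ha.1] using hW b hb a)
    (fun a ha b hb => (iso_iff.1 ha).2 b hb.1)
  have hX : ∀ a ∈ D, NI D a → productPartners D a ⊆
      elemComponentOf (OddAdj D) D a ∪ {w | IsIsolatedElem (OddAdj D) D w} := by
    intro a ha h e he
    by_cases hn : NI D e
    · exact Or.inl ⟨he.1.1, rch_of_collinear hD ha he.1.1 he.1.2.1.symm (he.1.2.1 ▸ he.2) h hn⟩
    · exact Or.inr (iso_iff.2 ⟨he.1.1, fun b hb ho => hn ⟨b, hb, ho⟩⟩)
  refine ⟨hW, hN, hP, ?_, ?_, fun a ha ⟨a', h1, h2⟩ => hX a ha (Rch.ni h1.2 h2)⟩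
  · ext d
    refine ⟨fun h => iso_iff.2 ⟨h.2, fun b hb => not_od_of_pgroup hD hP h.2 hb ?_⟩,
      fun h => ⟨Subgroup.subset_closure h, h.1⟩⟩
    have := Subgroup.mul_mem _ h.1 (hN.conj_mem d h.1 b)
    simpa only [inv_eq hD hb, mul_assoc] using this
  · rintro a ha b hb ⟨a', h1, h2⟩ ⟨b', h3, h4⟩ hne
    have hr : ¬ Rch D a b := fun h => hne (by
      ext c
      exact ⟨fun hc => ⟨hc.1, h.symm.trans hc.2⟩, fun hc => ⟨hc.1, h.trans hc.2⟩⟩)
    rcases tri hD ha hb with h | h | h
    · rw [h, mul_inv_cancel_right, mul_inv_cancel]; exact one_mem _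
    · exact absurd (Rch.single ha hb h) hr
    · have hc := h.mem hD ha hb
      have c1 := h.comm_left hD ha hb
      have c2 := h.comm_right hD ha hb
      rw [inv_eq hD ha, inv_eq hD hb, mul_assoc (a * b)]
      refine Subgroup.subset_closure (iso_iff.2 ⟨hc, fun x hx ho => hr ?_⟩)
      exact (rch_of_collinear hD ha hc c1 (h.mul_left_mem hD ha hb) (Rch.ni h1.2 h2)
        ⟨x, hx, ho⟩).trans (rch_of_collinear hD hb hc c2 (h.mul_right_mem hD ha hb) (Rch.ni h3.2 h4)
        ⟨x, hx, ho⟩).symm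

end Cfsg.Agent.S5045
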