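import Cfsg.Statements.S5046
import Cfsg.Agent.H8.RI2

set_option autoImplicit false
open Cfsg

namespace Cfsg.Agent.S5046

open Cfsg.Agent.H8

open RI

/-- Let G be a finite group generated by a set D of root involutions whose odd-order-product graph is connected, and d ∈ D. Then the members e of D with the same commuting members as d are exactly those for which the union of the commuting members of d and the members whose product with d has order 4 equals the corresponding union for e. -/
theorem result {G : Type*} [Group G] [Finite G] {D : Set G} (hD : Cfsg.IsRootInvolutionSet D)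
    (hc : Cfsg.IsConnectedSet (Cfsg.OddAdj D) D) {d : G} (hd : d ∈ D) :
    Cfsg.sameCommutingClass D d =
      {e | e ∈ D ∧ Cfsg.commutingMembers D d ∪ Cfsg.fourPartners D d = Cfsg.commutingMembers D e ∪ Cfsg.fourPartners D e} := by
  have hcl : ∀ a ∈ D, ∀ b ∈ D, ∃ g : G, b = g * a * g⁻¹ := fun a ha b hb =>
    Rch.exists_conj hD (hc a ha b hb)
  have key : ∀ e ∈ D, commutingMembers D e ∪ fourPartners D e = D \ oddPartners D e := by
    intro e he
    ext x
    rw [Set.mem_diff, mem_odd_iff]
    constructor
    · rintro (h | h)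
      · exact ⟨h.1, fun ho => ho.2.not_comm hD he h.1 h.2.symm⟩
      · exact ⟨h.1, fun ho => ho.2.not_fo h.2⟩
    · rintro ⟨hx, h⟩
      rcases tri hD he hx with h1 | h1 | h1
      · exact Or.inl ⟨hx, h1.symm⟩
      · exact absurd ⟨hx, h1⟩ h
      · exact Or.inr ⟨hx, h1⟩
  ext e
  refine and_congr_right (fun he => ?_)
  rw [key d hd, key e he]
  constructor
  · intro h
    have h1 : ∀ g ∈ D, g * d = d * g → g * e = e * g := fun g hg h' =>
      (h ▸ (⟨hg, h'⟩ : g ∈ commutingMembers D d) : g ∈ commutingMembers D e).2
    have h2 : ∀ g ∈ D, g * e = e * g → g * d = d * g := fun g hg h' =>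
      (h ▸ (⟨hg, h'⟩ : g ∈ commutingMembers D e) : g ∈ commutingMembers D d).2
    congr 1
    ext x
    rw [mem_odd_iff, mem_odd_iff]
    exact and_congr_right (fun hx => ⟨od_of_cm_eq hD he hd h1 h2 hx, od_of_cm_eq hD hd he h2 h1 hx⟩)
  · intro h
    have h1 : oddPartners D d = oddPartners D e := by
      rw [← Set.diff_diff_cancel_left (s := oddPartners D d) (t := D) (fun x hx => hx.1), h,
        Set.diff_diff_cancel_left (fun x hx => hx.1)]
    by_cases hde : d = e
    · rw [hde]
    have hni : ∀ a ∈ D, NI D a := fun a ha => by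
      by_cases h : a = d
      · exact Rch.ni (hc a ha e he) (fun e' => hde (by rw [← h, e']))
      · exact Rch.ni (hc a ha d hd) (Ne.symm h)
    ext f
    exact and_congr_right (fun hf => ⟨cm_of_odd_eq hD hcl hni hd he h1 hf,
      cm_of_odd_eq hD hcl hni he hd h1.symm hf⟩)

end Cfsg.Agent.S5046
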