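import Cfsg.Statements.S5047
import Cfsg.Agent.H8.RI2

set_option autoImplicit false
open Cfsg

namespace Cfsg.Agent.S5047

open Cfsg.Agent.H8

open RI

/-- Let G be a finite group generated by a set D of root involutions whose odd-order-product graph is connected, a ∈ D, and b a member of D different from a, commuting with a, with ab ∈ D, but not having the same commuting members as a. Then some member x of D with bx of order 4 has ax of order 3. -/
theorem result {G : Type*} [Group G] [Finite G] {D : Set G} (hD : Cfsg.IsRootInvolutionSet D)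
    (hc : Cfsg.IsConnectedSet (Cfsg.OddAdj D) D) {a b : G} (ha : a ∈ D) (hb : b ∈ Cfsg.productPartners D a)
    (hbE : b ∉ Cfsg.sameCommutingClass D a) : ∃ x ∈ Cfsg.fourPartners D b, orderOf (a * x) = 3 := by
  have hcl : ∀ a ∈ D, ∀ b ∈ D, ∃ g : G, b = g * a * g⁻¹ := fun a ha b hb =>
    Rch.exists_conj hD (hc a ha b hb)
  obtain ⟨⟨hb, h1, h2⟩, h3⟩ := hb
  have hni : ∀ c ∈ D, NI D c := fun c hc' => by
    by_cases h : c = a
    · exact Rch.ni (hc c hc' b hb) (h ▸ h2)
    · exact Rch.ni (hc c hc' a ha) (Ne.symm h)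
  have hne : oddPartners D a ≠ oddPartners D b := fun h => hbE ⟨hb, by
    ext f
    exact and_congr_right (fun hf => ⟨cm_of_odd_eq hD hcl hni ha hb h hf,
      cm_of_odd_eq hD hcl hni hb ha h.symm hf⟩)⟩
  obtain ⟨u, hu, k1, k2, k3⟩ := exists_special hD hcl ha hb h1.symm (h1 ▸ h3) hne
  have aa := sq hD ha
  have uu := sq hD hu
  have e1 : a * u * a = u * b := by
    calc a * u * a = u * (u * a * u) * a := by simp only [mul_assoc, ii uu]
      _ = _ := by rw [k2]; simp only [mul_assoc, h1, ii aa]
  have hbu : b * u ∈ D := by rw [← k3, ← e1]; exact conj_mem hD hu ha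
  obtain ⟨x, hx, l1, l2, l3⟩ := exists_special hD hcl hb hu k3.symm hbu (fun h =>
    k1.not_comm hD hu ha (cm_of_odd_eq hD hcl hni hb hu h ha h1.symm).symm)
  refine ⟨x, ⟨hx, l1.symm⟩, three hD hu hb ha hx k3 e1 h1.symm (k3 ▸ l2) l3⟩

end Cfsg.Agent.S5047
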