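import Cfsg.Statements.S5049
import Cfsg.Agent.H8.RI2

set_option autoImplicit false
open Cfsg

namespace Cfsg.Agent.S5049

open Cfsg.Agent.H8

open RI

/-- Let G be a finite group generated by a set D of odd transpositions (root involutions with no product of order 4), Q = O₂(G), and for a ∈ D let Q_a be the commutator subgroup of Q with a. Then every member of D commuting with a centralizes Q_a; and for b ∈ D with ab of odd order greater than 1, the centralizer of ab in Q is the intersection of the centralizers of a and b in Q. -/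
theorem result {G : Type*} [Group G] [Finite G] {D : Set G} (hD : Cfsg.IsOddTranspositionSet D) {a : G} (ha : a ∈ D) :
    (∀ e ∈ Cfsg.commutingMembers D a, ∀ q ∈ ⁅Cfsg.pCore 2 G, Subgroup.zpowers a⁆, e * q = q * e) ∧
    (∀ b ∈ Cfsg.oddPartners D a,
      Cfsg.pCore 2 G ⊓ Subgroup.centralizer {a * b} = Cfsg.pCore 2 G ⊓ Subgroup.centralizer {a} ⊓ Subgroup.centralizer {b}) := by
  obtain ⟨hD, h4⟩ := hD
  have hQ := L.pCore_isPGroup (G := G) 2
  haveI hN : (pCore 2 G).Normal := inferInstance
  have aa := sq hD ha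
  have key : ∀ a ∈ D, ∀ e ∈ D, e * a = a * e → ∀ q ∈ pCore 2 G, e * (q * a * q⁻¹) = q * a * q⁻¹ * e := by
    intro a ha e he hea q hq
    have aa := sq hD ha
    have hx := hD.conj_mem a ha q
    have ee := sq hD he
    rcases tri hD he hx with h | h | h
    · exact h
    · refine absurd h (not_od_of_pgroup hD hQ he hx ?_)
      have := (pCore 2 G).mul_mem ((pCore 2 G).mul_mem (hN.conj_mem q hq e)
        (hN.conj_mem _ ((pCore 2 G).inv_mem hq) (e * a)))
        ((pCore 2 G).mul_mem (hN.conj_mem q hq a) ((pCore 2 G).inv_mem hq))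
      convert this using 1
      simp only [mul_inv_rev, inv_eq hD ha, inv_eq hD he, mul_assoc, ii ee, ii aa, cc hea]
    · exact absurd h (h4 e he _ hx)
  refine ⟨fun e he => ?_, fun b hb => ?_⟩
  · have : ⁅pCore 2 G, Subgroup.zpowers a⁆ ≤ Subgroup.centralizer {e} := by
      refine Subgroup.commutator_le.2 (fun q hq y hy => ?_)
      rw [Subgroup.mem_centralizer_singleton_iff]
      have h1 : Commute e (q * y * q⁻¹) := by
        obtain ⟨n, rfl⟩ := hy
        have : Commute e (q * a * q⁻¹) := key a ha e he.1 he.2 q hq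
        simpa only [conj_zpow] using this.zpow_right n
      have h2 : Commute e y⁻¹ := by
        obtain ⟨n, rfl⟩ := hy
        exact (Commute.zpow_right he.2 n).inv_right
      exact (h1.mul_right h2).eq.symm
    intro q hq
    exact (Subgroup.mem_centralizer_singleton_iff.1 (this hq)).symm
  · rw [mem_odd_iff] at hb
    have bb := sq hD hb.1
    ext q
    simp only [Subgroup.mem_inf, Subgroup.mem_centralizer_singleton_iff]
    refine ⟨fun ⟨hq, h⟩ => ?_, fun ⟨⟨hq, h1⟩, h2⟩ => ⟨hq, by rw [← mul_assoc, h1, mul_assoc, h2,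
      mul_assoc]⟩⟩
    have k1 := key a ha a ha rfl q hq
    have k2 := key b hb.1 b hb.1 rfl q hq
    have hx := hD.conj_mem a ha q
    have hy := hD.conj_mem b hb.1 q
    have e : q * a * q⁻¹ * (q * b * q⁻¹) = a * b := by
      rw [← mul_inv_eq_iff_eq_mul] at h
      rw [← h]; group
    have h1 : q * a * q⁻¹ = a → q * a = a * q := mul_inv_eq_iff_eq_mul.1
    have h2 : q * b * q⁻¹ = b → q * b = b * q := mul_inv_eq_iff_eq_mul.1
    generalize q * a * q⁻¹ = x at *
    generalize q * b * q⁻¹ = y at *
    have xx := sq hD hx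
    have yy := sq hD hy
    have e' : a * x = b * y := by
      have := congrArg (fun g => a * g * y) e
      simpa only [mul_assoc, yy, mul_one, ii aa] using this
    have := L0 hD ha hb.1 hb.2 (z := a * x) (by simp only [mul_assoc, cc k1.symm, ii aa, xx])
      (by rw [mul_assoc, ← k1]) (by rw [e', mul_assoc, ← k2]) (by rwa [mul_assoc, ← k1, ii aa])
    refine ⟨⟨hq, h1 ?_⟩, h2 ?_⟩
    · rw [← inv_eq hD ha]; exact eq_inv_of_mul_eq_one_right this
    · rw [← inv_eq hD hb.1]; exact eq_inv_of_mul_eq_one_right (e' ▸ this)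

end Cfsg.Agent.S5049
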