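import Cfsg.Statements.S5052
import Cfsg.Agent.H7.RT0
import Cfsg.Agent.H7.RT7

set_option autoImplicit false
open Cfsg

namespace Cfsg.Agent.S5052

/-- Let G be a finite group with O₂(G) = 1 and trivial centre, generated by a class D of odd transpositions whose commuting graph is connected, with some product of two different commuting members again in D. Then for each d ∈ D the members of D with the same commuting members as d, together with 1, form a subgroup E(d); and for every x ∈ D with dx of odd order greater than 1, the subgroup generated by E(d) and x is isomorphic to L₂(q) where q is the order of E(d). -/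
theorem result {G : Type*} [Group G] [Finite G] {D : Set G} (hD : Cfsg.IsOddTranspositionSet D) (hcl : Cfsg.IsRootInvolutionClass D)
    (hO : Cfsg.pCore 2 G = ⊥) (hZ : Subgroup.center G = ⊥) (hDD : (D ∩ Cfsg.commutingProducts D).Nonempty)
    (hc : Cfsg.IsConnectedSet (Cfsg.CommAdj D) D) {d : G} (hd : d ∈ D) :
    (Cfsg.sameCommutingSubgroup D d : Set G) = Cfsg.sameCommutingClass D d ∪ {1} ∧
    ∀ x ∈ Cfsg.oddPartners D d, ∃ (F : Type) (_ : Field F) (_ : Fintype F),
      Fintype.card F = Nat.card ↥(Cfsg.sameCommutingSubgroup D d) ∧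
      Nonempty (↥(Subgroup.closure (Cfsg.sameCommutingClass D d ∪ {x})) ≃* Matrix.ProjectiveSpecialLinearGroup (Fin 2) F) := by
  have h := Cfsg.Agent.H7.RT.pc_of hD hcl hDD
  have k : Cfsg.sameCommutingClass D d = {e | e ∈ D ∧ Cfsg.Agent.H7.RT.δ D e = Cfsg.Agent.H7.RT.δ D d} :=
    Set.ext fun e => and_congr_right fun _ => eq_comm
  unfold Cfsg.sameCommutingSubgroup
  rw [k]
  refine ⟨?_, fun x hx => ?_⟩
  · obtain ⟨x, hx, h0⟩ : ∃ x ∈ D, ¬ Commute x d := by
      by_contra! b
      have := Cfsg.Agent.H7.RT.cent_closure b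
      rw [hD.1.generates, Subgroup.coe_top, Subgroup.centralizer_univ, hZ] at this
      simpa [Subgroup.mem_bot.1 this] using h.ord d hd
    exact Set.ext fun y => ((h.main Cfsg.Agent.H8.ZS.coreStep hD.1 hO hc hd hx h0).1 y).trans or_comm
  · have := (h.main Cfsg.Agent.H8.ZS.coreStep hD.1 hO hc hd hx.1
      fun e => h.nc hd hx.1 ⟨hx.2.1.symm, hx.2.2⟩ e.symm).2
    rwa [show Cfsg.Agent.H7.RT.Tri D d d x = Subgroup.closure
      ({e | e ∈ D ∧ Cfsg.Agent.H7.RT.δ D e = Cfsg.Agent.H7.RT.δ D d} ∪ {x}) by
        simp only [Cfsg.Agent.H7.RT.Tri, or_self]] at this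

end Cfsg.Agent.S5052
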