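import Cfsg.Statements.S5055
import Cfsg.Agent.H8.RS2

set_option autoImplicit false
open Cfsg

namespace Cfsg.Agent.S5055

open Cfsg.Agent.H8 RI RS Subgroup

/-- The Root Structure Theorem for root involutions. Let G be a finite group with O₂(G) = 1 and trivial centre, generated by a non-degenerate class D of root involutions such that for every d ∈ D the members of D with the same commuting members as d, together with 1, form a subgroup E(d). For d ∈ D let M_d be the subgroup generated by d and the members e ≠ d of D commuting with d with ed ∈ D, let W_d be the set of members of D commuting with d that have no partner with product of odd order among the members commuting with d, and let N_d be the subgroup generated by W_d. Then N_d = M_d; the members of D in N_d are d and the e just described; the commutator subgroup of N_d is E(d); and the members of D central in N_d are exactly those with the same commuting members as d. -/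
theorem result {G : Type*} [Group G] [Finite G] {D : Set G} (hD : Cfsg.IsNondegenerateRootInvolutionSet D)
    (hcl : Cfsg.IsRootInvolutionClass D) (hO : Cfsg.pCore 2 G = ⊥) (hZ : Subgroup.center G = ⊥)
    (hE : ∀ d ∈ D, (Cfsg.sameCommutingSubgroup D d : Set G) = Cfsg.sameCommutingClass D d ∪ {1}) {d : G} (hd : d ∈ D) :
    Subgroup.closure {w | Cfsg.IsIsolatedElem (Cfsg.OddAdj (Cfsg.commutingMembers D d)) (Cfsg.commutingMembers D d) w} =
      Subgroup.closure (Cfsg.productPartners D d ∪ {d}) ∧
    D ∩ (Subgroup.closure (Cfsg.productPartners D d ∪ {d}) : Set G) = Cfsg.productPartners D d ∪ {d} ∧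
    ⁅Subgroup.closure (Cfsg.productPartners D d ∪ {d}), Subgroup.closure (Cfsg.productPartners D d ∪ {d})⁆ =
      Cfsg.sameCommutingSubgroup D d ∧
    Cfsg.sameCommutingClass D d = {e | e ∈ D ∧ e ∈ Subgroup.closure (Cfsg.productPartners D d ∪ {d}) ∧
      ∀ y ∈ Subgroup.closure (Cfsg.productPartners D d ∪ {d}), e * y = y * e} := by
  have hr := hD.1
  have H : NC D := ⟨hr, hcl.2.2, fun c => ZD.ni_of_nd hr hcl.2.2 hD.2.2.1⟩
  have hfo : ∃ a ∈ D, ∃ b ∈ D, Fo a b := hD.2.2.2
  have sc : ∀ {a b : G}, b ∈ sameCommutingClass D a ↔ b ∈ D ∧ Ee D a b := fun {a b} =>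
    and_congr_right fun _ => by
      simp only [commutingMembers, Set.ext_iff, Set.mem_ofPred_eq, and_congr_right_iff, Ee]
  have sE : ∀ {a b : G}, a ∈ D → (b ∈ sameCommutingSubgroup D a ↔ E1 D a b) := fun {a b} ha => by
    rw [← SetLike.mem_coe, hE a ha, Set.mem_union, Set.mem_singleton_iff, sc, or_comm]
    exact or_congr_right (and_congr_right fun _ => ⟨Ee.symm, Ee.symm⟩)
  have hE' : ∀ a ∈ D, ∀ b ∈ D, Ee D a b → a ≠ b → a * b ∈ D := fun a ha b hb h hne =>
    (((sE ha).1 (mul_mem ((sE ha).2 (.inr ⟨ha, Ee.refl _⟩)) ((sE ha).2 (.inr ⟨hb, h.symm⟩)))).resolve_left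
      fun e => hne (by rw [eq_inv_of_mul_eq_one_left e, inv_eq hr hb])).1
  have pp : ∀ {e : G}, e ∈ productPartners D d ∪ {d} ↔ Co D e d ∨ e = d := fun {e} =>
    or_congr_left ⟨fun h => ⟨h.1.1, hd, h.1.2.1, h.2⟩, fun h => ⟨⟨h.l, h.c, h.ne hr⟩, h.m⟩⟩
  have hW : {w | IsIsolatedElem (OddAdj (commutingMembers D d)) (commutingMembers D d) w} =
      productPartners D d ∪ {d} := by
    ext w
    rw [Set.mem_ofPred_eq, iso_iff, pp]
    constructor
    · rintro ⟨⟨h1, h2⟩, h3⟩
      by_contra hn
      push Not at hn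
      obtain ⟨y, hy, k1, k2⟩ := thmB H hE' hfo hd h1 h2 hn.2 fun e => hn.1 (co_of hr h1 hd e)
      exact h3 y ⟨hy, k1⟩ k2
    · rintro (h | rfl)
      · exact ⟨⟨h.l, h.c⟩, fun b hb => h.nod hr hb.1 hb.2⟩
      · exact ⟨⟨hd, rfl⟩, fun b hb => nod_of_comm hr hd hb.1 hb.2.symm⟩
  set M := closure (productPartners D d ∪ {d}) with hM
  have cM : ∀ e ∈ D, Ee D d e → ∀ y ∈ M, e * y = y * e := fun e he h y hy => by
    have : M ≤ centralizer {e} := (closure_le _).2 fun x hx => mem_centralizer_singleton_iff.2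
      ((pp.1 hx).elim (fun k => (h x k.l).1 k.c) fun k => k ▸ h.comm hd)
    exact (mem_centralizer_singleton_iff.1 (this hy)).symm
  have T1 : productPartners D d ∪ {d} ⊆ D := fun x hx => (pp.1 hx).elim Co.l fun e => e ▸ hd
  have T2 : ∀ y ∈ D, y * d = d * y → ∀ x ∈ productPartners D d ∪ {d},
      y * x * y ∈ productPartners D d ∪ {d} := fun y hy h x hx => pp.2 ((pp.1 hx).imp (fun k => by
        simpa only [inv_eq hr hy, h, mul_assoc, sq hr hy, mul_one] using k.conj hr y)
      fun k => by rw [k, h, mul_assoc, sq hr hy, mul_one])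
  have T3 : ∀ x ∈ productPartners D d ∪ {d}, x * d = d * x := fun x hx =>
    (pp.1 hx).elim Co.c fun e => by rw [e]
  have pM : IsPGroup 2 M := isPGroup_closure hr T1 (fun a ha b hb => T2 a (T1 ha) (T3 a ha) b hb)
    fun a ha b hb => (pp.1 ha).elim (fun k => k.nod hr (T1 hb) (T3 b hb))
      fun k => nod_of_comm hr (T1 ha) (T1 hb) (k ▸ (T3 b hb).symm)
  have h2 : D ∩ (M : Set G) = productPartners D d ∪ {d} := by
    refine le_antisymm (fun x hx => ?_) fun x hx => ⟨T1 hx, subset_closure hx⟩
    rw [← hW, Set.mem_ofPred_eq, iso_iff]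
    refine ⟨⟨hx.1, (cM d hd (Ee.refl _) x hx.2).symm⟩, fun y hy => not_od_of_pgroup hr pM hx.1 hy.1 ?_⟩
    have : ∀ m ∈ M, y * m * y ∈ M := fun m hm => by
      induction hm using closure_induction'' with
      | one => rw [mul_one, sq hr hy.1]; exact one_mem _
      | mem x hx => exact subset_closure (T2 y hy.1 hy.2 x hx)
      | inv_mem x hx => rw [inv_eq hr (T1 hx)]; exact subset_closure (T2 y hy.1 hy.2 x hx)
      | mul a b _ _ ha hb => simpa only [mul_assoc, ii (sq hr hy.1)] using mul_mem ha hb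
    simpa only [mul_assoc] using mul_mem hx.2 (this x hx.2)
  have mE : ∀ e ∈ D, Ee D d e → e ∈ ⁅M, M⁆ := fun e he h => by
    obtain ⟨a, b, ha, hb, h1, h2⟩ := exists_co H hfo he
    have n := h1.not_comm hr ha.l hb.l
    have := commutator_mem_commutator
      (subset_closure (pp.2 (.inl (col H hE' ha (fun e => n ((e b hb.l).2 hb.c).symm) hd h.symm))) : a ∈ M)
      (subset_closure (pp.2 (.inl (col H hE' hb (fun e => n ((e a ha.l).2 ha.c)) hd h.symm))) : b ∈ M)
    rwa [commutatorElement_def, inv_eq hr ha.l, inv_eq hr hb.l, mul_assoc (a * b), show a * b * (a * b) = e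
      from h2] at this
  have cE : ∀ k ∈ sameCommutingSubgroup D d, ∀ y ∈ M, k * y = y * k := fun k hk y hy =>
    ((sE hd).1 hk).elim (fun e => by simp [e]) fun e => cM k e.1 e.2.symm y hy
  refine ⟨by rw [hW], h2, le_antisymm ?_ ((closure_le _).2 fun e he => mE e he.1 (sc.1 he).2), ?_⟩
  · have k1 : ∀ a ∈ productPartners D d ∪ {d}, ∀ b ∈ productPartners D d ∪ {d},
        a * b * a⁻¹ * b⁻¹ ∈ sameCommutingSubgroup D d := fun a ha b hb => by
      rw [inv_eq hr (T1 ha), inv_eq hr (T1 hb), mul_assoc (a * b)]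
      rcases pp.1 ha with ha' | rfl
      · rcases pp.1 hb with hb' | rfl
        · exact (sE hd).2 (thmA' H hE' hfo ha' hb')
        · exact (sE hd).2 (.inl (K_eq_one (sq hr ha'.l) (sq hr hd) ha'.c))
      · exact (sE hd).2 (.inl (K_eq_one (sq hr hd) (sq hr (T1 hb)) (T3 b hb).symm))
    have k2 : ∀ a ∈ M, (∀ b ∈ productPartners D d ∪ {d}, a * b * a⁻¹ * b⁻¹ ∈ sameCommutingSubgroup D d) →
        ∀ b ∈ M, a * b * a⁻¹ * b⁻¹ ∈ sameCommutingSubgroup D d := fun a ha h b hb => by
      induction hb using closure_induction'' with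
      | one => simp
      | mem x hx => exact h x hx
      | inv_mem x hx => rw [inv_eq hr (T1 hx)]; exact h x hx
      | mul x y hx _ h1 h2 =>
        have := mul_mem h2 h1
        rw [cE _ h2 _ (mul_mem (mul_mem (mul_mem ha hx) (inv_mem ha)) (inv_mem hx)), mul_assoc _ x⁻¹,
          ← cE _ h2 _ (inv_mem hx)] at this
        convert this using 1
        group
    refine commutator_le.2 fun a ha b hb => k2 a ha (fun c hc => ?_) b hb
    have := inv_mem (k2 c (subset_closure hc) (k1 c hc) a ha)
    convert this using 1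
    group
  · ext e
    rw [sc]
    refine ⟨fun h => ⟨h.1, commutator_le_self M (mE e h.1 h.2), cM e h.1 h.2⟩, fun h => ⟨h.1, ?_⟩⟩
    exact (tT H hfo h.1 hd fun x hx => (h.2.2 x (subset_closure (pp.2 (.inl hx)))).symm).symm

end Cfsg.Agent.S5055
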