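import Cfsg.Statements.S5056
import Cfsg.Agent.H7.RB6
import Cfsg.Agent.H8.RS6

set_option autoImplicit false
open Cfsg

namespace Cfsg.Agent.S5056

/-- The Root Involution Theorem. Let G be a finite group with O₂(G) = 1 and trivial centre, generated by a class D of root involutions, and suppose some product of two different commuting members of D lies in D. Then one of the following holds. (1) The commuting graph of D is disconnected and G is isomorphic to L₂(q), Sz(q) or U₃(q) for a power q > 2 of 2. (2) The commuting graph of D is connected; for every d ∈ D the members of D with the same commuting members as d form, together with 1, a subgroup E(d); and either for every d the conjugates of E(d) form a class of abstract k-root subgroups of G, k a field with as many elements as E(d), or D is non-degenerate, every E(d) has order 2, and for every d the members of D commuting with d generate a subgroup of order at most 2¹⁰. -/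
theorem result {G : Type*} [Group G] [Finite G] {D : Set G} (hcl : Cfsg.IsRootInvolutionClass D)
    (hO : Cfsg.pCore 2 G = ⊥) (hZ : Subgroup.center G = ⊥) (hDD : (D ∩ Cfsg.commutingProducts D).Nonempty) :
    (¬ Cfsg.IsConnectedSet (Cfsg.CommAdj D) D ∧
      ((∃ (F : Type) (_ : Field F) (_ : Fintype F), CharP F 2 ∧ 4 ≤ Fintype.card F ∧
          Nonempty (G ≃* Matrix.ProjectiveSpecialLinearGroup (Fin 2) F)) ∨
        Cfsg.Lie.IsoSuzuki G ∨
        (∃ (F : Type) (_ : Field F) (_ : Fintype F) (q : ℕ), CharP F 2 ∧ Fintype.card F = q ^ 2 ∧ 4 ≤ q ∧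
          Nonempty (G ≃* Cfsg.PSU 3 F q)))) ∨
    (Cfsg.IsConnectedSet (Cfsg.CommAdj D) D ∧
      (∀ d ∈ D, (Cfsg.sameCommutingSubgroup D d : Set G) = Cfsg.sameCommutingClass D d ∪ {1}) ∧
      ((∀ d ∈ D, ∃ (F : Type) (_ : Field F) (_ : Fintype F),
          Fintype.card F = Nat.card ↥(Cfsg.sameCommutingSubgroup D d) ∧
          Cfsg.IsKRootSubgroupSet F {A : Subgroup G | ∃ g : G, A = Cfsg.conjBy (Cfsg.sameCommutingSubgroup D d) g} ∧
          Cfsg.IsConjClassOfSubgroups {A : Subgroup G | ∃ g : G, A = Cfsg.conjBy (Cfsg.sameCommutingSubgroup D d) g}) ∨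
       (Cfsg.IsNondegenerateRootInvolutionSet D ∧ ∀ d ∈ D, Nat.card ↥(Cfsg.sameCommutingSubgroup D d) = 2 ∧
          Nat.card ↥(Subgroup.closure (Cfsg.commutingMembers D d)) ≤ 2 ^ 10))) :=
  have H := H7.RX.nc_of hcl hO
  H7.RX.asm hcl hO hZ hDD (H8.RS.H1 H hO hZ) fun hfo hq => H7.RX.H2 H (H8.RS.H1 H hO hZ hfo) hfo hq

end Cfsg.Agent.S5056
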