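import Cfsg.Statements.S5057
import Cfsg.Agent.H3.Dihedral

set_option autoImplicit false
open Cfsg

namespace Cfsg.Agent.S5057

open Equiv Equiv.Perm

theorem even_of (g : ↥(alternatingGroup (Fin 6))) :
    Even (g.1.cycleType.sum + Multiset.card g.1.cycleType) := by
  have h := mem_alternatingGroup.1 g.2
  rw [sign_of_cycleType] at h
  exact (neg_one_pow_eq_one_iff_even (by decide)).1 h

theorem multiset_aux (m : Multiset ℕ) (h1 : ∀ n ∈ m, 2 ≤ n) (h2 : m.sum ≤ 6)
    (h3 : Even (m.sum + Multiset.card m)) : m.lcm ≤ 5 := by
  have h4 : Multiset.card m * 2 ≤ m.sum := by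
    simpa using Multiset.card_nsmul_le_sum h1
  have : Multiset.card m = 0 ∨ Multiset.card m = 1 ∨ Multiset.card m = 2 ∨ Multiset.card m = 3 := by
    omega
  rcases this with h | h | h | h
  · rw [Multiset.card_eq_zero] at h
    simp [h]
  · obtain ⟨a, rfl⟩ := Multiset.card_eq_one.1 h
    have := h1 a (by simp)
    simp only [Multiset.sum_singleton] at h2
    interval_cases a <;> revert h3 <;> decide
  · obtain ⟨a, b, rfl⟩ := Multiset.card_eq_two.1 h
    have := h1 a (by simp)
    have := h1 b (by simp)
    simp only [Multiset.insert_eq_cons, Multiset.sum_cons, Multiset.sum_singleton] at h2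
    have : a ≤ 4 := by omega
    have : b ≤ 4 := by omega
    interval_cases a <;> interval_cases b <;> revert h2 h3 <;> decide
  · obtain ⟨a, b, c, rfl⟩ := Multiset.card_eq_three.1 h
    have := h1 a (by simp)
    have := h1 b (by simp)
    have := h1 c (by simp)
    simp only [Multiset.insert_eq_cons, Multiset.sum_cons, Multiset.sum_singleton] at h2
    obtain rfl : a = 2 := by omega
    obtain rfl : b = 2 := by omega
    obtain rfl : c = 2 := by omega
    decide

theorem ord_le (g : ↥(alternatingGroup (Fin 6))) : orderOf g ≤ 5 := by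
  rw [← Subgroup.orderOf_coe, ← lcm_cycleType]
  exact multiset_aux _ (fun _ => two_le_of_mem_cycleType) (by simpa using sum_cycleType_le g.1)
    (even_of g)

theorem type_eq {g : ↥(alternatingGroup (Fin 6))} (h : orderOf g = 2) :
    g.1.cycleType = Multiset.replicate 2 2 := by
  rw [← Subgroup.orderOf_coe] at h
  obtain ⟨n, hn⟩ := cycleType_prime_order (σ := g.1) (by rw [h]; exact Nat.prime_two)
  have h1 := sum_cycleType_le g.1
  have h2 := even_of g
  rw [hn, h] at h1 h2 ⊢
  simp only [Multiset.sum_replicate, smul_eq_mul, Fintype.card_fin, Multiset.card_replicate,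
    Nat.even_iff] at h1 h2
  obtain rfl : n = 1 := by omega
  rfl

/-- The involutions of the alternating group of degree 6 form a class of root involutions (a single conjugacy class of involutions generating the group, any two of which commute, have product of odd order, or have product of order 4 whose square is again an involution of the class), and the product of any two of them has order at most 5. -/
theorem result :
    Cfsg.IsRootInvolutionClass {g : ↥(alternatingGroup (Fin 6)) | orderOf g = 2} ∧
    ∀ d ∈ {g : ↥(alternatingGroup (Fin 6)) | orderOf g = 2}, ∀ e ∈ {g : ↥(alternatingGroup (Fin 6)) | orderOf g = 2},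
      orderOf (d * e) ≤ 5 := by
  have hx : (⟨swap 0 1 * swap 2 3, mem_alternatingGroup.2 (by decide)⟩ : alternatingGroup (Fin 6)) ∈
      {g : ↥(alternatingGroup (Fin 6)) | orderOf g = 2} :=
    H3.orderOf_two_of_mul_self (by decide) (by decide)
  have hc : ∀ d ∈ {g : ↥(alternatingGroup (Fin 6)) | orderOf g = 2}, ∀ g,
      g * d * g⁻¹ ∈ {g : ↥(alternatingGroup (Fin 6)) | orderOf g = 2} :=
    fun d hd g => (H3.orderOf_conj g d).trans hd
  refine ⟨⟨⟨fun _ h => h, ?_, hc, fun a ha b hb => ?_⟩, ⟨_, hx⟩, fun a ha b hb => ?_⟩,
    fun d _ e _ => ord_le _⟩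
  · have := alternatingGroup.isSimpleGroup (α := Fin 6) (by simp)
    have hn : (Subgroup.closure {g : ↥(alternatingGroup (Fin 6)) | orderOf g = 2}).Normal :=
      ⟨fun x hx g => by
        induction hx using Subgroup.closure_induction with
        | mem y hy => exact Subgroup.subset_closure (hc y hy g)
        | one => simp
        | mul y z _ _ hy hz => simpa [mul_assoc] using Subgroup.mul_mem _ hy hz
        | inv y _ hy => simpa [mul_assoc] using Subgroup.inv_mem _ hy⟩
    refine (hn.eq_bot_or_eq_top).resolve_left fun h => H3.ne_one_of_orderOf_two hx ?_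
    rw [← Subgroup.mem_bot, ← h]
    exact Subgroup.subset_closure hx
  · have h1 := ord_le (a * b)
    have h2 := orderOf_pos (a * b)
    have h3 : (a * b) ^ 2 = 1 → a * b = b * a := fun h => by
      rw [← H3.inv_eq_of_orderOf_two ha, ← H3.inv_eq_of_orderOf_two hb, ← mul_inv_rev,
        H3.inv_eq_of_orderOf_two ha, H3.inv_eq_of_orderOf_two hb, inv_eq_iff_mul_eq_one]
      rw [pow_two] at h
      calc b * a * (b * a) = b * (a * b * (a * b)) * b⁻¹ := by group
        _ = 1 := by rw [h]; group
    interval_cases h : orderOf (a * b)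
    · exact Or.inr (Or.inl (by decide))
    · exact Or.inl (h3 (h ▸ pow_orderOf_eq_one _))
    · exact Or.inr (Or.inl (by decide))
    · refine Or.inr (Or.inr ⟨rfl, ?_⟩)
      change orderOf _ = 2
      rw [orderOf_pow' _ two_ne_zero, h]
      rfl
    · exact Or.inr (Or.inl (by decide))
  · obtain ⟨g, hg⟩ := isConj_iff.1 (alternatingGroup.isConj_of (σ := a) (τ := b)
      (isConj_of_cycleType_eq (by rw [type_eq ha, type_eq hb]))
      (by rw [← sum_cycleType, type_eq ha]; simp))
    exact ⟨g, hg.symm⟩

end Cfsg.Agent.S5057
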