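import Cfsg.Statements.S5058
import Cfsg.Agent.H8.LinTv
import Cfsg.Agent.H3.Transv
import Cfsg.Agent.H3.Dihedral
import Cfsg.Agent.H6.SLc

set_option autoImplicit false
open Matrix
open Cfsg

namespace Cfsg.Agent.S5058

open Cfsg.Agent.H8

open Matrix MatrixGroups Cfsg.Agent.H6 Cfsg.Agent.H8.QP

theorem sl2_odd {F : Type*} [Field F] [Finite F] [CharP F 2] {c : F} (hc : c ≠ 0) :
    Odd (orderOf (uX 1 * uY c : SL(2, F))) := by
  rw [← Nat.not_even_iff_odd]
  intro h
  have h2 : (2 : F) = 0 := CharTwo.two_eq_zero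
  obtain ⟨h1, hx, hy⟩ := H3.half_pow_central (x := (uX 1 : SL(2, F))) (y := uY c)
    (by rw [← uX_add, CharTwo.add_self_eq_zero]; ext i j; fin_cases i <;> fin_cases j <;> rfl)
    (by rw [← uY_add, CharTwo.add_self_eq_zero]; ext i j; fin_cases i <;> fin_cases j <;> rfl) h
  generalize (uX 1 * uY c : SL(2, F)) ^ _ = z at h1 hx hy
  apply H3.ne_one_of_orderOf_two h1
  have hx' : z.1 * !![1, 1; 0, 1] = !![1, 1; 0, 1] * z.1 := congrArg Subtype.val hx.eq
  have hy' : z.1 * !![1, 0; c, 1] = !![1, 0; c, 1] * z.1 := congrArg Subtype.val hy.eq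
  have e1 := congrFun (congrFun hx' 0) 0
  have e2 := congrFun (congrFun hx' 0) 1
  have e3 := congrFun (congrFun hy' 0) 0
  have e4 := z.det_coe
  simp [Matrix.mul_apply, Fin.sum_univ_two, hc] at e1 e2 e3
  rw [det_fin_two, e1, mul_zero, sub_zero] at e4
  have e5 : z.1 1 1 = z.1 0 0 := by linear_combination -e2
  rw [e5] at e4
  have e6 : z.1 0 0 = 1 := by
    have : (z.1 0 0 - 1) ^ 2 = 0 := by linear_combination e4 + (1 - z.1 0 0) * h2
    exact sub_eq_zero.1 (pow_eq_zero_iff two_ne_zero |>.1 this)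
  ext i j
  fin_cases i <;> fin_cases j <;> simp [e1, e3, e5, e6]

theorem sl2_three {F : Type*} [Field F] [CharP F 2] : orderOf (uX 1 * uY 1 : SL(2, F)) = 3 := by
  have h2 : (1 + 1 : F) = 0 := CharTwo.add_self_eq_zero 1
  refine orderOf_eq_prime ?_ fun h => ?_
  · apply Subtype.ext
    change (!![1, 1; 0, 1] * !![1, 0; 1, 1] : Matrix (Fin 2) (Fin 2) F) ^ 3 = 1
    simp [pow_succ, h2, one_fin_two]
  · have h' : (!![1, 1; 0, 1] * !![1, 0; 1, 1] : Matrix (Fin 2) (Fin 2) F) = 1 :=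
      congrArg Subtype.val h
    simpa using congrFun (congrFun h' 0) 1

theorem set_eq (k : Type*) [Field k] (n : ℕ) :
    {t : Matrix.SpecialLinearGroup (Fin (n + 3)) k | ∃ c : k, c ≠ 0 ∧
        ∃ g : Matrix.SpecialLinearGroup (Fin (n + 3)) k,
          ((g⁻¹ * t * g : Matrix.SpecialLinearGroup (Fin (n + 3)) k) :
          Matrix (Fin (n + 3)) (Fin (n + 3)) k) = Matrix.transvection 0 1 c} =
      {t | ∃ s ∈ slFam (Fin (n + 3)) k, slRho _ k t = 1 + s} := by
  have h01 : single (0 : Fin (n + 3)) 1 (1 : k) ∈ slFam (Fin (n + 3)) k :=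
    single_mem_slFam zero_ne_one
  ext t
  constructor
  · rintro ⟨c, hc, g, hg⟩
    have h1 : single (0 : Fin (n + 3)) 1 c ∈ slFam (Fin (n + 3)) k :=
      ⟨c • Pi.single 0 1, Pi.single 1 1, by simp [hc], by simp, by simp, by
        rw [smul_vecMulVec, ← single_eq_single_vecMulVec_single, smul_single, smul_eq_mul, mul_one]⟩
    refine ⟨_, slFam_conj (slRho _ k) h1 g, ?_⟩
    change slRho _ k (g⁻¹ * t * g) = 1 + single 0 1 c at hg
    rw [show t = g * (g⁻¹ * t * g) * g⁻¹ by group, map_mul, map_mul _ g, hg, mul_add, add_mul,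
      mul_one, ← map_mul, mul_inv_cancel, map_one]
  · rintro ⟨s, hs, ht⟩
    obtain ⟨g, hg⟩ := (sl_conn h01 hs).exists_smul
    have h1 := (mem_Lq (k := k) (sl_fam.sq s hs)).2 ⟨1, by rw [ht, one_smul]⟩
    rw [hg, mem_smul_iff] at h1
    obtain ⟨c, hc⟩ := (mem_Lq (sl_fam.sq _ h01)).1 h1
    refine ⟨c, ?_, g, by rw [transvection]; simpa [smul_single] using hc⟩
    rintro rfl
    rw [zero_smul, add_zero, ← map_one (slRho _ k)] at hc
    have : t = 1 := by
      rw [show t = g * (g⁻¹ * t * g) * g⁻¹ by group, sl_fam.inj hc]; group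
    rw [this, map_one] at ht
    exact sl_fam.ne s hs (by simpa using ht)

variable {ι F : Type*} [Fintype ι] [DecidableEq ι] [Field F] [Finite F] [CharP F 2]

omit [Finite F] in
theorem ord {t : SpecialLinearGroup ι F} (h : t ∈ {t | ∃ s ∈ slFam ι F, slRho ι F t = 1 + s}) :
    orderOf t = 2 := by
  obtain ⟨s, hs, ht⟩ := h
  refine H3.orderOf_two_of_mul_self (sl_fam.inj ?_) ?_
  · have : s + s = 0 := by rw [← two_smul F s, CharTwo.two_eq_zero, zero_smul]
    rw [map_mul, ht, map_one]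
    nlc this + sl_fam.sq s hs
  · rintro rfl
    exact sl_fam.ne s hs (by simpa using ht)

omit [Finite F] in
theorem tri {a b : SpecialLinearGroup ι F} (ha : a ∈ {t | ∃ s ∈ slFam ι F, slRho ι F t = 1 + s})
    (hb : b ∈ {t | ∃ s ∈ slFam ι F, slRho ι F t = 1 + s}) : a * b = b * a ∨
    (∃ c : F, c ≠ 0 ∧ orderOf (a * b) = orderOf (uX 1 * uY c : SL(2, F))) ∨
    (orderOf (a * b) = 4 ∧ (a * b) ^ 2 ∈ {t | ∃ s ∈ slFam ι F, slRho ι F t = 1 + s}) := by
  have a2 := H3.inv_eq_of_orderOf_two (ord ha)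
  have b2 := H3.inv_eq_of_orderOf_two (ord hb)
  obtain ⟨s, hs, ea⟩ := ha
  obtain ⟨t, ht, eb⟩ := hb
  rcases slFam_tri hs ht with e | ⟨c, hc, e1, e2⟩ | ⟨e1, e2, hu⟩
  · refine Or.inl (sl_fam.inj ?_)
    rw [map_mul, map_mul, ea, eb]
    nlc e
  · refine Or.inr (Or.inl ⟨c, hc, ?_⟩)
    have hc' : c⁻¹ * c = 1 := inv_mul_cancel₀ hc
    obtain ⟨φ, h1, h2, h3⟩ := exists_sl2_hom_smul (k := F) (s := s) (d := c⁻¹ • t) (sl_fam.sq s hs)
      (smul_sq_zero (sl_fam.sq t ht) _)
      (by rw [mul_smul_comm, smul_mul_assoc, e1, smul_smul, hc', one_smul])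
      (by rw [smul_mul_assoc, smul_mul_assoc, mul_smul_comm, e2, smul_smul c⁻¹ c, hc', one_smul])
      (sl_fam.ne s hs)
    have inj : Function.Injective φ := by
      rw [injective_iff_map_eq_one]
      intro z hz
      rcases mem_center_SL2 (h3 hz) with rfl | rfl
      · rfl
      · ext i j
        simp [CharTwo.neg_eq]
    rw [← orderOf_injective φ inj, ← orderOf_injective (slRho ι F) sl_fam.inj,
      ← orderOf_units, map_mul, map_mul, Units.val_mul, h1, h2, ea, eb, smul_smul,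
      mul_inv_cancel₀ hc, one_smul, one_smul]
  · have : (a * b) ^ 2 ∈ {t | ∃ s ∈ slFam ι F, slRho ι F t = 1 + s} := ⟨_, hu, by
      rw [show (a * b) ^ 2 = a * b * a⁻¹ * b⁻¹ by rw [a2, b2, pow_two, ← mul_assoc],
        sl_fam.comm_val (α := 1) (β := 1) hs ht e1 e2 (by rw [ea, one_smul]) (by rw [eb, one_smul]),
        one_mul, one_smul]⟩
    refine Or.inr (Or.inr ⟨?_, this⟩)
    refine orderOf_eq_prime_pow (p := 2) (n := 1) (H3.ne_one_of_orderOf_two (ord this)) ?_
    rw [show 2 ^ (1 + 1) = 2 * 2 from rfl, pow_mul, pow_two _, H3.mul_self_of_orderOf_two (ord this)]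

theorem riSet [Nontrivial ι] :
    IsRootInvolutionSet {t : SpecialLinearGroup ι F | ∃ s ∈ slFam ι F, slRho ι F t = 1 + s} where
  orderOf_eq := fun _ => ord
  generates := by
    rw [eq_top_iff, ← sl_gen, iSup₂_le_iff]
    rintro _ ⟨s, hs, rfl⟩ x hx
    obtain ⟨c, hc⟩ := (mem_Lq (sl_fam.sq s hs)).1 hx
    by_cases h : c = 0
    · rw [h, zero_smul, add_zero, ← map_one (slRho ι F)] at hc
      rw [sl_fam.inj hc]
      exact Subgroup.one_mem _
    · obtain ⟨a, f, ha, hf, hfa, rfl⟩ := hs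
      exact Subgroup.subset_closure ⟨_, ⟨c • a, f, smul_ne_zero h ha, hf,
        by rw [dotProduct_smul, hfa, smul_zero], rfl⟩, by rw [hc, smul_vecMulVec]⟩
  conj_mem := by
    rintro t ⟨s, hs, ht⟩ g
    exact ⟨_, slFam_conj (slRho _ F) hs g, by
      rw [map_mul, map_mul, ht, mul_add, add_mul, mul_one, ← map_mul, mul_inv_cancel, map_one]⟩
  pair := fun a ha b hb => (tri ha hb).imp_right (Or.imp_left fun ⟨c, hc, e⟩ => e ▸ sl2_odd hc)

/-- Let F be a finite field of characteristic 2 and n a natural number. Then the transvections of SL_{n+3}(F) (so in every dimension at least 3) (the conjugates of the elementary matrices 1 + c E₁₂, c ≠ 0) form a class of root involutions of SL_{n+3}(F); when F has two elements they form a class of {3,4}⁺-transpositions (every product of odd order has order 1 or 3). -/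
theorem result (F : Type*) [Field F] [Fintype F] [CharP F 2] (n : ℕ) :
    Cfsg.IsRootInvolutionClass {t : Matrix.SpecialLinearGroup (Fin (n + 3)) F | ∃ c : F, c ≠ 0 ∧
        ∃ g : Matrix.SpecialLinearGroup (Fin (n + 3)) F, ((g⁻¹ * t * g : Matrix.SpecialLinearGroup (Fin (n + 3)) F) :
          Matrix (Fin (n + 3)) (Fin (n + 3)) F) = Matrix.transvection 0 1 c} ∧
    (Fintype.card F = 2 → Cfsg.IsThreeFourPlusTranspositionSet {t : Matrix.SpecialLinearGroup (Fin (n + 3)) F | ∃ c : F, c ≠ 0 ∧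
        ∃ g : Matrix.SpecialLinearGroup (Fin (n + 3)) F, ((g⁻¹ * t * g : Matrix.SpecialLinearGroup (Fin (n + 3)) F) :
          Matrix (Fin (n + 3)) (Fin (n + 3)) F) = Matrix.transvection 0 1 c}) := by
  rw [set_eq]
  refine ⟨⟨riSet, ?_, fun a ha b hb => ?_⟩, fun h2 => ⟨riSet, fun a ha b hb ho => ?_⟩⟩
  · have := single_mem_slFam (F := F) (zero_ne_one (α := Fin (n + 3)))
    obtain ⟨g, hg⟩ := sl_fam.full _ this 1
    exact ⟨g, _, this, by rw [hg, one_smul]⟩
  · obtain ⟨_, ⟨x, f, hx, hf, hfx, rfl⟩, ea⟩ := ha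
    obtain ⟨_, ⟨y, g, hy, hg, hgy, rfl⟩, eb⟩ := hb
    change a.1 = _ at ea
    change b.1 = _ at eb
    obtain ⟨g, hg⟩ := isConj_iff.1 (isConj_sl_transvection (by simp) (s := a) (t := b)
      (by rw [ea]; exact H3.rank_tv hx hf) (by rw [ea, add_sub_cancel_left, vv_mul, hfx, zero_smul])
      (by rw [eb]; exact H3.rank_tv hy hg) (by rw [eb, add_sub_cancel_left, vv_mul, hgy, zero_smul]))
    exact ⟨g, hg.symm⟩
  · rcases tri ha hb with e | ⟨c, hc, e⟩ | ⟨e, -⟩
    · left
      have : (a * b) ^ 2 = 1 := by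
        rw [Commute.mul_pow e, pow_two, pow_two, H3.mul_self_of_orderOf_two (ord ha),
          H3.mul_self_of_orderOf_two (ord hb), one_mul]
      exact (Nat.Coprime.eq_one_of_dvd (Nat.coprime_two_right.2 ho) (orderOf_dvd_of_pow_eq_one this))
    · right
      have : c = 1 := by simpa [h2] using FiniteField.pow_card_sub_one_eq_one c hc
      rw [e, this, sl2_three]
    · rw [e] at ho
      exact absurd ho (by decide)

end Cfsg.Agent.S5058
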