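import Cfsg.Statements.S5059
import Cfsg.Agent.H8.QP5

set_option autoImplicit false
universe u
open Cfsg

namespace Cfsg.Agent.S5059

open Cfsg.Agent.H8

/-- Let k be a field of characteristic not 2 with k not of order 3, M a finite-dimensional k-vector space and G ≤ GL(M) such that (G, M) is a quadratic pair (M irreducible for G, and G generated by its quadratically acting elements σ whose scalar family 1 + c(σ − 1), c ∈ k, lies in G). Write 𝒬_d for the quadratic elements of G of minimal commutator rank, E(σ) for the subgroup generated by the members of 𝒬_d with the same fixed space and commutator space as σ, and Σ for the set of these subgroups. Then for σ ∈ 𝒬_d the subgroup E(σ) consists exactly of those members together with the identity, it is abelian, and if k has prime characteristic p every element of E(σ) has order dividing p. -/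
theorem result {k : Type u} [Field k] (hk2 : ringChar k ≠ 2) (hk3 : Nat.card k ≠ 3)
    {M : Type u} [AddCommGroup M] [Module k M] [FiniteDimensional k M]
    {G : Subgroup (LinearMap.GeneralLinearGroup k M)} (hG : Cfsg.IsQuadraticPair G)
    {σ : LinearMap.GeneralLinearGroup k M} (hσ : σ ∈ Cfsg.minimalQuadraticElements G) :
    (Cfsg.sameActionSubgroup G σ : Set (LinearMap.GeneralLinearGroup k M)) = Cfsg.sameActionClass G σ ∪ {1} ∧
    IsMulCommutative ↥(Cfsg.sameActionSubgroup G σ) ∧
    (∀ p : ℕ, p.Prime → ringChar k = p → ∀ x ∈ Cfsg.sameActionSubgroup G σ, x ^ p = 1) := by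
  have hs := QP.mem_min_iff.1 hσ
  rw [QP.sameAction_eq hσ]
  refine ⟨?_, cm_self_iff.1 (QP.Sig.cm ⟨_, hs, rfl⟩), fun p _ hp x hx => ?_⟩
  · ext x
    rw [Set.mem_union, QP.mem_class_iff hσ, Set.mem_singleton_iff, SetLike.mem_coe]
    constructor
    · intro h
      by_cases h1 : x = 1
      · exact Or.inr h1
      · exact Or.inl ⟨h, h1⟩
    · rintro (h | rfl)
      · exact h.1
      · exact one_mem _
  · have h := ((QP.mem_Eg hs.1.1).1 hx).1.1
    have key : ∀ n : ℕ, ((x ^ n : (Module.End k M)ˣ) : Module.End k M) =
        1 + (n : k) • ((x : Module.End k M) - 1) := by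
      intro n
      induction n with
      | zero => simp
      | succ n ih =>
        rw [pow_succ, Units.val_mul, ih, Nat.cast_succ]
        have := congrArg ((n : k) • ·) h
        simp only [smul_zero] at this
        nlc this
    ext1
    rw [key, ← hp, ringChar.Nat.cast_ringChar, zero_smul, add_zero, Units.val_one]

end Cfsg.Agent.S5059
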