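import Cfsg.Statements.S5060
import Cfsg.Agent.H8.QP1
import Cfsg.Agent.H8.SL2

set_option autoImplicit false
open Cfsg

namespace Cfsg.Agent.S5060

open Cfsg.Agent.H8

open Polynomial Matrix MatrixGroups

theorem aux {k K : Type*} [Field k] [Field K] [Algebra k K] (hk2 : ringChar k ≠ 2)
    (hk3 : Nat.card k ≠ 3) (α : K) (hα : IsAlgebraic k α)
    {Γ : Subgroup (Matrix (Fin 2) (Fin 2) K)ˣ} {s t : Matrix (Fin 2) (Fin 2) K}
    (hs : QP.Nil k Γ s) (ht : QP.Nil k Γ t) (hz : s * t + t * s = algebraMap K _ α) {u : K}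
    (hu : u ∈ IntermediateField.adjoin k ({α} : Set K)) : QP.Nil k Γ (u • s) := by
  have hrep : ∀ u ∈ IntermediateField.adjoin k ({α} : Set K), ∃ p : k[X], aeval α p = u := by
    intro u hu
    have : u ∈ (IntermediateField.adjoin k ({α} : Set K)).toSubalgebra := hu
    rwa [IntermediateField.adjoin_simple_toSubalgebra_of_isAlgebraic hα,
      Algebra.adjoin_singleton_eq_range_aeval] at this
  have he : ∀ (p : k[X]) (x : Matrix (Fin 2) (Fin 2) K),
      aeval (s * t + t * s) p * x = aeval α p • x := fun p x => by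
    rw [hz, aeval_algebraMap_apply, ← Algebra.smul_def]
  obtain ⟨p, rfl⟩ := hrep u hu
  rw [← he]
  refine QP.poly_mem (Ring.two_ne_zero hk2) hk3 hs ht
    ⟨minpoly k α, minpoly.monic hα.isIntegral, by rw [he, minpoly.aeval, zero_smul]⟩ ?_ p
  intro p _
  by_cases h : aeval α p = 0
  · left; rw [he, h, zero_smul]
  · right
    obtain ⟨q, hq⟩ := hrep (aeval α p)⁻¹ (inv_mem (IntermediateField.algebra_adjoin_le_adjoin k _ (by
      rw [Algebra.adjoin_singleton_eq_range_aeval]; exact ⟨p, rfl⟩)))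
    exact ⟨q, by rw [he, he, hq, smul_smul, inv_mul_cancel₀ h, one_smul]⟩

/-- Let k ⊆ K be fields with the characteristic of k not 2 and k not of order 3, and let α ∈ K be a non-zero element algebraic over k. Then the subgroup of SL₂(K) generated by the upper unitriangular matrices with entry c and the lower unitriangular matrices with entry cα, c ranging over k, is exactly the group of matrices of SL₂(K) with all entries in k(α). -/
theorem result {k K : Type*} [Field k] [Field K] [Algebra k K] (hk2 : ringChar k ≠ 2) (hk3 : Nat.card k ≠ 3)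
    (α : K) (hα : IsAlgebraic k α) (hα0 : α ≠ 0) :
    (Subgroup.closure ({g : Matrix.SpecialLinearGroup (Fin 2) K | ∃ c : k, (g : Matrix (Fin 2) (Fin 2) K) = !![1, algebraMap k K c; 0, 1]} ∪
        {g : Matrix.SpecialLinearGroup (Fin 2) K | ∃ c : k, (g : Matrix (Fin 2) (Fin 2) K) = !![1, 0; algebraMap k K c * α, 1]}) :
      Set (Matrix.SpecialLinearGroup (Fin 2) K)) =
    {g : Matrix.SpecialLinearGroup (Fin 2) K | ∀ i j : Fin 2, (g : Matrix (Fin 2) (Fin 2) K) i j ∈ IntermediateField.adjoin k ({α} : Set K)} := by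
  set L := IntermediateField.adjoin k ({α} : Set K) with hL
  set H := Subgroup.closure ({g : Matrix.SpecialLinearGroup (Fin 2) K | ∃ c : k,
      (g : Matrix (Fin 2) (Fin 2) K) = !![1, algebraMap k K c; 0, 1]} ∪
        {g : Matrix.SpecialLinearGroup (Fin 2) K | ∃ c : k,
          (g : Matrix (Fin 2) (Fin 2) K) = !![1, 0; algebraMap k K c * α, 1]}) with hH
  have hαL : α ∈ L := IntermediateField.mem_adjoin_simple_self k α
  let φ : SL(2, L) →* SL(2, K) := Matrix.SpecialLinearGroup.map (algebraMap L K)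
  have hφX : ∀ u : L, φ (uX u) = uX (u : K) := fun u => by
    ext i j; fin_cases i <;> fin_cases j <;> simp [φ]
  have hφY : ∀ u : L, φ (uY u) = uY (u : K) := fun u => by
    ext i j; fin_cases i <;> fin_cases j <;> simp [φ]
  let Γ : Subgroup (Matrix (Fin 2) (Fin 2) K)ˣ := H.map Matrix.SpecialLinearGroup.toGL
  have hs : QP.Nil k Γ !![0, 1; 0, 0] := by
    refine ⟨by ext i j; fin_cases i <;> fin_cases j <;> simp, fun c => ⟨_, Subgroup.mem_map_of_mem _
      (x := uX (algebraMap k K c)) (Subgroup.subset_closure (Or.inl ⟨c, rfl⟩)), ?_⟩⟩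
    ext i j; fin_cases i <;> fin_cases j <;> simp [Algebra.algebraMap_eq_smul_one]
  have ht : QP.Nil k Γ !![0, 0; α, 0] := by
    refine ⟨by ext i j; fin_cases i <;> fin_cases j <;> simp, fun c => ⟨_, Subgroup.mem_map_of_mem _
      (x := uY (algebraMap k K c * α)) (Subgroup.subset_closure (Or.inr ⟨c, rfl⟩)), ?_⟩⟩
    ext i j; fin_cases i <;> fin_cases j <;> simp [Algebra.algebraMap_eq_smul_one]
  have hz : (!![0, 1; 0, 0] : Matrix (Fin 2) (Fin 2) K) * !![0, 0; α, 0] +
      !![0, 0; α, 0] * !![0, 1; 0, 0] = algebraMap K _ α := by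
    ext i j; fin_cases i <;> fin_cases j <;> simp [Matrix.algebraMap_matrix_apply]
  have hX : ∀ u ∈ L, uX u ∈ H := by
    intro u hu
    obtain ⟨_, ⟨g, hg, rfl⟩, e⟩ := (aux hk2 hk3 α hα hs ht hz hu).2 1
    suffices h : uX u = g from h ▸ hg
    apply Subtype.ext
    refine Eq.trans ?_ e.symm
    ext i j; fin_cases i <;> fin_cases j <;> simp
  have hY : ∀ u ∈ L, uY u ∈ H := by
    intro u hu
    obtain ⟨_, ⟨g, hg, rfl⟩, e⟩ :=
      (aux hk2 hk3 α hα ht hs (by rw [add_comm, hz]) (L.mul_mem hu (L.inv_mem hαL))).2 1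
    suffices h : uY u = g from h ▸ hg
    apply Subtype.ext
    refine Eq.trans ?_ e.symm
    ext i j; fin_cases i <;> fin_cases j <;> simp [hα0]
  ext g
  constructor
  · intro hg
    have : H ≤ φ.range := by
      rw [hH, Subgroup.closure_le]
      rintro x (⟨c, hc⟩ | ⟨c, hc⟩)
      · exact ⟨uX ⟨_, L.algebraMap_mem c⟩, by rw [hφX]; exact Subtype.ext hc.symm⟩
      · exact ⟨uY ⟨_, L.mul_mem (L.algebraMap_mem c) hαL⟩, by rw [hφY]; exact Subtype.ext hc.symm⟩
    obtain ⟨g', rfl⟩ := this hg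
    exact fun i j => (g' i j).2
  · intro hg
    let g' : SL(2, L) := ⟨Matrix.of (fun i j => ⟨g i j, hg i j⟩), by
      apply (algebraMap L K).injective
      rw [RingHom.map_det, map_one]; exact g.det_coe⟩
    have : g = φ g' := rfl
    rw [this]
    refine SL2_induction (fun x => φ x ∈ H) (fun t => ?_) (fun t => ?_)
      (fun _ _ h1 h2 => by rw [map_mul]; exact H.mul_mem h1 h2) g'
    · rw [hφX]; exact hX _ t.2
    · rw [hφY]; exact hY _ t.2

end Cfsg.Agent.S5060
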