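import Cfsg.Statements.S5063
import Cfsg.Agent.H8.QP7

set_option autoImplicit false
universe u
open Cfsg

namespace Cfsg.Agent.S5063

open Cfsg.Agent.H8

/-- Let k be a field of characteristic not 2 with k not of order 3, M a finite-dimensional k-vector space and G ≤ GL(M) such that (G, M) is a quadratic pair (M irreducible for G, and G generated by its quadratically acting elements σ whose scalar family 1 + c(σ − 1), c ∈ k, lies in G). Write 𝒬_d for the quadratic elements of G of minimal commutator rank, E(σ) for the subgroup generated by the members of 𝒬_d with the same fixed space and commutator space as σ, and Σ for the set of these subgroups. Then G is a central product of finitely many quasisimple normal subgroups G₁, …, G_s (pairwise commuting and together generating G), each generated by the quadratic elements of G it contains, and every quadratic element of G lies in one of them. -/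
theorem result {k : Type u} [Field k] (hk2 : ringChar k ≠ 2) (hk3 : Nat.card k ≠ 3)
    {M : Type u} [AddCommGroup M] [Module k M] [FiniteDimensional k M]
    {G : Subgroup (LinearMap.GeneralLinearGroup k M)} (hG : Cfsg.IsQuadraticPair G) :
    ∃ (s : ℕ) (Gi : Fin s → Subgroup (LinearMap.GeneralLinearGroup k M)),
      (∀ i, Gi i ≤ G ∧ ∀ g ∈ G, Cfsg.conjBy (Gi i) g = Gi i) ∧ (∀ i j, i ≠ j → ⁅Gi i, Gi j⁆ = ⊥) ∧ (⨆ i, Gi i) = G ∧
      (∀ i, Cfsg.IsQuasisimple ↥(Gi i) ∧ Subgroup.closure (Cfsg.quadraticElements G ∩ (Gi i : Set (LinearMap.GeneralLinearGroup k M))) = Gi i) ∧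
      Cfsg.quadraticElements G ⊆ ⋃ i, (Gi i : Set (LinearMap.GeneralLinearGroup k M)) := by
  have h2 := QP.two_ne_zero_of hk2
  obtain ⟨𝒦, k1, k2, k3, k4⟩ := QP.decomp h2 hk3 hG.1 (Module.finrank k M + 1) G le_sup_left
    (hG.2.ge.trans (Subgroup.closure_mono (fun g hg => (QP.mem_quad_iff.1 hg).1)))
    (fun u _ _ => by omega)
  haveI : Finite 𝒦 := QP.finite_of_cm (k := k) (fun K : 𝒦 => K.1)
    (fun i j hij => k2 _ i.2 _ j.2 (fun e => hij (Subtype.ext e)))
    (fun i h => L.qs_not_le_centralizer (k1 _ i.2).1 (cm_iff_le_centralizer.1 h))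
  obtain ⟨r, ⟨e⟩⟩ := Finite.exists_equiv_fin 𝒦
  have hle : ∀ K ∈ 𝒦, K ≤ G := fun K hK => k3 ▸ le_gen_of_mem hK
  refine ⟨r, fun i => (e.symm i).1, fun i => ⟨hle _ (e.symm i).2, fun g hg => ?_⟩,
    fun i j hij => cm_iff.1 (k2 _ (e.symm i).2 _ (e.symm j).2
      (fun h => hij (e.symm.injective (Subtype.ext h)))), ?_,
    fun i => ⟨(k1 _ (e.symm i).2).1, le_antisymm ((Subgroup.closure_le _).2 (fun g hg => hg.2))
      ((k1 _ (e.symm i).2).2.trans (Subgroup.closure_mono (fun g hg =>
        ⟨QP.mem_quad_iff.2 ⟨hg.2.2, QP.ne_one_iff.1 hg.2.1⟩, hg.1⟩)))⟩, fun g hg => ?_⟩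
  · have : G ≤ Subgroup.normalizer (((e.symm i).1 : Subgroup (Module.End k M)ˣ) : Set _) := by
      rw [← k3]
      refine iSup₂_le (fun K hK x hx => smul_eq_iff_mem_normalizer.1 ?_)
      by_cases h : K = (e.symm i).1
      · exact smul_eq_of_mem (h ▸ hx)
      · exact (k2 K hK _ (e.symm i).2 h).smul_eq hx
    exact smul_eq_iff_mem_normalizer.2 (this hg)
  · refine le_antisymm (iSup_le (fun i => hle _ (e.symm i).2)) ?_
    rw [← k3]
    exact iSup₂_le (fun K hK => le_iSup_of_le (e ⟨K, hK⟩) (by simp))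
  · obtain ⟨K, hK, h⟩ := k4 g (QP.mem_quad_iff.1 hg).1 (QP.ne_one_iff.2 (QP.mem_quad_iff.1 hg).2)
    exact Set.mem_iUnion.2 ⟨e ⟨K, hK⟩, by simpa using h⟩

end Cfsg.Agent.S5063
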