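import Cfsg.Statements.S5064
import Cfsg.Agent.H8.QP5
import Cfsg.Agent.H8.MatU

set_option autoImplicit false
universe u
open Cfsg

namespace Cfsg.Agent.S5064

open Cfsg.Agent.H8

open Polynomial Module QP

theorem nil_family {k E : Type*} [Field k] [Ring E] [Algebra k E] {H : Subgroup Eˣ} {σ : Eˣ}
    (h : ((σ : E) - 1) * ((σ : E) - 1) = 0)
    (hH : ∀ τ : Eˣ, (∃ c : k, (τ : E) = 1 + c • ((σ : E) - 1)) → τ ∈ H) : Nil k H ((σ : E) - 1) := by
  refine ⟨h, fun r => ?_⟩
  have e := smul_sq_zero h r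
  exact ⟨⟨1 + r • ((σ : E) - 1), 1 - r • ((σ : E) - 1), by nlc -e, by nlc -e⟩, hH _ ⟨r, rfl⟩, rfl⟩

theorem main {k E : Type*} [Field k] [Ring E] [Algebra k E] (h2 : (2 : k) ≠ 0) {H : Subgroup Eˣ}
    {s t : E} (ss : s * s = 0) (tt : t * t = 0) (sts : s * t * s ≠ 0)
    (hi : IsIntegral k (s * t + t * s))
    (p1 : ∀ p : k[X], Nil k H (aeval (s * t + t * s) p * s))
    (p2 : ∀ p : k[X], aeval (s * t + t * s) p * s = 0 ∨
      ∃ q : k[X], aeval (s * t + t * s) q * (aeval (s * t + t * s) p * s) = s)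
    (p3 : ∀ p : k[X], Nil k H (aeval (s * t + t * s) p * t))
    (p4 : ∃ q : k[X], aeval (s * t + t * s) q * ((s * t + t * s) * t) = t)
    (hH : H ≤ Subgroup.closure ({τ : Eˣ | ∃ c : k, (τ : E) = 1 + c • s} ∪
      {τ : Eˣ | ∃ c : k, (τ : E) = 1 + c • t})) :
    ∃ (I : Ideal k[X]) (_ : I.IsMaximal), IsAlgebraic k (Ideal.Quotient.mk I X) ∧
      Nonempty (H ≃* Matrix.SpecialLinearGroup (Fin 2) (k[X] ⧸ I)) := by
  set z := s * t + t * s with hz
  have s0 : s ≠ 0 := by rintro rfl; simp at sts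
  have cs : Commute z s := comm_z_left ss
  have ct : Commute z t := comm_z_right tt
  have zs : z * s = s * t * s := by nlc hz * s + t * ss
  obtain ⟨q, hq⟩ := (p2 X).resolve_left (by rwa [aeval_X, zs])
  rw [aeval_X] at hq
  obtain ⟨q', hq'⟩ := p4
  have st : ∀ p : k[X], aeval z p * s = 0 → aeval z p * t = 0 := by
    intro p hp
    have c1 := (comm_aeval ct p).eq
    have c2 := (comm_aeval (comm_aeval (Commute.refl z) q').symm p).eq
    nlc -aeval z p * hq' + c2 * z * t + aeval z q' * aeval z p * hz * t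
      + aeval z q' * aeval z p * s * tt + aeval z q' * c1 * s * t + aeval z q' * t * hp * t
  let I := annI k z s
  have hI : I.IsMaximal := by
    rw [Ideal.isMaximal_iff]
    refine ⟨fun h => s0 (by simpa using mem_annI.1 h), fun J p hIJ hp hpJ => ?_⟩
    obtain ⟨r, hr⟩ := (p2 p).resolve_left hp
    have : 1 - r * p ∈ I := mem_annI.2 (by rw [map_sub, map_one, map_mul]; nlc -hr)
    simpa using J.add_mem (hIJ this) (J.mul_mem_left r hpJ)
  refine ⟨I, hI, ⟨minpoly k z, (minpoly.monic hi).ne_zero, ?_⟩, ?_⟩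
  · rw [← Ideal.Quotient.mkₐ_eq_mk k, aeval_algHom_apply, aeval_X_left_apply,
      Ideal.Quotient.mkₐ_eq_mk, Ideal.Quotient.eq_zero_iff_mem, mem_annI, minpoly.aeval, zero_mul]
  letI := Ideal.Quotient.field I
  set v := aeval z q with hv
  have vs := (comm_aeval cs q).eq
  have vt := (comm_aeval ct q).eq
  have vz := (comm_aeval (Commute.refl z) q).eq
  rw [← hv] at vs vt vz
  have hqt : v * (z * t) = t := by
    have := st (q * X - 1) (by rw [map_sub, map_mul, aeval_X, map_one]; nlc hq)
    rw [map_sub, map_mul, aeval_X, map_one] at this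
    nlc this
  have e0 : ∀ p ∈ I, aeval z p * (v * z) = 0 := by
    intro p hp
    have c1 := (comm_aeval (comm_aeval (Commute.refl z) q).symm p).eq
    rw [← hv] at c1
    nlc c1 * z + v * aeval z p * hz + v * (mem_annI.1 hp) * t + v * st p hp * s
  have ee : v * z * (v * z) = v * z := by
    nlc v * z * v * hz - v * hz - v * vz * (s * t + t * s) + v * hq * t + v * hqt * s
  let L : k[X] →ₗ[k] E := (LinearMap.mulRight k (v * z)).comp (aeval z).toLinearMap
  let ψ₀ : (k[X] ⧸ I) → E := fun c => Quotient.liftOn' c (fun p => aeval z p * (v * z)) (by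
    intro a b hab
    have := e0 _ ((Submodule.quotientRel_def I).1 hab)
    rwa [map_sub, sub_mul, sub_eq_zero] at this)
  have hψ₀ : ∀ p, ψ₀ (Ideal.Quotient.mk I p) = aeval z p * (v * z) := fun p => rfl
  let ψ : (k[X] ⧸ I) →ₙ+* E :=
    { toFun := ψ₀
      map_zero' := by rw [← map_zero (Ideal.Quotient.mk I), hψ₀]; simp
      map_add' := fun a b => by
        obtain ⟨a, rfl⟩ := Ideal.Quotient.mk_surjective a
        obtain ⟨b, rfl⟩ := Ideal.Quotient.mk_surjective b
        rw [← map_add, hψ₀, hψ₀, hψ₀, map_add, add_mul]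
      map_mul' := fun a b => by
        obtain ⟨a, rfl⟩ := Ideal.Quotient.mk_surjective a
        obtain ⟨b, rfl⟩ := Ideal.Quotient.mk_surjective b
        rw [← map_mul, hψ₀, hψ₀, hψ₀, map_mul]
        have c1 := (comm_aeval ((comm_aeval (Commute.refl z) q).symm.mul_right (Commute.refl z)) b).eq
        rw [← hv] at c1
        nlc -aeval z a * aeval z b * ee + aeval z a * c1 * (v * z) }
  have hψ : ∀ p, ψ (Ideal.Quotient.mk I p) = aeval z p * (v * z) := fun p => rfl
  have ψs : ∀ p, ψ (Ideal.Quotient.mk I p) * s = aeval z p * s := fun p => by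
    rw [hψ]; nlc aeval z p * hq
  have ψt : ∀ p, ψ (Ideal.Quotient.mk I p) * (v * t) = aeval z (p * q) * t := fun p => by
    rw [hψ, map_mul, ← hv]; nlc aeval z p * v * hqt - aeval z p * v * vz * t
  have sds : s * (v * t) * s = s := by nlc hq - vs * t * s - v * zs
  obtain ⟨φ, f1, f2, f3⟩ := exists_sl2_hom ψ (s := s) (d := v * t) ss
    (by nlc -v * vt * t + v * v * tt) sds
    (by nlc v * hqt - v * v * hz * t - v * v * s * tt - v * vt * s * t - v * t * vs * t)
    (by rw [← map_one (Ideal.Quotient.mk I), hψ, map_one]; nlc v * hz + vs * t)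
    (fun c => by
      obtain ⟨p, rfl⟩ := Ideal.Quotient.mk_surjective c
      exact ((comm_aeval cs p).mul_left ((comm_aeval cs q).mul_left cs)).eq.symm)
    (fun c => by
      obtain ⟨p, rfl⟩ := Ideal.Quotient.mk_surjective c
      have c0 : Commute z (v * t) := (comm_aeval (Commute.refl z) q).symm.mul_right ct
      exact ((comm_aeval c0 p).mul_left ((comm_aeval c0 q).mul_left c0)).eq.symm)
  have hker := ker_le_center_of_units φ (d := v * t) ss sds s0
    (by rw [f1, ← map_one (Ideal.Quotient.mk I), ψs]; simp)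
    (by rw [f2, ← map_one (Ideal.Quotient.mk I), ψt]; simp [hv])
  have hinj : Function.Injective φ := by
    rw [injective_iff_map_eq_one]
    intro a ha
    rcases mem_center_SL2 (hker ha) with h | rfl
    · exact h
    · exfalso
      rw [ha, Units.val_one, ← map_one (Ideal.Quotient.mk I)] at f3
      have h1 := ψs 1
      rw [map_one (aeval z), one_mul] at h1
      have : (2 : k) • s = 0 := by nlc f3 * s - 2 * h1
      exact s0 ((smul_eq_zero.1 this).resolve_left h2)
  have hr : φ.range = H := by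
    refine le_antisymm ?_ (hH.trans ((Subgroup.closure_le _).2 ?_))
    · rw [range_eq_sup]
      refine sup_le ?_ ?_
      · rintro _ ⟨g, hg, rfl⟩
        obtain ⟨c, rfl⟩ := mem_upper_iff.1 hg
        obtain ⟨p, rfl⟩ := Ideal.Quotient.mk_surjective c
        exact Nil.mem (k := k) (by rw [f1, ψs, add_sub_cancel_left]; exact p1 p)
      · rintro _ ⟨g, hg, rfl⟩
        obtain ⟨c, rfl⟩ := mem_lower_iff.1 hg
        obtain ⟨p, rfl⟩ := Ideal.Quotient.mk_surjective c
        exact Nil.mem (k := k) (by rw [f2, ψt, add_sub_cancel_left]; exact p3 _)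
    · rintro τ (⟨c, e⟩ | ⟨c, e⟩)
      · refine ⟨uX (Ideal.Quotient.mk I (C c)), Units.ext ?_⟩
        rw [f1, ψs, e, aeval_C, Algebra.smul_def]
      · refine ⟨uY (Ideal.Quotient.mk I (C c * X)), Units.ext ?_⟩
        rw [f2, ψt, e, map_mul, map_mul, aeval_C, aeval_X, ← hv, Algebra.smul_def]
        nlc algebraMap k E c * hqt - algebraMap k E c * vz * t
  exact ⟨((MonoidHom.ofInjective hinj).trans (MulEquiv.subgroupCongr hr)).symm⟩

/-- Let k be a field of characteristic not 2 with k not of order 3, M a finite-dimensional k-vector space and G ≤ GL(M) such that (G, M) is a quadratic pair (M irreducible for G, and G generated by its quadratically acting elements σ whose scalar family 1 + c(σ − 1), c ∈ k, lies in G). Write 𝒬_d for the quadratic elements of G of minimal commutator rank, E(σ) for the subgroup generated by the members of 𝒬_d with the same fixed space and commutator space as σ, and Σ for the set of these subgroups. If σ, τ ∈ 𝒬_d and the subgroup H generated by their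 two scalar families does not act unipotently on M, then H is isomorphic to SL₂ over a simple algebraic extension k(λ) of k. -/
theorem result {k : Type u} [Field k] (hk2 : ringChar k ≠ 2) (hk3 : Nat.card k ≠ 3)
    {M : Type u} [AddCommGroup M] [Module k M] [FiniteDimensional k M]
    {G : Subgroup (LinearMap.GeneralLinearGroup k M)} (hG : Cfsg.IsQuadraticPair G)
    {σ τ : LinearMap.GeneralLinearGroup k M} (hσ : σ ∈ Cfsg.minimalQuadraticElements G) (hτ : τ ∈ Cfsg.minimalQuadraticElements G)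
    (hH : ¬ Cfsg.IsUnipotentOn (Subgroup.closure (Cfsg.scalarFamily σ ∪ Cfsg.scalarFamily τ))) :
    ∃ (K : Type u) (_ : Field K) (_ : Algebra k K) (lam : K), IsAlgebraic k lam ∧
      IntermediateField.adjoin k ({lam} : Set K) = ⊤ ∧
      Nonempty (↥(Subgroup.closure (Cfsg.scalarFamily σ ∪ Cfsg.scalarFamily τ)) ≃* Matrix.SpecialLinearGroup (Fin 2) K) := by
  have h2 := QP.two_ne_zero_of hk2
  have hs := QP.mem_min_iff.1 hσ
  have ht := QP.mem_min_iff.1 hτ
  set H := Subgroup.closure (Cfsg.scalarFamily σ ∪ Cfsg.scalarFamily τ) with hHd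
  have hle : H ≤ Eg k G ((σ : End k M) - 1) ⊔ Eg k G ((τ : End k M) - 1) := by
    refine (Subgroup.closure_le _).2 ?_
    rintro g (⟨c, e⟩ | ⟨c, e⟩)
    · refine Subgroup.mem_sup_left ((mem_Eg hs.1.1).2 ?_)
      rw [e, add_sub_cancel_left]
      exact ⟨hs.1.smul c, fun x hx => by rw [mul_smul_comm, hx, smul_zero],
        fun x hx => by rw [smul_mul_assoc, hx, smul_zero]⟩
    · refine Subgroup.mem_sup_right ((mem_Eg ht.1.1).2 ?_)
      rw [e, add_sub_cancel_left]
      exact ⟨ht.1.smul c, fun x hx => by rw [mul_smul_comm, hx, smul_zero],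
        fun x hx => by rw [smul_mul_assoc, hx, smul_zero]⟩
  have hG' : H ≤ G := hle.trans (sup_le (Eg_le _) (Eg_le _))
  have hs' : Mn H ((σ : End k M) - 1) :=
    ⟨nil_family hs.1.1 (fun g hg => Subgroup.subset_closure (Or.inl hg)), hs.2.1,
      fun u hu h0 => hs.2.2 u (hu.mono hG') h0⟩
  have ht' : Mn H ((τ : End k M) - 1) :=
    ⟨nil_family ht.1.1 (fun g hg => Subgroup.subset_closure (Or.inr hg)), ht.2.1,
      fun u hu h0 => ht.2.2 u (hu.mono hG') h0⟩
  have sts : ((σ : End k M) - 1) * ((τ : End k M) - 1) * ((σ : End k M) - 1) ≠ 0 :=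
    fun e => hH (isUnipotentOn_iff.2 ((hs.unip h2 hk3 ht e).mono hle))
  obtain ⟨p1, p2⟩ := hs'.poly_mem h2 hk3 ht'.1
  obtain ⟨p3, p4⟩ := ht'.poly_mem h2 hk3 hs'.1
  rw [add_comm] at p3 p4
  have p5 := (p4 X).resolve_left (fun e => sts (ht.sandwich_symm h2 hk3 hs (by
    rw [aeval_X] at e
    nlc e - ((σ : End k M) - 1) * ht.1.1)))
  rw [aeval_X] at p5
  obtain ⟨I, hI, h4, h5⟩ := main h2 hs.1.1 ht.1.1 sts (Algebra.IsIntegral.isIntegral _) p1 p2 p3 p5
    le_rfl
  refine ⟨k[X] ⧸ I, Ideal.Quotient.field I, inferInstance, Ideal.Quotient.mk I X, h4, ?_, h5⟩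
  letI := Ideal.Quotient.field I
  rw [eq_top_iff]
  rintro c -
  obtain ⟨p, rfl⟩ := Ideal.Quotient.mk_surjective c
  have : Ideal.Quotient.mk I p = aeval (Ideal.Quotient.mk I X) p := by
    rw [← Ideal.Quotient.mkₐ_eq_mk k, aeval_algHom_apply, aeval_X_left_apply]
  rw [this]
  exact IntermediateField.algebra_adjoin_le_adjoin k _ (Polynomial.aeval_mem_adjoin_singleton k _)

end Cfsg.Agent.S5064
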