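import Cfsg.Statements.S5065
import Cfsg.Agent.H8.QP5

set_option autoImplicit false
universe u
open Cfsg

namespace Cfsg.Agent.S5065

open Cfsg.Agent.H8

/-- the corner -/
def corner (k : Type*) {E : Type*} [Field k] [Ring E] [Algebra k E] (e : E) : Submodule k E where
  carrier := {u | (1 - e) * u = 0 ∧ u * (1 - e) = 0}
  zero_mem' := by simp
  add_mem' := fun {a b} ha hb => ⟨by rw [mul_add, ha.1, hb.1, add_zero],
    by rw [add_mul, ha.2, hb.2, add_zero]⟩
  smul_mem' := fun c a ha => ⟨by rw [mul_smul_comm, ha.1, smul_zero],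
    by rw [smul_mul_assoc, ha.2, smul_zero]⟩

theorem corner_mul {k E : Type*} [Field k] [Ring E] [Algebra k E] (e : E) :
    corner k e * corner k e ≤ corner k e :=
  Submodule.mul_le.2 (fun a ha b hb => ⟨by rw [← mul_assoc, ha.1, zero_mul],
    by rw [mul_assoc, hb.2, mul_zero]⟩)

/-- Let k be a field of characteristic not 2 with k not of order 3, M a finite-dimensional k-vector space and G ≤ GL(M) such that (G, M) is a quadratic pair (M irreducible for G, and G generated by its quadratically acting elements σ whose scalar family 1 + c(σ − 1), c ∈ k, lies in G). Write 𝒬_d for the quadratic elements of G of minimal commutator rank, E(σ) for the subgroup generated by the members of 𝒬_d with the same fixed space and commutator space as σ, and Σ for the set of these subgroups. For σ, τ ∈ 𝒬_d put A = E(σ), B = E(τ) and X = ⟨A, B⟩. Then either X acts unipotently on M, or A and B are the unipotent subgroups of a special rank one group X; in the latter case X contains exactly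 one central involution acting as −1 on the commutator space [M, X] and trivially on the fixed space C_M(X), and M is the direct sum of C_M(X) and [M, X]. -/
theorem result {k : Type u} [Field k] (hk2 : ringChar k ≠ 2) (hk3 : Nat.card k ≠ 3)
    {M : Type u} [AddCommGroup M] [Module k M] [FiniteDimensional k M]
    {G : Subgroup (LinearMap.GeneralLinearGroup k M)} (hG : Cfsg.IsQuadraticPair G)
    {σ τ : LinearMap.GeneralLinearGroup k M} (hσ : σ ∈ Cfsg.minimalQuadraticElements G) (hτ : τ ∈ Cfsg.minimalQuadraticElements G) :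
    Cfsg.IsUnipotentOn (Cfsg.sameActionSubgroup G σ ⊔ Cfsg.sameActionSubgroup G τ) ∨
    (Cfsg.IsSpecialRankOnePair (Cfsg.sameActionSubgroup G σ) (Cfsg.sameActionSubgroup G τ) ∧
      (∃! i : LinearMap.GeneralLinearGroup k M, i ∈ Cfsg.sameActionSubgroup G σ ⊔ Cfsg.sameActionSubgroup G τ ∧ i ≠ 1 ∧ i * i = 1 ∧
        (∀ x ∈ Cfsg.sameActionSubgroup G σ ⊔ Cfsg.sameActionSubgroup G τ, i * x = x * i) ∧
        (∀ m ∈ Cfsg.commutatorSubmodule (Cfsg.sameActionSubgroup G σ ⊔ Cfsg.sameActionSubgroup G τ), (i : M →ₗ[k] M) m = -m) ∧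
        (∀ m ∈ Cfsg.fixedSubmodule (Cfsg.sameActionSubgroup G σ ⊔ Cfsg.sameActionSubgroup G τ), (i : M →ₗ[k] M) m = m)) ∧
      IsCompl (Cfsg.fixedSubmodule (Cfsg.sameActionSubgroup G σ ⊔ Cfsg.sameActionSubgroup G τ))
        (Cfsg.commutatorSubmodule (Cfsg.sameActionSubgroup G σ ⊔ Cfsg.sameActionSubgroup G τ))) := by
  have h2 := QP.two_ne_zero_of hk2
  rw [QP.sameAction_eq hσ, QP.sameAction_eq hτ]
  have hs := QP.mem_min_iff.1 hσ
  have ht := QP.mem_min_iff.1 hτ
  generalize (σ : Module.End k M) - 1 = s at hs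
  generalize (τ : Module.End k M) - 1 = t at ht
  by_cases h : s * t * s = 0
  · exact Or.inl (QP.isUnipotentOn_iff.2 (hs.unip h2 hk3 ht h))
  refine Or.inr ⟨hs.special h2 hk3 ht h, ?_⟩
  obtain ⟨d, hd, l1, l2, sds, dsd⟩ := hs.exists_partner' h2 hk3 ht h
  rw [QP.Eg_congr l2 l1]
  obtain ⟨a, ha, -, ea⟩ := hs.exists_mem
  obtain ⟨b, hb, -, eb⟩ := hd.exists_mem
  have ss := hs.1.1
  have dd := hd.1.1
  obtain ⟨e, he⟩ : ∃ e, e = s * d + d * s := ⟨_, rfl⟩
  have ee : e * e = e := by rw [he]; nlc sds * d + s * dd * s + d * ss * d + dsd * s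
  have hJ : ∀ g ∈ QP.Eg k G s ⊔ QP.Eg k G d, (1 - e) * ((g : Module.End k M) - 1) = 0 ∧
      ((g : Module.End k M) - 1) * (1 - e) = 0 := by
    intro g hg
    refine QP.aug_sup_le (corner_mul (k := k) e) (QP.aug_le.2 (fun g hg => ?_))
      (QP.aug_le.2 (fun g hg => ?_)) (QP.mem_aug hg)
    · have l := ((QP.mem_Eg ss).1 hg).2
      exact ⟨l.1 _ (by rw [he]; nlc -sds - d * ss), l.2 _ (by rw [he]; nlc -ss * d - sds)⟩
    · have l := ((QP.mem_Eg dd).1 hg).2
      exact ⟨l.1 _ (by rw [he]; nlc -dsd - s * dd), l.2 _ (by rw [he]; nlc -dd * s - dsd)⟩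
  have hC : commutatorSubmodule (QP.Eg k G s ⊔ QP.Eg k G d) = LinearMap.range e := by
    refine le_antisymm (iSup₂_le (fun g hg => QP.range_le_iff.2 (fun x hx => ?_))) ?_
    · nlc x * (hJ g hg).1 + hx * ((g : Module.End k M) - 1)
    · have k1 := le_iSup₂ (f := fun (g : (Module.End k M)ˣ) (_ : g ∈ QP.Eg k G s ⊔ QP.Eg k G d) =>
        LinearMap.range ((g : Module.End k M) - 1)) a (Subgroup.mem_sup_left ha)
      have k2 := le_iSup₂ (f := fun (g : (Module.End k M)ˣ) (_ : g ∈ QP.Eg k G s ⊔ QP.Eg k G d) =>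
        LinearMap.range ((g : Module.End k M) - 1)) b (Subgroup.mem_sup_right hb)
      rw [ea] at k1
      rw [eb] at k2
      rintro _ ⟨m, rfl⟩
      rw [he]
      exact Submodule.add_mem _ (k1 ⟨d m, rfl⟩) (k2 ⟨s m, rfl⟩)
  have hF : fixedSubmodule (QP.Eg k G s ⊔ QP.Eg k G d) = LinearMap.ker e := by
    ext m
    rw [QP.mem_fixed_iff]
    constructor
    · intro hm
      have k1 := hm a (Subgroup.mem_sup_left ha)
      have k2 := hm b (Subgroup.mem_sup_right hb)
      rw [ea] at k1
      rw [eb] at k2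
      simp [he, k1, k2]
    · intro hm g hg
      have := congrArg (· m) (hJ g hg).2
      simp only [Module.End.mul_apply, LinearMap.sub_apply (1 : Module.End k M) e,
        LinearMap.mem_ker.1 hm, Module.End.one_apply, sub_zero] at this
      exact this
  rw [hC, hF]
  refine ⟨?_, (LinearMap.IsIdempotentElem.isCompl ee).symm⟩
  have ei : (((a * b⁻¹ * a) * (a * b⁻¹ * a) : (Module.End k M)ˣ) : Module.End k M) = 1 - 2 * e := by
    have : ((a * b⁻¹ * a : (Module.End k M)ˣ) : Module.End k M) = 1 + s - d - s * d - d * s := by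
      simp only [Units.val_mul]
      rw [QP.inv_val (eb ▸ dd), eb, eq_add_of_sub_eq ea]
      nlc ss - sds
    rw [Units.val_mul, this, he]
    nlc ss - ss * d - sds - sds + dd + dsd + dd * s + s * dd + sds * d + s * dd * s - d * ss + dsd
      + d * ss * d + dsd * s
  have hw : a * b⁻¹ * a ∈ QP.Eg k G s ⊔ QP.Eg k G d :=
    mul_mem (Subgroup.mul_mem_sup ha (inv_mem hb)) (Subgroup.mem_sup_left ha)
  refine ⟨(a * b⁻¹ * a) * (a * b⁻¹ * a), ⟨mul_mem hw hw, fun h1 => ?_, ?_, fun x hx => ?_, ?_, ?_⟩, ?_⟩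
  · rw [h1, Units.val_one] at ei
    have : (2 : k) • s = 0 := by nlc ei * s - 2 * he * s - 2 * sds - 2 * d * ss
    exact hs.2.1 ((smul_eq_zero.1 this).resolve_left h2)
  · ext1
    rw [Units.val_mul, ei, Units.val_one]
    nlc 4 * ee
  · ext1
    rw [Units.val_mul, Units.val_mul x, ei]
    nlc 2 * (hJ x hx).1 - 2 * (hJ x hx).2
  · rintro _ ⟨m, rfl⟩
    rw [ei, ← Module.End.mul_apply, show (1 - 2 * e) * e = -e by nlc -2 * ee]
    rfl
  · intro m hm
    rw [ei, two_mul]
    simp [LinearMap.mem_ker.1 hm]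
  · rintro j ⟨-, -, -, -, k1, k2⟩
    ext m
    rw [ei]
    have k3 := k1 (e m) ⟨m, rfl⟩
    have k4 := k2 (m - e m) (by
      rw [LinearMap.mem_ker, map_sub, ← Module.End.mul_apply, ee, sub_self])
    rw [map_sub, k3] at k4
    rw [two_mul]
    simp only [LinearMap.sub_apply, LinearMap.add_apply, Module.End.one_apply]
    linear_combination (norm := abel) k4

end Cfsg.Agent.S5065
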