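import Cfsg.Statements.S5067
import Cfsg.Agent.H8.Conj

set_option autoImplicit false
open Cfsg

namespace Cfsg.Agent.S5067

open Cfsg.Agent.H8

open Subgroup

theorem aux {P : Type*} [Group P] [Group.IsNilpotent P] (hna : ¬ IsMulCommutative P)
    {E : Subgroup P} (hE : IsMulCommutative ↥E) :
    Group.nilpotencyClass ↥(Subgroup.normalClosure (E : Set P)) < Group.nilpotencyClass P := by
  set N := Subgroup.normalClosure (E : Set P)
  have h1 : N ≤ commutator P ⊔ E := by
    have : (commutator P ⊔ E).Normal := Subgroup.Normal.of_commutator_le _ le_sup_left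
    exact normalClosure_le_normal (le_sup_right (a := commutator P) (b := E))
  have h2 : N.lowerCentralSeries 1 ≤ Subgroup.lowerCentralSeries ⊤ 2 := by
    rw [Subgroup.lowerCentralSeries_succ, Subgroup.lowerCentralSeries_zero, commutator_le]
    intro x hx y hy
    obtain ⟨c, hc, e, he, rfl⟩ := (mem_sup_of_normalizes fun a _ => smul_eq_of_normal a _).1 (h1 hx)
    obtain ⟨d, hd, f, hf, rfl⟩ := (mem_sup_of_normalizes fun a _ => smul_eq_of_normal a _).1 (h1 hy)
    set π := QuotientGroup.mk' (Subgroup.lowerCentralSeries (⊤ : Subgroup P) 2)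
    have key : ∀ z ∈ commutator P, ∀ g, Commute (π z) (π g) := fun z hz g => by
      rw [← commutatorElement_eq_one_iff_commute, ← map_commutatorElement]
      exact (QuotientGroup.eq_one_iff _).2 (commutator_mem_commutator hz (mem_top g))
    rw [← QuotientGroup.eq_one_iff]
    change π _ = 1
    rw [map_commutatorElement, commutatorElement_eq_one_iff_commute, map_mul]
    refine (key c hc _).mul_left ?_
    rw [map_mul]
    exact (key d hd _).symm.mul_right (Commute.map (cm_self E e he f hf) π)
  have h3 : ∀ k, N.lowerCentralSeries (k + 1) ≤ Subgroup.lowerCentralSeries ⊤ (k + 2) := fun k => by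
    induction k with
    | zero => exact h2
    | succ k ih => exact commutator_mono ih le_top
  have h4 : 2 ≤ Group.nilpotencyClass P := by
    by_contra h
    have := Subgroup.lowerCentralSeries_eq_bot_iff_nilpotencyClass_le.2
      (show Group.nilpotencyClass P ≤ 1 by omega)
    exact hna ⟨⟨fun a b => cm_iff.2 this a trivial b trivial⟩⟩
  obtain ⟨k, hk⟩ := Nat.exists_eq_add_of_le' h4
  have h5 := h3 k
  rw [← hk, Subgroup.lowerCentralSeries_nilpotencyClass, le_bot_iff, ← top_subtype_lowerCentralSeries,
    map_eq_bot_iff_of_injective _ (subtype_injective _),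
    Subgroup.lowerCentralSeries_eq_bot_iff_nilpotencyClass_le] at h5
  omega

/-- Let P be a non-abelian nilpotent p-group (every element of p-power order; P possibly infinite) generated by two abelian subgroups E and F. Then the normal closure of E in P, and likewise that of F, has nilpotency class strictly smaller than that of P. -/
theorem result {P : Type*} [Group P] {p : ℕ} [Fact p.Prime] (hP : IsPGroup p P) [Group.IsNilpotent P]
    (hna : ¬ IsMulCommutative P) {E F : Subgroup P} (hE : IsMulCommutative ↥E) (hF : IsMulCommutative ↥F) (hgen : E ⊔ F = ⊤) :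
    Group.nilpotencyClass ↥(Subgroup.normalClosure (E : Set P)) < Group.nilpotencyClass P ∧
    Group.nilpotencyClass ↥(Subgroup.normalClosure (F : Set P)) < Group.nilpotencyClass P := by
  exact ⟨aux hna hE, aux hna hF⟩

end Cfsg.Agent.S5067
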