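import Cfsg.Statements.S5069
import Cfsg.Agent.H8.QP6

set_option autoImplicit false
universe u
open Cfsg

namespace Cfsg.Agent.S5069

open Cfsg.Agent.H8

/-- Let k be a field of characteristic not 2 with k not of order 3, M a finite-dimensional k-vector space and G ≤ GL(M) such that (G, M) is a quadratic pair (M irreducible for G, and G generated by its quadratically acting elements σ whose scalar family 1 + c(σ − 1), c ∈ k, lies in G). Write 𝒬_d for the quadratic elements of G of minimal commutator rank, E(σ) for the subgroup generated by the members of 𝒬_d with the same fixed space and commutator space as σ, and Σ for the set of these subgroups. Then Σ is a disjoint union of finitely many parts Σ₁, …, Σ_r such that the subgroups G_i generated by the Σ_i commute pairwise, each G_i is quasisimple, and inside G_i the members of Σ_i form a class of abstract root subgroups in which every rank one pair A, B contains subgroups A₀ ≤ A, B₀ ≤ B generating an image of SL₂(k₁) with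 central kernel on unitriangular subgroups for some field k₁ with at least four elements. -/
theorem result {k : Type u} [Field k] (hk2 : ringChar k ≠ 2) (hk3 : Nat.card k ≠ 3)
    {M : Type u} [AddCommGroup M] [Module k M] [FiniteDimensional k M]
    {G : Subgroup (LinearMap.GeneralLinearGroup k M)} (hG : Cfsg.IsQuadraticPair G) :
    ∃ (r : ℕ) (part : Fin r → Set (Subgroup (LinearMap.GeneralLinearGroup k M))),
      (⋃ i, part i) = Cfsg.quadraticRootSubgroups G ∧ (∀ i j, i ≠ j → Disjoint (part i) (part j)) ∧ (∀ i, (part i).Nonempty) ∧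
      (∀ i j, i ≠ j → ⁅(⨆ A ∈ part i, A), (⨆ A ∈ part j, A)⁆ = ⊥) ∧
      (∀ i, Cfsg.IsQuasisimple ↥(⨆ A ∈ part i, A) ∧
        Cfsg.IsRootSubgroupClass ((fun A : Subgroup (LinearMap.GeneralLinearGroup k M) => A.subgroupOf (⨆ B ∈ part i, B)) '' (part i)) ∧
        ∀ A ∈ part i, ∀ B ∈ Cfsg.rankOnePartners (part i) A, ∃ A₀ B₀ : Subgroup (LinearMap.GeneralLinearGroup k M), A₀ ≤ A ∧ B₀ ≤ B ∧
          ∃ (k₁ : Type u) (_ : Field k₁), 3 < ENat.card k₁ ∧ Cfsg.IsPSL2PairOver k₁ A₀ B₀) := by
  have h2 := QP.two_ne_zero_of hk2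
  have ho := QP.opp_of_pair h2 hk3 hG
  have hL := QP.Sig.lrs h2 hk3 ho
  have hN := QP.Sig.ni h2 hk3 ho
  rw [QP.roots_eq]
  haveI := QP.Sig.finite_comp h2 hk3 ho
  obtain ⟨r, ⟨e⟩⟩ := Finite.exists_equiv_fin {P // ∃ A ∈ QP.Sig G, P = comp (QP.Sig G) A}
  have hne : ∀ i j, i ≠ j → ∀ A B, (e.symm i).1 = comp (QP.Sig G) A →
      (e.symm j).1 = comp (QP.Sig G) B → ¬ Reach (QP.Sig G) A B := fun i j hij A B e1 e2 h =>
    hij (e.symm.injective (Subtype.ext (by rw [e1, e2, comp_eq h])))
  refine ⟨r, fun i => (e.symm i).1, ?_, fun i j hij => ?_, fun i => ?_, fun i j hij => ?_, fun i => ?_⟩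
  · ext A
    rw [Set.mem_iUnion]
    constructor
    · rintro ⟨i, hi⟩
      obtain ⟨B, hB, e1⟩ := (e.symm i).2
      rw [e1] at hi
      exact comp_subset hB hi
    · intro hA
      exact ⟨e ⟨_, A, hA, rfl⟩, by rw [e.symm_apply_apply]; exact Reach.refl A⟩
  · obtain ⟨A, hA, e1⟩ := (e.symm i).2
    obtain ⟨B, hB, e2⟩ := (e.symm j).2
    simp only [e1, e2]
    exact Set.disjoint_left.2 (fun C h1 h2 => hne i j hij A B e1 e2 (Reach.trans h1 (Reach.symm h2)))
  · obtain ⟨A, hA, e1⟩ := (e.symm i).2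
    simp only [e1]
    exact ⟨A, Reach.refl A⟩
  · obtain ⟨A, hA, e1⟩ := (e.symm i).2
    obtain ⟨B, hB, e2⟩ := (e.symm j).2
    simp only [e1, e2]
    exact cm_iff.1 (QP.Sig.cm_comp h2 hk3 ho hA hB (hne i j hij A B e1 e2))
  · obtain ⟨A, hA, e1⟩ := (e.symm i).2
    beta_reduce
    rw [e1]
    refine ⟨QP.Sig.quasisimple h2 hk3 hG.1 (fun _ hg => smul_eq_of_mem hg) hA,
      (hL.comp hN hA).class ⟨A, Reach.refl A⟩
        (fun B hB C hC => (reach_comp hB).symm.trans (reach_comp hC)), fun B hB C hC => ?_⟩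
    obtain ⟨A₀, B₀, h3, h4, h5⟩ :=
      QP.Sig.hpair h2 hk3 (comp_subset hA hB) (comp_subset hA hC.1) hC.2
    exact ⟨A₀, B₀, h3, h4, k, inferInstance, three_lt_card h2 hk3, h5⟩

end Cfsg.Agent.S5069
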