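import Cfsg.Statements.S5071
import Cfsg.Agent.H8.LinPol

set_option autoImplicit false
open Matrix
open Cfsg

namespace Cfsg.Agent.S5071

open Cfsg.Agent.H8

open Matrix Cfsg.Agent.H6 in
theorem set_eq {F : Type*} [Field F] {q n : ℕ} {τ : F ≃+* F} (hσ : orderOf τ = 2)
    (hτ : ∀ x, τ x = x ^ q) {L : Type*} [Field L] [Algebra L F]
    (hL : ∀ x, τ x = x ↔ ∃ y, algebraMap L F y = x) {l : F} (hl0 : l ≠ 0) (hl : l + τ l = 0) :
    {A : Subgroup ↥(Cfsg.SU n F q) | ∃ p : Fin n → F, p ≠ 0 ∧ Cfsg.hermForm n F q p p = 0 ∧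
          A = Subgroup.closure {g : ↥(Cfsg.SU n F q) |
            (∀ v : Fin n → F, ∃ c : F, ((g : Matrix.SpecialLinearGroup (Fin n) F) :
              Matrix (Fin n) (Fin n) F) *ᵥ v = v + c • p) ∧
            ∀ v : Fin n → F, Cfsg.hermForm n F q v p = 0 →
              ((g : Matrix.SpecialLinearGroup (Fin n) F) : Matrix (Fin n) (Fin n) F) *ᵥ v = v}} =
      Lq L (jRho (suJ F n q)) '' polFam τ 1 l := by
  have U := suLike (n := n) hσ hτ
  have e : ∀ p : Fin n → F, p ≠ 0 → hf τ p p = 0 → Subgroup.closure {g : ↥(Cfsg.SU n F q) |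
      (∀ v : Fin n → F, ∃ c : F, ((g : Matrix.SpecialLinearGroup (Fin n) F) :
              Matrix (Fin n) (Fin n) F) *ᵥ v = v + c • p) ∧
            ∀ v : Fin n → F, Cfsg.hermForm n F q v p = 0 →
              ((g : Matrix.SpecialLinearGroup (Fin n) F) : Matrix (Fin n) (Fin n) F) *ᵥ v = v} =
      Lq L (jRho (suJ F n q)) (vecMulVec p (l • pf τ 1 p)) := by
    intro p hp0 hp
    unfold Lq
    congr 1
    ext g
    change (∀ v, ∃ c : F, jRho (suJ F n q) g *ᵥ v = v + c • p) ∧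
      (∀ v, hermForm n F q v p = 0 → jRho (suJ F n q) g *ᵥ v = v) ↔ _
    constructor
    · rintro ⟨h1, h2⟩
      obtain ⟨c, hc⟩ := eq_tv_of_fix (f := pf τ 1 p) (pf_ne_zero (by simp) hp0)
        (fun v hv => h2 v (by rw [hermForm_eq_hf hτ, ← pf_dot_hf, hv])) h1
      obtain ⟨v, hv⟩ := exists_hf_one (τ := τ) hp0
      have hv' : hf τ p v = 1 := by rw [← hf_conj hσ, hv, map_one]
      have := U.isom g v v
      simp only [hc, tv_mulVec, smul_dotProduct, pf_dot_hf, smul_eq_mul, hf_add_left, hf_add_right,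
        hf_smul_left, hf_smul_right, hp, hv, hv', mul_one] at this
      obtain ⟨y, hy⟩ := (hL (c / l)).1 (by
        rw [map_div₀, show τ c = -c by linear_combination this,
          show τ l = -l by linear_combination hl, neg_div_neg_eq])
      refine ⟨y, ?_⟩
      rw [hc, ← algebraMap_smul F y, ← tv_smul_eq, smul_smul, hy, div_mul_cancel₀ _ hl0]
    · rintro ⟨c, hc⟩
      rw [← algebraMap_smul F c, ← tv_smul_eq] at hc
      refine ⟨fun v => ⟨_, by rw [hc, tv_mulVec]⟩, fun v hv => ?_⟩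
      rw [hermForm_eq_hf hτ] at hv
      rw [hc, tv_mulVec, smul_dotProduct, smul_dotProduct, pf_dot_hf, hv]
      simp
  ext A
  constructor
  · rintro ⟨p, hp0, hp, rfl⟩
    rw [hermForm_eq_hf hτ] at hp
    exact ⟨_, ⟨p, hp0, hp, rfl⟩, (e p hp0 hp).symm⟩
  · rintro ⟨_, ⟨p, hp0, hp, rfl⟩, rfl⟩
    exact ⟨p, hp0, by rw [hermForm_eq_hf hτ]; exact hp, (e p hp0 hp).symm⟩

/-- Let F be a finite field with q² elements, n a natural number, and h the Hermitian form Σ uᵢ vᵢ^q on F^{n+2}. For a non-zero isotropic vector p let T(p) be the group of unitary transvections with centre ⟨p⟩: the elements of SU_{n+2}(q) moving every vector by a multiple of p and fixing every vector perpendicular to p. Let Σ be the set of these T(p) and G₀ the subgroup they generate. Then, viewed inside G₀, the members of Σ form a degenerate class of abstract k-root subgroups of G₀ for some field k with q elements (any two commute or are the unipotent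 subgroups of a rank one group that is an image of SL₂(k) with central kernel, never the commutator case), and their graph of rank one pairs is connected. -/
theorem result (F : Type*) [Field F] [Fintype F] (q n : ℕ) (hF : Fintype.card F = q ^ 2) :
    Cfsg.IsRootSubgroupClass ((fun A : Subgroup ↥(Cfsg.SU (n + 2) F q) => A.subgroupOf (⨆ B ∈ {A : Subgroup ↥(Cfsg.SU (n + 2) F q) | ∃ p : Fin (n + 2) → F, p ≠ 0 ∧ Cfsg.hermForm (n + 2) F q p p = 0 ∧
          A = Subgroup.closure {g : ↥(Cfsg.SU (n + 2) F q) |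
            (∀ v : Fin (n + 2) → F, ∃ c : F, ((g : Matrix.SpecialLinearGroup (Fin (n + 2)) F) : Matrix (Fin (n + 2)) (Fin (n + 2)) F) *ᵥ v = v + c • p) ∧
            ∀ v : Fin (n + 2) → F, Cfsg.hermForm (n + 2) F q v p = 0 →
              ((g : Matrix.SpecialLinearGroup (Fin (n + 2)) F) : Matrix (Fin (n + 2)) (Fin (n + 2)) F) *ᵥ v = v}}, B)) ''
      {A : Subgroup ↥(Cfsg.SU (n + 2) F q) | ∃ p : Fin (n + 2) → F, p ≠ 0 ∧ Cfsg.hermForm (n + 2) F q p p = 0 ∧
          A = Subgroup.closure {g : ↥(Cfsg.SU (n + 2) F q) |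
            (∀ v : Fin (n + 2) → F, ∃ c : F, ((g : Matrix.SpecialLinearGroup (Fin (n + 2)) F) : Matrix (Fin (n + 2)) (Fin (n + 2)) F) *ᵥ v = v + c • p) ∧
            ∀ v : Fin (n + 2) → F, Cfsg.hermForm (n + 2) F q v p = 0 →
              ((g : Matrix.SpecialLinearGroup (Fin (n + 2)) F) : Matrix (Fin (n + 2)) (Fin (n + 2)) F) *ᵥ v = v}}) ∧
    Cfsg.IsDegenerateRootSet ((fun A : Subgroup ↥(Cfsg.SU (n + 2) F q) => A.subgroupOf (⨆ B ∈ {A : Subgroup ↥(Cfsg.SU (n + 2) F q) | ∃ p : Fin (n + 2) → F, p ≠ 0 ∧ Cfsg.hermForm (n + 2) F q p p = 0 ∧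
          A = Subgroup.closure {g : ↥(Cfsg.SU (n + 2) F q) |
            (∀ v : Fin (n + 2) → F, ∃ c : F, ((g : Matrix.SpecialLinearGroup (Fin (n + 2)) F) : Matrix (Fin (n + 2)) (Fin (n + 2)) F) *ᵥ v = v + c • p) ∧
            ∀ v : Fin (n + 2) → F, Cfsg.hermForm (n + 2) F q v p = 0 →
              ((g : Matrix.SpecialLinearGroup (Fin (n + 2)) F) : Matrix (Fin (n + 2)) (Fin (n + 2)) F) *ᵥ v = v}}, B)) ''
      {A : Subgroup ↥(Cfsg.SU (n + 2) F q) | ∃ p : Fin (n + 2) → F, p ≠ 0 ∧ Cfsg.hermForm (n + 2) F q p p = 0 ∧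
          A = Subgroup.closure {g : ↥(Cfsg.SU (n + 2) F q) |
            (∀ v : Fin (n + 2) → F, ∃ c : F, ((g : Matrix.SpecialLinearGroup (Fin (n + 2)) F) : Matrix (Fin (n + 2)) (Fin (n + 2)) F) *ᵥ v = v + c • p) ∧
            ∀ v : Fin (n + 2) → F, Cfsg.hermForm (n + 2) F q v p = 0 →
              ((g : Matrix.SpecialLinearGroup (Fin (n + 2)) F) : Matrix (Fin (n + 2)) (Fin (n + 2)) F) *ᵥ v = v}}) ∧
    (∃ (L : Type) (_ : Field L) (_ : Fintype L), Fintype.card L = q ∧ Cfsg.IsKRootSubgroupSet L ((fun A : Subgroup ↥(Cfsg.SU (n + 2) F q) => A.subgroupOf (⨆ B ∈ {A : Subgroup ↥(Cfsg.SU (n + 2) F q) | ∃ p : Fin (n + 2) → F, p ≠ 0 ∧ Cfsg.hermForm (n + 2) F q p p = 0 ∧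
          A = Subgroup.closure {g : ↥(Cfsg.SU (n + 2) F q) |
            (∀ v : Fin (n + 2) → F, ∃ c : F, ((g : Matrix.SpecialLinearGroup (Fin (n + 2)) F) : Matrix (Fin (n + 2)) (Fin (n + 2)) F) *ᵥ v = v + c • p) ∧
            ∀ v : Fin (n + 2) → F, Cfsg.hermForm (n + 2) F q v p = 0 →
              ((g : Matrix.SpecialLinearGroup (Fin (n + 2)) F) : Matrix (Fin (n + 2)) (Fin (n + 2)) F) *ᵥ v = v}}, B)) ''
      {A : Subgroup ↥(Cfsg.SU (n + 2) F q) | ∃ p : Fin (n + 2) → F, p ≠ 0 ∧ Cfsg.hermForm (n + 2) F q p p = 0 ∧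
          A = Subgroup.closure {g : ↥(Cfsg.SU (n + 2) F q) |
            (∀ v : Fin (n + 2) → F, ∃ c : F, ((g : Matrix.SpecialLinearGroup (Fin (n + 2)) F) : Matrix (Fin (n + 2)) (Fin (n + 2)) F) *ᵥ v = v + c • p) ∧
            ∀ v : Fin (n + 2) → F, Cfsg.hermForm (n + 2) F q v p = 0 →
              ((g : Matrix.SpecialLinearGroup (Fin (n + 2)) F) : Matrix (Fin (n + 2)) (Fin (n + 2)) F) *ᵥ v = v}})) ∧
    Cfsg.IsConnectedFamily (Cfsg.FAdj ((fun A : Subgroup ↥(Cfsg.SU (n + 2) F q) => A.subgroupOf (⨆ B ∈ {A : Subgroup ↥(Cfsg.SU (n + 2) F q) | ∃ p : Fin (n + 2) → F, p ≠ 0 ∧ Cfsg.hermForm (n + 2) F q p p = 0 ∧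
          A = Subgroup.closure {g : ↥(Cfsg.SU (n + 2) F q) |
            (∀ v : Fin (n + 2) → F, ∃ c : F, ((g : Matrix.SpecialLinearGroup (Fin (n + 2)) F) : Matrix (Fin (n + 2)) (Fin (n + 2)) F) *ᵥ v = v + c • p) ∧
            ∀ v : Fin (n + 2) → F, Cfsg.hermForm (n + 2) F q v p = 0 →
              ((g : Matrix.SpecialLinearGroup (Fin (n + 2)) F) : Matrix (Fin (n + 2)) (Fin (n + 2)) F) *ᵥ v = v}}, B)) ''
      {A : Subgroup ↥(Cfsg.SU (n + 2) F q) | ∃ p : Fin (n + 2) → F, p ≠ 0 ∧ Cfsg.hermForm (n + 2) F q p p = 0 ∧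
          A = Subgroup.closure {g : ↥(Cfsg.SU (n + 2) F q) |
            (∀ v : Fin (n + 2) → F, ∃ c : F, ((g : Matrix.SpecialLinearGroup (Fin (n + 2)) F) : Matrix (Fin (n + 2)) (Fin (n + 2)) F) *ᵥ v = v + c • p) ∧
            ∀ v : Fin (n + 2) → F, Cfsg.hermForm (n + 2) F q v p = 0 →
              ((g : Matrix.SpecialLinearGroup (Fin (n + 2)) F) : Matrix (Fin (n + 2)) (Fin (n + 2)) F) *ᵥ v = v}})) ((fun A : Subgroup ↥(Cfsg.SU (n + 2) F q) => A.subgroupOf (⨆ B ∈ {A : Subgroup ↥(Cfsg.SU (n + 2) F q) | ∃ p : Fin (n + 2) → F, p ≠ 0 ∧ Cfsg.hermForm (n + 2) F q p p = 0 ∧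
          A = Subgroup.closure {g : ↥(Cfsg.SU (n + 2) F q) |
            (∀ v : Fin (n + 2) → F, ∃ c : F, ((g : Matrix.SpecialLinearGroup (Fin (n + 2)) F) : Matrix (Fin (n + 2)) (Fin (n + 2)) F) *ᵥ v = v + c • p) ∧
            ∀ v : Fin (n + 2) → F, Cfsg.hermForm (n + 2) F q v p = 0 →
              ((g : Matrix.SpecialLinearGroup (Fin (n + 2)) F) : Matrix (Fin (n + 2)) (Fin (n + 2)) F) *ᵥ v = v}}, B)) ''
      {A : Subgroup ↥(Cfsg.SU (n + 2) F q) | ∃ p : Fin (n + 2) → F, p ≠ 0 ∧ Cfsg.hermForm (n + 2) F q p p = 0 ∧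
          A = Subgroup.closure {g : ↥(Cfsg.SU (n + 2) F q) |
            (∀ v : Fin (n + 2) → F, ∃ c : F, ((g : Matrix.SpecialLinearGroup (Fin (n + 2)) F) : Matrix (Fin (n + 2)) (Fin (n + 2)) F) *ᵥ v = v + c • p) ∧
            ∀ v : Fin (n + 2) → F, Cfsg.hermForm (n + 2) F q v p = 0 →
              ((g : Matrix.SpecialLinearGroup (Fin (n + 2)) F) : Matrix (Fin (n + 2)) (Fin (n + 2)) F) *ᵥ v = v}}) := by
  obtain ⟨τ, hσ, hτ⟩ := H6.exists_conj_aut hF
  have hc : Nat.card (H6.fixF τ) = q := by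
    have := H6.card_fixF_pow τ
    rw [hσ, Nat.card_eq_fintype_card (α := F), hF] at this
    exact Nat.pow_left_injective two_ne_zero this
  let L := Shrink.{0} (H6.fixF τ)
  have : Finite L := Finite.of_equiv _ (equivShrink _)
  let _ : Fintype L := Fintype.ofFinite L
  have hcL : Fintype.card L = Nat.card (H6.fixF τ) := by
    rw [← Nat.card_eq_fintype_card]
    exact Nat.card_congr (equivShrink _).symm
  obtain ⟨e, he⟩ := H6.exists_emb_fixF τ L hcL
  let _ : Algebra L F := e.toAlgebra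
  obtain ⟨l, hl0, hl⟩ := H6.exists_trace_zero hσ
  have hl' : τ l = -l := by linear_combination hl
  rw [set_eq (L := L) hσ hτ he hl0 hl]
  have U := H6.suLike (n := n + 2) hσ hτ
  have hk : ∀ a b : Fin (n + 2) → F, ∃ c : L, algebraMap L F c =
      l * H6.sf (τ : F →+* F) 1 b a * (l * H6.sf (τ : F →+* F) 1 a b) := fun a b =>
    (he _).1 (by
      rw [← H6.hf_def, ← H6.hf_def, map_mul, map_mul, map_mul, H6.hf_conj hσ, H6.hf_conj hσ, hl']
      ring)
  have h := pol_fam U.toIsom U.inj hl0 hk fun a ha c => U.exists_tv ha (by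
    change e c * l + τ (e c * l) = 0
    rw [map_mul, hl', (he _).2 ⟨c, rfl⟩]
    ring)
  have conn := fun s hs t ht => pol_conn (s := s) (t := t) U.toIsom hl0 h hk
    (fun a v => H6.exists_iso_add hσ) hs ht
  obtain ⟨a, ha0, ha⟩ := H6.exists_iso (ι := Fin (n + 2)) hσ (by simp)
  refine ⟨h.lrs.class ⟨_, _, ⟨a, ha0, ha, rfl⟩, rfl⟩ ?_,
    h.deg_loc fun s hs t ht => polFam_two U.toIsom hl0 hk hs ht,
    ⟨L, inferInstance, inferInstance, hcL.trans hc, h.kroot_loc⟩, fun A hA B hB => ?_⟩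
  · rintro _ ⟨s, hs, rfl⟩ _ ⟨t, ht, rfl⟩
    exact conn s hs t ht
  · obtain ⟨s, hs, es⟩ := mem_loc_iff.1 hA
    obtain ⟨t, ht, et⟩ := mem_loc_iff.1 hB
    refine reach_loc_iff.2 ?_
    rw [← es, ← et]
    exact conn s hs t ht

end Cfsg.Agent.S5071
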