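import Cfsg.Statements.S5072
import Cfsg.Agent.H8.LinSg

set_option autoImplicit false
open Matrix
open Cfsg

namespace Cfsg.Agent.S5072

open Cfsg.Agent.H8

open Matrix Cfsg.Agent.H7 QuadraticMap

/-- the natural representation -/
noncomputable def rho (F : Type*) [Field F] (m : ℕ) :
    ↥(Cfsg.isometryGroup F (Cfsg.quadFormPlus m F)) →* Module.End F (Fin m ⊕ Fin m → F) :=
  (Matrix.toLinAlgEquiv' : Matrix (Fin m ⊕ Fin m) (Fin m ⊕ Fin m) F ≃ₐ[F] _).toMonoidHom.comp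
    ((Units.coeHom _).comp (Subgroup.subtype _))

theorem rho_apply {F : Type*} [Field F] {m : ℕ}
    (g : ↥(Cfsg.isometryGroup F (Cfsg.quadFormPlus m F))) (v : Fin m ⊕ Fin m → F) :
    rho F m g v = ((g : Matrix.GeneralLinearGroup (Fin m ⊕ Fin m) F) :
      Matrix (Fin m ⊕ Fin m) (Fin m ⊕ Fin m) F) *ᵥ v := rfl

theorem olike (F : Type*) [Field F] (m : ℕ) : Olike (QP F m) (rho F m) where
  nd := nd_QP m
  inj := fun _ _ e => Subtype.ext (Units.ext (matrix_ext_mulVec fun x => LinearMap.congr_fun e x))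
  isom := fun g x => mem_isometryGroup.1 g.2 x
  surj := fun g => ⟨(isoEquiv (QP F m)).symm g, isoEquiv_symm_mulVec g⟩

theorem set_eq (F : Type*) [Field F] (m : ℕ) :
    {A : Subgroup ↥(Cfsg.isometryGroup F (Cfsg.quadFormPlus m F)) | ∃ p r : Fin m ⊕ Fin m → F,
      LinearIndependent F ![p, r] ∧
          Cfsg.quadFormPlus m F p = 0 ∧ Cfsg.quadFormPlus m F r = 0 ∧
          Cfsg.quadFormPlus m F (p + r) = 0 ∧
          A = Subgroup.closure {σ : ↥(Cfsg.isometryGroup F (Cfsg.quadFormPlus m F)) |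
            ∀ v : Fin m ⊕ Fin m → F,
            Cfsg.quadFormPlus m F (v + p) - Cfsg.quadFormPlus m F v - Cfsg.quadFormPlus m F p = 0 →
            Cfsg.quadFormPlus m F (v + r) - Cfsg.quadFormPlus m F v - Cfsg.quadFormPlus m F r = 0 →
              ((σ : Matrix.GeneralLinearGroup (Fin m ⊕ Fin m) F) :
                Matrix (Fin m ⊕ Fin m) (Fin m ⊕ Fin m) F) *ᵥ v = v}} =
      Lq F (rho F m) '' sgFam (QP F m) := by
  have e : ∀ p r : Fin m ⊕ Fin m → F, LinearIndependent F ![p, r] → QP F m p = 0 → QP F m r = 0 →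
      polar (QP F m) p r = 0 →
      Subgroup.closure {σ : ↥(Cfsg.isometryGroup F (Cfsg.quadFormPlus m F)) |
            ∀ v : Fin m ⊕ Fin m → F,
            Cfsg.quadFormPlus m F (v + p) - Cfsg.quadFormPlus m F v - Cfsg.quadFormPlus m F p = 0 →
            Cfsg.quadFormPlus m F (v + r) - Cfsg.quadFormPlus m F v - Cfsg.quadFormPlus m F r = 0 →
              ((σ : Matrix.GeneralLinearGroup (Fin m ⊕ Fin m) F) :
                Matrix (Fin m ⊕ Fin m) (Fin m ⊕ Fin m) F) *ᵥ v = v} =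
      Lq F (rho F m) (sg (QP F m) p r) := by
    intro p r hi hp hr hpr
    unfold Lq
    congr 1
    ext g
    refine ⟨fun h => (olike F m).eq_of_fix hi hp hr hpr h, ?_⟩
    rintro ⟨c, hc⟩ v h1 h2
    change polar (QP F m) v p = 0 at h1
    change polar (QP F m) v r = 0 at h2
    rw [← rho_apply, hc]
    simp [sg_app, h1, h2]
  ext A
  constructor
  · rintro ⟨p, r, hi, hp, hr, hpr, rfl⟩
    have : polar (QP F m) p r = 0 := by
      change quadFormPlus m F (p + r) - quadFormPlus m F p - quadFormPlus m F r = 0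
      rw [hp, hr, hpr]; simp
    exact ⟨_, ⟨p, r, hi, hp, hr, this, rfl⟩, (e p r hi hp hr this).symm⟩
  · rintro ⟨_, ⟨p, r, hi, hp, hr, hpr, rfl⟩, rfl⟩
    refine ⟨p, r, hi, hp, hr, ?_, (e p r hi hp hr hpr).symm⟩
    change QP F m (p + r) = 0
    rw [Q_add, hp, hr, hpr]; simp

/-- Let F be a field, m a natural number and V = F^{2(m+3)} with the hyperbolic quadratic form q(x, y) = Σ xᵢ yᵢ (non-degenerate, Witt index m + 3 ≥ 3). For a singular line ℓ (a 2-dimensional subspace on which q vanishes) let T(ℓ) be the group of isometries of q fixing every vector of ℓ^⊥ (the Siegel transvection group of ℓ), let Σ be the set of these groups and G₀ the subgroup they generate. Then, viewed inside G₀, the members of Σ form a set of abstract F-root subgroups of G₀ (any two commute, or are the unipotent subgroups of a rank one group that is an image of SL₂(F) with central kernel, or satisfy the commutator case), and their graph of rank one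 pairs is connected. -/
theorem result (F : Type*) [Field F] (m : ℕ) :
    Cfsg.IsKRootSubgroupSet F ((fun A : Subgroup ↥(Cfsg.isometryGroup F (Cfsg.quadFormPlus (m + 3) F)) => A.subgroupOf (⨆ B ∈ {A : Subgroup ↥(Cfsg.isometryGroup F (Cfsg.quadFormPlus (m + 3) F)) | ∃ p r : Fin (m + 3) ⊕ Fin (m + 3) → F, LinearIndependent F ![p, r] ∧
          Cfsg.quadFormPlus (m + 3) F p = 0 ∧ Cfsg.quadFormPlus (m + 3) F r = 0 ∧
          Cfsg.quadFormPlus (m + 3) F (p + r) = 0 ∧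
          A = Subgroup.closure {σ : ↥(Cfsg.isometryGroup F (Cfsg.quadFormPlus (m + 3) F)) | ∀ v : Fin (m + 3) ⊕ Fin (m + 3) → F,
            Cfsg.quadFormPlus (m + 3) F (v + p) - Cfsg.quadFormPlus (m + 3) F v - Cfsg.quadFormPlus (m + 3) F p = 0 →
            Cfsg.quadFormPlus (m + 3) F (v + r) - Cfsg.quadFormPlus (m + 3) F v - Cfsg.quadFormPlus (m + 3) F r = 0 →
              ((σ : Matrix.GeneralLinearGroup (Fin (m + 3) ⊕ Fin (m + 3)) F) : Matrix (Fin (m + 3) ⊕ Fin (m + 3)) (Fin (m + 3) ⊕ Fin (m + 3)) F) *ᵥ v = v}}, B)) ''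
      {A : Subgroup ↥(Cfsg.isometryGroup F (Cfsg.quadFormPlus (m + 3) F)) | ∃ p r : Fin (m + 3) ⊕ Fin (m + 3) → F, LinearIndependent F ![p, r] ∧
          Cfsg.quadFormPlus (m + 3) F p = 0 ∧ Cfsg.quadFormPlus (m + 3) F r = 0 ∧
          Cfsg.quadFormPlus (m + 3) F (p + r) = 0 ∧
          A = Subgroup.closure {σ : ↥(Cfsg.isometryGroup F (Cfsg.quadFormPlus (m + 3) F)) | ∀ v : Fin (m + 3) ⊕ Fin (m + 3) → F,
            Cfsg.quadFormPlus (m + 3) F (v + p) - Cfsg.quadFormPlus (m + 3) F v - Cfsg.quadFormPlus (m + 3) F p = 0 →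
            Cfsg.quadFormPlus (m + 3) F (v + r) - Cfsg.quadFormPlus (m + 3) F v - Cfsg.quadFormPlus (m + 3) F r = 0 →
              ((σ : Matrix.GeneralLinearGroup (Fin (m + 3) ⊕ Fin (m + 3)) F) : Matrix (Fin (m + 3) ⊕ Fin (m + 3)) (Fin (m + 3) ⊕ Fin (m + 3)) F) *ᵥ v = v}}) ∧
    Cfsg.IsConnectedFamily (Cfsg.FAdj {A : Subgroup ↥(Cfsg.isometryGroup F (Cfsg.quadFormPlus (m + 3) F)) | ∃ p r : Fin (m + 3) ⊕ Fin (m + 3) → F, LinearIndependent F ![p, r] ∧
          Cfsg.quadFormPlus (m + 3) F p = 0 ∧ Cfsg.quadFormPlus (m + 3) F r = 0 ∧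
          Cfsg.quadFormPlus (m + 3) F (p + r) = 0 ∧
          A = Subgroup.closure {σ : ↥(Cfsg.isometryGroup F (Cfsg.quadFormPlus (m + 3) F)) | ∀ v : Fin (m + 3) ⊕ Fin (m + 3) → F,
            Cfsg.quadFormPlus (m + 3) F (v + p) - Cfsg.quadFormPlus (m + 3) F v - Cfsg.quadFormPlus (m + 3) F p = 0 →
            Cfsg.quadFormPlus (m + 3) F (v + r) - Cfsg.quadFormPlus (m + 3) F v - Cfsg.quadFormPlus (m + 3) F r = 0 →
              ((σ : Matrix.GeneralLinearGroup (Fin (m + 3) ⊕ Fin (m + 3)) F) : Matrix (Fin (m + 3) ⊕ Fin (m + 3)) (Fin (m + 3) ⊕ Fin (m + 3)) F) *ᵥ v = v}})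
      {A : Subgroup ↥(Cfsg.isometryGroup F (Cfsg.quadFormPlus (m + 3) F)) | ∃ p r : Fin (m + 3) ⊕ Fin (m + 3) → F, LinearIndependent F ![p, r] ∧
          Cfsg.quadFormPlus (m + 3) F p = 0 ∧ Cfsg.quadFormPlus (m + 3) F r = 0 ∧
          Cfsg.quadFormPlus (m + 3) F (p + r) = 0 ∧
          A = Subgroup.closure {σ : ↥(Cfsg.isometryGroup F (Cfsg.quadFormPlus (m + 3) F)) | ∀ v : Fin (m + 3) ⊕ Fin (m + 3) → F,
            Cfsg.quadFormPlus (m + 3) F (v + p) - Cfsg.quadFormPlus (m + 3) F v - Cfsg.quadFormPlus (m + 3) F p = 0 →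
            Cfsg.quadFormPlus (m + 3) F (v + r) - Cfsg.quadFormPlus (m + 3) F v - Cfsg.quadFormPlus (m + 3) F r = 0 →
              ((σ : Matrix.GeneralLinearGroup (Fin (m + 3) ⊕ Fin (m + 3)) F) : Matrix (Fin (m + 3) ⊕ Fin (m + 3)) (Fin (m + 3) ⊕ Fin (m + 3)) F) *ᵥ v = v}} := by
  rw [set_eq]
  refine ⟨(olike F _).fam.kroot_loc, ?_⟩
  rintro _ ⟨s, hs, rfl⟩ _ ⟨t, ht, rfl⟩
  refine (olike F _).conn (fun i => Pi.single i 1) Sum.swap Sum.swap_swap (by simp; omega)
    ?_ ?_ (fun s h => ?_) hs ht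
  · rintro (i | i)
    exacts [(hypSys_QP _).Qe i, (hypSys_QP _).Qf i]
  · rintro i (j | j)
    · rw [polar_QP_inl, Pi.single_apply]; exact if_congr eq_comm rfl rfl
    · rw [polar_QP_inr, Pi.single_apply]; exact if_congr eq_comm rfl rfl
  · exact (Pi.basisFun F _).ext fun i => by simpa using h i

end Cfsg.Agent.S5072
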