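import Cfsg.Statements.S5073
import Cfsg.Agent.H8.QP5

set_option autoImplicit false
universe u
open Cfsg

namespace Cfsg.Agent.S5073

open Cfsg.Agent.H8

/-- Let k be a field of characteristic not 2 with k not of order 3, M a finite-dimensional k-vector space and G ≤ GL(M) such that (G, M) is a quadratic pair (M irreducible for G, and G generated by its quadratically acting elements σ whose scalar family 1 + c(σ − 1), c ∈ k, lies in G). Write 𝒬_d for the quadratic elements of G of minimal commutator rank, E(σ) for the subgroup generated by the members of 𝒬_d with the same fixed space and commutator space as σ, and Σ for the set of these subgroups. Let E, F ∈ Σ. If some non-identity element of E commutes with some non-identity element of F, or some non-identity element of E normalizes F, then E and F commute elementwise. -/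
theorem result {k : Type u} [Field k] (hk2 : ringChar k ≠ 2) (hk3 : Nat.card k ≠ 3)
    {M : Type u} [AddCommGroup M] [Module k M] [FiniteDimensional k M]
    {G : Subgroup (LinearMap.GeneralLinearGroup k M)} (hG : Cfsg.IsQuadraticPair G)
    {E F : Subgroup (LinearMap.GeneralLinearGroup k M)} (hE : E ∈ Cfsg.quadraticRootSubgroups G) (hF : F ∈ Cfsg.quadraticRootSubgroups G)
    (h : (∃ e ∈ E, e ≠ 1 ∧ ∃ f ∈ F, f ≠ 1 ∧ e * f = f * e) ∨ E ⊓ Subgroup.normalizer (F : Set (LinearMap.GeneralLinearGroup k M)) ≠ ⊥) :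
    ⁅E, F⁆ = ⊥ := by
  have h2 := QP.two_ne_zero_of hk2
  rw [QP.roots_eq] at hE hF
  obtain ⟨s, hs, rfl⟩ := hE
  obtain ⟨t, ht, rfl⟩ := hF
  rw [← cm_iff]
  rcases h with ⟨e, he, he1, f, hf, hf1, h⟩ | h
  · obtain ⟨m1, m2, m3⟩ := hs.mem_Eg he he1
    obtain ⟨n1, n2, n3⟩ := ht.mem_Eg hf hf1
    rw [QP.Eg_congr m3 m2, QP.Eg_congr n3 n2]
    exact m1.cm_of_commute h2 hk3 n1 (QP.commute_iff.1 h)
  · obtain ⟨e, ⟨he, hn⟩, he1⟩ := exists_ne_one_of_ne_bot h
    replace hn := smul_eq_iff_mem_normalizer.2 hn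
    by_cases h0 : s * t * s = 0
    swap
    · exact absurd (RO.eq_one_of_smul_eq (hs.special h2 hk3 ht h0).1 he hn) he1
    obtain ⟨m1, m2, m3⟩ := hs.mem_Eg he he1
    rw [QP.Eg_congr m3 m2]
    refine m1.cm_of_commute h2 hk3 ht ?_
    by_contra hne
    have h1 := m2.mul3 m2 h0
    have hγ := (m1.cc h2 hk3 ht h1 hne).1
    obtain ⟨f, hf, -, ef⟩ := ht.exists_mem
    have k1 := ((QP.mem_Eg ht.1.1).1 (hn ▸ conj_mem_smul hf e)).2
    rw [QP.conj_sub_one, ef, QP.inv_val m1.1.1] at k1
    have k2 := k1.sub (QP.Le.refl t)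
    rw [show (e : Module.End k M) * t * (1 - ((e : Module.End k M) - 1)) - t =
      ((e : Module.End k M) - 1) * t - t * ((e : Module.End k M) - 1) by nlc -h1] at k2
    have k3 := (ht.of_le hγ.1 hne k2).2
    have ee := m1.1.1
    apply hne
    rw [k3.1 _ (by nlc ee * t - h1), k3.2 _ (by nlc h1 - t * ee), sub_zero]

end Cfsg.Agent.S5073
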