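import Cfsg.Statements.S5074
import Cfsg.Agent.H8.QP7

set_option autoImplicit false
universe u
open Cfsg

namespace Cfsg.Agent.S5074

open Cfsg.Agent.H8

/-- Let k be a field of characteristic not 2 with k not of order 3, M a finite-dimensional k-vector space and G ≤ GL(M) such that (G, M) is a quadratic pair (M irreducible for G, and G generated by its quadratically acting elements σ whose scalar family 1 + c(σ − 1), c ∈ k, lies in G). Write 𝒬_d for the quadratic elements of G of minimal commutator rank, E(σ) for the subgroup generated by the members of 𝒬_d with the same fixed space and commutator space as σ, and Σ for the set of these subgroups. Then G is the product of the subgroup G₀ generated by Σ with the centralizer of G₀ in G. -/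
theorem result {k : Type u} [Field k] (hk2 : ringChar k ≠ 2) (hk3 : Nat.card k ≠ 3)
    {M : Type u} [AddCommGroup M] [Module k M] [FiniteDimensional k M]
    {G : Subgroup (LinearMap.GeneralLinearGroup k M)} (hG : Cfsg.IsQuadraticPair G) :
    (⨆ A ∈ Cfsg.quadraticRootSubgroups G, A) ⊔
      (G ⊓ Subgroup.centralizer ((⨆ A ∈ Cfsg.quadraticRootSubgroups G, A : Subgroup (LinearMap.GeneralLinearGroup k M)) : Set (LinearMap.GeneralLinearGroup k M))) = G := by
  have h2 := QP.two_ne_zero_of hk2
  have ho := QP.opp_of_pair h2 hk3 hG
  rw [QP.roots_eq]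
  refine le_antisymm (sup_le (iSup₂_le (fun A hA => QP.Sig.le hA)) inf_le_left)
    ((QP.le_sup_Q0 h2 hk3 (hG.2.ge.trans (Subgroup.closure_mono
      (fun g hg => (QP.mem_quad_iff.1 hg).1)))).trans (sup_le_sup_left (le_inf ?_ ?_) _))
  · exact (Subgroup.closure_le _).2 (fun g hg => hg.1.mem)
  · exact cm_iff_le_centralizer.1 (QP.cm_Q0 h2 hk3 ho)

end Cfsg.Agent.S5074
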